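import Mathlib
import Cfsg.Agent.Lib.Lead.Frob5

namespace Cfsg.Agent.Lib.Lead

open scoped Pointwise

/-- for `h` acting fixed-point-freely on a finite normal subgroup `K`, every element of `K`
is a commutator `a h a⁻¹ h⁻¹` with `a ∈ K` -/
theorem fpf_comm_surj {G : Type*} [Group G] [Finite G] (K : Subgroup G) [hKn : K.Normal] (h : G)
    (hfpf : ∀ k ∈ K, h * k = k * h → k = 1) (c : G) (hc : c ∈ K) :
    ∃ a ∈ K, a * h * a⁻¹ * h⁻¹ = c := by
  let φ : K → K := fun a => ⟨a * h * (a : G)⁻¹ * h⁻¹, by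
    have h2 : h * (a : G)⁻¹ * h⁻¹ ∈ K := hKn.conj_mem _ (inv_mem a.2) h
    have h3 := mul_mem a.2 h2
    have e : (a : G) * (h * (a : G)⁻¹ * h⁻¹) = a * h * (a : G)⁻¹ * h⁻¹ := by group
    rwa [e] at h3⟩
  have hinj : Function.Injective φ := by
    intro a b hab
    have h2 : (a : G) * h * (a : G)⁻¹ * h⁻¹ = b * h * (b : G)⁻¹ * h⁻¹ := congrArg Subtype.val hab
    have h3 : (a : G) * h * (a : G)⁻¹ = b * h * (b : G)⁻¹ := mul_right_cancel h2
    have h4 : h * ((b : G)⁻¹ * a) = ((b : G)⁻¹ * a) * h := by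
      calc h * ((b : G)⁻¹ * a) = (b : G)⁻¹ * (b * h * (b : G)⁻¹) * a := by group
        _ = (b : G)⁻¹ * (a * h * (a : G)⁻¹) * a := by rw [h3]
        _ = ((b : G)⁻¹ * a) * h := by group
    have h5 := hfpf _ (mul_mem (inv_mem b.2) a.2) h4
    apply Subtype.ext
    exact (inv_mul_eq_one.1 h5).symm
  obtain ⟨a, ha⟩ := (Finite.injective_iff_surjective.1 hinj) ⟨c, hc⟩
  exact ⟨a, a.2, congrArg Subtype.val ha⟩

/-- Of two Frobenius complements, the smaller is conjugate into the larger. -/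
theorem frob_compl_conj_le {G : Type*} [Group G] [Finite G] (H H₀ : Subgroup G)
    (hH : Cfsg.IsFrobeniusComplement H) (hH₀ : Cfsg.IsFrobeniusComplement H₀)
    (hle : Nat.card H₀ ≤ Nat.card H) : ∃ g : G, MulAut.conj g • H₀ ≤ H := by
  classical
  obtain ⟨K, hK, hKn, hKc⟩ := frobenius_kernel_subgroup H hH
  obtain ⟨K₀, hK₀, hK₀n, hK₀c⟩ := frobenius_kernel_subgroup H₀ hH₀
  have hcK : Nat.card K * Nat.card H = Nat.card G := hKc.card_mul_card
  have hcK₀ : Nat.card K₀ * Nat.card H₀ = Nat.card G := hK₀c.card_mul_card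
  have hKle : Nat.card K ≤ Nat.card K₀ := by
    have h1 : Nat.card K * Nat.card H ≤ Nat.card K₀ * Nat.card H := by
      rw [hcK, ← hcK₀]; exact Nat.mul_le_mul_left _ hle
    exact Nat.le_of_mul_le_mul_right h1 Nat.card_pos
  have hfpf : ∀ x ∈ H, x ≠ 1 → ∀ c ∈ K, x * c = c * x → c = 1 := by
    intro x hx hx1 c hc hxc
    have h1 : c⁻¹ * x * c ∈ H := by rw [mul_assoc, hxc, inv_mul_cancel_left]; exact hx
    have h2 : c ∈ H := frob_TI H hH c x hx hx1 h1
    have h3 : c ∈ K ⊓ H := ⟨hc, h2⟩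
    rw [hKc.disjoint.eq_bot] at h3
    exact h3
  have hKK₀ : K ≤ K₀ := by
    by_cases h : K₀ ≤ K
    · exact (Subgroup.eq_of_le_of_card_ge h hKle).ge
    · rw [SetLike.not_le_iff_exists] at h
      obtain ⟨x, hxK₀, hxK⟩ := h
      have hx1 : x ≠ 1 := fun e => hxK (e ▸ K.one_mem)
      have hxk : x ∉ Cfsg.frobeniusKernel H := by rw [← hK]; exact hxK
      rw [frob_mem_kernel_iff] at hxk
      push Not at hxk
      obtain ⟨-, g, hg⟩ := hxk
      have hx'K₀ : g⁻¹ * x * g ∈ K₀ := by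
        have := hK₀n.conj_mem x hxK₀ g⁻¹
        rwa [inv_inv] at this
      have hx'1 : g⁻¹ * x * g ≠ 1 := by
        intro e; apply hx1
        calc x = g * (g⁻¹ * x * g) * g⁻¹ := by group
          _ = 1 := by rw [e]; group
      intro c hc
      obtain ⟨a, ha, e⟩ := fpf_comm_surj K (g⁻¹ * x * g) (hfpf _ hg hx'1) c hc
      rw [← e]
      exact K₀.mul_mem (hK₀n.conj_mem _ hx'K₀ a) (K₀.inv_mem hx'K₀)
  have hex : ∀ x ∈ H₀, x ≠ 1 → ∃ g : G, g⁻¹ * x * g ∈ H := by
    intro x hx hx1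
    have hxK : x ∉ K := by
      intro hxK
      have h3 : x ∈ K₀ ⊓ H₀ := ⟨hKK₀ hxK, hx⟩
      rw [hK₀c.disjoint.eq_bot] at h3
      exact hx1 h3
    have hxk : x ∉ Cfsg.frobeniusKernel H := by rw [← hK]; exact hxK
    rw [frob_mem_kernel_iff] at hxk
    push Not at hxk
    exact hxk.2
  -- orbit counting for `H₀` acting on `G ⧸ H`
  haveI : Fintype H₀ := Fintype.ofFinite _
  haveI : Fintype (G ⧸ H) := Fintype.ofFinite _
  haveI : Fintype (Quotient (MulAction.orbitRel H₀ (G ⧸ H))) := Fintype.ofFinite _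
  haveI : ∀ a : H₀, Fintype (MulAction.fixedBy (G ⧸ H) a) := fun a => Fintype.ofFinite _
  have hB := MulAction.sum_card_fixedBy_eq_card_orbits_mul_card_group H₀ (G ⧸ H)
  have hfix1 : ∀ a : H₀, a ≠ 1 → Fintype.card (MulAction.fixedBy (G ⧸ H) a) = 1 := by
    intro a ha
    have ha1 : (a : G) ≠ 1 := fun e => ha (Subtype.ext e)
    obtain ⟨g, hg⟩ := hex a a.2 ha1
    rw [Fintype.card_eq_one_iff]
    refine ⟨⟨QuotientGroup.mk g, ?_⟩, ?_⟩
    · show (a : G) • (QuotientGroup.mk g : G ⧸ H) = QuotientGroup.mk g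
      exact (frob_fix_iff H (a : G) g).2 hg
    · rintro ⟨c, hc⟩
      apply Subtype.ext
      obtain ⟨g', rfl⟩ := QuotientGroup.mk_surjective c
      have hc' : (a : G) • (QuotientGroup.mk g' : G ⧸ H) = QuotientGroup.mk g' := hc
      have hg' : g'⁻¹ * (a : G) * g' ∈ H := (frob_fix_iff H (a : G) g').1 hc'
      show (QuotientGroup.mk g' : G ⧸ H) = QuotientGroup.mk g
      rw [QuotientGroup.eq]
      have hy1 : g⁻¹ * (a : G) * g ≠ 1 := by
        intro e; apply ha1
        calc (a : G) = g * (g⁻¹ * a * g) * g⁻¹ := by group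
          _ = 1 := by rw [e]; group
      have h2 : (g⁻¹ * g')⁻¹ * (g⁻¹ * (a : G) * g) * (g⁻¹ * g') ∈ H := by
        have e : (g⁻¹ * g')⁻¹ * (g⁻¹ * (a : G) * g) * (g⁻¹ * g') = g'⁻¹ * (a : G) * g' := by group
        rw [e]; exact hg'
      have h3 := frob_TI H hH (g⁻¹ * g') _ hg hy1 h2
      have h4 := H.inv_mem h3
      rwa [mul_inv_rev, inv_inv] at h4
  have hsum : ∑ a : H₀, Fintype.card (MulAction.fixedBy (G ⧸ H) a) =
      Fintype.card (G ⧸ H) + (Fintype.card H₀ - 1) := by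
    rw [← Finset.add_sum_erase _ _ (Finset.mem_univ (1 : H₀))]
    congr 1
    · exact Fintype.card_congr (Equiv.subtypeUnivEquiv (fun x => one_smul _ x))
    · rw [Finset.sum_congr rfl (fun a ha => hfix1 a (Finset.ne_of_mem_erase ha)), Finset.sum_const,
        Finset.card_erase_of_mem (Finset.mem_univ _), Finset.card_univ, smul_eq_mul, mul_one]
  have hcls : Fintype.card (G ⧸ H) = ∑ ω : Quotient (MulAction.orbitRel H₀ (G ⧸ H)),
      (MulAction.stabilizer H₀ ω.out).index := by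
    rw [← Nat.card_eq_fintype_card,
      Nat.card_congr (MulAction.selfEquivSigmaOrbitsQuotientStabilizer H₀ (G ⧸ H)), Nat.card_sigma]
    rfl
  have hn : Nat.card H₀ = Fintype.card H₀ := Nat.card_eq_fintype_card
  have hn2 : 2 ≤ Fintype.card H₀ := by
    rw [← hn]
    exact (Subgroup.one_lt_card_iff_ne_bot H₀).2 hH₀.1
  have hidx_le : ∀ ω : Quotient (MulAction.orbitRel H₀ (G ⧸ H)),
      (MulAction.stabilizer H₀ ω.out).index ≤ Fintype.card H₀ := by
    intro ω
    rw [← hn]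
    exact Nat.le_of_dvd Nat.card_pos (Subgroup.index_dvd_card _)
  have htsum : ∑ ω : Quotient (MulAction.orbitRel H₀ (G ⧸ H)),
      (Fintype.card H₀ - (MulAction.stabilizer H₀ ω.out).index) = Fintype.card H₀ - 1 := by
    rw [Finset.sum_tsub_distrib _ (fun ω _ => hidx_le ω), ← hcls, Finset.sum_const, Finset.card_univ,
      smul_eq_mul, ← hB, hsum]
    omega
  by_contra hcon
  push Not at hcon
  have hidx2 : ∀ ω : Quotient (MulAction.orbitRel H₀ (G ⧸ H)),
      2 ≤ (MulAction.stabilizer H₀ ω.out).index := by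
    intro ω
    have h1 : (MulAction.stabilizer H₀ ω.out).index ≠ 1 := by
      intro h1
      rw [Subgroup.index_eq_one] at h1
      obtain ⟨g, hg⟩ := QuotientGroup.mk_surjective ω.out
      apply hcon g⁻¹
      intro x hx
      rw [frob_mem_conj_smul, inv_inv] at hx
      have h2 : (⟨_, hx⟩ : H₀) ∈ MulAction.stabilizer H₀ ω.out := by rw [h1]; exact Subgroup.mem_top _
      rw [MulAction.mem_stabilizer_iff, ← hg] at h2
      have h3 : (g * x * g⁻¹) • (QuotientGroup.mk g : G ⧸ H) = QuotientGroup.mk g := h2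
      have h4 := (frob_fix_iff H _ g).1 h3
      have e : g⁻¹ * (g * x * g⁻¹) * g = x := by group
      rwa [e] at h4
    have h0 : (MulAction.stabilizer H₀ ω.out).index ≠ 0 := Subgroup.index_ne_zero_of_finite
    omega
  have hbig : ∀ ω : Quotient (MulAction.orbitRel H₀ (G ⧸ H)),
      Fintype.card H₀ - (MulAction.stabilizer H₀ ω.out).index ≠ 0 →
      Fintype.card H₀ ≤ 2 * (Fintype.card H₀ - (MulAction.stabilizer H₀ ω.out).index) := by
    intro ω hω
    obtain ⟨s, hs⟩ := Subgroup.index_dvd_card (MulAction.stabilizer H₀ ω.out)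
    rw [hn] at hs
    have h0 : (MulAction.stabilizer H₀ ω.out).index ≠ 0 := Subgroup.index_ne_zero_of_finite
    have hs2 : 2 ≤ s := by
      by_contra h
      push Not at h
      interval_cases s
      · omega
      · omega
    have : 2 * (MulAction.stabilizer H₀ ω.out).index ≤ (MulAction.stabilizer H₀ ω.out).index * s := by
      rw [mul_comm]; exact Nat.mul_le_mul_left _ hs2
    omega
  have hpos : ∑ ω : Quotient (MulAction.orbitRel H₀ (G ⧸ H)),
      (Fintype.card H₀ - (MulAction.stabilizer H₀ ω.out).index) ≠ 0 := by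
    rw [htsum]; omega
  obtain ⟨ω₁, -, hω₁⟩ := Finset.exists_ne_zero_of_sum_ne_zero hpos
  have h1 := hbig ω₁ hω₁
  have h1' := hidx2 ω₁
  rw [← Finset.add_sum_erase _ _ (Finset.mem_univ ω₁)] at htsum
  have hpos2 : ∑ ω ∈ (Finset.univ : Finset (Quotient (MulAction.orbitRel H₀ (G ⧸ H)))).erase ω₁,
      (Fintype.card H₀ - (MulAction.stabilizer H₀ ω.out).index) ≠ 0 := by
    omega
  obtain ⟨ω₂, hω₂m, hω₂⟩ := Finset.exists_ne_zero_of_sum_ne_zero hpos2
  have h2 := hbig ω₂ hω₂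
  have h3 := Finset.single_le_sum (f := fun ω : Quotient (MulAction.orbitRel H₀ (G ⧸ H)) =>
    Fintype.card H₀ - (MulAction.stabilizer H₀ ω.out).index) (fun i _ => Nat.zero_le _) hω₂m
  omega

end Cfsg.Agent.Lib.Lead
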