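import Mathlib
import Cfsg.Agent.Lib.Lead.FrobComplSylow
import Cfsg.Agent.Lib.Lead.FrobConj
import Cfsg.Agent.Lib.Lead.CoprimeSylow
import Cfsg.Agent.Lib.Lead.BaerSuzuki
import Cfsg.Agent.Lib.Helper8.GL1
import Cfsg.Agent.S0041

namespace Cfsg.Agent.Lib.Lead

universe u

/-- an involution of a Frobenius complement is central in it -/
theorem frob_compl_invol_central {G : Type*} [Group G] [Finite G] (K H : Subgroup G)
    [hKn : K.Normal] (hK : K ≠ ⊥)
    (hfpf : ∀ h ∈ H, h ≠ 1 → K ⊓ Subgroup.centralizer {h} = ⊥) (t : G) (ht : t ∈ H)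
    (ht1 : t ≠ 1) (ht2 : t * t = 1) : ∀ h ∈ H, h * t = t * h := by
  have hfpf' : ∀ s ∈ H, s ≠ 1 → ∀ k ∈ K, s * k = k * s → k = 1 := by
    intro s hs hs1 k hk hsk
    have h1 : k ∈ K ⊓ Subgroup.centralizer {s} := by
      refine ⟨hk, ?_⟩
      apply Subgroup.mem_centralizer_iff.2
      intro x hx
      rw [Set.mem_singleton_iff] at hx
      rw [hx]; exact hsk
    rw [hfpf s hs hs1] at h1
    exact h1
  have hinv : ∀ s ∈ H, s ≠ 1 → s * s = 1 → ∀ c ∈ K, s * c * s⁻¹ = c⁻¹ := by
    intro s hs hs1 hs2 c hc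
    obtain ⟨a, ha, e⟩ := fpf_comm_surj K s (hfpf' s hs hs1) c hc
    have hsi : s⁻¹ = s := inv_eq_of_mul_eq_one_right hs2
    rw [← e, hsi, mul_inv_rev, mul_inv_rev, mul_inv_rev, inv_inv, hsi]
    simp only [mul_assoc]
    rw [hs2, mul_one]
  intro h hh
  have hsH : h * t * h⁻¹ ∈ H := H.mul_mem (H.mul_mem hh ht) (H.inv_mem hh)
  have hs1 : h * t * h⁻¹ ≠ 1 := by
    intro e; apply ht1
    calc t = h⁻¹ * (h * t * h⁻¹) * h := by group
      _ = 1 := by rw [e]; group
  have hs2 : h * t * h⁻¹ * (h * t * h⁻¹) = 1 := by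
    calc h * t * h⁻¹ * (h * t * h⁻¹) = h * (t * t) * h⁻¹ := by group
      _ = 1 := by rw [ht2]; group
  have hst : h * t * h⁻¹ * t = 1 := by
    by_contra hne
    apply hK
    rw [eq_bot_iff]
    intro c hc
    have e1 := hinv t ht ht1 ht2 c hc
    have e2 := hinv (h * t * h⁻¹) hsH hs1 hs2 c⁻¹ (K.inv_mem hc)
    rw [inv_inv] at e2
    have h3 := hfpf' (h * t * h⁻¹ * t) (H.mul_mem hsH ht) hne c hc (by
      calc h * t * h⁻¹ * t * c = (h * t * h⁻¹) * (t * c * t⁻¹) * t := by group
        _ = (h * t * h⁻¹) * c⁻¹ * t := by rw [e1]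
        _ = ((h * t * h⁻¹) * c⁻¹ * (h * t * h⁻¹)⁻¹) * ((h * t * h⁻¹) * t) := by group
        _ = c * (h * t * h⁻¹ * t) := by rw [e2])
    exact h3
  have h4 : h * t * h⁻¹ = t := by
    have h1 : h * t * h⁻¹ = t⁻¹ := eq_inv_of_mul_eq_one_left hst
    rw [h1]; exact inv_eq_of_mul_eq_one_right ht2
  exact mul_inv_eq_iff_eq_mul.1 h4

/-- the normaliser of a subgroup normalises (the image of) its centre -/
theorem normalizer_le_normalizer_center_map {G : Type*} [Group G] (R : Subgroup G) :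
    Subgroup.normalizer (R : Set G) ≤
      Subgroup.normalizer (((Subgroup.center R).map R.subtype : Subgroup G) : Set G) := by
  have key : ∀ w ∈ Subgroup.normalizer (R : Set G), ∀ z ∈ (Subgroup.center R).map R.subtype,
      w * z * w⁻¹ ∈ (Subgroup.center R).map R.subtype := by
    rintro w hw _ ⟨z, hz, rfl⟩
    have hzR : w * (z : G) * w⁻¹ ∈ R := (Subgroup.mem_normalizer_iff.1 hw _).1 z.2
    refine ⟨⟨_, hzR⟩, ?_, rfl⟩
    rw [SetLike.mem_coe, Subgroup.mem_center_iff]
    intro y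
    apply Subtype.ext
    show (y : G) * (w * z * w⁻¹) = w * z * w⁻¹ * y
    have hy : w⁻¹ * (y : G) * w ∈ R := by
      have h1 := (Subgroup.mem_normalizer_iff.1 (Subgroup.inv_mem _ hw) _).1 y.2
      rwa [inv_inv] at h1
    have hcomm := Subgroup.mem_center_iff.1 hz ⟨_, hy⟩
    have hcomm' : w⁻¹ * (y : G) * w * z = z * (w⁻¹ * y * w) := congrArg Subtype.val hcomm
    calc (y : G) * (w * z * w⁻¹) = w * (w⁻¹ * y * w * z) * w⁻¹ := by group
      _ = w * (z * (w⁻¹ * y * w)) * w⁻¹ := by rw [hcomm']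
      _ = w * z * w⁻¹ * y := by group
  intro w hw
  rw [Subgroup.mem_normalizer_iff]
  intro h
  constructor
  · exact key w hw h
  · intro hh
    have h1 := key w⁻¹ (Subgroup.inv_mem _ hw) _ hh
    rw [inv_inv] at h1
    have e : w⁻¹ * (w * h * w⁻¹) * w = h := by group
    rwa [e] at h1

/-- in a Frobenius complement, an element of prime order normalising a subgroup of prime order
centralises it -/
theorem frob_compl_pq_comm {G : Type u} [Group G] [Finite G] (K H : Subgroup G) [hKn : K.Normal]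
    (hK : K ≠ ⊥) (hfpf : ∀ h ∈ H, h ≠ 1 → K ⊓ Subgroup.centralizer {h} = ⊥)
    (hsolv : Group.IsSolvable H) (c a : G) (hc : c ∈ H) (ha : a ∈ H) {p q : ℕ} (hp : p.Prime)
    (hq : q.Prime) (hco : orderOf c = p) (hao : orderOf a = q)
    (hn : a * c * a⁻¹ ∈ Subgroup.zpowers c) : a * c = c * a := by
  classical
  have hc1 : c ≠ 1 := by
    rintro rfl; rw [orderOf_one] at hco; exact hp.one_lt.ne hco
  have ha1 : a ≠ 1 := by
    rintro rfl; rw [orderOf_one] at hao; exact hq.one_lt.ne hao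
  by_cases hdisj : Subgroup.zpowers c ⊓ Subgroup.zpowers a = ⊥
  · have haN : Subgroup.zpowers a ≤ Subgroup.normalizer (Subgroup.zpowers c : Set G) := by
      rw [Subgroup.zpowers_le]
      apply mem_normalizer_of_conj_le
      rintro _ ⟨i, rfl⟩
      have e : a * c ^ i * a⁻¹ = (a * c * a⁻¹) ^ i := by
        rw [conj_zpow]
      show a * c ^ i * a⁻¹ ∈ Subgroup.zpowers c
      rw [e]
      exact Subgroup.zpow_mem _ hn i
    have hWH : Subgroup.zpowers c ⊔ Subgroup.zpowers a ≤ H :=
      sup_le (Subgroup.zpowers_le.2 hc) (Subgroup.zpowers_le.2 ha)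
    have hWcard : Nat.card ↥(Subgroup.zpowers c ⊔ Subgroup.zpowers a) = p * q := by
      rw [card_sup_of_le_normalizer haN hdisj, Nat.card_zpowers, Nat.card_zpowers, hco, hao]
    haveI : Fact p.Prime := ⟨hp⟩
    haveI : Fact q.Prime := ⟨hq⟩
    have hpK : ¬ p ∣ Nat.card K := by
      refine not_dvd_card_of_fpf K (Subgroup.zpowers c) (IsPGroup.of_card (n := 1) ?_) ?_
        (fun b hb hb1 => hfpf b (Subgroup.zpowers_le.2 hc hb) hb1)
      · rw [Nat.card_zpowers, hco, pow_one]
      · intro h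
        rw [Subgroup.zpowers_eq_bot] at h
        exact hc1 h
    have hqK : ¬ q ∣ Nat.card K := by
      refine not_dvd_card_of_fpf K (Subgroup.zpowers a) (IsPGroup.of_card (n := 1) ?_) ?_
        (fun b hb hb1 => hfpf b (Subgroup.zpowers_le.2 ha hb) hb1)
      · rw [Nat.card_zpowers, hao, pow_one]
      · intro h
        rw [Subgroup.zpowers_eq_bot] at h
        exact ha1 h
    have hcop : (Nat.card ↥(Subgroup.zpowers c ⊔ Subgroup.zpowers a)).Coprime (Nat.card K) := by
      rw [hWcard]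
      exact Nat.Coprime.mul_left ((Nat.Prime.coprime_iff_not_dvd hp).2 hpK)
        ((Nat.Prime.coprime_iff_not_dvd hq).2 hqK)
    have hK1 : Nat.card K ≠ 1 := fun h => hK (Subgroup.eq_bot_of_card_eq K h)
    obtain ⟨r, hr, hrK⟩ := Nat.exists_prime_and_dvd hK1
    haveI : Fact r.Prime := ⟨hr⟩
    have hWK : Subgroup.zpowers c ⊔ Subgroup.zpowers a ≤ Subgroup.normalizer (K : Set G) := by
      rw [Subgroup.normalizer_eq_top]; exact le_top
    haveI : Group.IsSolvable ↥(Subgroup.zpowers c ⊔ Subgroup.zpowers a) :=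
      Group.isSolvable_of_isSolvable_injective (Subgroup.inclusion_injective hWH)
    obtain ⟨R, hR⟩ := exists_invariant_sylow (Subgroup.zpowers c ⊔ Subgroup.zpowers a) K hWK hcop
      (Or.inl inferInstance) r
    have hRcard := card_sylow_map K R
    have hRp : IsPGroup r ↥((R : Subgroup K).map K.subtype) := IsPGroup.of_card hRcard
    have hRnt : Nontrivial ↥((R : Subgroup K).map K.subtype) := by
      rw [← Finite.one_lt_card_iff_nontrivial, hRcard]
      have h0 : 0 < (Nat.card K).factorization r :=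
        hr.factorization_pos_of_dvd Nat.card_pos.ne' hrK
      exact Nat.one_lt_pow h0.ne' hr.one_lt
    have hVne : (Subgroup.center ↥((R : Subgroup K).map K.subtype)).map
        ((R : Subgroup K).map K.subtype).subtype ≠ ⊥ := by
      haveI := hRp.center_nontrivial
      intro h
      rw [Subgroup.map_eq_bot_iff_of_injective _ (Subgroup.subtype_injective _)] at h
      exact (Subgroup.nontrivial_iff_ne_bot _).1 inferInstance h
    haveI hVc : IsMulCommutative ↥((Subgroup.center ↥((R : Subgroup K).map K.subtype)).map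
        ((R : Subgroup K).map K.subtype).subtype) := by
      refine ⟨⟨?_⟩⟩
      rintro ⟨_, ⟨x, hx, rfl⟩⟩ ⟨_, ⟨y, hy, rfl⟩⟩
      apply Subtype.ext
      show (x : G) * (y : G) = (y : G) * (x : G)
      exact congrArg Subtype.val (Subgroup.mem_center_iff.1 hx y).symm
    have hVK : (Subgroup.center ↥((R : Subgroup K).map K.subtype)).map
        ((R : Subgroup K).map K.subtype).subtype ≤ K := by
      rintro _ ⟨x, -, rfl⟩
      obtain ⟨y, -, hy⟩ := x.2
      show (x : G) ∈ K
      rw [← hy]; exact y.2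
    have hcyc : IsCyclic ↥(Subgroup.zpowers c ⊔ Subgroup.zpowers a) := by
      refine Cfsg.Agent.S0041.result (Subgroup.zpowers c ⊔ Subgroup.zpowers a) _ hVne
        (hR.trans (normalizer_le_normalizer_center_map _)) ?_ (Or.inr ⟨p, q, hp, hq, hWcard⟩)
      intro w hw hw1
      rw [eq_bot_iff, ← hfpf w (hWH hw) hw1]
      exact inf_le_inf_right _ hVK
    obtain ⟨g, hg⟩ := IsCyclic.exists_generator (α := ↥(Subgroup.zpowers c ⊔ Subgroup.zpowers a))
    obtain ⟨i, hi⟩ := hg ⟨a, (le_sup_right : Subgroup.zpowers a ≤ _) (Subgroup.mem_zpowers a)⟩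
    obtain ⟨j, hj⟩ := hg ⟨c, (le_sup_left : Subgroup.zpowers c ≤ _) (Subgroup.mem_zpowers c)⟩
    have hi' : (g : G) ^ i = a := by
      have := congrArg Subtype.val hi
      simpa using this
    have hj' : (g : G) ^ j = c := by
      have := congrArg Subtype.val hj
      simpa using this
    calc a * c = (g : G) ^ i * (g : G) ^ j := by rw [hi', hj']
      _ = (g : G) ^ j * (g : G) ^ i := zpow_mul_comm (g : G) i j
      _ = c * a := by rw [hi', hj']
  · -- the two subgroups coincide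
    have h1 : Nat.card ↥(Subgroup.zpowers c ⊓ Subgroup.zpowers a) ∣ p := by
      have := Subgroup.card_dvd_of_le (inf_le_left : Subgroup.zpowers c ⊓ Subgroup.zpowers a ≤ _)
      rwa [Nat.card_zpowers, hco] at this
    have h2 : Nat.card ↥(Subgroup.zpowers c ⊓ Subgroup.zpowers a) ≠ 1 :=
      fun h => hdisj (Subgroup.eq_bot_of_card_eq _ h)
    have h3 : Nat.card ↥(Subgroup.zpowers c ⊓ Subgroup.zpowers a) = p :=
      ((Nat.dvd_prime hp).1 h1).resolve_left h2
    have h4 : Subgroup.zpowers c ⊓ Subgroup.zpowers a = Subgroup.zpowers c :=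
      Subgroup.eq_of_le_of_card_ge inf_le_left (by rw [h3, Nat.card_zpowers, hco])
    have h5 : c ∈ Subgroup.zpowers a := by
      have h6 : c ∈ Subgroup.zpowers c ⊓ Subgroup.zpowers a := by
        rw [h4]; exact Subgroup.mem_zpowers c
      exact h6.2
    obtain ⟨i, hi⟩ := h5
    have hi' : a ^ i = c := hi
    rw [← hi']
    exact ((Commute.refl a).zpow_right i).eq

end Cfsg.Agent.Lib.Lead
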