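import Mathlib
import Cfsg.Agent.Lib.Lead.FrobCenter

namespace Cfsg.Agent.Lib.Lead

open scoped commutatorElement

universe u

/-- an element of prime order `q` normalising a cyclic `p`-subgroup (`p` odd, `p ≠ q`) centralises
it, provided this holds for subgroups of order `p` -/
theorem cent_cyclic_p_of_pq {L : Type*} [Group L] [Finite L]
    (hpq : ∀ (c a : L) (p q : ℕ), p.Prime → q.Prime → orderOf c = p → orderOf a = q →
      a * c * a⁻¹ ∈ Subgroup.zpowers c → a * c = c * a)
    {p q : ℕ} [Fact p.Prime] (hq : q.Prime) (hp2 : p ≠ 2) (hpq' : p ≠ q) (P : Subgroup L)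
    [IsCyclic P] (hP : IsPGroup p P) (a : L) (hao : orderOf a = q)
    (haN : a ∈ Subgroup.normalizer (P : Set L)) : ∀ x ∈ P, a * x = x * a := by
  have hp : p.Prime := Fact.out
  let α : MulAut P := P.normalizerMonoidHom ⟨a, haN⟩
  have hα : ∀ x : P, ((α x : P) : L) = a * x * a⁻¹ := fun x => rfl
  have hαq : α ^ q = 1 := by
    show P.normalizerMonoidHom ⟨a, haN⟩ ^ q = 1
    rw [← map_pow]
    have h1 : (⟨a, haN⟩ : Subgroup.normalizer (P : Set L)) ^ q = 1 := by
      apply Subtype.ext
      show a ^ q = 1
      rw [← hao]; exact pow_orderOf_eq_one a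
    rw [h1, map_one]
  have hcop : q.Coprime p := (Nat.coprime_primes hq hp).2 (Ne.symm hpq')
  have hfix : ∀ x ∈ (⊤ : Subgroup P), Helper8.SmallElt p x → α x = x := by
    intro x _ hx
    rcases hx with hx | ⟨h2, -⟩
    · by_cases hx1 : x = 1
      · rw [hx1, map_one]
      · have hxo : orderOf x = p := orderOf_eq_prime hx hx1
        have h1 : α x ∈ Subgroup.zpowers x := by
          rw [mem_iff_pow_card_of_cyclic, Nat.card_zpowers, hxo, ← map_pow, hx, map_one]
        have h2 : a * (x : L) * a⁻¹ ∈ Subgroup.zpowers (x : L) := by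
          obtain ⟨i, hi⟩ := h1
          refine ⟨i, ?_⟩
          have h3 := congrArg Subtype.val hi
          have h4 : ((x ^ i : P) : L) = a * (x : L) * a⁻¹ := h3
          rw [← h4]
          simp
        have h3 := hpq (x : L) a p q hp hq (by rw [Subgroup.orderOf_coe]; exact hxo) hao h2
        apply Subtype.ext
        rw [hα, h3, mul_inv_cancel_right]
    · exact absurd h2 hp2
  have hall := Helper8.gl1 hP α hcop hαq ⊤ (fun x _ => Subgroup.mem_top _) hfix
  intro x hx
  have h5 := congrArg Subtype.val (hall ⟨x, hx⟩ (Subgroup.mem_top _))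
  rw [hα] at h5
  exact mul_inv_eq_iff_eq_mul.1 h5

/-- a nontrivial Z-group of odd order in which elements of prime order centralise the subgroups
of prime order that they normalise has a nontrivial centre -/
theorem zgroup_center_ne_bot {L : Type*} [Group L] [Finite L] [Nontrivial L] [IsZGroup L]
    (hodd : Odd (Nat.card L))
    (hpq : ∀ (c a : L) (p q : ℕ), p.Prime → q.Prime → orderOf c = p → orderOf a = q →
      a * c * a⁻¹ ∈ Subgroup.zpowers c → a * c = c * a) :
    Subgroup.center L ≠ ⊥ := by
  classical
  have hcm : ∀ x y : L, ⁅x, y⁆ ∈ commutator L := by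
    intro x y
    rw [commutator_def]
    exact Subgroup.commutator_mem_commutator (Subgroup.mem_top x) (Subgroup.mem_top y)
  by_cases hab : commutator L = ⊥
  · have hcomm : ∀ x y : L, x * y = y * x := by
      intro x y
      have h1 := hcm x y
      rw [hab, Subgroup.mem_bot, commutatorElement_eq_one_iff_mul_comm] at h1
      exact h1
    intro h
    obtain ⟨x, hx⟩ := exists_ne (1 : L)
    have h2 : x ∈ Subgroup.center L := Subgroup.mem_center_iff.2 (fun y => hcomm y x)
    rw [h, Subgroup.mem_bot] at h2
    exact hx h2
  · haveI hBc : IsCyclic (commutator L) := IsZGroup.isCyclic_commutator L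
    have hcop := IsZGroup.coprime_commutator_index L
    obtain ⟨A, hA⟩ := Subgroup.exists_right_complement'_of_coprime hcop
    have hAcard : Nat.card A = (commutator L).index := by
      have h1 := hA.card_mul_card
      have h2 := Subgroup.card_mul_index (commutator L)
      rw [← h2] at h1
      exact Nat.eq_of_mul_eq_mul_left Nat.card_pos h1
    have hAcomm : ∀ x ∈ A, ∀ y ∈ A, x * y = y * x := by
      intro x hx y hy
      have h2 : ⁅x, y⁆ ∈ A := by
        rw [commutatorElement_def]
        exact A.mul_mem (A.mul_mem (A.mul_mem hx hy) (A.inv_mem hx)) (A.inv_mem hy)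
      have h3 : ⁅x, y⁆ ∈ commutator L ⊓ A := ⟨hcm x y, h2⟩
      rw [hA.disjoint.eq_bot, Subgroup.mem_bot, commutatorElement_eq_one_iff_mul_comm] at h3
      exact h3
    have hA1 : Nat.card A ≠ 1 := by
      rw [hAcard]
      intro h
      have h1 := IsZGroup.commutator_lt (G := L)
      rw [Subgroup.index_eq_one] at h
      exact (ne_of_lt h1) h
    obtain ⟨q, hq, hqA⟩ := Nat.exists_prime_and_dvd hA1
    haveI : Fact q.Prime := ⟨hq⟩
    obtain ⟨a', ha'⟩ := exists_prime_orderOf_dvd_card' q hqA
    have hao : orderOf (a' : L) = q := by rw [Subgroup.orderOf_coe]; exact ha'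
    have hcent : ∀ b ∈ commutator L, (a' : L) * b = b * (a' : L) := by
      by_contra hne
      have hDlt : commutator L ⊓ Subgroup.centralizer {(a' : L)} < commutator L := by
        refine lt_of_le_of_ne inf_le_left ?_
        intro heq
        apply hne
        intro b hb
        have h1 : b ∈ commutator L ⊓ Subgroup.centralizer {(a' : L)} := by
          rw [heq]; exact hb
        exact Subgroup.mem_centralizer_iff.1 h1.2 (a' : L) rfl
      have hDdvd : Nat.card ↥(commutator L ⊓ Subgroup.centralizer {(a' : L)}) ∣
          Nat.card (commutator L) := Subgroup.card_dvd_of_le inf_le_left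
      have hDne : Nat.card ↥(commutator L ⊓ Subgroup.centralizer {(a' : L)}) ≠
          Nat.card (commutator L) :=
        fun h => (ne_of_lt hDlt) (Subgroup.eq_of_le_of_card_ge inf_le_left h.ge)
      obtain ⟨m, hm⟩ := hDdvd
      have hm1 : m ≠ 1 := by
        rintro rfl
        rw [mul_one] at hm
        exact hDne hm.symm
      obtain ⟨p, hp, hpm⟩ := Nat.exists_prime_and_dvd hm1
      haveI : Fact p.Prime := ⟨hp⟩
      have hpB : p ∣ Nat.card (commutator L) := by rw [hm]; exact Dvd.dvd.mul_left hpm _
      have hp2 : p ≠ 2 := by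
        rintro rfl
        have h1 : 2 ∣ Nat.card L := hpB.trans (Subgroup.card_subgroup_dvd_card _)
        exact (Nat.not_even_iff_odd.2 hodd) (even_iff_two_dvd.2 h1)
      have hpq' : p ≠ q := by
        rintro rfl
        have h1 : p ∣ Nat.gcd (Nat.card (commutator L)) (commutator L).index :=
          Nat.dvd_gcd hpB (hAcard ▸ hqA)
        rw [Nat.Coprime.gcd_eq_one hcop] at h1
        exact hp.one_lt.ne' (Nat.dvd_one.1 h1)
      let P' : Sylow p (commutator L) := default
      haveI hPc' : IsCyclic ↥(P' : Subgroup (commutator L)) := Subgroup.isCyclic _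
      haveI hPc : IsCyclic ↥((P' : Subgroup (commutator L)).map (commutator L).subtype) :=
        isCyclic_of_surjective ((P' : Subgroup (commutator L)).equivMapOfInjective _
          (Subgroup.subtype_injective _)) (MulEquiv.surjective _)
      have hPp : IsPGroup p ↥((P' : Subgroup (commutator L)).map (commutator L).subtype) :=
        P'.2.map _
      have haN : (a' : L) ∈ Subgroup.normalizer
          (((P' : Subgroup (commutator L)).map (commutator L).subtype : Subgroup L) : Set L) := by
        apply mem_normalizer_of_conj_le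
        rintro _ ⟨x, hx, rfl⟩
        have hxB : (a' : L) * (x : L) * (a' : L)⁻¹ ∈ commutator L :=
          (inferInstance : (commutator L).Normal).conj_mem _ x.2 _
        refine ⟨⟨_, hxB⟩, ?_, rfl⟩
        rw [SetLike.mem_coe, mem_iff_pow_card_of_cyclic]
        apply Subtype.ext
        have h1 : x ^ Nat.card ↥(P' : Subgroup (commutator L)) = 1 :=
          (mem_iff_pow_card_of_cyclic (P' : Subgroup (commutator L)) x).1 hx
        have h2 : (x : L) ^ Nat.card ↥(P' : Subgroup (commutator L)) = 1 := by
          have := congrArg Subtype.val h1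
          simpa using this
        show ((a' : L) * (x : L) * (a' : L)⁻¹) ^ Nat.card ↥(P' : Subgroup (commutator L)) = 1
        rw [conj_pow, h2, mul_one, mul_inv_cancel]
      have hPD : (P' : Subgroup (commutator L)).map (commutator L).subtype ≤
          commutator L ⊓ Subgroup.centralizer {(a' : L)} := by
        intro x hx
        refine ⟨?_, ?_⟩
        · obtain ⟨y, -, rfl⟩ := hx
          exact y.2
        · apply Subgroup.mem_centralizer_iff.2
          intro h hh
          rw [Set.mem_singleton_iff] at hh
          rw [hh]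
          exact cent_cyclic_p_of_pq hpq hq hp2 hpq' _ hPp (a' : L) hao haN x hx
      have hPcard : Nat.card ↥((P' : Subgroup (commutator L)).map (commutator L).subtype) =
          p ^ (Nat.card (commutator L)).factorization p := card_sylow_map (commutator L) P'
      have h1 : p ^ (Nat.card (commutator L)).factorization p ∣
          Nat.card ↥(commutator L ⊓ Subgroup.centralizer {(a' : L)}) :=
        hPcard ▸ Subgroup.card_dvd_of_le hPD
      have hD0 : Nat.card ↥(commutator L ⊓ Subgroup.centralizer {(a' : L)}) ≠ 0 :=
        Nat.card_pos.ne'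
      have hm0 : m ≠ 0 := by
        rintro rfl
        rw [mul_zero] at hm
        exact Nat.card_pos.ne' hm
      have h2 : (Nat.card (commutator L)).factorization p =
          (Nat.card ↥(commutator L ⊓ Subgroup.centralizer {(a' : L)})).factorization p +
            m.factorization p := by
        rw [hm, Nat.factorization_mul hD0 hm0]; rfl
      have h3 : 0 < m.factorization p := hp.factorization_pos_of_dvd hm0 hpm
      have h4 : (Nat.card (commutator L)).factorization p ≤
          (Nat.card ↥(commutator L ⊓ Subgroup.centralizer {(a' : L)})).factorization p :=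
        (hp.pow_dvd_iff_le_factorization hD0).1 h1
      omega
    intro hbot
    have hacen : (a' : L) ∈ Subgroup.center L := by
      rw [Subgroup.mem_center_iff]
      intro g
      obtain ⟨⟨b, x⟩, rfl⟩ := hA.2 g
      show ((b : L) * (x : L)) * (a' : L) = (a' : L) * ((b : L) * (x : L))
      rw [mul_assoc, hAcomm x x.2 a' a'.2, ← mul_assoc, ← hcent b b.2, mul_assoc]
    rw [hbot, Subgroup.mem_bot] at hacen
    have h1 : orderOf (a' : L) = 1 := by rw [hacen, orderOf_one]
    rw [hao] at h1
    exact hq.one_lt.ne' h1

/-- a Frobenius complement has nontrivial centre -/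
theorem frob_compl_center_ne_bot {G : Type u} [Group G] [Finite G] (K H : Subgroup G) [K.Normal]
    (hK : K ≠ ⊥) (hH : H ≠ ⊥)
    (hfpf : ∀ h ∈ H, h ≠ 1 → K ⊓ Subgroup.centralizer {h} = ⊥) :
    Subgroup.center H ≠ ⊥ := by
  classical
  haveI : Nontrivial H := (Subgroup.nontrivial_iff_ne_bot H).2 hH
  by_cases hev : 2 ∣ Nat.card H
  · haveI : Fact (Nat.Prime 2) := ⟨Nat.prime_two⟩
    obtain ⟨t, ht⟩ := exists_prime_orderOf_dvd_card' 2 hev
    have ht1 : (t : G) ≠ 1 := by
      intro e
      have : t = 1 := Subtype.ext e
      rw [this, orderOf_one] at ht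
      norm_num at ht
    have ht2 : (t : G) * (t : G) = 1 := by
      have h1 : t ^ 2 = 1 := by rw [← ht]; exact pow_orderOf_eq_one t
      have h2 := congrArg Subtype.val h1
      rw [pow_two] at h2
      exact h2
    have hcen := frob_compl_invol_central K H hK hfpf (t : G) t.2 ht1 ht2
    intro hbot
    have h3 : t ∈ Subgroup.center H := by
      rw [Subgroup.mem_center_iff]
      intro g
      apply Subtype.ext
      exact hcen g g.2
    rw [hbot, Subgroup.mem_bot] at h3
    exact ht1 (congrArg Subtype.val h3)
  · have hodd : Odd (Nat.card H) := Nat.not_even_iff_odd.1 (fun h => hev (even_iff_two_dvd.1 h))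
    haveI hZ : IsZGroup H := by
      refine ⟨fun p hp P => ?_⟩
      haveI : Fact p.Prime := ⟨hp⟩
      rcases frob_compl_sylow K H hK hfpf p P with h | ⟨n, ⟨e⟩⟩
      · exact h
      · exfalso
        apply hev
        have h1 : Nat.card (P : Subgroup H) = 4 * 2 ^ n := by
          rw [Nat.card_congr e.toEquiv, Nat.card_eq_fintype_card, QuaternionGroup.card]
        have h2 : 2 ∣ Nat.card (P : Subgroup H) := by
          rw [h1]; exact Dvd.dvd.mul_right (by norm_num) _
        exact h2.trans (Subgroup.card_subgroup_dvd_card _)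
    haveI hsolv : Group.IsSolvable H := inferInstance
    apply zgroup_center_ne_bot hodd
    intro c a p q hp hq hco hao hn
    apply Subtype.ext
    have hn' : (a : G) * (c : G) * (a : G)⁻¹ ∈ Subgroup.zpowers (c : G) := by
      obtain ⟨i, hi⟩ := hn
      refine ⟨i, ?_⟩
      have h3 := congrArg Subtype.val hi
      have h4 : ((c ^ i : H) : G) = (a : G) * (c : G) * (a : G)⁻¹ := h3
      rw [← h4]
      simp
    exact frob_compl_pq_comm K H hK hfpf hsolv (c : G) (a : G) c.2 a.2 hp hq
      (by rw [Subgroup.orderOf_coe]; exact hco) (by rw [Subgroup.orderOf_coe]; exact hao) hn'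

end Cfsg.Agent.Lib.Lead
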