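import Mathlib
import Cfsg.Prelude.Def_Transfer
import Cfsg.Agent.Lib.Lead.BaerSuzuki
import Cfsg.Agent.Lib.Lead.Invol2

set_option autoImplicit false

namespace Cfsg.Agent.Lib.Lead

section PResidual
variable {G : Type*} [Group G]

theorem pResidual_normal_lead (p : ℕ) : (Cfsg.pResidual p G).Normal := by
  apply closure_normal_of_conj_invariant
  intro k hk g
  show Nat.Coprime (orderOf (g * k * g⁻¹)) p
  rw [orderOf_conj_eq]
  exact hk

theorem mem_pResidual_of_coprime (p : ℕ) (g : G) (h : Nat.Coprime (orderOf g) p) :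
    g ∈ Cfsg.pResidual p G := Subgroup.subset_closure h

/-- Some `p`-power of each element lies in `O^p(G)`. -/
theorem exists_pow_mem_pResidual [Finite G] (p : ℕ) [Fact p.Prime] (g : G) :
    ∃ k : ℕ, g ^ p ^ k ∈ Cfsg.pResidual p G := by
  have hp : p.Prime := Fact.out
  obtain ⟨e, m, hm, hgm⟩ := Nat.exists_eq_pow_mul_and_not_dvd (orderOf_pos g).ne' p hp.ne_one
  refine ⟨e, mem_pResidual_of_coprime p _ ?_⟩
  have h1 : orderOf (g ^ p ^ e) = orderOf g / p ^ e :=
    orderOf_pow_of_dvd (pow_ne_zero e hp.ne_zero) (hgm ▸ Dvd.intro _ rfl)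
  rw [h1, hgm, Nat.mul_div_cancel_left _ (pow_pos hp.pos e)]
  exact ((Nat.Prime.coprime_iff_not_dvd hp).mpr hm).symm

theorem isPGroup_quotient_pResidual [Finite G] (p : ℕ) [Fact p.Prime] :
    haveI := pResidual_normal_lead (G := G) p
    IsPGroup p (G ⧸ Cfsg.pResidual p G) := by
  haveI := pResidual_normal_lead (G := G) p
  intro x
  obtain ⟨g, rfl⟩ := QuotientGroup.mk_surjective x
  obtain ⟨k, hk⟩ := exists_pow_mem_pResidual p g
  refine ⟨k, ?_⟩
  rw [← QuotientGroup.mk_pow]
  exact (QuotientGroup.eq_one_iff _).mpr hk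

/-- `G = O^p(G) P` for a Sylow `p`-subgroup `P`. -/
theorem pResidual_sup_sylow_lead [Finite G] (p : ℕ) [Fact p.Prime] (P : Sylow p G) :
    Cfsg.pResidual p G ⊔ (P : Subgroup G) = ⊤ := by
  haveI := pResidual_normal_lead (G := G) p
  have hp : p.Prime := Fact.out
  rw [← Subgroup.index_eq_one]
  obtain ⟨n, hn⟩ := IsPGroup.iff_card.mp (isPGroup_quotient_pResidual (G := G) p)
  have h1 : (Cfsg.pResidual p G ⊔ (P : Subgroup G)).index ∣ p ^ n := by
    rw [← hn, ← Subgroup.index_eq_card]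
    exact Subgroup.index_dvd_of_le le_sup_left
  have h2 : (Cfsg.pResidual p G ⊔ (P : Subgroup G)).index ∣ (P : Subgroup G).index :=
    Subgroup.index_dvd_of_le le_sup_right
  have h3 : Nat.Coprime (p ^ n) (P : Subgroup G).index :=
    Nat.Coprime.pow_left n ((Nat.Prime.coprime_iff_not_dvd hp).mpr P.not_dvd_index)
  exact Nat.eq_one_of_dvd_coprimes h3 h1 h2

/-- `p`-elements of `O^p(G)` lie in the commutator subgroup. -/
theorem mem_commutator_of_mem_pResidual [Finite G] (p : ℕ) [Fact p.Prime] (g : G)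
    (hg : g ∈ Cfsg.pResidual p G) (k : ℕ) (hgp : g ^ p ^ k = 1) : g ∈ commutator G := by
  have hp : p.Prime := Fact.out
  obtain ⟨v, m, hm, hGm⟩ :=
    Nat.exists_eq_pow_mul_and_not_dvd (Nat.card_pos (α := G)).ne' p hp.ne_one
  have hcop : Nat.Coprime m p := ((Nat.Prime.coprime_iff_not_dvd hp).mpr hm).symm
  let ψ : G →* Abelianization G := (powMonoidHom m).comp Abelianization.of
  have hRker : Cfsg.pResidual p G ≤ ψ.ker := by
    rw [Cfsg.pResidual, Subgroup.closure_le]
    intro h hh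
    have hh' : Nat.Coprime (orderOf h) p := hh
    have h1 : orderOf h ∣ m := by
      have h2 : orderOf h ∣ p ^ v * m := hGm ▸ orderOf_dvd_natCard h
      exact (Nat.Coprime.pow_right v hh').dvd_of_dvd_mul_left h2
    show ψ h = 1
    show (Abelianization.of h) ^ m = 1
    rw [← map_pow, orderOf_dvd_iff_pow_eq_one.mp h1, map_one]
  have h1 : (Abelianization.of g) ^ m = 1 := hRker hg
  have h2 : (Abelianization.of g) ^ (p ^ k) = 1 := by
    rw [← map_pow, hgp, map_one]
  have h3 : Abelianization.of g = 1 := by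
    have d1 := orderOf_dvd_of_pow_eq_one h1
    have d2 := orderOf_dvd_of_pow_eq_one h2
    have h4 := Nat.eq_one_of_dvd_coprimes (hcop.pow_right k) d1 d2
    exact orderOf_eq_one_iff.mp h4
  rw [← Abelianization.ker_of]
  exact MonoidHom.mem_ker.mpr h3

end PResidual

end Cfsg.Agent.Lib.Lead
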