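import Mathlib

namespace Cfsg.Agent.Lib.Lead

open scoped IsMulCommutative in
theorem abelian_sylow_quotient {G : Type*} [Group G] [Finite G] {p : ℕ} [Fact p.Prime]
    (P : Sylow p G) (hP : IsMulCommutative P) :
    ∃ (N : Subgroup G) (_ : N.Normal), Nonempty (G ⧸ N ≃* ((P : Subgroup G) ⊓
      Subgroup.centralizer (Subgroup.normalizer (P : Set G) : Set G) : Subgroup G)) := by
  classical
  haveI := hP
  have hp : p.Prime := Fact.out
  -- the transfer
  let τ : G →* P := MonoidHom.transfer (MonoidHom.id P)
  have hτ : ∀ z ∈ ((P : Subgroup G) ⊓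
      Subgroup.centralizer (Subgroup.normalizer (P : Set G) : Set G) : Subgroup G),
      ((τ z : P) : G) = z ^ (P : Subgroup G).index := by
    intro z hz
    have key : ∀ (k : ℕ) (g₀ : G), g₀⁻¹ * z ^ k * g₀ ∈ (P : Subgroup G) →
        g₀⁻¹ * z ^ k * g₀ = z ^ k := by
      intro k g₀ h
      obtain ⟨n, hn, h'⟩ := P.conj_eq_normalizer_conj_of_mem (z ^ k) g₀ (pow_mem hz.1 k) h
      rw [h']
      have hc : n * z = z * n := Subgroup.mem_centralizer_iff.1 hz.2 n hn
      have hc' : Commute n (z ^ k) := Commute.pow_right hc k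
      rw [mul_assoc, ← hc'.eq, inv_mul_cancel_left]
    have h1 := MonoidHom.transfer_eq_pow (MonoidHom.id P) z key
    show ((MonoidHom.transfer (MonoidHom.id P) z : P) : G) = _
    rw [h1]; rfl
  -- Schur–Zassenhaus complement in the normaliser
  haveI hPn : ((P : Subgroup G).subgroupOf (Subgroup.normalizer (P : Set G))).Normal :=
    Subgroup.normal_in_normalizer
  have hidx : ((P : Subgroup G).subgroupOf (Subgroup.normalizer (P : Set G))).index ∣
      (P : Subgroup G).index := Subgroup.relIndex_dvd_index_of_le Subgroup.le_normalizer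
  have hcop0 : Nat.Coprime (P : Subgroup G).index p :=
    (Nat.Coprime.symm ((Nat.Prime.coprime_iff_not_dvd hp).2 P.not_dvd_index))
  have hcop1 : Nat.Coprime ((P : Subgroup G).subgroupOf (Subgroup.normalizer (P : Set G))).index p :=
    Nat.Coprime.coprime_dvd_left hidx hcop0
  have hPp : IsPGroup p ((P : Subgroup G).subgroupOf (Subgroup.normalizer (P : Set G))) :=
    P.2.comap_subtype
  obtain ⟨k, hk⟩ := IsPGroup.iff_card.1 hPp
  have hcop2 : Nat.Coprime (Nat.card ((P : Subgroup G).subgroupOf (Subgroup.normalizer (P : Set G))))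
      ((P : Subgroup G).subgroupOf (Subgroup.normalizer (P : Set G))).index := by
    rw [hk]
    exact Nat.Coprime.pow_left k hcop1.symm
  obtain ⟨L, hL⟩ := Subgroup.exists_right_complement'_of_coprime hcop2
  have hLcard : Nat.card L = ((P : Subgroup G).subgroupOf (Subgroup.normalizer (P : Set G))).index := by
    have h1 := hL.card_mul
    have h2 := Subgroup.card_mul_index ((P : Subgroup G).subgroupOf (Subgroup.normalizer (P : Set G)))
    rw [← h2] at h1
    exact Nat.eq_of_mul_eq_mul_left Nat.card_pos h1
  haveI : Fintype L := Fintype.ofFinite L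
  have hsup : (P : Subgroup G).subgroupOf (Subgroup.normalizer (P : Set G)) ⊔ L = ⊤ := hL.sup_eq_top
  -- conjugation action of the normaliser on P
  let cj : Subgroup.normalizer (P : Set G) → (P →* P) := fun n =>
    { toFun := fun x => ⟨(n : G) * x * (n : G)⁻¹, (Subgroup.mem_normalizer_iff.1 n.2 x).1 x.2⟩
      map_one' := Subtype.ext (by simp)
      map_mul' := fun x y => Subtype.ext (by simp [mul_assoc]) }
  have hcj_mul : ∀ (m n : Subgroup.normalizer (P : Set G)) (x : P), cj m (cj n x) = cj (m * n) x := by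
    intro m n x
    apply Subtype.ext
    show (m : G) * ((n : G) * x * (n : G)⁻¹) * (m : G)⁻¹ = ((m * n : Subgroup.normalizer (P : Set G)) : G) * x *
      ((m * n : Subgroup.normalizer (P : Set G)) : G)⁻¹
    rw [Subgroup.coe_mul, mul_inv_rev]; simp only [mul_assoc]
  let ν : P →* P := ∏ l : L, cj l.1
  have hν : ∀ x : P, ν x = ∏ l : L, cj l.1 x := fun x => MonoidHom.finsetProd_apply _ _ _
  have hνL : ∀ (m : L) (x : P), cj m.1 (ν x) = ν x := by
    intro m x
    rw [hν, map_prod]
    simp only [hcj_mul]
    exact Fintype.prod_equiv (Equiv.mulLeft m) _ _ (fun l => rfl)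
  have hνN : ∀ (x : P) (n : G), n ∈ Subgroup.normalizer (P : Set G) →
      n * (ν x : G) = (ν x : G) * n := by
    intro x n hn
    have hle : (P : Subgroup G).subgroupOf (Subgroup.normalizer (P : Set G)) ⊔ L ≤
        (Subgroup.centralizer ({((ν x : P) : G)} : Set G)).subgroupOf
          (Subgroup.normalizer (P : Set G)) := by
      apply sup_le
      · intro a ha
        rw [Subgroup.mem_subgroupOf] at ha ⊢
        rw [Subgroup.mem_centralizer_iff]
        intro h hh
        rw [Set.mem_singleton_iff] at hh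
        rw [hh]
        have := mul_comm (ν x) ⟨(a : G), ha⟩
        exact congrArg Subtype.val this
      · intro a ha
        rw [Subgroup.mem_subgroupOf, Subgroup.mem_centralizer_iff]
        intro h hh
        rw [Set.mem_singleton_iff] at hh
        rw [hh]
        have h1 := congrArg Subtype.val (hνL ⟨a, ha⟩ x)
        have h2 : (a : G) * (ν x : G) * (a : G)⁻¹ = (ν x : G) := h1
        exact (eq_mul_of_mul_inv_eq h2).symm
    rw [hsup] at hle
    have h3 : (⟨n, hn⟩ : Subgroup.normalizer (P : Set G)) ∈
        (Subgroup.centralizer ({((ν x : P) : G)} : Set G)).subgroupOf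
          (Subgroup.normalizer (P : Set G)) := hle (Subgroup.mem_top _)
    rw [Subgroup.mem_subgroupOf, Subgroup.mem_centralizer_iff] at h3
    exact (h3 _ rfl).symm
  have hνZ : ∀ z : P, (z : G) ∈ Subgroup.centralizer (Subgroup.normalizer (P : Set G) : Set G) →
      ν z = z ^ Nat.card L := by
    intro z hz
    rw [hν]
    have h1 : ∀ l : L, cj l.1 z = z := by
      intro l
      apply Subtype.ext
      show ((l : Subgroup.normalizer (P : Set G)) : G) * z *
        ((l : Subgroup.normalizer (P : Set G)) : G)⁻¹ = z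
      rw [Subgroup.mem_centralizer_iff.1 hz _ l.1.2, mul_inv_cancel_right]
    rw [Finset.prod_congr rfl (fun l _ => h1 l), Finset.prod_const, Finset.card_univ,
      Nat.card_eq_fintype_card]
  -- the composite
  have hmem : ∀ g : G, ((P : Subgroup G).subtype.comp (ν.comp τ)) g ∈ ((P : Subgroup G) ⊓
      Subgroup.centralizer (Subgroup.normalizer (P : Set G) : Set G) : Subgroup G) := by
    intro g
    refine ⟨(ν (τ g)).2, ?_⟩
    apply Subgroup.mem_centralizer_iff.2
    intro n hn
    exact hνN (τ g) n hn
  let Ψ : G →* ((P : Subgroup G) ⊓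
      Subgroup.centralizer (Subgroup.normalizer (P : Set G) : Set G) : Subgroup G) :=
    ((P : Subgroup G).subtype.comp (ν.comp τ)).codRestrict _ hmem
  have hΨ : ∀ z : ((P : Subgroup G) ⊓
      Subgroup.centralizer (Subgroup.normalizer (P : Set G) : Set G) : Subgroup G),
      Ψ (z : G) = z ^ ((P : Subgroup G).index * Nat.card L) := by
    intro z
    apply Subtype.ext
    show ((ν (τ (z : G)) : P) : G) = _
    have h1 : ((τ (z : G) : P) : G) = (z : G) ^ (P : Subgroup G).index := hτ z z.2
    have h2 : ((τ (z : G) : P) : G) ∈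
        Subgroup.centralizer (Subgroup.normalizer (P : Set G) : Set G) := by
      rw [h1]; exact pow_mem z.2.2 _
    rw [hνZ _ h2, Subgroup.coe_pow, h1, ← pow_mul, Subgroup.coe_pow]
  have hZp : IsPGroup p ((P : Subgroup G) ⊓
      Subgroup.centralizer (Subgroup.normalizer (P : Set G) : Set G) : Subgroup G) :=
    P.2.to_le inf_le_left
  obtain ⟨j, hj⟩ := IsPGroup.iff_card.1 hZp
  have hcop3 : Nat.Coprime (Nat.card ((P : Subgroup G) ⊓
      Subgroup.centralizer (Subgroup.normalizer (P : Set G) : Set G) : Subgroup G))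
      ((P : Subgroup G).index * Nat.card L) := by
    rw [hj, hLcard]
    exact Nat.Coprime.pow_left j (Nat.Coprime.mul_right hcop0.symm hcop1.symm)
  have hsurj : Function.Surjective Ψ := by
    intro w
    refine ⟨(((powCoprime hcop3).symm w : ((P : Subgroup G) ⊓
      Subgroup.centralizer (Subgroup.normalizer (P : Set G) : Set G) : Subgroup G)) : G), ?_⟩
    rw [hΨ]
    exact (powCoprime hcop3).apply_symm_apply w
  exact ⟨Ψ.ker, inferInstance, ⟨QuotientGroup.quotientKerEquivOfSurjective Ψ hsurj⟩⟩

end Cfsg.Agent.Lib.Lead
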