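import Mathlib
import Cfsg.Prelude.Def_Characters
import Cfsg.Agent.Lib.Lead.Char18

set_option autoImplicit false

namespace Cfsg.Agent.Lib.Lead

open Module Representation
open scoped Pointwise

section frob

variable {G : Type*} [Group G] [Finite G] (K H : Subgroup G) [hK : K.Normal]

/-- In a Frobenius group `G = K H`, an element outside `K` commutes with no nonidentity element
of `K`. -/
theorem frob_centralizer (hKH' : K ⊔ H = ⊤)
    (hfpf : ∀ h ∈ H, h ≠ 1 → ∀ k ∈ K, h * k = k * h → k = 1)
    (g : G) (hg : g ∉ K) (x : G) (hx : x ∈ K) (hcomm : g * x = x * g) : x = 1 := by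
  have hgm : g ∈ (K : Set G) * (H : Set G) := by
    rw [← Subgroup.normal_mul, hKH']; exact Set.mem_univ g
  obtain ⟨k₁, hk₁, h, hh, hkh⟩ := hgm
  have hkh' : k₁ * h = g := hkh
  subst hkh'
  have hk₁ : k₁ ∈ K := hk₁
  have hh : h ∈ H := hh
  have hh1 : h ≠ 1 := by
    intro h1
    apply hg
    rw [h1, mul_one]; exact hk₁
  -- the map `y ↦ y⁻¹ h y h⁻¹` on `K` is injective hence surjective
  let φ : K → K := fun y => ⟨(y : G)⁻¹ * (h * y * h⁻¹), K.mul_mem (K.inv_mem y.2) (hK.conj_mem y y.2 h)⟩
  have hφ : Function.Injective φ := by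
    intro y z hyz
    have h1 : (y : G)⁻¹ * (h * y * h⁻¹) = (z : G)⁻¹ * (h * z * h⁻¹) := congrArg Subtype.val hyz
    have h2 : h * ((y : G) * (z : G)⁻¹) = ((y : G) * (z : G)⁻¹) * h := by
      have h3 : (y : G)⁻¹ * h * y = (z : G)⁻¹ * h * z := by
        have := congrArg (fun t => t * h) h1
        simpa [mul_assoc] using this
      have h4 : h * y = y * ((z : G)⁻¹ * h * z) := by rw [← h3]; group
      calc h * ((y : G) * (z : G)⁻¹) = (h * y) * (z : G)⁻¹ := by group
        _ = y * ((z : G)⁻¹ * h * z) * (z : G)⁻¹ := by rw [h4]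
        _ = ((y : G) * (z : G)⁻¹) * h := by group
    have h5 := hfpf h hh hh1 _ (K.mul_mem y.2 (K.inv_mem z.2)) h2
    apply Subtype.ext
    exact mul_inv_eq_one.mp h5
  have hφs : Function.Surjective φ := Finite.surjective_of_injective hφ
  obtain ⟨y, hy⟩ := hφs ⟨k₁, hk₁⟩
  have hy' : (y : G)⁻¹ * (h * y * h⁻¹) = k₁ := congrArg Subtype.val hy
  have h6 : k₁ * h = (y : G)⁻¹ * h * y := by rw [← hy']; group
  rw [h6] at hcomm
  have h7 : h * ((y : G) * x * (y : G)⁻¹) = ((y : G) * x * (y : G)⁻¹) * h := by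
    calc h * ((y : G) * x * (y : G)⁻¹) = y * (((y : G)⁻¹ * h * y) * x) * (y : G)⁻¹ := by group
      _ = y * (x * ((y : G)⁻¹ * h * y)) * (y : G)⁻¹ := by rw [hcomm]
      _ = ((y : G) * x * (y : G)⁻¹) * h := by group
  have h8 := hfpf h hh hh1 _ (hK.conj_mem x hx y) h7
  have h9 : x = (y : G)⁻¹ * ((y : G) * x * (y : G)⁻¹) * y := by group
  rw [h9, h8]; group

end frob

/-- Frobenius kernel: a non-principal irreducible character of `K` induces irreducibly. -/
theorem frob_ind_irr {G : Type*} [Group G] [Fintype G] (K H : Subgroup G) [hK : K.Normal]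
    (hKH' : K ⊔ H = ⊤)
    (hfpf : ∀ h ∈ H, h ≠ 1 → ∀ k ∈ K, h * k = k * h → k = 1) (τ : K → ℂ)
    (hτ : Cfsg.IsIrrCharacter K τ) (hτ1 : τ ≠ fun _ => 1) :
    Cfsg.IsIrrCharacter G (Cfsg.indFun K τ) := by
  classical
  have hcl : Cfsg.IsClassFunction K τ := isClassFunction_of_irr (⟨τ, hτ⟩ : Cfsg.IrrCharacter K)
  -- the inertia set is `K`
  have hin : ∀ g : G, (∀ k : K, τ ⟨g * k * g⁻¹, hK.conj_mem k k.2 g⟩ = τ k) ↔ g ∈ K := by
    intro g
    constructor
    · intro hfix
      by_contra hg
      apply hτ1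
      have hcount := fixed_count_aut (MulAut.conjNormal g : K ≃* K)
      have h1 : Nat.card {C : ConjClasses K //
          ConjClasses.map (MulAut.conjNormal g : K ≃* K).toMonoidHom C = C} = 1 := by
        rw [Nat.card_eq_one_iff_unique]
        constructor
        · constructor
          have hone : ∀ C : {C : ConjClasses K //
              ConjClasses.map (MulAut.conjNormal g : K ≃* K).toMonoidHom C = C},
              C.1 = ConjClasses.mk 1 := by
            rintro ⟨C, hC⟩
            obtain ⟨x, rfl⟩ := ConjClasses.exists_rep C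
            have h2 : ConjClasses.mk ((MulAut.conjNormal g : K ≃* K) x) = ConjClasses.mk x := hC
            rw [ConjClasses.mk_eq_mk_iff_isConj, isConj_iff] at h2
            obtain ⟨k, hk⟩ := h2
            have hk' : (k : G) * (g * x * g⁻¹) * (k : G)⁻¹ = x := by
              have := congrArg Subtype.val hk
              simpa using this
            have h3 : ((k : G) * g) * x = x * ((k : G) * g) := by
              calc ((k : G) * g) * x = ((k : G) * (g * x * g⁻¹) * (k : G)⁻¹) * ((k : G) * g) := by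
                    group
                _ = x * ((k : G) * g) := by rw [hk']
            have h4 : (k : G) * g ∉ K := by
              intro h
              apply hg
              have := K.mul_mem (K.inv_mem k.2) h
              simpa using this
            have h5 := frob_centralizer K H hKH' hfpf _ h4 x x.2 h3
            show ConjClasses.mk x = ConjClasses.mk 1
            congr 1
            exact Subtype.ext h5
          intro C D
          apply Subtype.ext
          rw [hone C, hone D]
        · refine ⟨⟨ConjClasses.mk 1, ?_⟩⟩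
          show ConjClasses.mk ((MulAut.conjNormal g : K ≃* K) 1) = ConjClasses.mk 1
          rw [map_one]
      rw [h1] at hcount
      have hsub := (Nat.card_eq_one_iff_unique.mp hcount.symm).1
      have e1 : ((⟨τ, hτ⟩ : Cfsg.IrrCharacter K) : K → ℂ) ∘ (MulAut.conjNormal g : K ≃* K)
          = ((⟨τ, hτ⟩ : Cfsg.IrrCharacter K) : K → ℂ) := by
        funext k
        exact hfix k
      have e2 : ((irrOne K : Cfsg.IrrCharacter K) : K → ℂ) ∘ (MulAut.conjNormal g : K ≃* K)
          = ((irrOne K : Cfsg.IrrCharacter K) : K → ℂ) := rfl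
      have e3 := hsub.elim ⟨⟨τ, hτ⟩, e1⟩ ⟨irrOne K, e2⟩
      have e4 : (⟨τ, hτ⟩ : Cfsg.IrrCharacter K) = irrOne K := congrArg Subtype.val e3
      exact congrArg Subtype.val e4
    · intro hg k
      have := hcl k ⟨g, hg⟩
      exact this
  have hcard := card_mul_inner_ind_normal K τ hτ
  have h2 : Nat.card {g : G // ∀ k : K, τ ⟨g * k * g⁻¹, hK.conj_mem k k.2 g⟩ = τ k} = Nat.card K :=
    Nat.card_congr (Equiv.subtypeEquivRight hin)
  rw [h2] at hcard
  have hK0 : (Nat.card K : ℂ) ≠ 0 := by exact_mod_cast Nat.card_pos.ne'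
  have h3 : Cfsg.classInner (Cfsg.indFun K τ) (Cfsg.indFun K τ) = 1 := by
    apply mul_left_cancel₀ hK0
    rw [hcard, mul_one]
  exact isIrrCharacter_of_norm_one (isCharacter_indFun K τ (isCharacter_of_irr hτ)) h3

end Cfsg.Agent.Lib.Lead
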