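import Mathlib
import Cfsg.Prelude.Def_CharExt
import Cfsg.Agent.Lib.Lead.Char11
import Cfsg.Agent.Lib.Lead.Char2

set_option autoImplicit false

namespace Cfsg.Agent.Lib.Lead

open Module Representation

theorem det_eq_of_char_eq {G : Type*} [Group G] [Finite G] {V W : Type*} [AddCommGroup V]
    [Module ℂ V] [FiniteDimensional ℂ V] [AddCommGroup W] [Module ℂ W] [FiniteDimensional ℂ W]
    (ρ : Representation ℂ G V) (σ : Representation ℂ G W)
    (h : ρ.character = σ.character) (g : G) : LinearMap.det (ρ g) = LinearMap.det (σ g) := by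
  obtain ⟨φ⟩ := equiv_of_char_eq ρ σ h
  have h1 : σ g = (φ.toLinearEquiv : V →ₗ[ℂ] W) ∘ₗ ρ g ∘ₗ (φ.toLinearEquiv.symm : W →ₗ[ℂ] V) := by
    apply LinearMap.ext
    intro w
    show σ g w = φ.toLinearEquiv (ρ g (φ.toLinearEquiv.symm w))
    rw [equiv_apply φ, LinearEquiv.apply_symm_apply]
  rw [h1, LinearMap.det_conj]

theorem detChar_eq {G : Type*} [Group G] [Finite G] {n : ℕ}
    (ρ : Representation ℂ G (Fin n → ℂ)) :
    Cfsg.detChar ρ.character = fun g => LinearMap.det (ρ g) := by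
  have h : Cfsg.IsCharacter G ρ.character := ⟨n, ρ, rfl⟩
  unfold Cfsg.detChar
  rw [dif_pos h]
  funext g
  exact det_eq_of_char_eq _ ρ (Classical.choose_spec (Classical.choose_spec h)) g

/-- the twist of a representation by a linear character -/
def twistRep {G : Type*} [Group G] {V : Type*} [AddCommGroup V] [Module ℂ V] (β : G →* ℂˣ)
    (ρ : Representation ℂ G V) : Representation ℂ G V where
  toFun g := ((β g : ℂˣ) : ℂ) • ρ g
  map_one' := by simp
  map_mul' := by
    intro a b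
    rw [map_mul, map_mul, Units.val_mul, smul_mul_smul_comm]

theorem twistRep_char {G : Type*} [Group G] {V : Type*} [AddCommGroup V] [Module ℂ V]
    (β : G →* ℂˣ) (ρ : Representation ℂ G V) (g : G) :
    (twistRep β ρ).character g = ((β g : ℂˣ) : ℂ) * ρ.character g := by
  show LinearMap.trace ℂ V (((β g : ℂˣ) : ℂ) • ρ g) = _
  rw [map_smul, smul_eq_mul]
  rfl

theorem twistRep_det {G : Type*} [Group G] {n : ℕ} (β : G →* ℂˣ)
    (ρ : Representation ℂ G (Fin n → ℂ)) (g : G) :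
    LinearMap.det (twistRep β ρ g) = ((β g : ℂˣ) : ℂ) ^ n * LinearMap.det (ρ g) := by
  show LinearMap.det (((β g : ℂˣ) : ℂ) • ρ g) = _
  rw [LinearMap.det_smul]
  simp

theorem twistRep_irr {G : Type*} [Group G] {V : Type*} [AddCommGroup V] [Module ℂ V]
    (β : G →* ℂˣ) (ρ : Representation ℂ G V) [hρ : ρ.IsIrreducible] :
    (twistRep β ρ).IsIrreducible := by
  rw [irr_iff] at hρ ⊢
  refine ⟨hρ.1, fun U hU => hρ.2 U (fun g v hv => ?_)⟩
  have h1 := hU g v hv
  have h2 : ρ g v = (((β g : ℂˣ) : ℂ))⁻¹ • (twistRep β ρ g v) := by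
    show ρ g v = (((β g : ℂˣ) : ℂ))⁻¹ • (((β g : ℂˣ) : ℂ) • ρ g v)
    rw [smul_smul, inv_mul_cancel₀ (Units.ne_zero _), one_smul]
  rw [h2]
  exact U.smul_mem _ h1

end Cfsg.Agent.Lib.Lead
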