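import Mathlib
import Cfsg.Prelude.Def_CharExt
import Cfsg.Agent.Lib.Lead.DetChar
import Cfsg.Agent.Lib.Lead.Char1
import Cfsg.Agent.S0868

set_option autoImplicit false

namespace Cfsg.Agent.Lib.Lead

open Module Representation

/-- sum of `|χ|²` over a coset of a subgroup on which `χ` stays irreducible -/
theorem coset_sum_sq {K N₁ : Type*} [Group K] [Finite K] [Group N₁] [Fintype N₁] (ι : N₁ →* K)
    {k : ℕ} (ρ : Representation ℂ K (Fin k → ℂ)) (σ : Representation ℂ N₁ (Fin k → ℂ))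
    (hσ : ∀ n, σ n = ρ (ι n)) [hirr : σ.IsIrreducible] (h : K) :
    ∑ n : N₁, ρ.character (ι n * h) * (starRingEnd ℂ) (ρ.character (ι n * h))
      = (Fintype.card N₁ : ℂ) := by
  classical
  have hk : (k : ℂ) ≠ 0 := by
    have hnt : Nontrivial (Fin k → ℂ) := ((irr_iff σ).mp hirr).1
    have h1 : 0 < Module.finrank ℂ (Fin k → ℂ) := Module.finrank_pos
    rw [Module.finrank_fin_fun] at h1
    exact_mod_cast h1.ne'
  obtain ⟨M, hMdef⟩ : ∃ M : K → Matrix (Fin k) (Fin k) ℂ, M = fun x => LinearMap.toMatrix' (ρ x) :=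
    ⟨_, rfl⟩
  have hM1 : M 1 = 1 := by rw [hMdef]; simp
  have hMmul : ∀ x y, M (x * y) = M x * M y := by
    intro x y
    rw [hMdef]
    simp only [map_mul]
    exact LinearMap.toMatrix'_mul _ _
  have htr : ∀ x, ρ.character x = Matrix.trace (M x) := by
    intro x
    rw [hMdef]
    show LinearMap.trace ℂ _ (ρ x) = _
    rw [LinearMap.trace_eq_matrix_trace ℂ (Pi.basisFun ℂ (Fin k)), LinearMap.toMatrix_eq_toMatrix']
  have hschur : ∀ Φ : Matrix (Fin k) (Fin k) ℂ, (∀ n : N₁, M (ι n) * Φ = Φ * M (ι n)) →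
      ∃ c : ℂ, Φ = c • (1 : Matrix (Fin k) (Fin k) ℂ) := by
    intro Φ hΦ
    obtain ⟨c, hc⟩ := Cfsg.Agent.S0868.schur_scalar σ (Matrix.toLin' Φ) (by
      intro n v
      rw [hσ]
      have h1 := congrArg (fun X => Matrix.toLin' X v) (hΦ n)
      rw [hMdef] at h1
      simp only [Matrix.toLin'_mul, Matrix.toLin'_toMatrix'] at h1
      exact h1.symm)
    refine ⟨c, ?_⟩
    have h2 := congrArg LinearMap.toMatrix' hc
    simpa using h2
  have horth : ∀ j l i i' : Fin k, (k : ℂ) * ∑ n : N₁, M (ι n) i j * M (ι n⁻¹) l i'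
      = (Fintype.card N₁ : ℂ) * ((if j = l then 1 else 0) * (if i = i' then 1 else 0)) := by
    intro j l i i'
    obtain ⟨c, hc⟩ := hschur (∑ n : N₁, M (ι n) * Matrix.single j l 1 * M (ι n⁻¹)) (by
      intro m
      rw [Finset.mul_sum, Finset.sum_mul]
      apply Fintype.sum_equiv (Equiv.mulLeft m)
      intro n
      have h3 : M (ι m⁻¹) * M (ι m) = 1 := by rw [← hMmul, ← map_mul, inv_mul_cancel, map_one, hM1]
      simp only [Equiv.coe_mulLeft, mul_inv_rev, map_mul, hMmul, Matrix.mul_assoc]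
      rw [h3, Matrix.mul_one])
    have htrE : Matrix.trace (Matrix.single j l (1 : ℂ)) = if j = l then 1 else 0 := by
      simp only [Matrix.trace, Matrix.diag, Matrix.single_apply]
      by_cases hjl : j = l
      · subst hjl; simp
      · rw [if_neg hjl]
        apply Finset.sum_eq_zero
        intro x _
        rw [if_neg]
        rintro ⟨rfl, rfl⟩
        exact hjl rfl
    have htrace : (Fintype.card N₁ : ℂ) * (if j = l then 1 else 0) = c * k := by
      have h4 := congrArg Matrix.trace hc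
      rw [Matrix.trace_sum] at h4
      have h5 : ∀ n : N₁, Matrix.trace (M (ι n) * Matrix.single j l (1 : ℂ) * M (ι n⁻¹))
          = if j = l then 1 else 0 := by
        intro n
        rw [Matrix.trace_mul_cycle, ← hMmul, ← map_mul, inv_mul_cancel, map_one, hM1, Matrix.one_mul,
          htrE]
      rw [Finset.sum_congr rfl (fun n _ => h5 n), Finset.sum_const, Finset.card_univ, nsmul_eq_mul,
        Matrix.trace_smul, Matrix.trace_one, Fintype.card_fin, smul_eq_mul] at h4
      exact h4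
    have hentry : ∑ n : N₁, M (ι n) i j * M (ι n⁻¹) l i' = c * (if i = i' then 1 else 0) := by
      have h6 := congrFun (congrFun hc i) i'
      rw [Matrix.sum_apply] at h6
      have h7 : ∀ n : N₁, (M (ι n) * Matrix.single j l (1 : ℂ) * M (ι n⁻¹)) i i'
          = M (ι n) i j * M (ι n⁻¹) l i' := by
        intro n
        rw [Matrix.mul_apply, Finset.sum_eq_single l]
        · rw [Matrix.mul_single_apply_same, mul_one]
        · intro x _ hx
          rw [Matrix.mul_single_apply_of_ne (hbj := hx), zero_mul]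
        · intro hl
          exact absurd (Finset.mem_univ _) hl
      rw [Finset.sum_congr rfl (fun n _ => h7 n)] at h6
      rw [h6, Matrix.smul_apply, Matrix.one_apply, smul_eq_mul]
    rw [hentry, ← mul_assoc, mul_comm (k : ℂ) c, ← htrace]
    ring
  -- Fourier inversion
  have hPsi : ∀ A : Matrix (Fin k) (Fin k) ℂ,
      (k : ℂ) • ∑ n : N₁, Matrix.trace (M (ι n) * A) • M (ι n⁻¹) = (Fintype.card N₁ : ℂ) • A := by
    intro A
    ext l i'
    rw [Matrix.smul_apply, Matrix.sum_apply, Matrix.smul_apply, smul_eq_mul, smul_eq_mul]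
    have h8 : ∀ n : N₁, (Matrix.trace (M (ι n) * A) • M (ι n⁻¹)) l i'
        = ∑ i, ∑ j, A j i * (M (ι n) i j * M (ι n⁻¹) l i') := by
      intro n
      rw [Matrix.smul_apply, smul_eq_mul, Matrix.trace, Finset.sum_mul]
      apply Finset.sum_congr rfl
      intro i _
      rw [Matrix.diag_apply, Matrix.mul_apply, Finset.sum_mul]
      apply Finset.sum_congr rfl
      intro j _
      ring
    rw [Finset.sum_congr rfl (fun n _ => h8 n), Finset.sum_comm, Finset.mul_sum]
    have h9 : ∀ i : Fin k, (k : ℂ) * ∑ n : N₁, ∑ j, A j i * (M (ι n) i j * M (ι n⁻¹) l i')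
        = if i = i' then (Fintype.card N₁ : ℂ) * A l i' else 0 := by
      intro i
      rw [Finset.sum_comm, Finset.mul_sum]
      have h10 : ∀ j : Fin k, (k : ℂ) * ∑ n : N₁, A j i * (M (ι n) i j * M (ι n⁻¹) l i')
          = if j = l then (Fintype.card N₁ : ℂ) * A l i * (if i = i' then 1 else 0) else 0 := by
        intro j
        rw [← Finset.mul_sum, mul_left_comm, horth]
        by_cases hjl : j = l
        · subst hjl; simp; ring_nf
        · simp [hjl]
      rw [Finset.sum_congr rfl (fun j _ => h10 j), Finset.sum_ite_eq' Finset.univ l, if_pos (Finset.mem_univ _)]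
      by_cases hii : i = i'
      · subst hii; simp
      · simp [hii]
    rw [Finset.sum_congr rfl (fun i _ => h9 i), Finset.sum_ite_eq' Finset.univ i', if_pos (Finset.mem_univ _)]
  have hfin : (k : ℂ) * ∑ n : N₁, ρ.character (ι n * h) * (starRingEnd ℂ) (ρ.character (ι n * h))
      = (k : ℂ) * (Fintype.card N₁ : ℂ) := by
    have h11 : ∀ n : N₁, ρ.character (ι n * h) * (starRingEnd ℂ) (ρ.character (ι n * h))
        = Matrix.trace (M h⁻¹ * (Matrix.trace (M (ι n) * M h) • M (ι n⁻¹))) := by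
      intro n
      rw [← char_inv, htr, htr, mul_inv_rev, hMmul, hMmul, Matrix.mul_smul, Matrix.trace_smul, smul_eq_mul,
        map_inv]
    rw [Finset.sum_congr rfl (fun n _ => h11 n), ← Matrix.trace_sum, ← Matrix.mul_sum, ← smul_eq_mul,
      ← Matrix.trace_smul, ← Matrix.mul_smul, hPsi, Matrix.mul_smul, Matrix.trace_smul, ← hMmul,
      inv_mul_cancel, hM1, Matrix.trace_one, Fintype.card_fin, smul_eq_mul]
    ring
  exact mul_left_cancel₀ hk hfin

theorem detChar_comp {H K : Type*} [Group H] [Group K] [Finite H] [Finite K] (f : H →* K)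
    {χ : K → ℂ} (hχ : Cfsg.IsCharacter K χ) :
    Cfsg.detChar (fun x => χ (f x)) = fun x => Cfsg.detChar χ (f x) := by
  obtain ⟨n, ρ, rfl⟩ := hχ
  let ρ' : Representation ℂ H (Fin n → ℂ) := ρ.comp f
  have h1 : (fun x => ρ.character (f x)) = ρ'.character := rfl
  rw [h1, detChar_eq, detChar_eq]
  rfl

theorem irr_of_char_irr {G : Type*} [Group G] [Finite G] {V : Type*} [AddCommGroup V]
    [Module ℂ V] [FiniteDimensional ℂ V] (ρ : Representation ℂ G V)
    (h : Cfsg.IsIrrCharacter G ρ.character) : ρ.IsIrreducible := by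
  obtain ⟨n, ρ', hirr, hch⟩ := h
  obtain ⟨φ⟩ := equiv_of_char_eq ρ' ρ hch
  exact irr_of_equiv φ hirr

theorem isIrr_of_restrict_irr {H N₁ : Type*} [Group H] [Group N₁] [Finite N₁] (j : N₁ →* H)
    {χ : H → ℂ} (hχ : Cfsg.IsCharacter H χ) (hirr : Cfsg.IsIrrCharacter N₁ (fun n => χ (j n))) :
    Cfsg.IsIrrCharacter H χ := by
  obtain ⟨n, ρ, rfl⟩ := hχ
  let σ : Representation ℂ N₁ (Fin n → ℂ) := ρ.comp j
  have hσ : σ.IsIrreducible := irr_of_char_irr σ hirr
  refine ⟨n, ρ, ?_, rfl⟩
  rw [irr_iff] at hσ ⊢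
  refine ⟨hσ.1, fun U hU => hσ.2 U (fun g v hv => hU (j g) v hv)⟩

theorem coset_sum_sq' {K N₁ : Type*} [Group K] [Finite K] [Group N₁] [Fintype N₁] (ι : N₁ →* K)
    {χ : K → ℂ} (hχ : Cfsg.IsCharacter K χ) (hirr : Cfsg.IsIrrCharacter N₁ (fun n => χ (ι n)))
    (h : K) :
    ∑ n : N₁, χ (ι n * h) * (starRingEnd ℂ) (χ (ι n * h)) = (Fintype.card N₁ : ℂ) := by
  obtain ⟨n, ρ, rfl⟩ := hχ
  let σ : Representation ℂ N₁ (Fin n → ℂ) := ρ.comp ι
  haveI hσ : σ.IsIrreducible := irr_of_char_irr σ hirr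
  exact coset_sum_sq ι ρ σ (fun _ => rfl) h

end Cfsg.Agent.Lib.Lead
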