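import Mathlib
import Cfsg.Agent.Lib.Lead.Char11

set_option autoImplicit false

namespace Cfsg.Agent.Lib.Lead

/-- pairs `(σ, u)` of an automorphism and an element implementing it through `f` -/
def relSub {N U : Type*} [Group N] [Group U] (f : N →* U) : Subgroup (MulAut N × U) where
  carrier := {σ | ∀ n, f (σ.1 n) = σ.2 * f n * σ.2⁻¹}
  mul_mem' := by
    intro σ τ hσ hτ n
    show f ((σ.1 * τ.1) n) = (σ.2 * τ.2) * f n * (σ.2 * τ.2)⁻¹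
    rw [MulAut.mul_apply, hσ, hτ]; group
  one_mem' := by
    intro n
    show f ((1 : MulAut N) n) = 1 * f n * 1⁻¹
    simp
  inv_mem' := by
    intro σ hσ n
    show f (σ.1⁻¹ n) = σ.2⁻¹ * f n * σ.2⁻¹⁻¹
    have h := hσ (σ.1⁻¹ n)
    rw [MulAut.apply_inv_self] at h
    rw [h]; group

theorem relSub_zpow {N U : Type*} [Group N] [Group U] (f : N →* U) (c : MulAut N) (t : U)
    (h : ∀ n, f (c n) = t * f n * t⁻¹) (j : ℤ) (n : N) :
    f ((c ^ j) n) = t ^ j * f n * (t ^ j)⁻¹ := by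
  have hmem : ((c, t) : MulAut N × U) ∈ relSub f := h
  have h3 := (relSub f).zpow_mem hmem j n
  exact h3

theorem ext_cyclic {G U : Type*} [Group G] [Group U] (N : Subgroup G) [hN : N.Normal] (g₀ : G)
    (hgen : ∀ x : G, ∃ k : ℤ, g₀ ^ (-k) * x ∈ N) (f : N →* U) (t : U)
    (h1 : ∀ n : N, f (MulAut.conjNormal g₀ n) = t * f n * t⁻¹)
    (h2 : ∀ (j : ℤ) (hj : g₀ ^ j ∈ N), t ^ j = f ⟨g₀ ^ j, hj⟩) :
    ∃ F : G →* U, ∀ n : N, F n = f n := by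
  have hrel : ∀ (j : ℤ) (n : N), f ((MulAut.conjNormal (g₀ ^ j)) n) = t ^ j * f n * (t ^ j)⁻¹ := by
    intro j n
    rw [map_zpow]
    exact relSub_zpow f _ t h1 j n
  have key : ∀ (x : G) (k l : ℤ) (hk : g₀ ^ (-k) * x ∈ N) (hl : g₀ ^ (-l) * x ∈ N),
      t ^ k * f ⟨_, hk⟩ = t ^ l * f ⟨_, hl⟩ := by
    intro x k l hk hl
    have hj : g₀ ^ (k - l) ∈ N := by
      have : g₀ ^ (k - l) = (g₀ ^ (-l) * x) * (g₀ ^ (-k) * x)⁻¹ := by
        rw [zpow_sub, zpow_neg, zpow_neg]; group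
      rw [this]; exact N.mul_mem hl (N.inv_mem hk)
    have e : (⟨g₀ ^ (-l) * x, hl⟩ : N) = ⟨g₀ ^ (k - l), hj⟩ * ⟨g₀ ^ (-k) * x, hk⟩ := by
      apply Subtype.ext
      show g₀ ^ (-l) * x = g₀ ^ (k - l) * (g₀ ^ (-k) * x)
      rw [← mul_assoc, ← zpow_add]
      congr 2
      ring
    rw [e, map_mul, ← h2 (k - l) hj, ← mul_assoc, ← zpow_add]
    congr 2
    ring
  choose kf hkf using hgen
  let Ff : G → U := fun x => t ^ (kf x) * f ⟨g₀ ^ (-(kf x)) * x, hkf x⟩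
  have hFf : ∀ (x : G) (k : ℤ) (hk : g₀ ^ (-k) * x ∈ N), Ff x = t ^ k * f ⟨_, hk⟩ :=
    fun x k hk => key x _ k (hkf x) hk
  refine ⟨MonoidHom.mk' Ff ?_, ?_⟩
  · intro x y
    have hid : g₀ ^ (-(kf x + kf y)) * (x * y) =
        (g₀ ^ (-(kf y)) * (g₀ ^ (-(kf x)) * x) * (g₀ ^ (-(kf y)))⁻¹) * (g₀ ^ (-(kf y)) * y) := by
      rw [neg_add, zpow_add]; group
    have hxy : g₀ ^ (-(kf x + kf y)) * (x * y) ∈ N := by
      rw [hid]; exact N.mul_mem (hN.conj_mem _ (hkf x) _) (hkf y)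
    rw [hFf (x * y) (kf x + kf y) hxy]
    show _ = t ^ (kf x) * f ⟨_, hkf x⟩ * (t ^ (kf y) * f ⟨_, hkf y⟩)
    have e : (⟨g₀ ^ (-(kf x + kf y)) * (x * y), hxy⟩ : N) =
        (MulAut.conjNormal (g₀ ^ (-(kf y))) ⟨g₀ ^ (-(kf x)) * x, hkf x⟩) *
          ⟨g₀ ^ (-(kf y)) * y, hkf y⟩ := by
      apply Subtype.ext
      rw [Subgroup.coe_mul, MulAut.conjNormal_apply]
      exact hid
    rw [e, map_mul, hrel, zpow_add, zpow_neg]
    group
  · intro n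
    show Ff n = f n
    rw [hFf n 0 (by simp)]
    rw [zpow_zero, one_mul]
    congr 1
    apply Subtype.ext
    simp

end Cfsg.Agent.Lib.Lead
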