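import Mathlib
import Cfsg.Agent.Lib.Lead.ExtCyclic
import Cfsg.Agent.Lib.Lead.Char2

set_option autoImplicit false

namespace Cfsg.Agent.Lib.Lead

open Module Representation

set_option maxHeartbeats 1000000 in
theorem extend_cyclic_quotient {G : Type*} [Group G] [Finite G] (N : Subgroup G) [hN : N.Normal]
    (hcyc : IsCyclic (G ⧸ N)) (ϑ : N → ℂ) (hϑ : Cfsg.IsIrrCharacter N ϑ)
    (hinv : ∀ (g : G) (n : N), ϑ ⟨g * n * g⁻¹, hN.conj_mem (n : G) n.2 g⟩ = ϑ n) :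
    ∃ χ : G → ℂ, Cfsg.IsIrrCharacter G χ ∧ ∀ n : N, χ n = ϑ n := by
  classical
  obtain ⟨n₀, ρ, hirr, hchar⟩ := hϑ
  haveI := hirr
  obtain ⟨q, hq⟩ := hcyc.exists_generator
  obtain ⟨g₀, rfl⟩ := QuotientGroup.mk_surjective q
  have hgen : ∀ x : G, ∃ k : ℤ, g₀ ^ (-k) * x ∈ N := by
    intro x
    obtain ⟨k, hk⟩ := Subgroup.mem_zpowers_iff.1 (hq (x : G ⧸ N))
    refine ⟨k, ?_⟩
    have h4 : ((g₀ ^ k : G) : G ⧸ N) = (x : G ⧸ N) := by rw [QuotientGroup.mk_zpow]; exact hk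
    have h := QuotientGroup.eq.1 h4
    rwa [← zpow_neg] at h
  let c : MulAut N := MulAut.conjNormal g₀
  let ρ' : Representation ℂ N (Fin n₀ → ℂ) := ρ.comp c.toMonoidHom
  have hchar' : ρ.character = ρ'.character := by
    funext n
    show ρ.character n = ρ.character (c n)
    rw [hchar]
    have h4 : c n = ⟨g₀ * n * g₀⁻¹, hN.conj_mem (n : G) n.2 g₀⟩ :=
      Subtype.ext (MulAut.conjNormal_apply g₀ n)
    rw [h4, hinv]
  obtain ⟨φ⟩ := equiv_of_char_eq ρ ρ' hchar'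
  let ρu : N →* (Module.End ℂ (Fin n₀ → ℂ))ˣ := MonoidHom.toHomUnits ρ
  have hρu : ∀ n : N, ((ρu n : (Module.End ℂ (Fin n₀ → ℂ))ˣ) : Module.End ℂ (Fin n₀ → ℂ)) = ρ n :=
    fun n => rfl
  let Tu : (Module.End ℂ (Fin n₀ → ℂ))ˣ :=
    ⟨φ.toLinearEquiv.toLinearMap, φ.toLinearEquiv.symm.toLinearMap,
      LinearMap.ext (fun v => φ.toLinearEquiv.apply_symm_apply v),
      LinearMap.ext (fun v => φ.toLinearEquiv.symm_apply_apply v)⟩
  have hT : ∀ n : N, ρu (c n) = Tu * ρu n * Tu⁻¹ := by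
    intro n
    rw [eq_mul_inv_iff_mul_eq]
    apply Units.ext
    apply LinearMap.ext
    intro v
    show ρ (c n) (φ.toLinearEquiv v) = φ.toLinearEquiv (ρ n v)
    exact (equiv_apply φ n v).symm
  obtain ⟨m, hm⟩ : ∃ m, m = orderOf (g₀ : G ⧸ N) := ⟨_, rfl⟩
  have hmpos : 0 < m := by rw [hm]; exact orderOf_pos _
  have hzmem : g₀ ^ m ∈ N := by
    rw [← QuotientGroup.eq_one_iff, QuotientGroup.mk_pow, hm]; exact pow_orderOf_eq_one _
  obtain ⟨z, hz⟩ : ∃ z : N, z = ⟨g₀ ^ m, hzmem⟩ := ⟨_, rfl⟩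
  have hTm : ∀ n : N, ρu (z * n * z⁻¹) = Tu ^ m * ρu n * (Tu ^ m)⁻¹ := by
    intro n
    have h := relSub_zpow ρu c Tu hT (m : ℤ) n
    rw [zpow_natCast, zpow_natCast] at h
    rw [← h]
    congr 1
    apply Subtype.ext
    have h4 : c ^ m = MulAut.conjNormal (g₀ ^ m) := (map_pow MulAut.conjNormal g₀ m).symm
    rw [h4, MulAut.conjNormal_apply, hz]
    rfl
  have hcomm : (ρu z)⁻¹ * Tu ^ m ∈ Set.univ := trivial
  have hLu : ∀ n : N, (ρu z)⁻¹ * Tu ^ m * ρu n = ρu n * ((ρu z)⁻¹ * Tu ^ m) := by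
    intro n
    have h4 := hTm n
    rw [map_mul, map_mul, map_inv] at h4
    have h5 : Tu ^ m * ρu n = ρu z * ρu n * (ρu z)⁻¹ * Tu ^ m := by rw [h4]; group
    calc (ρu z)⁻¹ * Tu ^ m * ρu n = (ρu z)⁻¹ * (Tu ^ m * ρu n) := by group
      _ = (ρu z)⁻¹ * (ρu z * ρu n * (ρu z)⁻¹ * Tu ^ m) := by rw [h5]
      _ = ρu n * ((ρu z)⁻¹ * Tu ^ m) := by group
  obtain ⟨L, hLdef⟩ : ∃ L : Module.End ℂ (Fin n₀ → ℂ),
      L = (((ρu z)⁻¹ * Tu ^ m : (Module.End ℂ (Fin n₀ → ℂ))ˣ) : Module.End ℂ (Fin n₀ → ℂ)) :=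
    ⟨_, rfl⟩
  have hL : ∀ n : N, L ∘ₗ ρ n = ρ n ∘ₗ L := by
    intro n
    have h' := congrArg (fun u : (Module.End ℂ (Fin n₀ → ℂ))ˣ =>
      (u : Module.End ℂ (Fin n₀ → ℂ))) (hLu n)
    simp only [Units.val_mul] at h'
    rw [hLdef, Units.val_mul]
    exact h'
  obtain ⟨cst, hc⟩ :=
    (Representation.IsIrreducible.algebraMap_intertwiningMap_bijective_of_isAlgClosed (ρ := ρ)).2
      ⟨L, hL⟩
  have h1 := congrArg Representation.IntertwiningMap.toLinearMap hc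
  rw [Representation.IntertwiningMap.algebraMap_apply] at h1
  have hLc : L = cst • (1 : Module.End ℂ (Fin n₀ → ℂ)) := h1.symm
  have hTmc : ((Tu ^ m : (Module.End ℂ (Fin n₀ → ℂ))ˣ) : Module.End ℂ (Fin n₀ → ℂ)) =
      cst • ρ z := by
    have h4 : ((Tu ^ m : (Module.End ℂ (Fin n₀ → ℂ))ˣ) : Module.End ℂ (Fin n₀ → ℂ)) =
        (ρu z : Module.End ℂ (Fin n₀ → ℂ)) * L := by
      rw [hLdef, ← Units.val_mul, mul_inv_cancel_left]
    rw [h4, hLc, hρu, mul_smul_comm, mul_one]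
  have hV : Nontrivial (Fin n₀ → ℂ) := ((irr_iff ρ).1 hirr).1
  have hcst : cst ≠ 0 := by
    intro h0
    rw [h0, zero_smul] at hTmc
    obtain ⟨v, hv⟩ := exists_ne (0 : Fin n₀ → ℂ)
    apply hv
    have h5 : ((Tu ^ m)⁻¹ * Tu ^ m : (Module.End ℂ (Fin n₀ → ℂ))ˣ) = 1 := inv_mul_cancel _
    have h6 := congrArg (fun u : (Module.End ℂ (Fin n₀ → ℂ))ˣ =>
      (u : Module.End ℂ (Fin n₀ → ℂ)) v) h5
    simp only [Units.val_mul, Module.End.mul_apply, Units.val_one, Module.End.one_apply] at h6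
    rw [hTmc] at h6
    simpa using h6.symm
  obtain ⟨lam, hlam⟩ := IsAlgClosed.exists_pow_nat_eq (cst⁻¹) hmpos
  have hlam0 : lam ≠ 0 := by
    intro h
    rw [h, zero_pow hmpos.ne'] at hlam
    exact inv_ne_zero hcst hlam.symm
  obtain ⟨su, hsuval⟩ : ∃ su : (Module.End ℂ (Fin n₀ → ℂ))ˣ,
      (su : Module.End ℂ (Fin n₀ → ℂ)) = lam • (1 : Module.End ℂ (Fin n₀ → ℂ)) :=
    ⟨Units.map (algebraMap ℂ (Module.End ℂ (Fin n₀ → ℂ))).toMonoidHom (Units.mk0 lam hlam0),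
      Algebra.algebraMap_eq_smul_one lam⟩
  have hsu : ∀ u : (Module.End ℂ (Fin n₀ → ℂ))ˣ, su * u = u * su := by
    intro u
    apply Units.ext
    rw [Units.val_mul, Units.val_mul, hsuval]
    simp
  have hT' : ∀ n : N, ρu ((MulAut.conjNormal g₀) n) = (su * Tu) * ρu n * (su * Tu)⁻¹ := by
    intro n
    have h4 : ρu ((MulAut.conjNormal g₀) n) = Tu * ρu n * Tu⁻¹ := hT n
    rw [h4, mul_inv_rev]
    calc Tu * ρu n * Tu⁻¹ = (Tu * ρu n * Tu⁻¹) * su * su⁻¹ := by group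
      _ = su * (Tu * ρu n * Tu⁻¹) * su⁻¹ := by rw [hsu]
      _ = su * Tu * ρu n * (Tu⁻¹ * su⁻¹) := by group
  have hT'm : (su * Tu) ^ m = ρu z := by
    have hcm : Commute su Tu := hsu Tu
    rw [hcm.mul_pow]
    apply Units.ext
    rw [Units.val_mul, Units.val_pow_eq_pow_val, hsuval, hTmc, hρu, smul_pow, one_pow,
      smul_mul_smul_comm, one_mul, hlam, inv_mul_cancel₀ hcst, one_smul]
  have h2 : ∀ (j : ℤ) (hj : g₀ ^ j ∈ N), (su * Tu) ^ j = ρu ⟨g₀ ^ j, hj⟩ := by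
    intro j hj
    have hq1 : (g₀ : G ⧸ N) ^ j = 1 := by
      rw [← QuotientGroup.mk_zpow]; exact (QuotientGroup.eq_one_iff _).2 hj
    have hdvd := orderOf_dvd_iff_zpow_eq_one.2 hq1
    rw [← hm] at hdvd
    obtain ⟨i, hi⟩ := hdvd
    have h4 : (su * Tu) ^ j = ρu (z ^ i) := by
      rw [hi, zpow_mul, zpow_natCast, hT'm, map_zpow]
    rw [h4]
    congr 1
    apply Subtype.ext
    rw [Subgroup.coe_zpow, hz]
    show (g₀ ^ m) ^ i = g₀ ^ j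
    rw [hi, zpow_mul, zpow_natCast]
  obtain ⟨F, hF⟩ := ext_cyclic N g₀ hgen ρu (su * Tu) hT' h2
  let ρt : Representation ℂ G (Fin n₀ → ℂ) := (Units.coeHom (Module.End ℂ (Fin n₀ → ℂ))).comp F
  have hρt : ∀ n : N, ρt n = ρ n := by
    intro n
    show ((F n : (Module.End ℂ (Fin n₀ → ℂ))ˣ) : Module.End ℂ (Fin n₀ → ℂ)) = ρ n
    rw [hF]
    rfl
  have hirr' : ρt.IsIrreducible := by
    rw [irr_iff]
    refine ⟨hV, fun U hU => ?_⟩
    exact ((irr_iff ρ).1 hirr).2 U (fun n v hv => by rw [← hρt]; exact hU n v hv)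
  refine ⟨ρt.character, ⟨n₀, ρt, hirr', rfl⟩, fun n => ?_⟩
  rw [← hchar]
  show LinearMap.trace ℂ (Fin n₀ → ℂ) (ρt n) = LinearMap.trace ℂ (Fin n₀ → ℂ) (ρ n)
  rw [hρt]

end Cfsg.Agent.Lib.Lead
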