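import Mathlib

set_option autoImplicit false

namespace Cfsg.Agent.Lib.Lead

open scoped Pointwise commutatorElement

/-- in a nontrivial finite solvable group there is a proper normal subgroup modulo which the
group is generated by one element -/
theorem exists_cyclic_step_aux (E : Type*) [Group E] [Finite E] [Group.IsSolvable E] [Nontrivial E] :
    ∃ (M : Subgroup E) (g : E), M ≠ ⊤ ∧ M.Normal ∧ ∀ x : E, ∃ i : ℤ, g ^ (-i) * x ∈ M := by
  classical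
  have hlt := Group.IsSolvable.commutator_lt_top_of_nontrivial E
  obtain ⟨M, hM1, hM2⟩ := (Set.toFinite {M : Subgroup E | commutator E ≤ M ∧ M ≠ ⊤}).exists_le_maximal
    (show commutator E ∈ {M : Subgroup E | commutator E ≤ M ∧ M ≠ ⊤} from ⟨le_rfl, hlt.ne⟩)
  have hMn : M.Normal := by
    constructor
    intro m hm e
    have h1 : e * m * e⁻¹ = ⁅e, m⁆ * m := by
      rw [commutatorElement_def]; group
    rw [h1]
    refine M.mul_mem (hM1 ?_) hm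
    rw [commutator_def]
    exact Subgroup.commutator_mem_commutator (Subgroup.mem_top e) (Subgroup.mem_top m)
  obtain ⟨g, hg⟩ : ∃ g : E, g ∉ M := by
    by_contra hcon
    push Not at hcon
    exact hM2.1.2 (eq_top_iff.2 (fun x _ => hcon x))
  have htop : Subgroup.zpowers g ⊔ M = ⊤ := by
    by_contra hne
    have h2 : Subgroup.zpowers g ⊔ M ≤ M :=
      hM2.2 (show Subgroup.zpowers g ⊔ M ∈ {M : Subgroup E | commutator E ≤ M ∧ M ≠ ⊤} from
        ⟨hM1.trans le_sup_right, hne⟩) le_sup_right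
    exact hg (h2 (Subgroup.mem_sup_left (Subgroup.mem_zpowers g)))
  refine ⟨M, g, hM2.1.2, hMn, fun x => ?_⟩
  have hx : x ∈ ((Subgroup.zpowers g ⊔ M : Subgroup E) : Set E) := by rw [htop]; trivial
  rw [Subgroup.mul_normal] at hx
  obtain ⟨a, ha, m, hm, rfl⟩ := Set.mem_mul.mp hx
  obtain ⟨i, rfl⟩ := Subgroup.mem_zpowers_iff.mp ha
  refine ⟨i, ?_⟩
  rw [zpow_neg, inv_mul_cancel_left]
  exact hm

theorem exists_cyclic_step {G : Type*} [Group G] [Finite G] (E : Subgroup G) [Group.IsSolvable E]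
    (hE : E ≠ ⊥) :
    ∃ (M : Subgroup G) (g : G), M < E ∧ (∀ e ∈ E, ∀ m ∈ M, e * m * e⁻¹ ∈ M) ∧ g ∈ E ∧
      ∀ x ∈ E, ∃ i : ℤ, g ^ (-i) * x ∈ M := by
  haveI : Nontrivial E := (Subgroup.nontrivial_iff_ne_bot E).mpr hE
  obtain ⟨M₀, g, hne, hnorm, hgen⟩ := exists_cyclic_step_aux E
  refine ⟨M₀.map E.subtype, (g : G), ?_, ?_, g.2, ?_⟩
  · refine lt_of_le_of_ne (Subgroup.map_subtype_le M₀) ?_
    intro heq
    apply hne
    rw [eq_top_iff]
    intro x _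
    have hx : (x : G) ∈ M₀.map E.subtype := by rw [heq]; exact x.2
    obtain ⟨y, hy, hyx⟩ := Subgroup.mem_map.mp hx
    have : y = x := Subtype.ext hyx
    rw [← this]; exact hy
  · rintro e he _ ⟨m, hm, rfl⟩
    exact Subgroup.mem_map.mpr ⟨⟨e, he⟩ * m * ⟨e, he⟩⁻¹, hnorm.conj_mem m hm ⟨e, he⟩, rfl⟩
  · intro x hx
    obtain ⟨i, hi⟩ := hgen ⟨x, hx⟩
    exact ⟨i, Subgroup.mem_map.mpr ⟨_, hi, by simp⟩⟩

theorem sup_step {G : Type*} [Group G] [Finite G] (N : Subgroup G) [hN : N.Normal]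
    (M E : Subgroup G) (hME : M ≤ E) (hconj : ∀ e ∈ E, ∀ m ∈ M, e * m * e⁻¹ ∈ M) (g : G)
    (hg : g ∈ E) (hgen : ∀ x ∈ E, ∃ i : ℤ, g ^ (-i) * x ∈ M) :
    N ⊔ M ≤ N ⊔ E ∧ N ⊔ E ≤ Subgroup.normalizer ((N ⊔ M : Subgroup G) : Set G) ∧ g ∈ N ⊔ E ∧
      ∀ x ∈ N ⊔ E, ∃ i : ℤ, g ^ (-i) * x ∈ N ⊔ M := by
  have hmem : ∀ (K : Subgroup G) (x : G), x ∈ N ⊔ K ↔ ∃ n ∈ N, ∃ k ∈ K, n * k = x := by
    intro K x
    rw [← SetLike.mem_coe, Subgroup.normal_mul]
    exact Set.mem_mul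
  refine ⟨sup_le_sup_left hME N, ?_, Subgroup.mem_sup_right hg, ?_⟩
  · refine sup_le (le_sup_left.trans Subgroup.le_normalizer) ?_
    intro e he
    apply Subgroup.mem_normalizer_fintype
    intro y hy
    have hy' : y ∈ N ⊔ M := hy
    obtain ⟨n, hn, m, hm, rfl⟩ := (hmem M y).mp hy'
    have h1 : e * (n * m) * e⁻¹ = (e * n * e⁻¹) * (e * m * e⁻¹) := by group
    show e * (n * m) * e⁻¹ ∈ N ⊔ M
    rw [h1]
    exact mul_mem (Subgroup.mem_sup_left (hN.conj_mem n hn e)) (Subgroup.mem_sup_right (hconj e he m hm))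
  · intro x hx
    obtain ⟨n, hn, e, he, rfl⟩ := (hmem E x).mp hx
    obtain ⟨i, hi⟩ := hgen e he
    refine ⟨i, ?_⟩
    have h1 : g ^ (-i) * (n * e) = (g ^ (-i) * n * (g ^ (-i))⁻¹) * (g ^ (-i) * e) := by group
    rw [h1]
    exact mul_mem (Subgroup.mem_sup_left (hN.conj_mem n hn _)) (Subgroup.mem_sup_right hi)

end Cfsg.Agent.Lib.Lead
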