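import Mathlib
import Cfsg.Prelude.Def_CharExt
import Cfsg.Agent.Lib.Lead.Gal1
import Cfsg.Agent.Lib.Lead.Gal2
import Cfsg.Agent.Lib.Lead.LinTransfer
import Cfsg.Agent.Lib.Lead.ExtCyclic2
import Cfsg.Agent.Lib.Lead.Brauer5
import Cfsg.Agent.Lib.Lead.Brauer6
import Cfsg.Agent.Lib.Lead.Frob4
import Cfsg.Agent.Lib.Lead.Char13
import Cfsg.Agent.S0862

set_option autoImplicit false

namespace Cfsg.Agent.Lib.Lead

section Gal3
variable {G : Type*} [Group G] [Finite G] (N : Subgroup G) (θ : N → ℂ) (mu : G →* ℂˣ)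

/-- an irreducible extension of `θ` to `H` with determinant `mu` -/
def GoodExt (H : Subgroup G) (χ : H → ℂ) : Prop :=
  Cfsg.IsIrrCharacter H χ ∧ (∀ (n : G) (hn : n ∈ N) (hn' : n ∈ H), χ ⟨n, hn'⟩ = θ ⟨n, hn⟩) ∧
    Cfsg.detChar χ = fun h : H => ((mu (h : G) : ℂˣ) : ℂ)

/-- the standing hypotheses of Gallagher's determinant criterion -/
def GalHyp [hN : N.Normal] (d : ℕ) : Prop :=
  Cfsg.IsIrrCharacter N θ ∧
    (∀ (g : G) (n : N), θ ⟨g * n * g⁻¹, hN.conj_mem (n : G) n.2 g⟩ = θ n) ∧ θ 1 = d ∧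
    Nat.Coprime N.index d ∧ ∀ n : N, ((mu (n : G) : ℂˣ) : ℂ) = Cfsg.detChar θ n

theorem good_unique [hN : N.Normal] {d : ℕ} (hyp : GalHyp N θ mu d) (H : Subgroup G)
    (hNH : N ≤ H)
    (hext : ∃ η : H → ℂ, Cfsg.IsIrrCharacter H η ∧
      ∀ (n : G) (hn : n ∈ N) (hn' : n ∈ H), η ⟨n, hn'⟩ = θ ⟨n, hn⟩) :
    ∃! χ : H → ℂ, GoodExt N θ mu H χ := by
  obtain ⟨hθ, hinv, hd, hcop, hμN⟩ := hyp
  haveI : (N.subgroupOf H).Normal := hN.subgroupOf H
  let e : N.subgroupOf H ≃* N := Subgroup.subgroupOfEquivOfLe hNH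
  have hθ' : Cfsg.IsIrrCharacter (N.subgroupOf H) (fun x => θ (e x)) :=
    isIrrCharacter_comp_surj e.toMonoidHom e.surjective hθ
  have hd' : (fun x : N.subgroupOf H => θ (e x)) 1 = d := by
    show θ (e 1) = d
    rw [map_one]; exact hd
  have hcop' : Nat.Coprime (N.subgroupOf H).index d :=
    Nat.Coprime.coprime_dvd_left (Subgroup.relIndex_dvd_index_of_normal N H) hcop
  have hext' : ∃ η : H → ℂ, Cfsg.IsIrrCharacter H η ∧
      ∀ n : N.subgroupOf H, η n = θ (e n) := by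
    obtain ⟨η, h1, h2⟩ := hext
    exact ⟨η, h1, fun n => h2 _ (Subgroup.mem_subgroupOf.mp n.2) _⟩
  have hμ' : Cfsg.IsCharacter H (fun h : H => ((mu (h : G) : ℂˣ) : ℂ)) ∧
      (fun h : H => ((mu (h : G) : ℂˣ) : ℂ)) 1 = 1 :=
    ⟨isCharacter_of_hom (mu.comp H.subtype), by simp⟩
  have hμN' : ∀ n : N.subgroupOf H, (fun h : H => ((mu (h : G) : ℂˣ) : ℂ)) n
      = Cfsg.detChar (fun x => θ (e x)) n := by
    intro n
    have h1 : Cfsg.detChar (fun x : N.subgroupOf H => θ (e x)) = fun x => Cfsg.detChar θ (e x) :=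
      detChar_comp e.toMonoidHom (isCharacter_of_irr hθ)
    rw [h1]
    exact hμN (e n)
  obtain ⟨χ, ⟨hχ1, hχ2, hχ3⟩, huniq⟩ := Cfsg.Agent.S0862.result (N.subgroupOf H)
    (fun x => θ (e x)) hθ' d hd' hcop' hext' _ hμ' hμN'
  refine ⟨χ, ⟨hχ1, ?_, hχ3⟩, ?_⟩
  · intro n hn hn'
    exact hχ2 ⟨⟨n, hn'⟩, Subgroup.mem_subgroupOf.mpr hn⟩
  · rintro χ' ⟨h1, h2, h3⟩
    exact huniq χ' ⟨h1, fun n => h2 _ (Subgroup.mem_subgroupOf.mp n.2) _, h3⟩

theorem good_restrict [hN : N.Normal] {d : ℕ} (hyp : GalHyp N θ mu d) (H K : Subgroup G)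
    (hNH : N ≤ H) (hHK : H ≤ K) (χ : K → ℂ) (hχ : GoodExt N θ mu K χ) :
    GoodExt N θ mu H (fun h => χ (Subgroup.inclusion hHK h)) := by
  obtain ⟨hθ, hinv, hd, hcop, hμN⟩ := hyp
  obtain ⟨h1, h2, h3⟩ := hχ
  have hchar : Cfsg.IsCharacter H (fun h => χ (Subgroup.inclusion hHK h)) :=
    isCharacter_comp (Subgroup.inclusion hHK) (isCharacter_of_irr h1)
  refine ⟨?_, ?_, ?_⟩
  · apply isIrr_of_restrict_irr (Subgroup.inclusion hNH) hchar
    have h4 : (fun n : N => χ (Subgroup.inclusion hHK (Subgroup.inclusion hNH n))) = θ := by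
      funext n
      exact h2 n n.2 _
    rw [h4]; exact hθ
  · intro n hn hn'
    exact h2 n hn _
  · rw [detChar_comp (Subgroup.inclusion hHK) (isCharacter_of_irr h1), h3]
    rfl

theorem good_conj [hN : N.Normal] {d : ℕ} (hyp : GalHyp N θ mu d) (x : G) (H H' : Subgroup G)
    (hNH' : N ≤ H') (f : H' →* H) (hf : ∀ h' : H', ((f h' : H) : G) = x⁻¹ * h' * x) (χ : H → ℂ)
    (hχ : GoodExt N θ mu H χ) : GoodExt N θ mu H' (fun h' => χ (f h')) := by
  obtain ⟨hθ, hinv, hd, hcop, hμN⟩ := hyp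
  obtain ⟨h1, h2, h3⟩ := hχ
  have hchar : Cfsg.IsCharacter H' (fun h' => χ (f h')) := isCharacter_comp f (isCharacter_of_irr h1)
  have hres : ∀ (n : G) (hn : n ∈ N) (hn' : n ∈ H'), χ (f ⟨n, hn'⟩) = θ ⟨n, hn⟩ := by
    intro n hn hn'
    have hmem : x⁻¹ * n * x ∈ N := by simpa using hN.conj_mem n hn x⁻¹
    have hmemH : x⁻¹ * n * x ∈ H := by rw [← hf ⟨n, hn'⟩]; exact (f ⟨n, hn'⟩).2
    have h4 : f ⟨n, hn'⟩ = ⟨x⁻¹ * n * x, hmemH⟩ := Subtype.ext (hf ⟨n, hn'⟩)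
    rw [h4, h2 _ hmem]
    have h5 := hinv x⁻¹ ⟨n, hn⟩
    rw [← h5]
    congr 1
    apply Subtype.ext
    simp
  refine ⟨?_, hres, ?_⟩
  · apply isIrr_of_restrict_irr (Subgroup.inclusion hNH') hchar
    have h6 : (fun n : N => χ (f (Subgroup.inclusion hNH' n))) = θ := by
      funext n
      exact hres n n.2 _
    rw [h6]; exact hθ
  · rw [detChar_comp f (isCharacter_of_irr h1), h3]
    funext h'
    show ((mu ((f h' : H) : G) : ℂˣ) : ℂ) = _
    rw [hf, map_mul, map_mul, map_inv, mul_comm, mul_inv_cancel_left]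

theorem good_step [hN : N.Normal] {d : ℕ} (hyp : GalHyp N θ mu d) (M K : Subgroup G)
    (hNM : N ≤ M) (hMK : M ≤ K) (hKM : K ≤ Subgroup.normalizer (M : Set G)) (g : G) (hg : g ∈ K)
    (hgen : ∀ x ∈ K, ∃ i : ℤ, g ^ (-i) * x ∈ M) (χ : M → ℂ) (hχ : GoodExt N θ mu M χ) :
    ∃ χ' : K → ℂ, GoodExt N θ mu K χ' := by
  have huniqM := good_unique N θ mu hyp M hNM ⟨χ, hχ.1, hχ.2.1⟩
  have hKinv : ∀ (k : G) (hk : k ∈ K) (m : G) (hm : m ∈ M) (hm' : k * m * k⁻¹ ∈ M),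
      χ ⟨k * m * k⁻¹, hm'⟩ = χ ⟨m, hm⟩ := by
    intro k hk m hm hm'
    have hconj : ∀ y : M, k * y * k⁻¹ ∈ M := fun y =>
      (Subgroup.mem_normalizer_iff.mp (hKM hk) y).mp y.2
    let f : M →* M :=
      { toFun := fun y => ⟨k * y * k⁻¹, hconj y⟩
        map_one' := by ext; simp
        map_mul' := by intro a b; ext; simp }
    have hf : ∀ y : M, ((f y : M) : G) = k⁻¹⁻¹ * y * k⁻¹ := fun y => by simp [f]
    have hgood := good_conj N θ mu hyp k⁻¹ M M hNM f hf χ hχ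
    have h1 := huniqM.unique hgood hχ
    exact congrFun h1 ⟨m, hm⟩
  haveI : (M.subgroupOf K).Normal := Subgroup.normal_subgroupOf_of_le_normalizer hKM
  have hcyc : IsCyclic (K ⧸ M.subgroupOf K) := by
    refine ⟨⟨QuotientGroup.mk ⟨g, hg⟩, fun q => ?_⟩⟩
    obtain ⟨x, rfl⟩ := QuotientGroup.mk_surjective q
    obtain ⟨i, hi⟩ := hgen x x.2
    refine ⟨i, ?_⟩
    show (QuotientGroup.mk ⟨g, hg⟩ : K ⧸ M.subgroupOf K) ^ i = QuotientGroup.mk x
    rw [← QuotientGroup.mk_zpow, QuotientGroup.eq, Subgroup.mem_subgroupOf]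
    simpa [zpow_neg] using hi
  let e : M.subgroupOf K ≃* M := Subgroup.subgroupOfEquivOfLe hMK
  have hθ' : Cfsg.IsIrrCharacter (M.subgroupOf K) (fun x => χ (e x)) :=
    isIrrCharacter_comp_surj e.toMonoidHom e.surjective hχ.1
  obtain ⟨η, hη1, hη2⟩ := extend_cyclic_quotient (M.subgroupOf K) hcyc (fun x => χ (e x)) hθ' (by
    intro k m
    exact hKinv k k.2 (m : K) (Subgroup.mem_subgroupOf.mp m.2) _)
  have hext : ∃ η : K → ℂ, Cfsg.IsIrrCharacter K η ∧
      ∀ (n : G) (hn : n ∈ N) (hn' : n ∈ K), η ⟨n, hn'⟩ = θ ⟨n, hn⟩ := by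
    refine ⟨η, hη1, fun n hn hn' => ?_⟩
    have h2 := hη2 ⟨⟨n, hn'⟩, Subgroup.mem_subgroupOf.mpr (hNM hn)⟩
    rw [← hχ.2.1 n hn (hNM hn)]
    exact h2
  obtain ⟨χ', hχ', -⟩ := good_unique N θ mu hyp K (hNM.trans hMK) hext
  exact ⟨χ', hχ'⟩

theorem good_of_eq [hN : N.Normal] {d : ℕ} (hyp : GalHyp N θ mu d) (H : Subgroup G)
    (hH : N = H) : ∃ χ : H → ℂ, GoodExt N θ mu H χ := by
  subst hH
  obtain ⟨hθ, hinv, hd, hcop, hμN⟩ := hyp
  exact ⟨θ, hθ, fun n hn hn' => rfl, funext fun n => (hμN n).symm⟩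

theorem good_solv [hN : N.Normal] {d : ℕ} (hyp : GalHyp N θ mu d) :
    ∀ (n : ℕ) (E : Subgroup G), Nat.card E ≤ n → Group.IsSolvable E →
      ∃ χ : (N ⊔ E : Subgroup G) → ℂ, GoodExt N θ mu (N ⊔ E) χ := by
  intro n
  induction n with
  | zero =>
    intro E hE _
    have := Nat.card_pos (α := E)
    omega
  | succ n ih =>
    intro E hE hsolv
    by_cases hbot : E = ⊥
    · exact good_of_eq N θ mu hyp _ (by rw [hbot, sup_bot_eq])
    · haveI := hsolv
      obtain ⟨M, g, hlt, hconj, hg, hgen⟩ := exists_cyclic_step E hbot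
      have hcard : Nat.card M < Nat.card E :=
        (Set.toFinite (E : Set G)).card_lt_card (SetLike.coe_ssubset_coe.mpr hlt)
      obtain ⟨χ, hχ⟩ := ih M (by omega)
        (solvable_of_solvable_injective (Subgroup.inclusion_injective hlt.le))
      obtain ⟨h1, h2, h3, h4⟩ := sup_step N M E hlt.le hconj g hg hgen
      exact good_step N θ mu hyp (N ⊔ M) (N ⊔ E) le_sup_left h1 h2 g h3 h4 χ hχ

theorem zpowers_solvable' {G : Type*} [Group G] (g : G) :
    Group.IsSolvable (Subgroup.zpowers g) := by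
  apply isSolvable_of_comm
  rintro ⟨a, i, rfl⟩ ⟨b, j, rfl⟩
  apply Subtype.ext
  exact zpow_mul_comm g i j

/-- **Gallagher's determinant criterion** (the hard direction) -/
theorem gallagher_det [hN : N.Normal] {d : ℕ} (hyp : GalHyp N θ mu d) :
    ∃ χ : G → ℂ, Cfsg.IsIrrCharacter G χ ∧ ∀ n : N, χ n = θ n := by
  classical
  haveI : Fintype G := Fintype.ofFinite G
  haveI : Fintype N := Fintype.ofFinite N
  have hyp' := hyp
  obtain ⟨hθ, hinv, hd, hcop, hμN⟩ := hyp'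
  have hex : ∀ g : G, ∃ χ : (N ⊔ Subgroup.zpowers g : Subgroup G) → ℂ,
      GoodExt N θ mu (N ⊔ Subgroup.zpowers g) χ := by
    intro g
    exact good_solv N θ mu hyp _ (Subgroup.zpowers g) le_rfl (zpowers_solvable' g)
  choose X hX using hex
  have hgmem : ∀ g : G, g ∈ N ⊔ Subgroup.zpowers g := fun g =>
    Subgroup.mem_sup_right (Subgroup.mem_zpowers g)
  obtain ⟨ψ, hψdef⟩ : ∃ ψ : G → ℂ, ψ = fun g => X g ⟨g, hgmem g⟩ := ⟨_, rfl⟩
  have hK : ∀ (H : Subgroup G) (hNH : N ≤ H) (χ : H → ℂ), GoodExt N θ mu H χ →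
      ∀ (g : G) (hg : g ∈ H), ψ g = χ ⟨g, hg⟩ := by
    intro H hNH χ hχ g hg
    have hle : N ⊔ Subgroup.zpowers g ≤ H := sup_le hNH ((Subgroup.zpowers_le).mpr hg)
    have h1 := good_restrict N θ mu hyp _ H le_sup_left hle χ hχ
    have h2 := (good_unique N θ mu hyp _ le_sup_left ⟨X g, (hX g).1, (hX g).2.1⟩).unique (hX g) h1
    rw [hψdef]
    show X g ⟨g, hgmem g⟩ = _
    rw [h2]
    rfl
  have hclass : Cfsg.IsClassFunction G ψ := by
    intro g h
    have hmap : N ⊔ Subgroup.zpowers (h * g * h⁻¹)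
        ≤ (N ⊔ Subgroup.zpowers g).map (MulAut.conj h).toMonoidHom := by
      refine sup_le ?_ ?_
      · intro n hn
        refine Subgroup.mem_map.mpr ⟨h⁻¹ * n * h,
          Subgroup.mem_sup_left (by simpa using hN.conj_mem n hn h⁻¹), by simp [mul_assoc]⟩
      · rw [Subgroup.zpowers_le]
        exact Subgroup.mem_map.mpr ⟨g, hgmem g, by simp⟩
    have hconj : ∀ y : (N ⊔ Subgroup.zpowers (h * g * h⁻¹) : Subgroup G),
        h⁻¹ * y * h ∈ N ⊔ Subgroup.zpowers g := by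
      intro y
      obtain ⟨z, hz, hzy⟩ := Subgroup.mem_map.mp (hmap y.2)
      have h3 : h⁻¹ * y * h = z := by rw [← hzy]; simp [mul_assoc]
      rw [h3]; exact hz
    let f : (N ⊔ Subgroup.zpowers (h * g * h⁻¹) : Subgroup G) →*
        (N ⊔ Subgroup.zpowers g : Subgroup G) :=
      { toFun := fun y => ⟨h⁻¹ * y * h, hconj y⟩
        map_one' := by ext; simp
        map_mul' := by intro a b; ext; simp [mul_assoc] }
    have hgood := good_conj N θ mu hyp h _ _ le_sup_left f (fun y => rfl) (X g) (hX g)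
    rw [hK _ le_sup_left _ hgood (h * g * h⁻¹) (hgmem _)]
    rw [hψdef]
    show X g (f ⟨h * g * h⁻¹, _⟩) = X g ⟨g, hgmem g⟩
    congr 1
    apply Subtype.ext
    show h⁻¹ * (h * g * h⁻¹) * h = g
    group
  have hgen : Cfsg.IsGeneralizedCharacter G ψ := by
    apply brauer_char ψ hclass
    intro E p hp hE
    have hnil : Group.IsNilpotent E := isNilpotent_of_elementary hp hE
    obtain ⟨χ, hχ⟩ := good_solv N θ mu hyp _ E le_rfl inferInstance
    have h1 : (fun e : E => ψ e) = fun e => χ (Subgroup.inclusion le_sup_right e) := by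
      funext e
      exact hK _ le_sup_left χ hχ e (Subgroup.mem_sup_right e.2)
    rw [h1]
    exact isGen_of_char
      (isCharacter_comp (Subgroup.inclusion le_sup_right) (isCharacter_of_irr hχ.1))
  have hcoset : ∀ g : G, ∑ n : N, ψ ((n : G) * g) * (starRingEnd ℂ) (ψ ((n : G) * g))
      = (Fintype.card N : ℂ) := by
    intro g
    have h1 := coset_sum_sq' (Subgroup.inclusion (le_sup_left : N ≤ N ⊔ Subgroup.zpowers g))
      (isCharacter_of_irr (hX g).1) (by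
        have h6 : (fun n : N => X g (Subgroup.inclusion
            (le_sup_left : N ≤ N ⊔ Subgroup.zpowers g) n)) = θ := by
          funext n
          exact (hX g).2.1 n n.2 _
        rw [h6]; exact hθ) ⟨g, hgmem g⟩
    rw [← h1]
    apply Finset.sum_congr rfl
    intro n _
    have h2 : ψ ((n : G) * g) = X g (Subgroup.inclusion
        (le_sup_left : N ≤ N ⊔ Subgroup.zpowers g) n * ⟨g, hgmem g⟩) :=
      hK _ le_sup_left (X g) (hX g) _ _
    rw [h2]
  have hsum : ∑ g : G, ψ g * (starRingEnd ℂ) (ψ g) = (Fintype.card G : ℂ) := by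
    have h3 : (Fintype.card N : ℂ) * ∑ g : G, ψ g * (starRingEnd ℂ) (ψ g)
        = (Fintype.card N : ℂ) * (Fintype.card G : ℂ) := by
      calc (Fintype.card N : ℂ) * ∑ g : G, ψ g * (starRingEnd ℂ) (ψ g)
          = ∑ n : N, ∑ g : G, ψ ((n : G) * g) * (starRingEnd ℂ) (ψ ((n : G) * g)) := by
            rw [← nsmul_eq_mul, ← Finset.card_univ, ← Finset.sum_const]
            apply Finset.sum_congr rfl
            intro n _
            exact (Fintype.sum_equiv (Equiv.mulLeft (n : G)) _ _ (fun g => rfl)).symm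
        _ = ∑ g : G, ∑ n : N, ψ ((n : G) * g) * (starRingEnd ℂ) (ψ ((n : G) * g)) :=
            Finset.sum_comm
        _ = ∑ g : G, (Fintype.card N : ℂ) := Finset.sum_congr rfl (fun g _ => hcoset g)
        _ = (Fintype.card N : ℂ) * (Fintype.card G : ℂ) := by
            rw [Finset.sum_const, Finset.card_univ, nsmul_eq_mul]; ring
    have hN0 : (Fintype.card N : ℂ) ≠ 0 := by exact_mod_cast Fintype.card_ne_zero
    exact mul_left_cancel₀ hN0 h3
  have hnorm : Cfsg.classInner ψ ψ = 1 := by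
    unfold Cfsg.classInner
    rw [hsum, Nat.card_eq_fintype_card]
    exact inv_mul_cancel₀ (by exact_mod_cast Fintype.card_ne_zero)
  have hψN : ∀ n : N, ψ n = θ n := by
    intro n
    have hgoodN : GoodExt N θ mu N θ := ⟨hθ, fun n hn hn' => rfl, funext fun n => (hμN n).symm⟩
    exact hK N le_rfl θ hgoodN n n.2
  have hdpos : 0 < d := by
    obtain ⟨k, ρ, hirr, hρ⟩ := hθ
    have hnt : Nontrivial (Fin k → ℂ) := ((irr_iff ρ).mp hirr).1
    have h1 : 0 < Module.finrank ℂ (Fin k → ℂ) := Module.finrank_pos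
    rw [Module.finrank_fin_fun] at h1
    have h2 : θ 1 = (k : ℂ) := by rw [← hρ, Representation.char_one]; simp
    rw [hd] at h2
    have h4 : d = k := by exact_mod_cast h2
    omega
  have hpos : ∃ r : ℝ, 0 < r ∧ ψ 1 = (r : ℂ) := by
    refine ⟨d, by exact_mod_cast hdpos, ?_⟩
    have h5 := hψN 1
    rw [Subgroup.coe_one] at h5
    rw [h5, hd]
    simp
  exact ⟨ψ, isIrr_of_gen_norm_one ψ hgen hnorm hpos, hψN⟩

end Gal3

end Cfsg.Agent.Lib.Lead
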