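import Mathlib

namespace Cfsg.Agent.Lib.Lead

open Matrix

variable {l : Type*} [DecidableEq l] [Fintype l] {F : Type*} [Field F]

/-- the alternating form defined by `J` -/
def spB (x y : l ⊕ l → F) : F := x ⬝ᵥ (J l F) *ᵥ y

theorem spB_self (x : l ⊕ l → F) : spB x x = 0 := by
  unfold spB J
  rw [Matrix.fromBlocks_mulVec]
  simp [dotProduct, Fintype.sum_sum_type, mul_comm, neg_mulVec, one_mulVec]

theorem spB_add_left (x y z : l ⊕ l → F) : spB (x + y) z = spB x z + spB y z :=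
  add_dotProduct _ _ _

theorem spB_add_right (x y z : l ⊕ l → F) : spB x (y + z) = spB x y + spB x z := by
  unfold spB; rw [mulVec_add, dotProduct_add]

theorem spB_smul_left (c : F) (x y : l ⊕ l → F) : spB (c • x) y = c * spB x y :=
  smul_dotProduct _ _ _

theorem spB_smul_right (c : F) (x y : l ⊕ l → F) : spB x (c • y) = c * spB x y := by
  unfold spB; rw [mulVec_smul, dotProduct_smul]; rfl

theorem spB_swap (x y : l ⊕ l → F) : spB x y = - spB y x := by
  have h := spB_self (x + y)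
  rw [spB_add_left, spB_add_right, spB_add_right, spB_self, spB_self] at h
  linear_combination h

theorem spB_sub_left (x y z : l ⊕ l → F) : spB (x - y) z = spB x z - spB y z := by
  have : x - y = x + (-1 : F) • y := by rw [neg_one_smul, sub_eq_add_neg]
  rw [this, spB_add_left, spB_smul_left]; ring

/-- symplectic transvection -/
def spT (u : l ⊕ l → F) (c : F) : Matrix (l ⊕ l) (l ⊕ l) F :=
  1 + c • (vecMulVec u u * J l F)

theorem spT_mem (u : l ⊕ l → F) (c : F) : spT u c ∈ symplecticGroup l F := by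
  rw [SymplecticGroup.mem_iff]
  unfold spT
  have hNT : (vecMulVec u u)ᵀ = vecMulVec u u := transpose_vecMulVec u u
  have hNJN : vecMulVec u u * J l F * vecMulVec u u = 0 := by
    rw [vecMulVec_mul, vecMulVec_mul_vecMulVec, ← dotProduct_mulVec]
    have := spB_self u
    unfold spB at this
    rw [this, zero_smul]
    ext i j
    simp [vecMulVec_apply]
  have hJJ := J_squared l F
  rw [transpose_add, transpose_one, transpose_smul, transpose_mul, J_transpose, hNT]
  have e1 : (1 + c • (vecMulVec u u * J l F)) * J l F = J l F - c • vecMulVec u u := by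
    rw [add_mul, one_mul, smul_mul_assoc, Matrix.mul_assoc, hJJ, mul_neg, mul_one, smul_neg,
      sub_eq_add_neg]
  have e3 : J l F * (-J l F * vecMulVec u u) = vecMulVec u u := by
    rw [neg_mul, mul_neg, ← Matrix.mul_assoc, hJJ, neg_mul, one_mul, neg_neg]
  have e4 : vecMulVec u u * (-J l F * vecMulVec u u) = 0 := by
    rw [neg_mul, mul_neg, ← Matrix.mul_assoc, hNJN, neg_zero]
  rw [e1, mul_add, mul_one, mul_smul_comm, sub_mul, smul_mul_assoc, e3, e4, smul_zero, sub_zero]
  abel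

theorem spT_mulVec (u : l ⊕ l → F) (c : F) (v : l ⊕ l → F) :
    spT u c *ᵥ v = v + (c * spB u v) • u := by
  unfold spT spB
  rw [add_mulVec, one_mulVec, smul_mulVec, ← mulVec_mulVec, vecMulVec_mulVec]
  ext i
  simp only [Pi.add_apply, Pi.smul_apply, smul_eq_mul, MulOpposite.smul_eq_mul_unop,
    MulOpposite.unop_op]
  ring

theorem exists_spB_ne (v : l ⊕ l → F) (hv : v ≠ 0) : ∃ x : l ⊕ l → F, spB x v ≠ 0 := by
  have hJv : J l F *ᵥ v ≠ 0 := by
    intro h
    have h2 : J l F *ᵥ (J l F *ᵥ v) = 0 := by rw [h, mulVec_zero]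
    rw [mulVec_mulVec, J_squared, neg_mulVec, one_mulVec, neg_eq_zero] at h2
    exact hv h2
  obtain ⟨i, hi⟩ : ∃ i, (J l F *ᵥ v) i ≠ 0 := by
    by_contra hcon
    push Not at hcon
    exact hJv (funext hcon)
  refine ⟨Pi.single i 1, ?_⟩
  unfold spB
  rw [single_dotProduct, one_mul]
  exact hi

theorem sp_trans_step (v w : l ⊕ l → F) (h : spB w v ≠ 0) :
    ∃ g : symplecticGroup l F, (g : Matrix (l ⊕ l) (l ⊕ l) F) *ᵥ v = w := by
  refine ⟨⟨spT (w - v) (spB w v)⁻¹, spT_mem _ _⟩, ?_⟩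
  show spT (w - v) (spB w v)⁻¹ *ᵥ v = w
  rw [spT_mulVec, spB_sub_left, spB_self, sub_zero, inv_mul_cancel₀ h, one_smul]
  abel

theorem sp_trans (v w : l ⊕ l → F) (hv : v ≠ 0) (hw : w ≠ 0) :
    ∃ g : symplecticGroup l F, (g : Matrix (l ⊕ l) (l ⊕ l) F) *ᵥ v = w := by
  by_cases h : spB w v ≠ 0
  · exact sp_trans_step v w h
  · push Not at h
    obtain ⟨x, hx⟩ := exists_spB_ne v hv
    obtain ⟨y, hy⟩ := exists_spB_ne w hw
    obtain ⟨z, hz1, hz2⟩ : ∃ z, spB z v ≠ 0 ∧ spB w z ≠ 0 := by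
      by_cases h1 : spB x w ≠ 0
      · exact ⟨x, hx, by rw [spB_swap]; exact neg_ne_zero.mpr h1⟩
      · by_cases h2 : spB y v ≠ 0
        · exact ⟨y, h2, by rw [spB_swap]; exact neg_ne_zero.mpr hy⟩
        · push Not at h1 h2
          refine ⟨x + y, ?_, ?_⟩
          · rw [spB_add_left, h2, add_zero]; exact hx
          · rw [spB_add_right, spB_swap w x, h1, neg_zero, zero_add, spB_swap]
            exact neg_ne_zero.mpr hy
    obtain ⟨g1, hg1⟩ := sp_trans_step v z hz1
    obtain ⟨g2, hg2⟩ := sp_trans_step z w hz2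
    refine ⟨g2 * g1, ?_⟩
    show ((g2 : Matrix (l ⊕ l) (l ⊕ l) F) * (g1 : Matrix (l ⊕ l) (l ⊕ l) F)) *ᵥ v = w
    rw [← mulVec_mulVec, hg1, hg2]

end Cfsg.Agent.Lib.Lead
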