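import Mathlib

set_option autoImplicit false

namespace Cfsg.Agent.Lib.Lead

/-- If every point stabilizer of an action equals a fixed subgroup `K`, then `card X = (#orbits) * [N : K]`. -/
theorem card_eq_orbits_mul_index_of_stabilizer_eq {N X : Type*} [Group N] [MulAction N X]
    (K : Subgroup N) (h : ∀ x : X, MulAction.stabilizer N x = K) :
    Nat.card X = Nat.card (Quotient (MulAction.orbitRel N X)) * K.index := by
  have e : X ≃ Quotient (MulAction.orbitRel N X) × (N ⧸ K) :=
    (MulAction.selfEquivSigmaOrbitsQuotientStabilizer N X).trans <|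
      (Equiv.sigmaCongrRight fun _ => Subgroup.quotientEquivOfEq (h _)).trans <|
        Equiv.sigmaEquivProd _ _
  rw [Nat.card_congr e, Nat.card_prod, Subgroup.index_eq_card]

theorem index_dvd_card_of_stabilizer_eq {N X : Type*} [Group N] [MulAction N X]
    (K : Subgroup N) (h : ∀ x : X, MulAction.stabilizer N x = K) : K.index ∣ Nat.card X :=
  ⟨_, (card_eq_orbits_mul_index_of_stabilizer_eq K h).trans (mul_comm _ _)⟩

end Cfsg.Agent.Lib.Lead
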