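import Mathlib
import Cfsg.Agent.Lib.Lead.BF1
import Cfsg.Agent.Lib.Lead.Char10

set_option autoImplicit false

namespace Cfsg.Agent.Lib.Lead

open Cfsg Module

section BF2
variable {G : Type*} [Group G] [Finite G]

/-- A complex `2 × 2` matrix with square one and determinant one is `± 1`. -/
theorem mat_two_sq_one (M : Matrix (Fin 2) (Fin 2) ℂ) (hMM : M * M = 1) (hdet : M.det = 1) :
    M = 1 ∨ M = -1 := by
  have h00 := congrFun (congrFun hMM 0) 0
  have h01 := congrFun (congrFun hMM 0) 1
  have h10 := congrFun (congrFun hMM 1) 0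
  have h11 := congrFun (congrFun hMM 1) 1
  simp only [Matrix.mul_apply, Fin.sum_univ_two, Matrix.one_apply_eq] at h00 h11
  simp only [Matrix.mul_apply, Fin.sum_univ_two] at h01 h10
  rw [Matrix.one_apply_ne (by decide)] at h01 h10
  rw [Matrix.det_fin_two] at hdet
  have hs : M 0 0 * (M 0 0 + M 1 1) = 2 := by linear_combination h00 + hdet
  have hs0 : M 0 0 + M 1 1 ≠ 0 := by
    intro h0
    rw [h0, mul_zero] at hs
    norm_num at hs
  have hb : M 0 1 = 0 := by
    have h5 : M 0 1 * (M 0 0 + M 1 1) = 0 := by linear_combination h01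
    rcases mul_eq_zero.mp h5 with h | h
    · exact h
    · exact absurd h hs0
  have hc : M 1 0 = 0 := by
    have h5 : M 1 0 * (M 0 0 + M 1 1) = 0 := by linear_combination h10
    rcases mul_eq_zero.mp h5 with h | h
    · exact h
    · exact absurd h hs0
  rw [hb, hc] at h00 h11 hdet
  simp only [mul_zero, add_zero, zero_add, sub_zero] at h00 h11 hdet
  have ha : M 0 0 = 1 ∨ M 0 0 = -1 := by
    have h5 : (M 0 0 - 1) * (M 0 0 + 1) = 0 := by linear_combination h00
    rcases mul_eq_zero.mp h5 with h | h
    · left; linear_combination h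
    · right; linear_combination h
  rcases ha with ha | ha
  · left
    have hd : M 1 1 = 1 := by rw [ha, one_mul] at hdet; exact hdet
    ext i j
    fin_cases i <;> fin_cases j <;> simp [ha, hb, hc, hd]
  · right
    have hd : M 1 1 = -1 := by rw [ha] at hdet; linear_combination -hdet
    ext i j
    fin_cases i <;> fin_cases j <;> simp [ha, hb, hc, hd]

/-- A nonabelian finite simple group has no nontrivial irreducible character of degree `1` or
`2`. -/
theorem simple_deg_ge_three [IsSimpleGroup G] (hna : ∃ a b : G, a * b ≠ b * a)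
    (χ : IrrCharacter G) (hχ : χ ≠ irrOne G) : 3 ≤ charDegree χ.1 := by
  classical
  obtain ⟨hpos, h1, hdvd⟩ := Cfsg.Agent.Lib.Helper7.DZ.charDegree_spec χ
  obtain ⟨n, ρ, hρ, hρχ⟩ := χ.2
  haveI := hρ
  have hdeg : charDegree χ.1 = n := by
    have h2 : χ.1 1 = (n : ℂ) := by rw [← hρχ, Representation.char_one]; simp
    rw [h1] at h2; exact_mod_cast h2
  rw [hdeg] at hdvd hpos ⊢
  have hker : MonoidHom.ker ρ = ⊥ ∨ MonoidHom.ker ρ = ⊤ :=
    IsSimpleGroup.eq_bot_or_eq_top_of_normal _ inferInstance
  by_contra hlt
  push Not at hlt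
  have hnot_top : MonoidHom.ker ρ ≠ ⊤ := by
    intro htop
    have htriv : ∀ g : G, ρ g = 1 := fun g => by
      have h2 : g ∈ MonoidHom.ker ρ := by rw [htop]; trivial
      exact MonoidHom.mem_ker.mp h2
    have hfr := finrank_one_of_irr_trivial ρ htriv
    apply hχ
    apply Subtype.ext
    funext g
    show χ.1 g = 1
    rw [← hρχ]
    unfold Representation.character
    rw [htriv g, LinearMap.trace_one, hfr]
    simp
  have hinj : Function.Injective ρ := by
    rcases hker with h | h
    · exact (MonoidHom.ker_eq_bot_iff ρ).mp h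
    · exact absurd h hnot_top
  obtain ⟨a, b, hab⟩ := hna
  have hcenter : Subgroup.center G = ⊥ := by
    rcases IsSimpleGroup.eq_bot_or_eq_top_of_normal (Subgroup.center G) inferInstance with h | h
    · exact h
    · exfalso
      apply hab
      have hx : b ∈ Subgroup.center G := by rw [h]; trivial
      exact (Subgroup.mem_center_iff.mp hx a)
  interval_cases n
  · apply hab
    apply hinj
    rw [map_mul, map_mul]
    have hfr : finrank ℂ (Fin 1 → ℂ) = 1 := by simp
    have ha := end_eq_trace_smul_of_finrank_one hfr (ρ a)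
    have hb := end_eq_trace_smul_of_finrank_one hfr (ρ b)
    rw [ha, hb, smul_mul_smul_comm, smul_mul_smul_comm, mul_comm]
  · let δ : G →* ℂ := (LinearMap.det : Module.End ℂ (Fin 2 → ℂ) →* ℂ).comp ρ
    have hδ : ∀ g : G, δ g = 1 := by
      rcases IsSimpleGroup.eq_bot_or_eq_top_of_normal (MonoidHom.ker δ) inferInstance with h | h
      · exfalso
        apply hab
        apply (MonoidHom.ker_eq_bot_iff δ).mp h
        rw [map_mul, map_mul, mul_comm]
      · intro g
        have h2 : g ∈ MonoidHom.ker δ := by rw [h]; trivial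
        exact MonoidHom.mem_ker.mp h2
    haveI : Fact (Nat.Prime 2) := ⟨Nat.prime_two⟩
    obtain ⟨t, ht⟩ := exists_prime_orderOf_dvd_card' 2 hdvd
    have htt : t * t = 1 := mul_self_of_orderOf_eq_two ht
    have ht1 : t ≠ 1 := ne_one_of_orderOf_eq_two ht
    have hMM : LinearMap.toMatrix' (ρ t) * LinearMap.toMatrix' (ρ t) = 1 := by
      have h2 := Cfsg.Agent.Lib.Helper7.FS.X_mul ρ t t
      rw [htt, Cfsg.Agent.Lib.Helper7.FS.X_one] at h2
      exact h2.symm
    have hdet : (LinearMap.toMatrix' (ρ t)).det = 1 := by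
      rw [LinearMap.det_toMatrix']
      exact hδ t
    rcases mat_two_sq_one _ hMM hdet with h | h
    · apply ht1
      apply hinj
      rw [map_one]
      apply LinearMap.toMatrix'.injective
      rw [h, LinearMap.toMatrix'_one]
    · have hρt : ρ t = -1 := by
        apply LinearMap.toMatrix'.injective
        rw [h, map_neg, LinearMap.toMatrix'_one]
      apply ht1
      have h2 : t ∈ Subgroup.center G := by
        rw [Subgroup.mem_center_iff]
        intro g
        apply hinj
        rw [map_mul, map_mul, hρt]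
        exact (Commute.neg_one_right (ρ g)).eq
      rw [hcenter, Subgroup.mem_bot] at h2
      exact h2

end BF2

end Cfsg.Agent.Lib.Lead
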