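import Mathlib
import Cfsg.Agent.Lib.Lead.Invol

set_option autoImplicit false

namespace Cfsg.Agent.Lib.Lead

section BF3
variable {G : Type*} [Group G] [Finite G]

set_option maxHeartbeats 1000000 in
/-- Brauer–Fowler: a group of even order whose centre has odd order has a proper subgroup of
index `2` or of index less than `a (a + 1) / 2`, where `a = |G| / m`, `m` the number of
involutions. -/
theorem brauer_fowler_index (heven : Even (Nat.card G))
    (hZ : Odd (Nat.card (Subgroup.center G))) (m : ℕ)
    (hm : m = Nat.card {t : G // orderOf t = 2}) :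
    ∃ H : Subgroup G, H ≠ ⊤ ∧
      (H.index = 2 ∨ 2 * H.index * m ^ 2 < Nat.card G * (Nat.card G + m)) := by
  classical
  haveI : Fintype G := Fintype.ofFinite G
  by_contra hcon
  push Not at hcon
  obtain ⟨N, hN⟩ : ∃ N, N = Nat.card G := ⟨_, rfl⟩
  rw [← hN] at hcon
  let I : Finset G := Finset.univ.filter (fun t => orderOf t = 2)
  have hIcard : I.card = m := by rw [hm, Nat.card_eq_fintype_card, Fintype.card_subtype]
  have hImem : ∀ u, u ∈ I ↔ orderOf u = 2 := fun u => by simp [I]
  let b : G → ℕ := fun g => (I.filter (fun u => u * g ∈ I)).card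
  have hH : ∀ H : Subgroup G, H ≠ ⊤ → Nat.card H * (N + m) ≤ 2 * (m * m) := by
    intro H hH
    have h1 := (hcon H hH).2
    have h2 := Subgroup.card_mul_index H
    have hpos : 0 < H.index := Nat.pos_of_ne_zero (Subgroup.index_ne_zero_of_finite)
    apply Nat.le_of_mul_le_mul_left _ hpos
    calc H.index * (Nat.card H * (N + m)) = (Nat.card H * H.index) * (N + m) := by ring
      _ = N * (N + m) := by rw [h2, hN]
      _ ≤ 2 * H.index * m ^ 2 := h1
      _ = H.index * (2 * (m * m)) := by ring
  have hmpos : 1 ≤ m := by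
    haveI : Fact (Nat.Prime 2) := ⟨Nat.prime_two⟩
    obtain ⟨t, ht⟩ := exists_prime_orderOf_dvd_card' 2 (even_iff_two_dvd.mp heven)
    rw [← hIcard]
    exact Finset.card_pos.mpr ⟨t, (hImem t).mpr ht⟩
  have hcount : m * m ≤ ∑ g : G, b g := by
    have h1 : (I ×ˢ I).card = ∑ g : G, ((I ×ˢ I).filter (fun p => p.1 * p.2 = g)).card :=
      Finset.card_eq_sum_card_fiberwise (f := fun p : G × G => p.1 * p.2) (s := I ×ˢ I)
        (t := Finset.univ) (fun x _ => Finset.mem_univ _)
    rw [Finset.card_product, hIcard] at h1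
    rw [h1]
    apply Finset.sum_le_sum
    intro g _
    apply Finset.card_le_card_of_injOn (fun p => p.1)
    · intro p hp
      rw [Finset.mem_coe, Finset.mem_filter, Finset.mem_product] at hp
      obtain ⟨⟨hp1, hp2⟩, hpg⟩ := hp
      rw [Finset.mem_coe, Finset.mem_filter]
      refine ⟨hp1, ?_⟩
      have h11 : p.1 * p.1 = 1 := mul_self_of_orderOf_eq_two ((hImem _).mp hp1)
      have h12 : p.1 * g = p.2 := by rw [← hpg, ← mul_assoc, h11, one_mul]
      rw [h12]; exact hp2
    · intro p hp q hq hpq
      rw [Finset.mem_coe, Finset.mem_filter] at hp hq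
      have h1 : p.1 = q.1 := hpq
      have h2 : p.2 = q.2 := by
        have h3 := hp.2.trans hq.2.symm
        rw [h1] at h3
        exact mul_left_cancel h3
      exact Prod.ext h1 h2
  have hb1 : b 1 = m := by
    show (I.filter (fun u => u * 1 ∈ I)).card = m
    rw [← hIcard]; congr 1
    ext u; simp
  have hnc : ∀ g ∈ I, Subgroup.centralizer ({g} : Set G) ≠ ⊤ := by
    intro g hg htop
    have hg2 := (hImem g).mp hg
    have hgc : g ∈ Subgroup.center G := by
      rw [Subgroup.mem_center_iff]
      intro x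
      have hx : x ∈ Subgroup.centralizer ({g} : Set G) := by rw [htop]; trivial
      exact Subgroup.mem_centralizer_singleton_iff.mp hx
    have h1 : orderOf (⟨g, hgc⟩ : Subgroup.center G) = 2 := by rw [Subgroup.orderOf_mk]; exact hg2
    have h2 := orderOf_dvd_natCard (⟨g, hgc⟩ : Subgroup.center G)
    rw [h1] at h2
    exact (Nat.not_even_iff_odd.mpr hZ) (even_iff_two_dvd.mpr h2)
  have hI : ∀ g ∈ I, (b g + 2) * (N + m) ≤ 2 * (m * m) := by
    intro g hg
    have hg2 := (hImem g).mp hg
    have hgg := mul_self_of_orderOf_eq_two hg2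
    have hg1 := ne_one_of_orderOf_eq_two hg2
    refine le_trans (Nat.mul_le_mul_right _ ?_) (hH _ (hnc g hg))
    have hsub : insert 1 (insert g (I.filter (fun u => u * g ∈ I))) ⊆
        Finset.univ.filter (fun x => x ∈ Subgroup.centralizer ({g} : Set G)) := by
      intro x hx
      rw [Finset.mem_filter]
      refine ⟨Finset.mem_univ _, ?_⟩
      rw [Finset.mem_insert, Finset.mem_insert] at hx
      rcases hx with hx | hx | hx
      · rw [hx]; exact Subgroup.one_mem _
      · rw [hx]; exact Subgroup.mem_centralizer_singleton_iff.mpr rfl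
      · rw [Finset.mem_filter] at hx
        rw [Subgroup.mem_centralizer_singleton_iff]
        have hxx := mul_self_of_orderOf_eq_two ((hImem x).mp hx.1)
        have hxg : x * g * (x * g) = 1 := mul_self_of_orderOf_eq_two ((hImem _).mp hx.2)
        have h5 : x * (x * g * (x * g)) * g = x * 1 * g := by rw [hxg]
        have h6 : x * (x * g * (x * g)) * g = (x * x) * (g * x) * (g * g) := by group
        rw [h6, hxx, hgg, one_mul, mul_one, mul_one] at h5
        exact h5.symm
    have hcard : (insert 1 (insert g (I.filter (fun u => u * g ∈ I)))).card = b g + 2 := by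
      rw [Finset.card_insert_of_notMem, Finset.card_insert_of_notMem]
      · intro h
        rw [Finset.mem_filter, hgg] at h
        have h7 := (hImem 1).mp h.2
        rw [orderOf_one] at h7
        omega
      · intro h
        rw [Finset.mem_insert] at h
        rcases h with h | h
        · exact hg1 h.symm
        · rw [Finset.mem_filter] at h
          have h7 := (hImem 1).mp h.1
          rw [orderOf_one] at h7
          omega
    rw [← hcard, Nat.card_eq_fintype_card, Fintype.card_subtype]
    exact Finset.card_le_card hsub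
  have hR : ∀ g : G, g ∉ I → g ≠ 1 → b g * (N + m) ≤ m * m := by
    intro g hgI hg1
    by_cases hb0 : (I.filter (fun u => u * g ∈ I)) = ∅
    · show (I.filter (fun u => u * g ∈ I)).card * (N + m) ≤ m * m
      rw [hb0, Finset.card_empty, zero_mul]; exact Nat.zero_le _
    obtain ⟨u₀, hu₀⟩ := Finset.nonempty_iff_ne_empty.mpr hb0
    have hinv : ∀ u ∈ I.filter (fun u => u * g ∈ I), u * g * u⁻¹ = g⁻¹ := by
      intro u hu
      rw [Finset.mem_filter] at hu
      have hu2 := (hImem u).mp hu.1
      have hui := inv_eq_self_of_orderOf_eq_two hu2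
      have hug : u * g * (u * g) = 1 := mul_self_of_orderOf_eq_two ((hImem _).mp hu.2)
      rw [hui]
      exact eq_inv_of_mul_eq_one_left (by rw [← hug]; group)
    have hgne : g ≠ g⁻¹ := by
      intro h
      have hgg : g * g = 1 := by
        have h8 := mul_inv_cancel g
        rw [← h] at h8
        exact h8
      exact hgI ((hImem g).mpr ((orderOf_eq_two_iff_ne_one_and_mul_self g).mpr ⟨hg1, hgg⟩))
    let E : Subgroup G :=
      { carrier := {x | x * g * x⁻¹ = g ∨ x * g * x⁻¹ = g⁻¹}
        one_mem' := by left; simp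
        mul_mem' := by
          intro x y hx hy
          have e : (x * y) * g * (x * y)⁻¹ = x * (y * g * y⁻¹) * x⁻¹ := by group
          have e3 : x * g⁻¹ * x⁻¹ = (x * g * x⁻¹)⁻¹ := by group
          show (x * y) * g * (x * y)⁻¹ = g ∨ (x * y) * g * (x * y)⁻¹ = g⁻¹
          rw [e]
          rcases hy with hy | hy <;> rcases hx with hx | hx
          · left; rw [hy, hx]
          · right; rw [hy, hx]
          · right; rw [hy, e3, hx]
          · left; rw [hy, e3, hx, inv_inv]
        inv_mem' := by
          intro x hx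
          show x⁻¹ * g * x⁻¹⁻¹ = g ∨ x⁻¹ * g * x⁻¹⁻¹ = g⁻¹
          rcases hx with hx | hx
          · left
            calc x⁻¹ * g * x⁻¹⁻¹ = x⁻¹ * (x * g * x⁻¹) * x := by rw [hx, inv_inv]
              _ = g := by group
          · right
            have h1 : x⁻¹ * g⁻¹ * x = g := by
              calc x⁻¹ * g⁻¹ * x = x⁻¹ * (x * g * x⁻¹) * x := by rw [hx]
                _ = g := by group
            calc x⁻¹ * g * x⁻¹⁻¹ = (x⁻¹ * g⁻¹ * x)⁻¹ := by group
              _ = g⁻¹ := by rw [h1] }
    have hEmem : ∀ x, x ∈ E ↔ (x * g * x⁻¹ = g ∨ x * g * x⁻¹ = g⁻¹) := fun x => Iff.rfl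
    have hu₀inv := hinv u₀ hu₀
    have hCmem : ∀ x, x ∈ Subgroup.centralizer ({g} : Set G) ↔ x * g * x⁻¹ = g := by
      intro x
      rw [Subgroup.mem_centralizer_singleton_iff]
      constructor
      · intro h; rw [h, mul_inv_cancel_right]
      · intro h
        calc x * g = (x * g * x⁻¹) * x := by group
          _ = g * x := by rw [h]
    have hEtop : E ≠ ⊤ := by
      intro htop
      apply (hcon (Subgroup.centralizer ({g} : Set G)) ?_).1
      · rw [Subgroup.index_eq_two_iff]
        refine ⟨u₀, fun x => ?_⟩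
        have hxE : x ∈ E := by rw [htop]; trivial
        have e : (x * u₀) * g * (x * u₀)⁻¹ = x * (u₀ * g * u₀⁻¹) * x⁻¹ := by group
        have e2 : x * g⁻¹ * x⁻¹ = (x * g * x⁻¹)⁻¹ := by group
        rw [hCmem, hCmem, e, hu₀inv, e2]
        rcases (hEmem x).mp hxE with h | h
        · right
          refine ⟨h, ?_⟩
          rw [h]; exact fun h' => hgne h'.symm
        · left
          refine ⟨by rw [h, inv_inv], ?_⟩
          rw [h]; exact fun h' => hgne h'.symm
      · intro htop2
        have h9 : u₀ ∈ Subgroup.centralizer ({g} : Set G) := by rw [htop2]; trivial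
        rw [hCmem, hu₀inv] at h9
        exact hgne h9.symm
    have h1 := hH E hEtop
    have h2 : 2 * b g ≤ Nat.card E := by
      have hdisj : Disjoint (I.filter (fun u => u * g ∈ I))
          ((I.filter (fun u => u * g ∈ I)).image (fun u => u₀ * u)) := by
        rw [Finset.disjoint_left]
        intro x hxB hxim
        rw [Finset.mem_image] at hxim
        obtain ⟨y, hyB, rfl⟩ := hxim
        have h3 := hinv _ hxB
        have h4 := hinv y hyB
        have e : (u₀ * y) * g * (u₀ * y)⁻¹ = u₀ * (y * g * y⁻¹) * u₀⁻¹ := by group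
        have e2 : u₀ * g⁻¹ * u₀⁻¹ = (u₀ * g * u₀⁻¹)⁻¹ := by group
        rw [e, h4, e2, hu₀inv, inv_inv] at h3
        exact hgne h3
      have hsub : (I.filter (fun u => u * g ∈ I)) ∪
          ((I.filter (fun u => u * g ∈ I)).image (fun u => u₀ * u)) ⊆
          Finset.univ.filter (fun x => x ∈ E) := by
        intro x hx
        rw [Finset.mem_filter]
        refine ⟨Finset.mem_univ _, ?_⟩
        rw [Finset.mem_union] at hx
        rcases hx with hx | hx
        · exact (hEmem x).mpr (Or.inr (hinv x hx))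
        · rw [Finset.mem_image] at hx
          obtain ⟨y, hyB, rfl⟩ := hx
          refine (hEmem _).mpr (Or.inl ?_)
          have h4 := hinv y hyB
          have e : (u₀ * y) * g * (u₀ * y)⁻¹ = u₀ * (y * g * y⁻¹) * u₀⁻¹ := by group
          have e2 : u₀ * g⁻¹ * u₀⁻¹ = (u₀ * g * u₀⁻¹)⁻¹ := by group
          rw [e, h4, e2, hu₀inv, inv_inv]
      have hcard := Finset.card_le_card hsub
      rw [Finset.card_union_of_disjoint hdisj,
        Finset.card_image_of_injective _ (mul_right_injective u₀)] at hcard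
      rw [Nat.card_eq_fintype_card, Fintype.card_subtype]
      show 2 * (I.filter (fun u => u * g ∈ I)).card ≤ _
      omega
    have h3 : 2 * b g * (N + m) ≤ Nat.card E * (N + m) := Nat.mul_le_mul_right _ h2
    have h4 : 2 * (b g * (N + m)) ≤ 2 * (m * m) := by rw [← mul_assoc]; exact le_trans h3 h1
    omega
  have h1I : (1 : G) ∈ Iᶜ := by
    rw [Finset.mem_compl, hImem, orderOf_one]; omega
  have hsplit : ∑ g : G, b g = ∑ g ∈ I, b g + (b 1 + ∑ g ∈ (Iᶜ).erase 1, b g) := by
    rw [← Finset.sum_add_sum_compl I b]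
    congr 1
    rw [Finset.add_sum_erase _ _ h1I]
  have hRcard : ((Iᶜ).erase 1).card + 1 + m = N := by
    have h10 : 1 ≤ (Iᶜ).card := Finset.card_pos.mpr ⟨1, h1I⟩
    have h11 : (Iᶜ).card + I.card = Fintype.card G := by
      rw [Finset.card_compl]
      have := Finset.card_le_univ I
      omega
    rw [Finset.card_erase_of_mem h1I, hN, Nat.card_eq_fintype_card]
    omega
  have hSI : (∑ g ∈ I, b g + 2 * m) * (N + m) ≤ m * (2 * (m * m)) := by
    have h12 : ∑ g ∈ I, (b g + 2) * (N + m) ≤ I.card • (2 * (m * m)) :=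
      Finset.sum_le_card_nsmul _ _ _ hI
    rw [← Finset.sum_mul, Finset.sum_add_distrib, Finset.sum_const, hIcard, smul_eq_mul,
      smul_eq_mul] at h12
    rw [mul_comm 2 m]; exact h12
  have hSR : (∑ g ∈ (Iᶜ).erase 1, b g) * (N + m) ≤ ((Iᶜ).erase 1).card * (m * m) := by
    rw [Finset.sum_mul]
    have h13 := Finset.sum_le_card_nsmul ((Iᶜ).erase 1) (fun g => b g * (N + m)) (m * m)
      (fun g hg => by
        rw [Finset.mem_erase, Finset.mem_compl] at hg
        exact hR g hg.2 hg.1)
    rw [smul_eq_mul] at h13; exact h13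
  obtain ⟨SI, hSIdef⟩ : ∃ SI, SI = ∑ g ∈ I, b g := ⟨_, rfl⟩
  obtain ⟨SR, hSRdef⟩ : ∃ SR, SR = ∑ g ∈ (Iᶜ).erase 1, b g := ⟨_, rfl⟩
  obtain ⟨r, hr⟩ : ∃ r, r = ((Iᶜ).erase 1).card := ⟨_, rfl⟩
  rw [hsplit, hb1, ← hSIdef, ← hSRdef] at hcount
  rw [← hSIdef] at hSI
  rw [← hSRdef, ← hr] at hSR
  rw [← hr] at hRcard
  have h5 : (N + m) * (m * m) ≤ (N + m) * (SI + (m + SR)) := Nat.mul_le_mul_left _ hcount
  have h6 : r * (m * m) + m * m + m * (m * m) = N * (m * m) := by rw [← hRcard]; ring
  nlinarith [h5, h6, hSI, hSR, Nat.mul_pos hmpos hmpos]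

end BF3

end Cfsg.Agent.Lib.Lead
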