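import Mathlib
import Cfsg.Agent.Lib.Lead.BF3
import Cfsg.Agent.Lib.Lead.IndexTwo
import Cfsg.Agent.Lib.Lead.Char4
import Cfsg.Agent.Lib.Lead.Invol2

set_option autoImplicit false

namespace Cfsg.Agent.Lib.Lead

universe u

theorem card_le_invol_mul_centralizer {G : Type*} [Group G] [Finite G] (t : G)
    (ht : orderOf t = 2) :
    Nat.card G ≤ Nat.card {t : G // orderOf t = 2} *
      Nat.card (Subgroup.centralizer ({t} : Set G)) := by
  rw [← card_conj_mul_card_centralizer t]
  apply Nat.mul_le_mul_right
  apply Nat.card_le_card_of_injective (fun x : {x : G // IsConj t x} => (⟨x.1, by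
    obtain ⟨g, hg⟩ := isConj_iff.mp x.2
    rw [← hg, orderOf_conj_eq]; exact ht⟩ : {x : G // orderOf x = 2}))
  intro a b hab
  exact Subtype.ext (congrArg (fun z : {x : G // orderOf x = 2} => z.1) hab)

set_option maxHeartbeats 1000000 in
theorem bf_cube_aux : ∀ n : ℕ, ∀ (G : Type u) [Group G] [Finite G], Nat.card G = n → Even n →
    2 < n → ∃ H : Subgroup G, H ≠ ⊤ ∧ Nat.card G < (Nat.card H) ^ 3 := by
  intro n
  induction n using Nat.strong_induction_on with
  | _ n ih =>
  intro G _ _ hcard heven hgt
  classical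
  haveI : Fact (Nat.Prime 2) := ⟨Nat.prime_two⟩
  by_cases hA : ∃ H : Subgroup G, H.index = 2
  · obtain ⟨H, hH⟩ := hA
    refine ⟨H, ?_, ?_⟩
    · intro htop; rw [htop, Subgroup.index_top] at hH; omega
    · have h1 := Subgroup.card_mul_index H
      rw [hH, hcard] at h1
      have h2 : 2 ≤ Nat.card H := by omega
      rw [hcard, ← h1]
      have h3 : Nat.card H * 2 * 2 ≤ Nat.card H * Nat.card H * Nat.card H := by
        have h4 : Nat.card H * 2 ≤ Nat.card H * Nat.card H := Nat.mul_le_mul_left _ h2
        exact Nat.mul_le_mul h4 h2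
      have h5 : Nat.card H ^ 3 = Nat.card H * Nat.card H * Nat.card H := by ring
      omega
  push Not at hA
  rcases Nat.even_or_odd (Nat.card (Subgroup.center G)) with hZ | hZ
  · obtain ⟨z, hz⟩ := exists_prime_orderOf_dvd_card' 2 (even_iff_two_dvd.mp hZ)
    have hz2 : orderOf (z : G) = 2 := by rw [Subgroup.orderOf_coe]; exact hz
    let A : Subgroup G := Subgroup.zpowers (z : G)
    haveI hAn : A.Normal := by
      refine ⟨fun x hx g => ?_⟩
      have hxc : x ∈ Subgroup.center G := (Subgroup.zpowers_le.mpr z.2) hx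
      have h1 : g * x * g⁻¹ = x := by
        rw [(Subgroup.mem_center_iff.mp hxc g), mul_inv_cancel_right]
      rw [h1]; exact hx
    have hAcard : Nat.card A = 2 := by rw [Nat.card_zpowers, hz2]
    have hQ : 2 * Nat.card (G ⧸ A) = n := by
      have h1 := Subgroup.card_eq_card_quotient_mul_card_subgroup A
      rw [hAcard, hcard] at h1; omega
    have hQpos : 0 < Nat.card (G ⧸ A) := Nat.card_pos
    have hQeven : Even (Nat.card (G ⧸ A)) := by
      by_contra hodd
      rw [Nat.not_even_iff_odd] at hodd
      obtain ⟨T⟩ : Nonempty (Sylow 2 G) := inferInstance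
      have h1 : Nat.card (T : Subgroup G) = 2 := by
        have h2 := T.card_eq_multiplicity
        have h3 : (Nat.card G).factorization 2 = 1 := by
          rw [hcard, ← hQ, Nat.factorization_mul two_ne_zero hQpos.ne']
          have h4 : (Nat.card (G ⧸ A)).factorization 2 = 0 :=
            Nat.factorization_eq_zero_of_not_dvd (fun hd => (Nat.not_even_iff_odd.mpr hodd)
              (even_iff_two_dvd.mpr hd))
          rw [Finsupp.add_apply, h4, Nat.prime_two.factorization_self]
        rw [h2, h3, pow_one]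
      have hcyc : IsCyclic (T : Subgroup G) := isCyclic_of_prime_card h1
      obtain ⟨H, hH⟩ := exists_index_two_of_cyclic_sylow (by rw [hcard]; exact heven) T hcyc
      exact hA H hH
    have hQgt : 2 < Nat.card (G ⧸ A) := by
      by_contra hle
      push Not at hle
      have h2 : Nat.card (G ⧸ A) = 2 := by
        obtain ⟨r, hr⟩ := hQeven; omega
      exact hA A (by rw [Subgroup.index_eq_card]; exact h2)
    obtain ⟨Hb, hHb, hlt⟩ := ih (Nat.card (G ⧸ A)) (by omega) (G ⧸ A) rfl hQeven hQgt
    refine ⟨Hb.comap (QuotientGroup.mk' A), ?_, ?_⟩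
    · intro htop
      apply hHb
      have h1 := Subgroup.map_comap_eq_self_of_surjective (QuotientGroup.mk'_surjective A) Hb
      rw [htop] at h1
      rw [← h1, ← MonoidHom.range_eq_map, MonoidHom.range_eq_top]
      exact QuotientGroup.mk'_surjective A
    · have hidx : (Hb.comap (QuotientGroup.mk' A)).index = Hb.index :=
        Subgroup.index_comap_of_surjective Hb (QuotientGroup.mk'_surjective A)
      have h1 := Subgroup.card_mul_index (Hb.comap (QuotientGroup.mk' A))
      have h2 := Subgroup.card_mul_index Hb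
      rw [hidx, hcard] at h1
      have hipos : 0 < Hb.index := Nat.pos_of_ne_zero Subgroup.index_ne_zero_of_finite
      have h3 : Nat.card (Hb.comap (QuotientGroup.mk' A)) = 2 * Nat.card Hb := by
        apply Nat.eq_of_mul_eq_mul_right hipos
        rw [h1, ← hQ, ← h2]; ring
      rw [h3, hcard, ← hQ]
      calc 2 * Nat.card (G ⧸ A) < 2 * (Nat.card Hb) ^ 3 := by omega
        _ ≤ (2 * Nat.card Hb) ^ 3 := by
            rw [mul_pow]; apply Nat.mul_le_mul_right; norm_num
  · obtain ⟨t, ht⟩ := exists_prime_orderOf_dvd_card' 2 (even_iff_two_dvd.mp (hcard ▸ heven))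
    have hCne : Subgroup.centralizer ({t} : Set G) ≠ ⊤ := by
      intro htop
      have hgc : t ∈ Subgroup.center G := by
        rw [Subgroup.mem_center_iff]
        intro x
        have hx : x ∈ Subgroup.centralizer ({t} : Set G) := by rw [htop]; trivial
        exact Subgroup.mem_centralizer_singleton_iff.mp hx
      have h1 : orderOf (⟨t, hgc⟩ : Subgroup.center G) = 2 := by
        rw [Subgroup.orderOf_mk]; exact ht
      have h2 := orderOf_dvd_natCard (⟨t, hgc⟩ : Subgroup.center G)
      rw [h1] at h2
      exact (Nat.not_even_iff_odd.mpr hZ) (even_iff_two_dvd.mpr h2)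
    by_cases hC : Nat.card G < (Nat.card (Subgroup.centralizer ({t} : Set G))) ^ 3
    · exact ⟨_, hCne, hC⟩
    push Not at hC
    obtain ⟨H, hH, hor⟩ := brauer_fowler_index (by rw [hcard]; exact heven) hZ _ rfl
    rcases hor with h2 | hlt
    · exact absurd h2 (hA H)
    refine ⟨H, hH, ?_⟩
    by_contra hnot
    push Not at hnot
    have hmc := card_le_invol_mul_centralizer t ht
    obtain ⟨m, hm⟩ : ∃ m, m = Nat.card {t : G // orderOf t = 2} := ⟨_, rfl⟩
    obtain ⟨c, hc⟩ : ∃ c, c = Nat.card (Subgroup.centralizer ({t} : Set G)) := ⟨_, rfl⟩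
    obtain ⟨h, hh⟩ : ∃ h, h = Nat.card H := ⟨_, rfl⟩
    have hidx := Subgroup.card_mul_index H
    rw [← hm] at hlt hmc
    rw [← hc] at hC hmc
    rw [← hh] at hnot hidx
    rw [hcard] at hlt hC hnot hmc hidx
    have hipos : 0 < H.index := Nat.pos_of_ne_zero Subgroup.index_ne_zero_of_finite
    have hcpos : 0 < c := by rw [hc]; exact Nat.card_pos
    have hhpos : 0 < h := by rw [hh]; exact Nat.card_pos
    have h1 : 2 * (m * m) < h * (n + m) := by
      apply Nat.lt_of_mul_lt_mul_left (a := H.index)
      calc H.index * (2 * (m * m)) = 2 * H.index * m ^ 2 := by ring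
        _ < n * (n + m) := hlt
        _ = H.index * (h * (n + m)) := by rw [← hidx]; ring
    have hc2 : c * c ≤ m := by
      apply Nat.le_of_mul_le_mul_right _ hcpos
      calc c * c * c = c ^ 3 := by ring
        _ ≤ n := hC
        _ ≤ m * c := hmc
    have hN2 : n * n ≤ m * m * m := by
      calc n * n ≤ (m * c) * (m * c) := Nat.mul_le_mul hmc hmc
        _ = m * m * (c * c) := by ring
        _ ≤ m * m * m := Nat.mul_le_mul_left _ hc2
    have hh2 : h * h ≤ m := by
      by_contra hlt2
      push Not at hlt2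
      have h3 : m * m * m < (h * h) * (h * h) * (h * h) := by
        have h8 := Nat.mul_lt_mul'' hlt2 hlt2
        exact Nat.mul_lt_mul'' h8 hlt2
      have h4 : (h * h) * (h * h) * (h * h) = (h ^ 3) * (h ^ 3) := by ring
      have h5 : (h ^ 3) * (h ^ 3) ≤ n * n := Nat.mul_le_mul hnot hnot
      omega
    have hhN : h * n ≤ m * m := by
      by_contra hlt2
      push Not at hlt2
      have h3 : (m * m) * (m * m) < (h * n) * (h * n) := Nat.mul_lt_mul'' hlt2 hlt2
      have h4 : (h * n) * (h * n) = (h * h) * (n * n) := by ring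
      have h5 : (h * h) * (n * n) ≤ m * (m * m * m) := Nat.mul_le_mul hh2 hN2
      have h6 : m * (m * m * m) = (m * m) * (m * m) := by ring
      omega
    have hhm : h * m ≤ m * m := by
      apply Nat.mul_le_mul_right
      calc h = h * 1 := (mul_one h).symm
        _ ≤ h * h := Nat.mul_le_mul_left _ hhpos
        _ ≤ m := hh2
    have h7 : h * (n + m) = h * n + h * m := by ring
    omega

end Cfsg.Agent.Lib.Lead
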