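import Mathlib
import Cfsg.Prelude.Def_LieExceptional

set_option autoImplicit false

namespace Cfsg.Agent.Lib.Lead

open Cfsg

/-- membership in a double coset `B n B`, unfolded -/
theorem mem_dc_iff {G : Type*} [Group G] (B : Subgroup G) (n g : G) :
    g ∈ DoubleCoset.doubleCoset n (B : Set G) B ↔ ∃ x ∈ B, ∃ y ∈ B, g = x * n * y :=
  DoubleCoset.mem_doubleCoset

/-- Bruhat decomposition, existence: `G = B N B`. -/
theorem bn_bruhat {G : Type*} [Group G] (P : BNPair G) (g : G) :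
    ∃ n ∈ P.N, g ∈ DoubleCoset.doubleCoset n (P.B : Set G) P.B := by
  let T : Set G := {g | ∃ n ∈ P.N, g ∈ DoubleCoset.doubleCoset n (P.B : Set G) P.B}
  let p : G → Prop := fun m => (∀ t ∈ T, m * t ∈ T) ∧ (∀ t ∈ T, m⁻¹ * t ∈ T)
  have hone : p 1 := ⟨fun t ht => by simpa using ht, fun t ht => by simpa using ht⟩
  have hmul : ∀ x y, p x → p y → p (x * y) := by
    intro x y hx hy
    refine ⟨fun t ht => ?_, fun t ht => ?_⟩
    · rw [mul_assoc]; exact hx.1 _ (hy.1 _ ht)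
    · rw [mul_inv_rev, mul_assoc]; exact hy.2 _ (hx.2 _ ht)
  have hinv : ∀ x, p x → p x⁻¹ := by
    intro x hx
    exact ⟨hx.2, fun t ht => by rw [inv_inv]; exact hx.1 t ht⟩
  have hB1 : ∀ b ∈ P.B, ∀ t ∈ T, b * t ∈ T := by
    rintro b hb t ⟨n, hn, ht⟩
    obtain ⟨x, hx, y, hy, rfl⟩ := (mem_dc_iff _ _ _).mp ht
    refine ⟨n, hn, (mem_dc_iff _ _ _).mpr ⟨b * x, P.B.mul_mem hb hx, y, hy, by group⟩⟩
  have hB : ∀ b ∈ P.B, p b := fun b hb => ⟨hB1 b hb, hB1 b⁻¹ (P.B.inv_mem hb)⟩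
  have hS1 : ∀ s ∈ P.S, ∀ t ∈ T, s * t ∈ T := by
    rintro s hs t ⟨n, hn, ht⟩
    obtain ⟨x, hx, y, hy, rfl⟩ := (mem_dc_iff _ _ _).mp ht
    have hy' : ∀ z ∈ T, z * y ∈ T := by
      rintro z ⟨n', hn', hz⟩
      obtain ⟨x', hx', y', hy', rfl⟩ := (mem_dc_iff _ _ _).mp hz
      exact ⟨n', hn', (mem_dc_iff _ _ _).mpr ⟨x', hx', y' * y, P.B.mul_mem hy' hy, by group⟩⟩
    have h1 : s * (x * n * y) = (s * x * n) * y := by group
    rw [h1]
    apply hy'
    rcases P.mul_mem_union s hs n hn x hx with h | h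
    · exact ⟨s * n, P.N.mul_mem (P.subset hs) hn, h⟩
    · exact ⟨n, hn, h⟩
  have hS : ∀ s ∈ P.S, p s := by
    intro s hs
    refine ⟨hS1 s hs, fun t ht => ?_⟩
    have h1 : s⁻¹ * t = s * ((s * s)⁻¹ * t) := by group
    rw [h1]
    exact hS1 s hs _ (hB1 _ (P.B.inv_mem (P.sq_mem s hs)) t ht)
  have hN : ∀ m ∈ P.N, p m := by
    intro m hm
    have hm' : m ∈ Subgroup.closure (P.S ∪ ((P.B ⊓ P.N : Subgroup G) : Set G)) := by
      rw [Subgroup.closure_union, Subgroup.closure_eq, P.closure_sup]; exact hm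
    clear hm
    induction hm' using Subgroup.closure_induction with
    | mem x hx =>
      rcases hx with hx | hx
      · exact hS x hx
      · exact hB x hx.1
    | one => exact hone
    | mul x y _ _ ihx ihy => exact hmul x y ihx ihy
    | inv x _ ih => exact hinv x ih
  have hG : ∀ m : G, p m := by
    intro m
    have hm' : m ∈ Subgroup.closure ((P.B : Set G) ∪ (P.N : Set G)) := by
      rw [← Subgroup.sup_eq_closure, P.sup_eq_top]; trivial
    induction hm' using Subgroup.closure_induction with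
    | mem x hx =>
      rcases hx with hx | hx
      · exact hB x hx
      · exact hN x hx
    | one => exact hone
    | mul x y _ _ ihx ihy => exact hmul x y ihx ihy
    | inv x _ ih => exact hinv x ih
  have h1T : (1 : G) ∈ T :=
    ⟨1, P.N.one_mem, (mem_dc_iff _ _ _).mpr ⟨1, P.B.one_mem, 1, P.B.one_mem, by group⟩⟩
  have := (hG g).1 1 h1T
  rwa [mul_one] at this

end Cfsg.Agent.Lib.Lead
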