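import Mathlib
import Cfsg.Prelude.Def_LieExceptional
import Cfsg.Agent.Lib.Lead.BN

set_option autoImplicit false

namespace Cfsg.Agent.Lib.Lead

open Cfsg

variable {G : Type*} [Group G] (P : BNPair G)

/-- the double coset `B n B` -/
def bnC (n : G) : Set G := DoubleCoset.doubleCoset n (P.B : Set G) P.B

theorem mem_bnC {n g : G} : g ∈ bnC P n ↔ ∃ x ∈ P.B, ∃ y ∈ P.B, g = x * n * y := mem_dc_iff _ _ _

theorem bnC_self (n : G) : n ∈ bnC P n :=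
  (mem_bnC P).mpr ⟨1, P.B.one_mem, 1, P.B.one_mem, by group⟩

theorem bnC_eq_of_mem {n g : G} (h : g ∈ bnC P n) : bnC P g = bnC P n := by
  obtain ⟨x, hx, y, hy, rfl⟩ := (mem_bnC P).mp h
  ext z
  simp only [mem_bnC]
  constructor
  · rintro ⟨x', hx', y', hy', rfl⟩
    exact ⟨x' * x, P.B.mul_mem hx' hx, y * y', P.B.mul_mem hy hy', by group⟩
  · rintro ⟨x', hx', y', hy', rfl⟩
    exact ⟨x' * x⁻¹, P.B.mul_mem hx' (P.B.inv_mem hx), y⁻¹ * y',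
      P.B.mul_mem (P.B.inv_mem hy) hy', by group⟩

theorem bnC_mul_left {n g b : G} (hb : b ∈ P.B) (h : g ∈ bnC P n) : b * g ∈ bnC P n := by
  obtain ⟨x, hx, y, hy, rfl⟩ := (mem_bnC P).mp h
  exact (mem_bnC P).mpr ⟨b * x, P.B.mul_mem hb hx, y, hy, by group⟩

theorem bnC_mul_right {n g b : G} (hb : b ∈ P.B) (h : g ∈ bnC P n) : g * b ∈ bnC P n := by
  obtain ⟨x, hx, y, hy, rfl⟩ := (mem_bnC P).mp h
  exact (mem_bnC P).mpr ⟨x, hx, y * b, P.B.mul_mem hy hb, by group⟩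

theorem bnC_eq_mul_right {n b : G} (hb : b ∈ P.B) : bnC P (n * b) = bnC P n :=
  bnC_eq_of_mem P (bnC_mul_right P hb (bnC_self P n))

theorem bnC_eq_mul_left {n b : G} (hb : b ∈ P.B) : bnC P (b * n) = bnC P n :=
  bnC_eq_of_mem P (bnC_mul_left P hb (bnC_self P n))

theorem bnC_inv {n g : G} (h : g ∈ bnC P n) : g⁻¹ ∈ bnC P n⁻¹ := by
  obtain ⟨x, hx, y, hy, rfl⟩ := (mem_bnC P).mp h
  exact (mem_bnC P).mpr ⟨y⁻¹, P.B.inv_mem hy, x⁻¹, P.B.inv_mem hx, by group⟩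

theorem mem_B_of_mem_bnC {b g : G} (hb : b ∈ P.B) (h : g ∈ bnC P b) : g ∈ P.B := by
  obtain ⟨x, hx, y, hy, rfl⟩ := (mem_bnC P).mp h
  exact P.B.mul_mem (P.B.mul_mem hx hb) hy

theorem bnC_eq_of_inv_mul_mem {n n' : G} (h : n⁻¹ * n' ∈ P.B) : bnC P n' = bnC P n := by
  have : n' = n * (n⁻¹ * n') := by group
  rw [this]; exact bnC_eq_mul_right P h

/-- `n t n⁻¹ ∈ B ∩ N` for `n ∈ N`, `t ∈ B ∩ N` -/
theorem bn_conj {n t : G} (hn : n ∈ P.N) (ht : t ∈ P.B) (htN : t ∈ P.N) :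
    n * t * n⁻¹ ∈ P.B ∧ n * t * n⁻¹ ∈ P.N :=
  ⟨P.conj_mem n hn t ⟨ht, htN⟩, P.N.mul_mem (P.N.mul_mem hn htN) (P.N.inv_mem hn)⟩

theorem bn_conj' {n t : G} (hn : n ∈ P.N) (ht : t ∈ P.B) (htN : t ∈ P.N) :
    n⁻¹ * t * n ∈ P.B ∧ n⁻¹ * t * n ∈ P.N := by
  have := bn_conj P (P.N.inv_mem hn) ht htN
  rwa [inv_inv] at this

theorem bn_sq {s : G} (hs : s ∈ P.S) : s * s ∈ P.B ∧ s * s ∈ P.N :=
  ⟨P.sq_mem s hs, P.N.mul_mem (P.subset hs) (P.subset hs)⟩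

theorem bn_sq_inv {s : G} (hs : s ∈ P.S) : (s * s)⁻¹ ∈ P.B ∧ (s * s)⁻¹ ∈ P.N :=
  ⟨P.B.inv_mem (bn_sq P hs).1, P.N.inv_mem (bn_sq P hs).2⟩

/-- `∃ b ∈ B, s b s ∉ B` -/
theorem bn_exists_not_mem {s : G} (hs : s ∈ P.S) : ∃ b ∈ P.B, s * b * s ∉ P.B := by
  by_contra hcon
  push_neg at hcon
  apply P.conj_ne s hs
  apply Set.Subset.antisymm
  · rintro _ ⟨b, hb, rfl⟩
    exact hcon b hb
  · intro b hb
    have h1 : (s * s)⁻¹ * b * (s * s)⁻¹ ∈ P.B :=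
      P.B.mul_mem (P.B.mul_mem (bn_sq_inv P hs).1 hb) (bn_sq_inv P hs).1
    have h2 := hcon _ h1
    refine ⟨s * ((s * s)⁻¹ * b * (s * s)⁻¹) * s, h2, ?_⟩
    show s * (s * ((s * s)⁻¹ * b * (s * s)⁻¹) * s) * s = b
    group

theorem bn_S_not_mem_B {s : G} (hs : s ∈ P.S) : s ∉ P.B := by
  intro h
  obtain ⟨b, hb, hn⟩ := bn_exists_not_mem P hs
  exact hn (P.B.mul_mem (P.B.mul_mem h hb) h)

theorem bn_T3 {s n b : G} (hs : s ∈ P.S) (hn : n ∈ P.N) (hb : b ∈ P.B) :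
    s * b * n ∈ bnC P (s * n) ∨ s * b * n ∈ bnC P n :=
  P.mul_mem_union s hs n hn b hb

/-- right-handed version of the double coset axiom -/
theorem bn_RT3 {t n b : G} (ht : t ∈ P.S) (hn : n ∈ P.N) (hb : b ∈ P.B) :
    n * b * t ∈ bnC P (n * t) ∨ n * b * t ∈ bnC P n := by
  have h := bn_T3 P ht (P.N.inv_mem hn) (P.B.inv_mem hb)
  have e : n * b * t = (t * b⁻¹ * n⁻¹)⁻¹ * (t * t) := by group
  rw [e]
  rcases h with h | h
  · left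
    have h1 := bnC_mul_right P (bn_sq P ht).1 (bnC_inv P h)
    have e2 : bnC P (t * n⁻¹)⁻¹ = bnC P (n * t) := by
      have e3 : n * t = (t * n⁻¹)⁻¹ * (t * t) := by group
      rw [e3, bnC_eq_mul_right P (bn_sq P ht).1]
    rw [← e2]; exact h1
  · right
    have h1 := bnC_mul_right P (bn_sq P ht).1 (bnC_inv P h)
    rwa [inv_inv] at h1

/-- `∃ b ∈ B, s b s ∈ B s B` -/
theorem bn_T4 {s : G} (hs : s ∈ P.S) : ∃ b ∈ P.B, s * b * s ∈ bnC P s := by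
  obtain ⟨b, hb, hn⟩ := bn_exists_not_mem P hs
  refine ⟨b, hb, ?_⟩
  rcases bn_T3 P hs (P.subset hs) hb with h | h
  · exact absurd (mem_B_of_mem_bnC P (bn_sq P hs).1 h) hn
  · exact h

/-- elements of `N` of length at most `k` (as words in `S` modulo `B ∩ N`) -/
def bnL (P : BNPair G) : ℕ → Set G
  | 0 => {g | g ∈ P.B ∧ g ∈ P.N}
  | (k + 1) => {g | ∃ s ∈ P.S, ∃ m ∈ bnL P k, g = s * m}

theorem bnL_zero {g : G} : g ∈ bnL P 0 ↔ g ∈ P.B ∧ g ∈ P.N := Iff.rfl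

theorem bnL_succ {g : G} {k : ℕ} : g ∈ bnL P (k + 1) ↔ ∃ s ∈ P.S, ∃ m ∈ bnL P k, g = s * m := Iff.rfl

theorem bnL_subset_N : ∀ (k : ℕ) {g : G}, g ∈ bnL P k → g ∈ P.N
  | 0, _, h => h.2
  | (k + 1), _, h => by
    obtain ⟨s, hs, m, hm, rfl⟩ := h
    exact P.N.mul_mem (P.subset hs) (bnL_subset_N k hm)

theorem bnL_mul_H : ∀ (k : ℕ) {g h : G}, g ∈ bnL P k → h ∈ P.B → h ∈ P.N → g * h ∈ bnL P k
  | 0, _, _, hg, hh, hhN => ⟨P.B.mul_mem hg.1 hh, P.N.mul_mem hg.2 hhN⟩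
  | (k + 1), _, h, hg, hh, hhN => by
    obtain ⟨s, hs, m, hm, rfl⟩ := hg
    exact ⟨s, hs, m * h, bnL_mul_H k hm hh hhN, by group⟩

theorem bnL_H_mul : ∀ (k : ℕ) {g h : G}, g ∈ bnL P k → h ∈ P.B → h ∈ P.N → h * g ∈ bnL P k
  | 0, _, _, hg, hh, hhN => ⟨P.B.mul_mem hh hg.1, P.N.mul_mem hhN hg.2⟩
  | (k + 1), _, h, hg, hh, hhN => by
    obtain ⟨s, hs, m, hm, rfl⟩ := hg
    have hc := bn_conj' P (P.subset hs) hh hhN
    exact ⟨s, hs, (s⁻¹ * h * s) * m, bnL_H_mul k hm hc.1 hc.2, by group⟩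

theorem bnL_mul_S : ∀ (k : ℕ) {g t : G}, g ∈ bnL P k → t ∈ P.S → g * t ∈ bnL P (k + 1)
  | 0, g, t, hg, ht => by
    have hc := bn_conj' P (P.subset ht) hg.1 hg.2
    exact ⟨t, ht, t⁻¹ * g * t, hc, by group⟩
  | (k + 1), _, t, hg, ht => by
    obtain ⟨s, hs, m, hm, rfl⟩ := hg
    exact ⟨s, hs, m * t, bnL_mul_S k hm ht, by group⟩

theorem bnL_right_decomp : ∀ (k : ℕ) {g : G}, g ∈ bnL P (k + 1) → ∃ t ∈ P.S, ∃ m ∈ bnL P k, g = m * t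
  | 0, _, hg => by
    obtain ⟨s, hs, m, hm, rfl⟩ := hg
    have hc := bn_conj P (P.subset hs) hm.1 hm.2
    exact ⟨s, hs, s * m * s⁻¹, hc, by group⟩
  | (k + 1), _, hg => by
    obtain ⟨s, hs, m, hm, rfl⟩ := hg
    obtain ⟨t, ht, m', hm', rfl⟩ := bnL_right_decomp k hm
    exact ⟨t, ht, s * m', ⟨s, hs, m', hm', rfl⟩, by group⟩

theorem bnL_inv : ∀ (k : ℕ) {g : G}, g ∈ bnL P k → g⁻¹ ∈ bnL P k
  | 0, _, hg => ⟨P.B.inv_mem hg.1, P.N.inv_mem hg.2⟩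
  | (k + 1), _, hg => by
    obtain ⟨s, hs, m, hm, rfl⟩ := hg
    have h1 := bnL_mul_S P k (bnL_inv k hm) hs
    have h2 := bnL_mul_H P (k + 1) h1 (bn_sq_inv P hs).1 (bn_sq_inv P hs).2
    have e : (s * m)⁻¹ = m⁻¹ * s * (s * s)⁻¹ := by group
    rw [e]; exact h2

theorem bnL_mul : ∀ (k j : ℕ) {g g' : G}, g ∈ bnL P k → g' ∈ bnL P j → g * g' ∈ bnL P (k + j)
  | 0, j, _, _, hg, hg' => by
    rw [Nat.zero_add]; exact bnL_H_mul P j hg' hg.1 hg.2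
  | (k + 1), j, _, g', hg, hg' => by
    obtain ⟨s, hs, m, hm, rfl⟩ := hg
    rw [Nat.succ_add]
    exact ⟨s, hs, m * g', bnL_mul k j hm hg', by group⟩

theorem exists_bnL {n : G} (hn : n ∈ P.N) : ∃ k, n ∈ bnL P k := by
  have hm' : n ∈ Subgroup.closure (P.S ∪ ((P.B ⊓ P.N : Subgroup G) : Set G)) := by
    rw [Subgroup.closure_union, Subgroup.closure_eq, P.closure_sup]; exact hn
  clear hn
  induction hm' using Subgroup.closure_induction with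
  | mem x hx =>
    rcases hx with hx | hx
    · exact ⟨1, x, hx, 1, ⟨P.B.one_mem, P.N.one_mem⟩, by group⟩
    · exact ⟨0, hx.1, hx.2⟩
  | one => exact ⟨0, P.B.one_mem, P.N.one_mem⟩
  | mul x y _ _ ihx ihy =>
    obtain ⟨k, hk⟩ := ihx
    obtain ⟨j, hj⟩ := ihy
    exact ⟨k + j, bnL_mul P k j hk hj⟩
  | inv x _ ih =>
    obtain ⟨k, hk⟩ := ih
    exact ⟨k, bnL_inv P k hk⟩

/-- the length of `n ∈ N` with respect to `S`, modulo `B ∩ N` -/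
noncomputable def bnLen (n : G) : ℕ := sInf {k | n ∈ bnL P k}

theorem bnLen_mem {n : G} (hn : n ∈ P.N) : n ∈ bnL P (bnLen P n) :=
  Nat.sInf_mem (exists_bnL P hn)

theorem bnLen_le {n : G} {k : ℕ} (h : n ∈ bnL P k) : bnLen P n ≤ k := Nat.sInf_le h

theorem bnLen_S_mul_le {s n : G} (hs : s ∈ P.S) (hn : n ∈ P.N) : bnLen P (s * n) ≤ bnLen P n + 1 :=
  bnLen_le P ⟨s, hs, n, bnLen_mem P hn, rfl⟩

theorem bnLen_le_S_mul {s n : G} (hs : s ∈ P.S) (hn : n ∈ P.N) : bnLen P n ≤ bnLen P (s * n) + 1 := by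
  have hsn : s * n ∈ P.N := P.N.mul_mem (P.subset hs) hn
  have h1 : s * (s * n) ∈ bnL P (bnLen P (s * n) + 1) := ⟨s, hs, s * n, bnLen_mem P hsn, rfl⟩
  have h2 := bnL_H_mul P _ h1 (bn_sq_inv P hs).1 (bn_sq_inv P hs).2
  have e : (s * s)⁻¹ * (s * (s * n)) = n := by group
  rw [e] at h2
  exact bnLen_le P h2

theorem bnLen_mul_S_le {t n : G} (ht : t ∈ P.S) (hn : n ∈ P.N) : bnLen P (n * t) ≤ bnLen P n + 1 :=
  bnLen_le P (bnL_mul_S P _ (bnLen_mem P hn) ht)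

theorem bnLen_le_mul_S {t n : G} (ht : t ∈ P.S) (hn : n ∈ P.N) : bnLen P n ≤ bnLen P (n * t) + 1 := by
  have hnt : n * t ∈ P.N := P.N.mul_mem hn (P.subset ht)
  have h1 := bnL_mul_S P _ (bnLen_mem P hnt) ht
  have h2 := bnL_mul_H P _ h1 (bn_sq_inv P ht).1 (bn_sq_inv P ht).2
  have e : n * t * t * (t * t)⁻¹ = n := by group
  rw [e] at h2
  exact bnLen_le P h2

theorem bnLen_mul_H {n h : G} (hn : n ∈ P.N) (hh : h ∈ P.B) (hhN : h ∈ P.N) :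
    bnLen P (n * h) = bnLen P n := by
  apply le_antisymm
  · exact bnLen_le P (bnL_mul_H P _ (bnLen_mem P hn) hh hhN)
  · have h1 := bnL_mul_H P _ (bnLen_mem P (P.N.mul_mem hn hhN)) (P.B.inv_mem hh) (P.N.inv_mem hhN)
    have e : n * h * h⁻¹ = n := by group
    rw [e] at h1
    exact bnLen_le P h1

theorem bnLen_H_mul {n h : G} (hn : n ∈ P.N) (hh : h ∈ P.B) (hhN : h ∈ P.N) :
    bnLen P (h * n) = bnLen P n := by
  apply le_antisymm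
  · exact bnLen_le P (bnL_H_mul P _ (bnLen_mem P hn) hh hhN)
  · have h1 := bnL_H_mul P _ (bnLen_mem P (P.N.mul_mem hhN hn)) (P.B.inv_mem hh) (P.N.inv_mem hhN)
    have e : h⁻¹ * (h * n) = n := by group
    rw [e] at h1
    exact bnLen_le P h1

theorem bnLen_eq_of_inv_mul_mem {n n' : G} (hn : n ∈ P.N) (hn' : n' ∈ P.N) (h : n⁻¹ * n' ∈ P.B) :
    bnLen P n' = bnLen P n := by
  have e : n' = n * (n⁻¹ * n') := by group
  rw [e]
  exact bnLen_mul_H P hn h (P.N.mul_mem (P.N.inv_mem hn) hn')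

theorem bnLen_sq_mul {s n : G} (hs : s ∈ P.S) (hn : n ∈ P.N) : bnLen P (s * (s * n)) = bnLen P n := by
  have e : s * (s * n) = (s * s) * n := by group
  rw [e]; exact bnLen_H_mul P hn (bn_sq P hs).1 (bn_sq P hs).2

theorem bnLen_eq_zero {n : G} (hn : n ∈ P.N) : bnLen P n = 0 ↔ n ∈ P.B := by
  constructor
  · intro h
    have := bnLen_mem P hn
    rw [h] at this
    exact this.1
  · intro h
    exact Nat.le_zero.mp (bnLen_le P (k := 0) ⟨h, hn⟩)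

/-- decomposition of an element of length `k + 1` -/
theorem bnLen_decomp {n : G} {k : ℕ} (hn : n ∈ P.N) (h : bnLen P n = k + 1) :
    ∃ s ∈ P.S, ∃ m ∈ P.N, n = s * m ∧ bnLen P m = k := by
  have h1 := bnLen_mem P hn
  rw [h] at h1
  obtain ⟨s, hs, m, hm, rfl⟩ := h1
  have hmN := bnL_subset_N P k hm
  refine ⟨s, hs, m, hmN, rfl, ?_⟩
  have h2 := bnLen_le P hm
  have h3 := bnLen_S_mul_le P hs hmN
  omega

theorem bnLen_decomp_right {n : G} {k : ℕ} (hn : n ∈ P.N) (h : bnLen P n = k + 1) :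
    ∃ t ∈ P.S, ∃ m ∈ P.N, n = m * t ∧ bnLen P m = k := by
  have h1 := bnLen_mem P hn
  rw [h] at h1
  obtain ⟨t, ht, m, hm, rfl⟩ := bnL_right_decomp P k h1
  have hmN := bnL_subset_N P k hm
  refine ⟨t, ht, m, hmN, rfl, ?_⟩
  have h2 := bnLen_le P hm
  have h3 := bnLen_mul_S_le P ht hmN
  omega

end Cfsg.Agent.Lib.Lead
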