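import Mathlib
import Cfsg.Prelude.Def_LieExceptional
import Cfsg.Agent.Lib.Lead.BN2

set_option autoImplicit false

namespace Cfsg.Agent.Lib.Lead

open Cfsg

variable {G : Type*} [Group G] (P : BNPair G)

theorem bn_unique_aux : ∀ (k : ℕ) {n n' : G}, n ∈ P.N → n' ∈ P.N → bnLen P n = k → k ≤ bnLen P n' →
    bnC P n = bnC P n' → n⁻¹ * n' ∈ P.B := by
  intro k
  induction k with
  | zero =>
    intro n n' hn hn' hk _ hC
    have hnB : n ∈ P.B := (bnLen_eq_zero P hn).mp hk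
    have h1 : n' ∈ bnC P n := hC ▸ bnC_self P n'
    exact P.B.mul_mem (P.B.inv_mem hnB) (mem_B_of_mem_bnC P hnB h1)
  | succ k ih =>
    intro n n' hn hn' hk hle hC
    obtain ⟨s, hs, m, hm, rfl, hmk⟩ := bnLen_decomp P hn hk
    have hsN := P.subset hs
    have h1 : s * m ∈ bnC P n' := hC ▸ bnC_self P (s * m)
    obtain ⟨x, hx, y, hy, hxy⟩ := (mem_bnC P).mp h1
    have hb : (s * s)⁻¹ * x ∈ P.B := P.B.mul_mem (bn_sq_inv P hs).1 hx
    have e : m = s * ((s * s)⁻¹ * x) * n' * y := by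
      have e0 : m = s⁻¹ * (s * m) := by group
      rw [e0, hxy]; group
    rcases bn_T3 P hs hn' hb with h | h
    · have h2 : m ∈ bnC P (s * n') := by rw [e]; exact bnC_mul_right P hy h
      have hC2 : bnC P m = bnC P (s * n') := bnC_eq_of_mem P h2
      have hsn' : s * n' ∈ P.N := P.N.mul_mem hsN hn'
      have hle2 : k ≤ bnLen P (s * n') := by
        have := bnLen_le_S_mul P hs hn'
        omega
      have h3 := ih hm hsn' hmk hle2 hC2
      have hc := bn_conj' P hn' (bn_sq_inv P hs).1 (bn_sq_inv P hs).2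
      have e2 : (s * m)⁻¹ * n' = (m⁻¹ * (s * n')) * (n'⁻¹ * (s * s)⁻¹ * n') := by group
      rw [e2]; exact P.B.mul_mem h3 hc.1
    · exfalso
      have h2 : m ∈ bnC P n' := by rw [e]; exact bnC_mul_right P hy h
      have hC2 : bnC P m = bnC P n' := bnC_eq_of_mem P h2
      have h3 := ih hm hn' hmk (by omega) hC2
      have h4 := bnLen_eq_of_inv_mul_mem P hm hn' h3
      omega

/-- uniqueness in the Bruhat decomposition -/
theorem bn_unique {n n' : G} (hn : n ∈ P.N) (hn' : n' ∈ P.N) (hC : bnC P n = bnC P n') :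
    n⁻¹ * n' ∈ P.B := by
  rcases le_total (bnLen P n) (bnLen P n') with h | h
  · exact bn_unique_aux P _ hn hn' rfl h hC
  · have h1 := bn_unique_aux P _ hn' hn rfl h hC.symm
    have e : n⁻¹ * n' = (n'⁻¹ * n)⁻¹ := by group
    rw [e]; exact P.B.inv_mem h1

theorem bn_claim1_aux : ∀ (k : ℕ) {n s b : G}, n ∈ P.N → bnLen P n = k → s ∈ P.S →
    k ≤ bnLen P (s * n) → b ∈ P.B → s * b * n ∈ bnC P (s * n) := by
  intro k
  induction k with
  | zero =>
    intro n s b hn hk hs _ hb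
    have hnB : n ∈ P.B := (bnLen_eq_zero P hn).mp hk
    exact (mem_bnC P).mpr ⟨1, P.B.one_mem, n⁻¹ * b * n,
      P.B.mul_mem (P.B.mul_mem (P.B.inv_mem hnB) hb) hnB, by group⟩
  | succ k ih =>
    intro n s b hn hk hs hle hb
    obtain ⟨t, ht, m, hm, rfl, hmk⟩ := bnLen_decomp_right P hn hk
    have hsN := P.subset hs
    have htN := P.subset ht
    have hsm : s * m ∈ P.N := P.N.mul_mem hsN hm
    have hle2 : k ≤ bnLen P (s * m) := by
      by_contra hlt
      have h1 := bnLen_mul_S_le P ht hsm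
      have e : s * m * t = s * (m * t) := by group
      rw [e] at h1
      omega
    rcases bn_T3 P hs hn hb with h | h
    · exact h
    · exfalso
      obtain ⟨x, hx, y, hy, hxy⟩ := (mem_bnC P).mp h
      have e1 : s * b * m = x * (m * t * y * t) * (t * t)⁻¹ := by
        have e0 : s * b * m = (s * b * (m * t)) * t⁻¹ := by group
        rw [e0, hxy]; group
      have h2 := ih hm hmk hs hle2 hb
      have hmt : m * t ∈ P.N := hn
      rcases bn_RT3 P ht hmt hy with h3 | h3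
      · have h4 : s * b * m ∈ bnC P (m * t * t) := by
          rw [e1]; exact bnC_mul_right P (bn_sq_inv P ht).1 (bnC_mul_left P hx h3)
        have e2 : m * t * t = m * (t * t) := by group
        rw [e2, bnC_eq_mul_right P (bn_sq P ht).1] at h4
        have hC : bnC P (s * m) = bnC P m := by rw [← bnC_eq_of_mem P h2, bnC_eq_of_mem P h4]
        have h5 := bn_unique P hsm hm hC
        have h5N : (s * m)⁻¹ * m ∈ P.N := P.N.mul_mem (P.N.inv_mem hsm) hm
        have h6 := (bn_conj P hm h5 h5N).1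
        have e3 : m * ((s * m)⁻¹ * m) * m⁻¹ = s⁻¹ := by group
        rw [e3] at h6
        exact bn_S_not_mem_B P hs (by simpa using P.B.inv_mem h6)
      · have h4 : s * b * m ∈ bnC P (m * t) := by
          rw [e1]; exact bnC_mul_right P (bn_sq_inv P ht).1 (bnC_mul_left P hx h3)
        have hC : bnC P (s * m) = bnC P (m * t) := by rw [← bnC_eq_of_mem P h2, bnC_eq_of_mem P h4]
        have h5 := bn_unique P hsm hmt hC
        have h5N : (s * m)⁻¹ * (m * t) ∈ P.N := P.N.mul_mem (P.N.inv_mem hsm) hmt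
        have e3 : s * (m * t) = (s * s) * (m * ((s * m)⁻¹ * (m * t))) := by group
        have h7 : bnLen P (s * (m * t)) = bnLen P m := by
          rw [e3, bnLen_H_mul P (P.N.mul_mem hm h5N) (bn_sq P hs).1 (bn_sq P hs).2,
            bnLen_mul_H P hm h5 h5N]
        omega

/-- if `ℓ(n) ≤ ℓ(s n)` then `s B n ⊆ B s n B` -/
theorem bn_claim1 {n s b : G} (hn : n ∈ P.N) (hs : s ∈ P.S) (hle : bnLen P n ≤ bnLen P (s * n))
    (hb : b ∈ P.B) : s * b * n ∈ bnC P (s * n) :=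
  bn_claim1_aux P _ hn rfl hs hle hb

/-- if `ℓ(s n) < ℓ(n)` then `s B n` meets `B n B` -/
theorem bn_K {s n : G} (hs : s ∈ P.S) (hn : n ∈ P.N) (hlt : bnLen P (s * n) < bnLen P n) :
    ∃ b ∈ P.B, s * b * n ∈ bnC P n := by
  obtain ⟨b₀, hb₀, h0⟩ := bn_T4 P hs
  obtain ⟨x, hx, y, hy, hxy⟩ := (mem_bnC P).mp h0
  have hsn : s * n ∈ P.N := P.N.mul_mem (P.subset hs) hn
  have hlen : bnLen P (s * n) ≤ bnLen P (s * (s * n)) := by rw [bnLen_sq_mul P hs hn]; exact hlt.le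
  have h1 := bn_claim1 P hsn hs hlen (P.B.mul_mem hy (bn_sq_inv P hs).1)
  have e : s * (s * n) = (s * s) * n := by group
  rw [e, bnC_eq_mul_left P (bn_sq P hs).1] at h1
  refine ⟨b₀, hb₀, ?_⟩
  have e2 : s * b₀ * n = x * (s * (y * (s * s)⁻¹) * (s * n)) := by
    have e0 : s * b₀ * n = (s * b₀ * s) * (s⁻¹ * n) := by group
    rw [e0, hxy]; group
  rw [e2]; exact bnC_mul_left P hx h1

/-- `ℓ(s n) ≠ ℓ(n)` -/
theorem bn_parity {s n : G} (hs : s ∈ P.S) (hn : n ∈ P.N) : bnLen P (s * n) ≠ bnLen P n := by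
  intro heq
  have hsN := P.subset hs
  have hsn : s * n ∈ P.N := P.N.mul_mem hsN hn
  obtain ⟨b₀, hb₀, h0⟩ := bn_T4 P hs
  obtain ⟨x, hx, y, hy, hxy⟩ := (mem_bnC P).mp h0
  have h1 := bn_claim1 P hn hs heq.ge hy
  have hlen : bnLen P (s * n) ≤ bnLen P (s * (s * n)) := by rw [bnLen_sq_mul P hs hn]; exact heq.le
  have h2 := bn_claim1 P hsn hs hlen hb₀
  have e : s * (s * n) = (s * s) * n := by group
  rw [e, bnC_eq_mul_left P (bn_sq P hs).1] at h2
  have e2 : s * b₀ * (s * n) = x * (s * y * n) := by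
    have e0 : s * b₀ * (s * n) = (s * b₀ * s) * n := by group
    rw [e0, hxy]; group
  rw [e2] at h2
  have h3 := bnC_mul_left P hx h1
  have hC : bnC P (s * n) = bnC P n := by rw [← bnC_eq_of_mem P h3, bnC_eq_of_mem P h2]
  have h5 := bn_unique P hsn hn hC
  have h5N : (s * n)⁻¹ * n ∈ P.N := P.N.mul_mem (P.N.inv_mem hsn) hn
  have h6 := (bn_conj P hn h5 h5N).1
  have e3 : n * ((s * n)⁻¹ * n) * n⁻¹ = s⁻¹ := by group
  rw [e3] at h6
  exact bn_S_not_mem_B P hs (by simpa using P.B.inv_mem h6)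

theorem bn_letters_aux (M : Subgroup G) (hM : P.B ≤ M) : ∀ (k : ℕ) {n : G}, n ∈ P.N → n ∈ M →
    bnLen P n = k → n ∈ P.parabolic {s | s ∈ P.S ∧ s ∈ M} := by
  intro k
  induction k with
  | zero =>
    intro n hn _ hk
    exact Subgroup.mem_sup_left ((bnLen_eq_zero P hn).mp hk)
  | succ k ih =>
    intro n hn hnM hk
    obtain ⟨s, hs, m, hm, rfl, hmk⟩ := bnLen_decomp P hn hk
    have hlt : bnLen P (s * (s * m)) < bnLen P (s * m) := by rw [bnLen_sq_mul P hs hm]; omega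
    obtain ⟨b, hb, h1⟩ := bn_K P hs hn hlt
    obtain ⟨x, hx, y, hy, hxy⟩ := (mem_bnC P).mp h1
    have hsM : s ∈ M := by
      have e : x * (s * m) * y * (s * m)⁻¹ * b⁻¹ = s := by rw [← hxy]; group
      rw [← e]
      exact M.mul_mem (M.mul_mem (M.mul_mem (M.mul_mem (hM hx) hnM) (hM hy)) (M.inv_mem hnM))
        (M.inv_mem (hM hb))
    have hmM : m ∈ M := by
      have e : m = s⁻¹ * (s * m) := by group
      rw [e]; exact M.mul_mem (M.inv_mem hsM) hnM
    have h2 := ih hm hmM hmk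
    exact Subgroup.mul_mem _ (Subgroup.mem_sup_right (Subgroup.subset_closure ⟨hs, hsM⟩)) h2

/-- every subgroup containing `B` is a standard parabolic subgroup -/
theorem bn_subgroup_eq_parabolic (M : Subgroup G) (hM : P.B ≤ M) :
    M = P.parabolic {s | s ∈ P.S ∧ s ∈ M} := by
  apply le_antisymm
  · intro g hg
    obtain ⟨n, hn, hgn⟩ := bn_bruhat P g
    obtain ⟨x, hx, y, hy, rfl⟩ := (mem_dc_iff _ _ _).mp hgn
    have hnM : n ∈ M := by
      have e : n = x⁻¹ * (x * n * y) * y⁻¹ := by group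
      rw [e]; exact M.mul_mem (M.mul_mem (M.inv_mem (hM hx)) hg) (M.inv_mem (hM hy))
    have h1 := bn_letters_aux P M hM _ hn hnM rfl
    exact Subgroup.mul_mem _ (Subgroup.mul_mem _ (Subgroup.mem_sup_left hx) h1) (Subgroup.mem_sup_left hy)
  · exact sup_le hM ((Subgroup.closure_le _).mpr (fun s hs => hs.2))

/-- `P_J = B W_J B` -/
theorem bn_parabolic_mem {J : Set G} (hJ : J ⊆ P.S) {g : G} (hg : g ∈ P.parabolic J) :
    ∃ n ∈ Subgroup.closure J, g ∈ bnC P n := by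
  let T : Set G := {g | ∃ n ∈ Subgroup.closure J, g ∈ bnC P n}
  let p : G → Prop := fun m => (∀ t ∈ T, m * t ∈ T) ∧ (∀ t ∈ T, m⁻¹ * t ∈ T)
  have hJN : Subgroup.closure J ≤ P.N := (Subgroup.closure_le _).mpr (fun s hs => P.subset (hJ hs))
  have hone : p 1 := ⟨fun t ht => by simpa using ht, fun t ht => by simpa using ht⟩
  have hmul : ∀ x y, p x → p y → p (x * y) := by
    intro x y hx hy
    refine ⟨fun t ht => ?_, fun t ht => ?_⟩
    · rw [mul_assoc]; exact hx.1 _ (hy.1 _ ht)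
    · rw [mul_inv_rev, mul_assoc]; exact hy.2 _ (hx.2 _ ht)
  have hinv : ∀ x, p x → p x⁻¹ := by
    intro x hx
    exact ⟨hx.2, fun t ht => by rw [inv_inv]; exact hx.1 t ht⟩
  have hB1 : ∀ b ∈ P.B, ∀ t ∈ T, b * t ∈ T := by
    rintro b hb t ⟨n, hn, ht⟩
    exact ⟨n, hn, bnC_mul_left P hb ht⟩
  have hB : ∀ b ∈ P.B, p b := fun b hb => ⟨hB1 b hb, hB1 b⁻¹ (P.B.inv_mem hb)⟩
  have hS1 : ∀ s ∈ J, ∀ t ∈ T, s * t ∈ T := by
    rintro s hs t ⟨n, hn, ht⟩
    obtain ⟨x, hx, y, hy, rfl⟩ := (mem_bnC P).mp ht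
    have h1 : s * (x * n * y) = (s * x * n) * y := by group
    rw [h1]
    rcases bn_T3 P (hJ hs) (hJN hn) hx with h | h
    · exact ⟨s * n, Subgroup.mul_mem _ (Subgroup.subset_closure hs) hn, bnC_mul_right P hy h⟩
    · exact ⟨n, hn, bnC_mul_right P hy h⟩
  have hS : ∀ s ∈ J, p s := by
    intro s hs
    refine ⟨hS1 s hs, fun t ht => ?_⟩
    have h1 : s⁻¹ * t = s * ((s * s)⁻¹ * t) := by group
    rw [h1]
    exact hS1 s hs _ (hB1 _ (bn_sq_inv P (hJ hs)).1 t ht)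
  have hG : ∀ m ∈ P.parabolic J, p m := by
    intro m hm
    have hm' : m ∈ Subgroup.closure ((P.B : Set G) ∪ J) := by
      rw [Subgroup.closure_union, Subgroup.closure_eq]; exact hm
    clear hm
    induction hm' using Subgroup.closure_induction with
    | mem x hx =>
      rcases hx with hx | hx
      · exact hB x hx
      · exact hS x hx
    | one => exact hone
    | mul x y _ _ ihx ihy => exact hmul x y ihx ihy
    | inv x _ ih => exact hinv x ih
  have h1T : (1 : G) ∈ T := ⟨1, Subgroup.one_mem _, bnC_self P 1⟩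
  have h2 := (hG g hg).1 1 h1T
  rwa [mul_one] at h2

theorem bn_mem_parabolic_of_bnC {J : Set G} {n g : G} (hn : n ∈ Subgroup.closure J) (hg : g ∈ bnC P n) :
    g ∈ P.parabolic J := by
  obtain ⟨x, hx, y, hy, rfl⟩ := (mem_bnC P).mp hg
  exact Subgroup.mul_mem _ (Subgroup.mul_mem _ (Subgroup.mem_sup_left hx) (Subgroup.mem_sup_right hn))
    (Subgroup.mem_sup_left hy)

theorem bn_mem_of_conj_le_aux (Q : Subgroup G) (hQ : P.B ≤ Q) : ∀ (k : ℕ) {n : G}, n ∈ P.N →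
    bnLen P n = k → (∀ b ∈ P.B, n * b * n⁻¹ ∈ Q) → n ∈ Q := by
  intro k
  induction k with
  | zero => intro n hn hk _; exact hQ ((bnLen_eq_zero P hn).mp hk)
  | succ k ih =>
    intro n hn hk hconj
    obtain ⟨s, hs, m, hm, rfl, hmk⟩ := bnLen_decomp P hn hk
    obtain ⟨b₀, hb₀, h0⟩ := bn_T4 P hs
    obtain ⟨x, hx, y, hy, hxy⟩ := (mem_bnC P).mp h0
    have hle : bnLen P m ≤ bnLen P (s * m) := by omega
    have h1 := bn_claim1 P hm hs hle hb₀
    obtain ⟨x', hx', y', hy', hxy'⟩ := (mem_bnC P).mp h1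
    have hsQ : s ∈ Q := by
      have e : x⁻¹ * (x' * ((s * m) * y' * (s * m)⁻¹)) * (s * s) * y⁻¹ = s := by
        have e2 : x⁻¹ * (x' * ((s * m) * y' * (s * m)⁻¹)) * (s * s) * y⁻¹
            = x⁻¹ * ((x' * (s * m) * y') * (m⁻¹ * s)) * y⁻¹ := by group
        rw [e2, ← hxy']
        have e3 : s * b₀ * m * (m⁻¹ * s) = s * b₀ * s := by group
        rw [e3, hxy]; group
      rw [← e]
      exact Q.mul_mem (Q.mul_mem (Q.mul_mem (Q.inv_mem (hQ hx)) (Q.mul_mem (hQ hx') (hconj y' hy')))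
        (hQ (bn_sq P hs).1)) (Q.inv_mem (hQ hy))
    have hmQ : m ∈ Q := by
      apply ih hm hmk
      intro b hb
      have e : m * b * m⁻¹ = s⁻¹ * ((s * m) * b * (s * m)⁻¹) * s := by group
      rw [e]; exact Q.mul_mem (Q.mul_mem (Q.inv_mem hsQ) (hconj b hb)) hsQ
    exact Q.mul_mem hsQ hmQ

/-- if `Q ≥ B` and `g B g⁻¹ ≤ Q` then `g ∈ Q` -/
theorem bn_mem_of_conj_le (Q : Subgroup G) (hQ : P.B ≤ Q) {g : G} (h : ∀ b ∈ P.B, g * b * g⁻¹ ∈ Q) :
    g ∈ Q := by
  obtain ⟨n, hn, hgn⟩ := bn_bruhat P g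
  obtain ⟨x, hx, y, hy, rfl⟩ := (mem_dc_iff _ _ _).mp hgn
  have hnQ : n ∈ Q := by
    apply bn_mem_of_conj_le_aux P Q hQ _ hn rfl
    intro b hb
    have h1 := h (y⁻¹ * b * y) (P.B.mul_mem (P.B.mul_mem (P.B.inv_mem hy) hb) hy)
    have e : n * b * n⁻¹ = x⁻¹ * (x * n * y * (y⁻¹ * b * y) * (x * n * y)⁻¹) * x := by group
    rw [e]; exact Q.mul_mem (Q.mul_mem (Q.inv_mem (hQ hx)) h1) (hQ hx)
  exact Q.mul_mem (Q.mul_mem (hQ hx) hnQ) (hQ hy)

end Cfsg.Agent.Lib.Lead
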