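import Mathlib
import Cfsg.Prelude.Def_LieExceptional
import Cfsg.Agent.Lib.Lead.BN3

set_option autoImplicit false

namespace Cfsg.Agent.Lib.Lead

open Cfsg

variable {G : Type*} [Group G] (P : BNPair G)

/-- if `ℓ(w) ≤ ℓ(s w)` and `ℓ(s w u) < ℓ(w u)` then `s w ≡ w u` modulo `B ∩ N` -/
theorem bn_C {s u w : G} (hs : s ∈ P.S) (hu : u ∈ P.S) (hw : w ∈ P.N)
    (h1 : bnLen P w ≤ bnLen P (s * w)) (h2 : bnLen P (s * (w * u)) < bnLen P (w * u)) :
    (w * u)⁻¹ * (s * w) ∈ P.B := by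
  have hsN := P.subset hs
  have huN := P.subset hu
  have hwu : w * u ∈ P.N := P.N.mul_mem hw huN
  have hsw : s * w ∈ P.N := P.N.mul_mem hsN hw
  obtain ⟨b, hb, hK⟩ := bn_K P hs hwu h2
  have hc1 := bn_claim1 P hw hs h1 hb
  obtain ⟨x, hx, y, hy, hxy⟩ := (mem_bnC P).mp hc1
  have e : s * b * (w * u) = x * ((s * w) * y * u) := by
    have e0 : s * b * (w * u) = (s * b * w) * u := by group
    rw [e0, hxy]; group
  rcases bn_RT3 P hu hsw hy with h | h
  · exfalso
    have h3 : s * b * (w * u) ∈ bnC P (s * w * u) := by rw [e]; exact bnC_mul_left P hx h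
    have hC : bnC P (w * u) = bnC P (s * w * u) := by rw [← bnC_eq_of_mem P hK, bnC_eq_of_mem P h3]
    have hswu : s * w * u ∈ P.N := P.N.mul_mem hsw huN
    have h5 := bn_unique P hwu hswu hC
    have h5N : (w * u)⁻¹ * (s * w * u) ∈ P.N := P.N.mul_mem (P.N.inv_mem hwu) hswu
    have h6 := (bn_conj P hwu h5 h5N).1
    have e3 : (w * u) * ((w * u)⁻¹ * (s * w * u)) * (w * u)⁻¹ = s := by group
    rw [e3] at h6
    exact bn_S_not_mem_B P hs h6
  · have h3 : s * b * (w * u) ∈ bnC P (s * w) := by rw [e]; exact bnC_mul_left P hx h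
    have hC : bnC P (w * u) = bnC P (s * w) := by rw [← bnC_eq_of_mem P hK, bnC_eq_of_mem P h3]
    exact bn_unique P hwu hsw hC

/-- the first letter of a reduced decomposition lies in every subgroup containing `B` and the element -/
theorem bn_first_letter (M : Subgroup G) (hM : P.B ≤ M) {s m : G} (hs : s ∈ P.S) (hm : m ∈ P.N)
    (hlt : bnLen P m < bnLen P (s * m)) (hsm : s * m ∈ M) : s ∈ M := by
  have hn : s * m ∈ P.N := P.N.mul_mem (P.subset hs) hm
  have hlt' : bnLen P (s * (s * m)) < bnLen P (s * m) := by rw [bnLen_sq_mul P hs hm]; exact hlt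
  obtain ⟨b, hb, h1⟩ := bn_K P hs hn hlt'
  obtain ⟨x, hx, y, hy, hxy⟩ := (mem_bnC P).mp h1
  have e : x * (s * m) * y * (s * m)⁻¹ * b⁻¹ = s := by rw [← hxy]; group
  rw [← e]
  exact M.mul_mem (M.mul_mem (M.mul_mem (M.mul_mem (hM hx) hsm) (hM hy)) (M.inv_mem hsm))
    (M.inv_mem (hM hb))

theorem bn_list_prod_mem : ∀ (l : List G), (∀ t ∈ l, t ∈ P.S) → l.prod ∈ bnL P l.length
  | [], _ => ⟨P.B.one_mem, P.N.one_mem⟩
  | (t :: l), h => by
    rw [List.prod_cons]
    exact ⟨t, h t (List.mem_cons_self), l.prod,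
      bn_list_prod_mem l (fun u hu => h u (List.mem_cons_of_mem t hu)), rfl⟩

theorem bn_list_prod_mem_N (l : List G) (h : ∀ t ∈ l, t ∈ P.S) : l.prod ∈ P.N :=
  bnL_subset_N P _ (bn_list_prod_mem P l h)

theorem bn_list_len_le (l : List G) (h : ∀ t ∈ l, t ∈ P.S) : bnLen P l.prod ≤ l.length :=
  bnLen_le P (bn_list_prod_mem P l h)

/-- the exchange condition -/
theorem bn_exchange (l : List G) : (∀ t ∈ l, t ∈ P.S) → bnLen P l.prod = l.length → ∀ {s : G}, s ∈ P.S →
    bnLen P (s * l.prod) ≤ l.length →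
    ∃ a u c, l = a ++ u :: c ∧ (a.prod * u)⁻¹ * (s * a.prod) ∈ P.B := by
  induction l using List.reverseRecOn with
  | nil =>
    intro _ _ s hs hle
    exfalso
    simp only [List.prod_nil, mul_one, List.length_nil, Nat.le_zero] at hle
    exact bn_S_not_mem_B P hs ((bnLen_eq_zero P (P.subset hs)).mp hle)
  | append_singleton l₀ u ih =>
    intro hl hred s hs hle
    have hl₀ : ∀ t ∈ l₀, t ∈ P.S := fun t ht => hl t (List.mem_append_left _ ht)
    have hu : u ∈ P.S := hl u (by simp)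
    have hw : l₀.prod ∈ P.N := bn_list_prod_mem_N P l₀ hl₀
    have hprod : (l₀ ++ [u]).prod = l₀.prod * u := by simp
    have hlen : (l₀ ++ [u]).length = l₀.length + 1 := by simp
    rw [hprod, hlen] at hred hle
    have hw1 := bn_list_len_le P l₀ hl₀
    have hw2 := bnLen_mul_S_le P hu hw
    have hwlen : bnLen P l₀.prod = l₀.length := by omega
    by_cases hA : bnLen P (s * l₀.prod) ≤ l₀.length
    · obtain ⟨a, u', c, rfl, hh⟩ := ih hl₀ hwlen hs hA
      exact ⟨a, u', c ++ [u], by simp, hh⟩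
    · have h1 : bnLen P l₀.prod ≤ bnLen P (s * l₀.prod) := by omega
      have hpar := bn_parity P hs (P.N.mul_mem hw (P.subset hu))
      have h2 : bnLen P (s * (l₀.prod * u)) < bnLen P (l₀.prod * u) := by omega
      exact ⟨l₀, u, [], rfl, bn_C P hs hu hw h1 h2⟩

/-- the deletion condition -/
theorem bn_deletion : ∀ (l : List G), (∀ t ∈ l, t ∈ P.S) → bnLen P l.prod < l.length →
    ∃ l' : List G, l'.Sublist l ∧ l'.length < l.length ∧ l'.prod⁻¹ * l.prod ∈ P.B
  | [], _, h => by simp at h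
  | (t :: l₁), hl, hlt => by
    have hl₁ : ∀ u ∈ l₁, u ∈ P.S := fun u hu => hl u (List.mem_cons_of_mem t hu)
    have ht : t ∈ P.S := hl t (List.mem_cons_self)
    by_cases hcase : bnLen P l₁.prod < l₁.length
    · obtain ⟨l', hsub, hlen, hprod⟩ := bn_deletion l₁ hl₁ hcase
      refine ⟨t :: l', hsub.cons₂ t, by simpa using hlen, ?_⟩
      have e : (t :: l').prod⁻¹ * (t :: l₁).prod = l'.prod⁻¹ * l₁.prod := by
        simp only [List.prod_cons]; group
      rw [e]; exact hprod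
    · have h1 := bn_list_len_le P l₁ hl₁
      have hred : bnLen P l₁.prod = l₁.length := by omega
      have hle : bnLen P (t * l₁.prod) ≤ l₁.length := by
        simp only [List.prod_cons, List.length_cons] at hlt
        omega
      obtain ⟨a, u, c, rfl, hh⟩ := bn_exchange P l₁ hl₁ hred ht hle
      have ha : ∀ v ∈ a, v ∈ P.S := fun v hv => hl₁ v (by simp [hv])
      have hu : u ∈ P.S := hl₁ u (by simp)
      have hc : ∀ v ∈ c, v ∈ P.S := fun v hv => hl₁ v (by simp [hv])
      have haN := bn_list_prod_mem_N P a ha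
      have hcN := bn_list_prod_mem_N P c hc
      have huN := P.subset hu
      have htN := P.subset ht
      refine ⟨a ++ c, ?_, ?_, ?_⟩
      · exact ((List.Sublist.refl a).append (List.sublist_cons_self u c)).cons t
      · simp only [List.length_append, List.length_cons]; omega
      · have hhN : (a.prod * u)⁻¹ * (t * a.prod) ∈ P.N :=
          P.N.mul_mem (P.N.inv_mem (P.N.mul_mem haN huN)) (P.N.mul_mem htN haN)
        have h2 := bn_conj P huN hh hhN
        have h3 : u * ((a.prod * u)⁻¹ * (t * a.prod)) * u⁻¹ * (u * u) ∈ P.B :=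
          P.B.mul_mem h2.1 (bn_sq P hu).1
        have h3N : u * ((a.prod * u)⁻¹ * (t * a.prod)) * u⁻¹ * (u * u) ∈ P.N :=
          P.N.mul_mem h2.2 (bn_sq P hu).2
        have h4 := (bn_conj' P hcN h3 h3N).1
        have e : (a ++ c).prod⁻¹ * (t :: (a ++ u :: c)).prod
            = c.prod⁻¹ * (u * ((a.prod * u)⁻¹ * (t * a.prod)) * u⁻¹ * (u * u)) * c.prod := by
          simp only [List.prod_cons, List.prod_append]; group
        rw [e]; exact h4

/-- `l.prod * l.reverse.prod ∈ B` for a word `l` in `S` -/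
theorem bn_prod_reverse : ∀ (l : List G), (∀ t ∈ l, t ∈ P.S) → l.prod * l.reverse.prod ∈ P.B
  | [], _ => by simp [P.B.one_mem]
  | (t :: l), hl => by
    have hl₁ : ∀ u ∈ l, u ∈ P.S := fun u hu => hl u (List.mem_cons_of_mem t hu)
    have ht : t ∈ P.S := hl t (List.mem_cons_self)
    have h1 := bn_prod_reverse l hl₁
    have h1N : l.prod * l.reverse.prod ∈ P.N :=
      P.N.mul_mem (bn_list_prod_mem_N P l hl₁)
        (bn_list_prod_mem_N P l.reverse (fun u hu => hl₁ u (List.mem_reverse.mp hu)))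
    have h2 := (bn_conj P (P.subset ht) h1 h1N).1
    have e : (t :: l).prod * (t :: l).reverse.prod = t * (l.prod * l.reverse.prod) * t⁻¹ * (t * t) := by
      simp only [List.prod_cons, List.reverse_cons, List.prod_append, List.prod_nil, mul_one]; group
    rw [e]; exact P.B.mul_mem h2 (bn_sq P ht).1

/-- elements of `⟨J⟩ (B ∩ N)` are words in `J` modulo `B ∩ N` -/
theorem bn_exists_word {J : Set G} (hJ : J ⊆ P.S) {g : G} (hg : g ∈ Subgroup.closure J ⊔ (P.B ⊓ P.N)) :
    g ∈ P.N ∧ ∃ l : List G, (∀ t ∈ l, t ∈ J) ∧ l.prod⁻¹ * g ∈ P.B := by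
  have hg' : g ∈ Subgroup.closure (J ∪ ((P.B ⊓ P.N : Subgroup G) : Set G)) := by
    rw [Subgroup.closure_union, Subgroup.closure_eq]; exact hg
  clear hg
  induction hg' using Subgroup.closure_induction with
  | mem x hx =>
    rcases hx with hx | hx
    · exact ⟨P.subset (hJ hx), [x], by simpa using hx, by simp [P.B.one_mem]⟩
    · exact ⟨hx.2, [], by simp, by simpa using hx.1⟩
  | one => exact ⟨P.N.one_mem, [], by simp, by simp [P.B.one_mem]⟩
  | mul x y _ _ ihx ihy =>
    obtain ⟨hxN, l, hl, hlx⟩ := ihx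
    obtain ⟨hyN, l', hl', hly⟩ := ihy
    refine ⟨P.N.mul_mem hxN hyN, l ++ l', ?_, ?_⟩
    · intro t ht
      rcases List.mem_append.mp ht with h | h
      · exact hl t h
      · exact hl' t h
    · have hlN := bn_list_prod_mem_N P l (fun t ht => hJ (hl t ht))
      have hl'N := bn_list_prod_mem_N P l' (fun t ht => hJ (hl' t ht))
      have hlxN : l.prod⁻¹ * x ∈ P.N := P.N.mul_mem (P.N.inv_mem hlN) hxN
      have h1 := (bn_conj' P hl'N hlx hlxN).1
      have e : (l ++ l').prod⁻¹ * (x * y) = (l'.prod⁻¹ * (l.prod⁻¹ * x) * l'.prod) * (l'.prod⁻¹ * y) := by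
        simp only [List.prod_append]; group
      rw [e]; exact P.B.mul_mem h1 hly
  | inv x _ ih =>
    obtain ⟨hxN, l, hl, hlx⟩ := ih
    have hlS : ∀ t ∈ l, t ∈ P.S := fun t ht => hJ (hl t ht)
    have hlN := bn_list_prod_mem_N P l hlS
    have hrN := bn_list_prod_mem_N P l.reverse (fun u hu => hlS u (List.mem_reverse.mp hu))
    refine ⟨P.N.inv_mem hxN, l.reverse, fun t ht => hl t (List.mem_reverse.mp ht), ?_⟩
    have h1 := bn_prod_reverse P l hlS
    have hlxN : l.prod⁻¹ * x ∈ P.N := P.N.mul_mem (P.N.inv_mem hlN) hxN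
    have h2 := (bn_conj' P hrN (P.B.inv_mem hlx) (P.N.inv_mem hlxN)).1
    have e : l.reverse.prod⁻¹ * x⁻¹
        = (l.reverse.prod⁻¹ * (l.prod⁻¹ * x)⁻¹ * l.reverse.prod) * (l.prod * l.reverse.prod)⁻¹ := by group
    rw [e]; exact P.B.mul_mem h2 (P.B.inv_mem h1)

theorem bn_S_inter_aux {J : Set G} (hJ : J ⊆ P.S) {s : G} (hs : s ∈ P.S) : ∀ (k : ℕ) (l : List G),
    l.length = k → (∀ t ∈ l, t ∈ J) → l.prod⁻¹ * s ∈ P.B → s ∈ J := by
  intro k
  induction k using Nat.strong_induction_on with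
  | _ k ih =>
    intro l hlen hl hls
    have hlS : ∀ t ∈ l, t ∈ P.S := fun t ht => hJ (hl t ht)
    have hlN := bn_list_prod_mem_N P l hlS
    by_cases hcase : bnLen P l.prod < l.length
    · obtain ⟨l', hsub, hlen', hprod⟩ := bn_deletion P l hlS hcase
      apply ih l'.length (by omega) l' rfl (fun t ht => hl t (hsub.subset ht))
      have e : l'.prod⁻¹ * s = (l'.prod⁻¹ * l.prod) * (l.prod⁻¹ * s) := by group
      rw [e]; exact P.B.mul_mem hprod hls
    · have h1 := bn_list_len_le P l hlS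
      have h2 := bnLen_eq_of_inv_mul_mem P hlN (P.subset hs) hls
      have h3 : bnLen P s ≤ 1 :=
        bnLen_le P ⟨s, hs, 1, ⟨P.B.one_mem, P.N.one_mem⟩, by group⟩
      have h4 : bnLen P s ≠ 0 := fun h0 =>
        bn_S_not_mem_B P hs ((bnLen_eq_zero P (P.subset hs)).mp h0)
      have h5 : l.length = 1 := by omega
      obtain ⟨t, rfl⟩ := List.length_eq_one_iff.mp h5
      have htJ : t ∈ J := hl t (by simp)
      have h6 : t⁻¹ * s ∈ P.B := by simpa using hls
      have := P.inj t (hJ htJ) s hs h6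
      rw [← this]; exact htJ

/-- `S ∩ ⟨J⟩ (B ∩ N) = J` -/
theorem bn_S_inter {J : Set G} (hJ : J ⊆ P.S) {s : G} (hs : s ∈ P.S)
    (h : s ∈ Subgroup.closure J ⊔ (P.B ⊓ P.N)) : s ∈ J := by
  obtain ⟨-, l, hl, hls⟩ := bn_exists_word P hJ h
  exact bn_S_inter_aux P hJ hs _ l rfl hl hls

/-- `S ∩ P_J = J` -/
theorem bn_S_inter_parabolic {J : Set G} (hJ : J ⊆ P.S) {s : G} (hs : s ∈ P.S)
    (h : s ∈ P.parabolic J) : s ∈ J := by
  obtain ⟨n, hn, hsn⟩ := bn_parabolic_mem P hJ h
  have hJN : Subgroup.closure J ≤ P.N := (Subgroup.closure_le _).mpr (fun s hs => P.subset (hJ hs))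
  have hnN := hJN hn
  have h1 := bn_unique P hnN (P.subset hs) (bnC_eq_of_mem P hsn).symm
  apply bn_S_inter P hJ hs
  have e : s = n * (n⁻¹ * s) := by group
  rw [e]
  exact Subgroup.mul_mem _ (Subgroup.mem_sup_left hn)
    (Subgroup.mem_sup_right ⟨h1, P.N.mul_mem (P.N.inv_mem hnN) (P.subset hs)⟩)

end Cfsg.Agent.Lib.Lead
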