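import Mathlib
import Cfsg.Prelude.Def_Characters
import Cfsg.Agent.Lib.Lead.PiSection
import Cfsg.Agent.Lib.Lead.Brauer5
import Cfsg.Agent.Lib.Lead.Brauer6
import Cfsg.Agent.Lib.Lead.Artin

set_option autoImplicit false

namespace Cfsg.Agent.Lib.Lead

/-- the hypotheses of the Brauer–Suzuki transfer theorem, with a power `t` picking out the
`π`-part -/
structure BSHyp {G : Type*} [Group G] (H : Subgroup G) (t : ℕ) : Prop where
  cop : Nat.Coprime (Nat.card H) H.index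
  fus : ∀ x ∈ H, ∀ y ∈ H, IsConj x y → ∃ h ∈ H, h * x * h⁻¹ = y
  elem : ∀ (E : Subgroup G) (p : ℕ), p.Prime → Cfsg.IsElementary p E →
    Nat.card E ∣ Nat.card H → ∃ g : G, E.map (MulAut.conj g).toMonoidHom ≤ H
  tm : H.index ∣ t
  tn : t ≡ 1 [MOD Nat.card H]

theorem isElementary_zpowers {G : Type*} [Group G] (x : G) (p : ℕ) (hp : p.Prime)
    (hpx : ¬ p ∣ orderOf x) : Cfsg.IsElementary p ↥(Subgroup.zpowers x) := by
  refine ⟨⟨x, Subgroup.mem_zpowers x⟩, ?_, ?_, 0, ?_⟩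
  · rw [Subgroup.mem_center_iff]
    intro y
    obtain ⟨k, hk⟩ := Subgroup.mem_zpowers_iff.mp y.2
    apply Subtype.ext
    show (y : G) * x = x * y
    rw [← hk]
    exact (Commute.zpow_left (Commute.refl x) k).eq
  · rw [Subgroup.orderOf_mk]
    exact ((Nat.Prime.coprime_iff_not_dvd hp).mpr hpx).symm
  · rw [pow_zero, Subgroup.index_eq_one, eq_top_iff]
    intro y _
    obtain ⟨k, hk⟩ := Subgroup.mem_zpowers_iff.mp y.2
    rw [Subgroup.mem_zpowers_iff]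
    refine ⟨k, ?_⟩
    apply Subtype.ext
    rw [Subgroup.coe_zpow]
    exact hk

section bs

variable {G : Type*} [Group G] {H : Subgroup G} {t : ℕ}

theorem bs_pow_card [Finite G] (hyp : BSHyp H t) (x : G) : (x ^ t) ^ Nat.card H = 1 := by
  obtain ⟨c, hc⟩ := hyp.tm
  rw [← pow_mul, hc, mul_assoc, mul_comm c, ← mul_assoc, Subgroup.index_mul_card, pow_mul,
    pow_card_eq_one', one_pow]

theorem bs_pow_of_pow_card (hyp : BSHyp H t) (x : G) (hx : x ^ Nat.card H = 1) : x ^ t = x := by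
  have h1 : x ^ t = x ^ 1 := by
    rw [pow_eq_pow_iff_modEq]
    exact hyp.tn.of_dvd (orderOf_dvd_of_pow_eq_one hx)
  rw [h1, pow_one]

theorem bs_pow_mem [Finite G] (hyp : BSHyp H t) (h : G) (hh : h ∈ H) : h ^ t = h := by
  apply bs_pow_of_pow_card hyp
  have h1 : (⟨h, hh⟩ : H) ^ Nat.card H = 1 := pow_card_eq_one'
  exact congrArg Subtype.val h1

theorem bs_pow_pow [Finite G] (hyp : BSHyp H t) (x : G) : (x ^ t) ^ t = x ^ t :=
  bs_pow_of_pow_card hyp _ (bs_pow_card hyp x)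

theorem bs_exists_conj [Finite G] (hyp : BSHyp H t) (x : G) : ∃ g : G, g * x ^ t * g⁻¹ ∈ H := by
  obtain ⟨p, hp1, hp2⟩ := Nat.exists_infinite_primes (orderOf (x ^ t) + 1)
  have hpx : ¬ p ∣ orderOf (x ^ t) := by
    intro h
    have := Nat.le_of_dvd (orderOf_pos _) h
    omega
  have hel := isElementary_zpowers (x ^ t) p hp2 hpx
  have hcard : Nat.card (Subgroup.zpowers (x ^ t)) ∣ Nat.card H := by
    rw [Nat.card_zpowers]
    exact orderOf_dvd_of_pow_eq_one (bs_pow_card hyp x)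
  obtain ⟨g, hg⟩ := hyp.elem _ p hp2 hel hcard
  exact ⟨g, hg (Subgroup.mem_map_of_mem _ (Subgroup.mem_zpowers (x ^ t)))⟩

open Classical in
/-- the Brauer–Suzuki lift of a class function of `H` -/
noncomputable def bsTilde (H : Subgroup G) (t : ℕ) (θ : H → ℂ) (x : G) : ℂ :=
  if h : ∃ g : G, g * x ^ t * g⁻¹ ∈ H then θ ⟨h.choose * x ^ t * h.choose⁻¹, h.choose_spec⟩
  else 0

theorem bsTilde_eq (hyp : BSHyp H t) (θ : H → ℂ) (hθ : Cfsg.IsClassFunction H θ) (x g : G)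
    (hg : g * x ^ t * g⁻¹ ∈ H) : bsTilde H t θ x = θ ⟨g * x ^ t * g⁻¹, hg⟩ := by
  classical
  unfold bsTilde
  have hex : ∃ g : G, g * x ^ t * g⁻¹ ∈ H := ⟨g, hg⟩
  rw [dif_pos hex]
  obtain ⟨g', hg'⟩ : ∃ g' : G, g' = hex.choose := ⟨_, rfl⟩
  have hg'mem : g' * x ^ t * g'⁻¹ ∈ H := by
    rw [hg']
    exact hex.choose_spec
  have hconj : IsConj (g' * x ^ t * g'⁻¹) (g * x ^ t * g⁻¹) := by
    rw [isConj_iff]
    exact ⟨g * g'⁻¹, by group⟩
  obtain ⟨u, hu, huc⟩ := hyp.fus _ hg'mem _ hg hconj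
  have h1 := hθ ⟨g' * x ^ t * g'⁻¹, hg'mem⟩ ⟨u, hu⟩
  have h2 : (⟨u, hu⟩ : H) * ⟨g' * x ^ t * g'⁻¹, hg'mem⟩ * (⟨u, hu⟩ : H)⁻¹ =
      ⟨g * x ^ t * g⁻¹, hg⟩ := Subtype.ext huc
  rw [h2] at h1
  rw [h1]
  congr 1
  apply Subtype.ext
  show hex.choose * x ^ t * hex.choose⁻¹ = g' * x ^ t * g'⁻¹
  rw [hg']

theorem bsTilde_classFun [Finite G] (hyp : BSHyp H t) (θ : H → ℂ)
    (hθ : Cfsg.IsClassFunction H θ) : Cfsg.IsClassFunction G (bsTilde H t θ) := by
  intro x y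
  obtain ⟨g, hg⟩ := bs_exists_conj hyp x
  have h1 : (g * y⁻¹) * (y * x * y⁻¹) ^ t * (g * y⁻¹)⁻¹ = g * x ^ t * g⁻¹ := by
    rw [conj_pow]
    group
  have hg' : (g * y⁻¹) * (y * x * y⁻¹) ^ t * (g * y⁻¹)⁻¹ ∈ H := by
    rw [h1]
    exact hg
  rw [bsTilde_eq hyp θ hθ (y * x * y⁻¹) (g * y⁻¹) hg', bsTilde_eq hyp θ hθ x g hg]
  congr 1
  exact Subtype.ext h1

theorem bsTilde_mem [Finite G] (hyp : BSHyp H t) (θ : H → ℂ) (hθ : Cfsg.IsClassFunction H θ)
    (h : H) : bsTilde H t θ (h : G) = θ h := by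
  have h1 : (1 : G) * (h : G) ^ t * (1 : G)⁻¹ = h := by
    rw [bs_pow_mem hyp h h.2]
    group
  have hg : (1 : G) * (h : G) ^ t * (1 : G)⁻¹ ∈ H := by
    rw [h1]
    exact h.2
  rw [bsTilde_eq hyp θ hθ h 1 hg]
  congr 1
  exact Subtype.ext h1

theorem bsTilde_elementary [Finite G] (hyp : BSHyp H t) (θ : H → ℂ) (hθ : Cfsg.IsCharacter H θ)
    (E : Subgroup G) (p : ℕ) (hp : p.Prime) (hE : Cfsg.IsElementary p E) :
    Cfsg.IsCharacter E (fun e : E => bsTilde H t θ e) := by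
  have hcard : Nat.card E ∣ H.index * Nat.card H := by
    rw [Subgroup.index_mul_card]
    exact Subgroup.card_subgroup_dvd_card E
  have hpow : ∀ x y : E, (x * y) ^ t = x ^ t * y ^ t :=
    elementary_pow_hom hp hE H.index (Nat.card H) t hyp.cop.symm hcard hyp.tm hyp.tn
  let τ : E →* E :=
    { toFun := fun x => x ^ t
      map_one' := one_pow t
      map_mul' := hpow }
  obtain ⟨Eπ, hEπ⟩ : ∃ Eπ : Subgroup G, Eπ = (τ.range).map E.subtype := ⟨_, rfl⟩
  have hEπ_el : Cfsg.IsElementary p Eπ := by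
    rw [hEπ]
    exact isElementary_of_equiv
      (Subgroup.equivMapOfInjective τ.range E.subtype E.subtype_injective)
      (isElementary_subgroup hp hE τ.range)
  have hEπ_mem : ∀ e : E, (e : G) ^ t ∈ Eπ := by
    intro e
    rw [hEπ]
    exact ⟨τ e, ⟨e, rfl⟩, rfl⟩
  have hEπ_pow : ∀ y ∈ Eπ, y ^ Nat.card H = 1 := by
    intro y hy
    rw [hEπ] at hy
    obtain ⟨z, ⟨e, rfl⟩, rfl⟩ := hy
    exact bs_pow_card hyp (e : G)
  have hEπ_card : Nat.card Eπ ∣ Nat.card H := by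
    have hcop : Nat.Coprime (Nat.card Eπ) H.index := by
      by_contra hnc
      obtain ⟨q, hq, hq1, hq2⟩ := Nat.Prime.not_coprime_iff_dvd.mp hnc
      haveI : Fact q.Prime := ⟨hq⟩
      obtain ⟨z, hz⟩ := exists_prime_orderOf_dvd_card' q hq1
      have h1 : (z : G) ^ Nat.card H = 1 := hEπ_pow z z.2
      have h2 : orderOf (z : G) ∣ Nat.card H := orderOf_dvd_of_pow_eq_one h1
      rw [Subgroup.orderOf_coe, hz] at h2
      have h3 := Nat.dvd_gcd h2 hq2
      rw [hyp.cop.gcd_eq_one] at h3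
      exact hq.one_lt.ne' (Nat.dvd_one.mp h3)
    have h1 : Nat.card Eπ ∣ H.index * Nat.card H := by
      rw [Subgroup.index_mul_card]
      exact Subgroup.card_subgroup_dvd_card Eπ
    exact hcop.dvd_of_dvd_mul_left h1
  obtain ⟨g, hg⟩ := hyp.elem Eπ p hp hEπ_el hEπ_card
  have hmem : ∀ e : E, g * (e : G) ^ t * g⁻¹ ∈ H := fun e =>
    hg (Subgroup.mem_map_of_mem _ (hEπ_mem e))
  let σ : E →* H :=
    { toFun := fun e => ⟨g * (e : G) ^ t * g⁻¹, hmem e⟩
      map_one' := by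
        apply Subtype.ext
        show g * ((1 : E) : G) ^ t * g⁻¹ = 1
        rw [Subgroup.coe_one, one_pow]
        group
      map_mul' := by
        intro a b
        apply Subtype.ext
        show g * ((a * b : E) : G) ^ t * g⁻¹ = (g * (a : G) ^ t * g⁻¹) * (g * (b : G) ^ t * g⁻¹)
        have h1 : ((a * b : E) : G) ^ t = (a : G) ^ t * (b : G) ^ t :=
          congrArg Subtype.val (hpow a b)
        rw [h1]
        group }
  have hfun : (fun e : E => bsTilde H t θ e) = fun e => θ (σ e) :=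
    funext (fun e => bsTilde_eq hyp θ (isClassFunction_of_char hθ) e g (hmem e))
  rw [hfun]
  exact isCharacter_comp σ hθ

theorem bsTilde_gen [Fintype G] (hyp : BSHyp H t) (θ : H → ℂ) (hθ : Cfsg.IsCharacter H θ) :
    Cfsg.IsGeneralizedCharacter G (bsTilde H t θ) :=
  brauer_char _ (bsTilde_classFun hyp θ (isClassFunction_of_char hθ))
    (fun E p hp hE => isGen_of_char (bsTilde_elementary hyp θ hθ E p hp hE))

end bs

end Cfsg.Agent.Lib.Lead
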