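import Mathlib
import Cfsg.Prelude.Def_Characters
import Cfsg.Agent.Lib.Lead.BS1
import Cfsg.Agent.Lib.Lead.Char4
import Cfsg.Agent.Lib.Lead.Char7
import Cfsg.Agent.Lib.Lead.Char9
import Cfsg.Agent.Lib.Lead.Char14

set_option autoImplicit false

namespace Cfsg.Agent.Lib.Lead

open ComplexConjugate

section bs2

variable {G : Type*} [Group G] [Fintype G] {H : Subgroup G} [Fintype H] {t : ℕ}

open Classical in
/-- centralizer order in `H`, as a count -/
noncomputable def bsCen (H : Subgroup G) [Fintype H] (h : H) : ℕ :=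
  (Finset.univ.filter (fun k : H => k * h * k⁻¹ = h)).card

open Classical in
/-- the size of the section of `h` -/
noncomputable def bsSec (H : Subgroup G) (t : ℕ) (h : H) : ℕ :=
  (Finset.univ.filter (fun x : G => IsConj (x ^ t) (h : G))).card

omit [Fintype G] in
open Classical in
theorem bsCen_fiber (h₀ h : H) :
    (Finset.univ.filter (fun k : H => k * h₀ * k⁻¹ = h)).card =
      if IsConj h₀ h then bsCen H h₀ else 0 := by
  by_cases hc : IsConj h₀ h
  · rw [if_pos hc]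
    obtain ⟨k₀, hk₀⟩ := isConj_iff.mp hc
    unfold bsCen
    symm
    apply Finset.card_bij (fun c _ => k₀ * c)
    · intro c hc
      rw [Finset.mem_filter] at hc ⊢
      refine ⟨Finset.mem_univ _, ?_⟩
      calc k₀ * c * h₀ * (k₀ * c)⁻¹ = k₀ * (c * h₀ * c⁻¹) * k₀⁻¹ := by group
        _ = k₀ * h₀ * k₀⁻¹ := by rw [hc.2]
        _ = h := hk₀
    · intro a _ b _ hab
      exact mul_left_cancel hab
    · intro k hk
      rw [Finset.mem_filter] at hk
      refine ⟨k₀⁻¹ * k, ?_, by group⟩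
      rw [Finset.mem_filter]
      refine ⟨Finset.mem_univ _, ?_⟩
      calc k₀⁻¹ * k * h₀ * (k₀⁻¹ * k)⁻¹ = k₀⁻¹ * (k * h₀ * k⁻¹) * k₀ := by group
        _ = k₀⁻¹ * (k₀ * h₀ * k₀⁻¹) * k₀ := by rw [hk.2, hk₀]
        _ = h₀ := by group
  · rw [if_neg hc, Finset.card_eq_zero, Finset.filter_eq_empty_iff]
    intro k _ hk
    exact hc (isConj_iff.mpr ⟨k, hk⟩)

omit [Fintype G] in
open Classical in
theorem bsCen_sum (h₀ : H) :
    ∑ h : H, (if IsConj h₀ h then bsCen H h₀ else 0) = Fintype.card H := by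
  rw [← Finset.sum_congr rfl (fun h _ => bsCen_fiber h₀ h)]
  exact (Finset.card_eq_sum_card_fiberwise (f := fun k : H => k * h₀ * k⁻¹)
    (s := Finset.univ) (t := Finset.univ) (fun _ _ => Finset.mem_univ _)).symm

omit [Fintype G] in
theorem bsCen_conj (h₀ h : H) (hc : IsConj h₀ h) : bsCen H h = bsCen H h₀ := by
  classical
  obtain ⟨k₀, hk₀⟩ := isConj_iff.mp hc
  unfold bsCen
  apply Finset.card_bij (fun c _ => k₀⁻¹ * c * k₀)
  · intro c hc
    rw [Finset.mem_filter] at hc ⊢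
    refine ⟨Finset.mem_univ _, ?_⟩
    calc k₀⁻¹ * c * k₀ * h₀ * (k₀⁻¹ * c * k₀)⁻¹
        = k₀⁻¹ * (c * (k₀ * h₀ * k₀⁻¹) * c⁻¹) * k₀ := by group
      _ = k₀⁻¹ * (k₀ * h₀ * k₀⁻¹) * k₀ := by rw [hk₀, hc.2]
      _ = h₀ := by group
  · intro a _ b _ hab
    have h1 : k₀ * (k₀⁻¹ * a * k₀) * k₀⁻¹ = k₀ * (k₀⁻¹ * b * k₀) * k₀⁻¹ := by rw [hab]
    calc a = k₀ * (k₀⁻¹ * a * k₀) * k₀⁻¹ := by group
      _ = k₀ * (k₀⁻¹ * b * k₀) * k₀⁻¹ := h1
      _ = b := by group
  · intro c' hc'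
    rw [Finset.mem_filter] at hc'
    refine ⟨k₀ * c' * k₀⁻¹, ?_, by group⟩
    rw [Finset.mem_filter]
    refine ⟨Finset.mem_univ _, ?_⟩
    calc k₀ * c' * k₀⁻¹ * h * (k₀ * c' * k₀⁻¹)⁻¹
        = k₀ * (c' * (k₀⁻¹ * h * k₀) * c'⁻¹) * k₀⁻¹ := by group
      _ = k₀ * (c' * h₀ * c'⁻¹) * k₀⁻¹ := by
          have : k₀⁻¹ * h * k₀ = h₀ := by rw [← hk₀]; group
          rw [this]
      _ = k₀ * h₀ * k₀⁻¹ := by rw [hc'.2]
      _ = h := hk₀

open Classical in
theorem bsTilde_sum_one (hyp : BSHyp H t) (f : H → ℂ) (hf : Cfsg.IsClassFunction H f) (x : G) :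
    (Fintype.card H : ℂ) * bsTilde H t f x =
      ∑ h : H, if IsConj (x ^ t) (h : G) then f h * (bsCen H h : ℂ) else 0 := by
  obtain ⟨g, hg⟩ := bs_exists_conj hyp x
  obtain ⟨h₀, hh₀⟩ : ∃ h₀ : H, h₀ = ⟨g * x ^ t * g⁻¹, hg⟩ := ⟨_, rfl⟩
  rw [bsTilde_eq hyp f hf x g hg, ← hh₀]
  have hc0 : IsConj (x ^ t) (h₀ : G) := by
    rw [hh₀]
    exact isConj_iff.mpr ⟨g, rfl⟩
  have hiff : ∀ h : H, IsConj (x ^ t) (h : G) ↔ IsConj h₀ h := by
    intro h
    constructor
    · intro hc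
      obtain ⟨u, hu, huc⟩ := hyp.fus _ h₀.2 _ h.2 (hc0.symm.trans hc)
      exact isConj_iff.mpr ⟨⟨u, hu⟩, Subtype.ext huc⟩
    · intro hc
      obtain ⟨k, hk⟩ := isConj_iff.mp hc
      exact hc0.trans (isConj_iff.mpr ⟨(k : G), congrArg Subtype.val hk⟩)
  have hterm : ∀ h : H, (if IsConj (x ^ t) (h : G) then f h * (bsCen H h : ℂ) else 0) =
      f h₀ * ((if IsConj h₀ h then bsCen H h₀ else 0 : ℕ) : ℂ) := by
    intro h
    by_cases hc : IsConj h₀ h
    · rw [if_pos hc, if_pos ((hiff h).mpr hc), bsCen_conj h₀ h hc]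
      obtain ⟨k, hk⟩ := isConj_iff.mp hc
      rw [← hk, hf h₀ k]
    · rw [if_neg hc, if_neg (fun h' => hc ((hiff h).mp h')), Nat.cast_zero, mul_zero]
  rw [Finset.sum_congr rfl (fun h _ => hterm h), ← Finset.mul_sum, ← Nat.cast_sum, bsCen_sum,
    mul_comm]

theorem bsTilde_sum (hyp : BSHyp H t) (f : H → ℂ) (hf : Cfsg.IsClassFunction H f) :
    ∑ x : G, (Fintype.card H : ℂ) * bsTilde H t f x =
      ∑ h : H, f h * ((bsCen H h * bsSec H t h : ℕ) : ℂ) := by
  classical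
  rw [Finset.sum_congr rfl (fun x _ => bsTilde_sum_one hyp f hf x), Finset.sum_comm]
  refine Finset.sum_congr rfl (fun h _ => ?_)
  rw [← Finset.sum_filter, Finset.sum_const, nsmul_eq_mul]
  unfold bsSec
  push_cast
  ring

theorem bsTilde_const (hyp : BSHyp H t) : bsTilde H t (fun _ => 1) = fun _ : G => (1 : ℂ) := by
  funext x
  obtain ⟨g, hg⟩ := bs_exists_conj hyp x
  rw [bsTilde_eq hyp _ (fun _ _ => rfl) x g hg]

theorem bsTilde_conj (hyp : BSHyp H t) (θ : H → ℂ) (hθ : Cfsg.IsClassFunction H θ) (x : G) :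
    bsTilde H t (fun h => conj (θ h)) x = conj (bsTilde H t θ x) := by
  obtain ⟨g, hg⟩ := bs_exists_conj hyp x
  have hcf : Cfsg.IsClassFunction H (fun h => conj (θ h)) := by
    intro a b
    show conj (θ (b * a * b⁻¹)) = conj (θ a)
    rw [hθ a b]
  rw [bsTilde_eq hyp _ hcf x g hg, bsTilde_eq hyp θ hθ x g hg]

theorem bsTilde_mul (hyp : BSHyp H t) (θ φ : H → ℂ) (hθ : Cfsg.IsClassFunction H θ)
    (hφ : Cfsg.IsClassFunction H φ) (x : G) :
    bsTilde H t (fun h => θ h * φ h) x = bsTilde H t θ x * bsTilde H t φ x := by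
  obtain ⟨g, hg⟩ := bs_exists_conj hyp x
  have hcf : Cfsg.IsClassFunction H (fun h => θ h * φ h) := by
    intro a b
    show θ (b * a * b⁻¹) * φ (b * a * b⁻¹) = θ a * φ a
    rw [hθ a b, hφ a b]
  rw [bsTilde_eq hyp _ hcf x g hg, bsTilde_eq hyp θ hθ x g hg, bsTilde_eq hyp φ hφ x g hg]

theorem bsA_sum (hyp : BSHyp H t) :
    ∑ h : H, bsCen H h * bsSec H t h = Fintype.card H * Fintype.card G := by
  have h1 := bsTilde_sum hyp (fun _ => 1) (fun _ _ => rfl)
  rw [bsTilde_const hyp] at h1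
  simp only [mul_one, one_mul, Finset.sum_const, Finset.card_univ, nsmul_eq_mul] at h1
  have h2 : ((Fintype.card G * Fintype.card H : ℕ) : ℂ) =
      ((∑ h : H, bsCen H h * bsSec H t h : ℕ) : ℂ) := by
    rw [Nat.cast_sum, Nat.cast_mul]
    exact h1
  have h3 := Nat.cast_injective h2
  rw [← h3, mul_comm]

theorem bsA_pos (hyp : BSHyp H t) (h : H) : 0 < bsCen H h * bsSec H t h := by
  classical
  apply Nat.mul_pos
  · unfold bsCen
    rw [Finset.card_pos]
    exact ⟨1, by rw [Finset.mem_filter]; exact ⟨Finset.mem_univ _, by group⟩⟩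
  · unfold bsSec
    rw [Finset.card_pos]
    refine ⟨(h : G), ?_⟩
    rw [Finset.mem_filter]
    refine ⟨Finset.mem_univ _, ?_⟩
    rw [bs_pow_mem hyp h h.2]

theorem bsA_classFun (a b : H) :
    bsCen H (b * a * b⁻¹) * bsSec H t (b * a * b⁻¹) = bsCen H a * bsSec H t a := by
  classical
  rw [bsCen_conj a (b * a * b⁻¹) (isConj_iff.mpr ⟨b, rfl⟩)]
  congr 1
  unfold bsSec
  congr 1
  apply Finset.filter_congr
  intro x _
  have hc : IsConj ((a : H) : G) ((b * a * b⁻¹ : H) : G) := isConj_iff.mpr ⟨(b : G), rfl⟩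
  constructor
  · intro h
    exact h.trans hc.symm
  · intro h
    exact h.trans hc

theorem bsA_dvd (hyp : BSHyp H t) (h₁ : H) :
    Fintype.card G ∣ bsCen H h₁ * bsSec H t h₁ := by
  classical
  haveI : Fintype (Cfsg.IrrCharacter H) := Fintype.ofFinite _
  obtain ⟨W, hW⟩ : ∃ W : H → ℂ, W = fun h =>
      ((bsCen H h * bsSec H t h : ℕ) : ℂ) / (Fintype.card G : ℂ) := ⟨_, rfl⟩
  have hWcf : Cfsg.IsClassFunction H W := by
    intro a b
    rw [hW]
    show ((bsCen H (b * a * b⁻¹) * bsSec H t (b * a * b⁻¹) : ℕ) : ℂ) / _ = _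
    rw [bsA_classFun a b]
  have hcardG : (Fintype.card G : ℂ) ≠ 0 := by exact_mod_cast Fintype.card_ne_zero
  have hcardH : (Fintype.card H : ℂ) ≠ 0 := by exact_mod_cast Fintype.card_ne_zero
  have hint : ∀ θ : Cfsg.IrrCharacter H, ∃ z : ℤ, Cfsg.classInner W θ.1 = (z : ℂ) := by
    intro θ
    have hθcf : Cfsg.IsClassFunction H θ.1 := isClassFunction_of_char (isCharacter_of_irr θ.2)
    have hcf : Cfsg.IsClassFunction H (fun h => conj (θ.1 h)) := by
      intro a b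
      show conj (θ.1 (b * a * b⁻¹)) = conj (θ.1 a)
      rw [hθcf a b]
    have h1 := bsTilde_sum hyp (fun h => conj (θ.1 h)) hcf
    have h2 : Cfsg.classInner W θ.1 =
        Cfsg.classInner (fun _ : G => (1 : ℂ)) (bsTilde H t θ.1) := by
      unfold Cfsg.classInner
      rw [Nat.card_eq_fintype_card, Nat.card_eq_fintype_card]
      have e1 : ∑ g : H, W g * conj (θ.1 g) =
          (Fintype.card G : ℂ)⁻¹ * ∑ h : H, conj (θ.1 h) *
            ((bsCen H h * bsSec H t h : ℕ) : ℂ) := by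
        rw [Finset.mul_sum]
        refine Finset.sum_congr rfl (fun h _ => ?_)
        rw [hW]
        field_simp
      have e2 : ∑ g : G, (1 : ℂ) * conj (bsTilde H t θ.1 g) =
          ∑ x : G, bsTilde H t (fun h => conj (θ.1 h)) x := by
        refine Finset.sum_congr rfl (fun x _ => ?_)
        rw [one_mul, bsTilde_conj hyp θ.1 hθcf]
      rw [e1, e2, ← h1, ← Finset.mul_sum]
      field_simp
    rw [h2]
    obtain ⟨χ, ψ, hχ, hψ, hχψ⟩ := bsTilde_gen hyp θ.1 (isCharacter_of_irr θ.2)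
    obtain ⟨n₁, hn₁⟩ := classInner_char_nat (isCharacter_one (G := G)) hχ
    obtain ⟨n₂, hn₂⟩ := classInner_char_nat (isCharacter_one (G := G)) hψ
    refine ⟨(n₁ : ℤ) - (n₂ : ℤ), ?_⟩
    have h3 : Cfsg.classInner (fun _ : G => (1 : ℂ)) (χ - ψ) =
        Cfsg.classInner (fun _ : G => (1 : ℂ)) χ - Cfsg.classInner (fun _ : G => (1 : ℂ)) ψ := by
      unfold Cfsg.classInner
      simp only [Pi.sub_apply, map_sub, mul_sub, Finset.sum_sub_distrib]
    rw [hχψ, h3, hn₁, hn₂]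
    push_cast
    ring
  choose z hz using hint
  have hexp := class_fn_expand' W hWcf
  have hW1 : W h₁ = ∑ θ : Cfsg.IrrCharacter H, (z θ : ℂ) * θ.1 h₁ := by
    conv_lhs => rw [hexp]
    rw [Finset.sum_apply]
    refine Finset.sum_congr rfl (fun θ _ => ?_)
    rw [Pi.smul_apply, smul_eq_mul, hz θ]
  have hWint : IsIntegral ℤ (W h₁) := by
    rw [hW1]
    apply IsIntegral.sum
    intro θ _
    exact (isIntegral_algebraMap (R := ℤ) (A := ℂ) (x := z θ)).mul (irr_isIntegral θ h₁)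
  apply dvd_of_isIntegral_div Fintype.card_pos
  have hW2 : W h₁ = ((bsCen H h₁ * bsSec H t h₁ : ℕ) : ℂ) / ((Fintype.card G : ℕ) : ℂ) := by
    rw [hW]
  rw [← hW2]
  exact hWint

theorem bsA_eq (hyp : BSHyp H t) (h : H) : bsCen H h * bsSec H t h = Fintype.card G := by
  have hle : ∀ i ∈ (Finset.univ : Finset H), Fintype.card G ≤ bsCen H i * bsSec H t i :=
    fun i _ => Nat.le_of_dvd (bsA_pos hyp i) (bsA_dvd hyp i)
  have hsum : ∑ _i : H, Fintype.card G = ∑ i : H, bsCen H i * bsSec H t i := by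
    rw [bsA_sum hyp, Finset.sum_const, Finset.card_univ, smul_eq_mul]
  exact ((Finset.sum_eq_sum_iff_of_le hle).mp hsum h (Finset.mem_univ h)).symm

theorem bsTilde_isometry (hyp : BSHyp H t) (θ φ : H → ℂ) (hθ : Cfsg.IsClassFunction H θ)
    (hφ : Cfsg.IsClassFunction H φ) :
    Cfsg.classInner (bsTilde H t θ) (bsTilde H t φ) = Cfsg.classInner θ φ := by
  have hcardG : (Fintype.card G : ℂ) ≠ 0 := by exact_mod_cast Fintype.card_ne_zero
  have hcardH : (Fintype.card H : ℂ) ≠ 0 := by exact_mod_cast Fintype.card_ne_zero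
  have hφc : Cfsg.IsClassFunction H (fun h => conj (φ h)) := by
    intro a b
    show conj (φ (b * a * b⁻¹)) = conj (φ a)
    rw [hφ a b]
  have hcf : Cfsg.IsClassFunction H (fun h => θ h * conj (φ h)) := by
    intro a b
    show θ (b * a * b⁻¹) * conj (φ (b * a * b⁻¹)) = θ a * conj (φ a)
    rw [hθ a b, hφ a b]
  have h1 := bsTilde_sum hyp (fun h => θ h * conj (φ h)) hcf
  unfold Cfsg.classInner
  rw [Nat.card_eq_fintype_card, Nat.card_eq_fintype_card]
  have e1 : ∑ g : G, bsTilde H t θ g * conj (bsTilde H t φ g) =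
      ∑ x : G, bsTilde H t (fun h => θ h * conj (φ h)) x := by
    refine Finset.sum_congr rfl (fun x _ => ?_)
    rw [bsTilde_mul hyp θ (fun h => conj (φ h)) hθ hφc, bsTilde_conj hyp φ hφ]
  have e2 : ∑ h : H, θ h * conj (φ h) * ((bsCen H h * bsSec H t h : ℕ) : ℂ) =
      (Fintype.card G : ℂ) * ∑ h : H, θ h * conj (φ h) := by
    rw [Finset.mul_sum]
    refine Finset.sum_congr rfl (fun h _ => ?_)
    rw [bsA_eq hyp h]
    ring
  rw [e1]
  rw [← Finset.mul_sum, e2] at h1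
  have h3 : ∑ x : G, bsTilde H t (fun h => θ h * conj (φ h)) x =
      (Fintype.card H : ℂ)⁻¹ * ((Fintype.card G : ℂ) * ∑ h : H, θ h * conj (φ h)) := by
    rw [← h1, ← mul_assoc, inv_mul_cancel₀ hcardH, one_mul]
  rw [h3]
  field_simp

end bs2

end Cfsg.Agent.Lib.Lead
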