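import Mathlib
import Cfsg.Prelude.Def_Characters
import Cfsg.Agent.Lib.Lead.BS2
import Cfsg.Agent.Lib.Lead.Frob4
import Cfsg.Agent.Lib.Lead.Char1

set_option autoImplicit false

namespace Cfsg.Agent.Lib.Lead

set_option maxHeartbeats 1000000 in
/-- the Brauer–Suzuki transfer theorem for Hall subgroups -/
theorem brauer_suzuki_hall {G : Type*} [Group G] [Finite G] (H : Subgroup G)
    (hHall : Nat.Coprime (Nat.card H) H.index)
    (hfus : ∀ x ∈ H, ∀ y ∈ H, IsConj x y → ∃ h ∈ H, h * x * h⁻¹ = y)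
    (helem : ∀ (E : Subgroup G) (p : ℕ), p.Prime → Cfsg.IsElementary p E →
      Nat.card E ∣ Nat.card H → ∃ g : G, E.map (MulAut.conj g).toMonoidHom ≤ H) :
    ∃ K : Subgroup G, K.Normal ∧ K ⊔ H = ⊤ ∧ K ⊓ H = ⊥ := by
  classical
  haveI : Fintype G := Fintype.ofFinite G
  haveI : Fintype H := Fintype.ofFinite H
  haveI : Fintype (Cfsg.IrrCharacter H) := Fintype.ofFinite _
  obtain ⟨t, ht1, ht2⟩ : ∃ t : ℕ, t ≡ 0 [MOD H.index] ∧ t ≡ 1 [MOD Nat.card H] := by
    have h := Nat.chineseRemainder hHall.symm 0 1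
    exact ⟨h.1, h.2.1, h.2.2⟩
  have hyp : BSHyp H t := ⟨hHall, hfus, helem, (Nat.modEq_zero_iff_dvd).mp ht1, ht2⟩
  have hone : ∀ θ : Cfsg.IrrCharacter H, bsTilde H t θ.1 1 = θ.1 1 := by
    intro θ
    have h2 := bsTilde_mem hyp θ.1 (isClassFunction_of_char (isCharacter_of_irr θ.2)) (1 : H)
    rw [Subgroup.coe_one] at h2
    exact h2
  have hirr : ∀ θ : Cfsg.IrrCharacter H, Cfsg.IsIrrCharacter G (bsTilde H t θ.1) := by
    intro θ
    have hθcf := isClassFunction_of_char (isCharacter_of_irr θ.2)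
    apply isIrr_of_gen_norm_one _ (bsTilde_gen hyp θ.1 (isCharacter_of_irr θ.2))
    · rw [bsTilde_isometry hyp θ.1 θ.1 hθcf hθcf]
      exact irr_inner_self θ
    · obtain ⟨d, hdpos, hd⟩ := irr_one_eq_nat θ
      refine ⟨(d : ℝ), by exact_mod_cast hdpos, ?_⟩
      rw [hone θ, hd]
      push_cast
      rfl
  choose n ρ hρirr hρchar using hirr
  let K : Subgroup G := ⨅ θ, MonoidHom.ker (ρ θ)
  have hKn : K.Normal := Subgroup.normal_iInf_normal (fun θ => MonoidHom.normal_ker _)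
  have hmemK : ∀ g : G, g ∈ K ↔ ∀ θ : Cfsg.IrrCharacter H, bsTilde H t θ.1 g = θ.1 1 := by
    intro g
    rw [Subgroup.mem_iInf]
    apply forall_congr'
    intro θ
    rw [MonoidHom.mem_ker, ← char_eq_deg_iff (ρ θ) g]
    have h1 : ((ρ θ).character 1 : ℂ) = (Module.finrank ℂ (Fin (n θ) → ℂ) : ℂ) :=
      Representation.char_one _
    rw [← h1, hρchar θ, hone θ]
  have hKH : ∀ x, x ∈ K → x ∈ H → x = 1 := by
    intro x hxK hxH
    by_contra hx1
    have hx1' : (⟨x, hxH⟩ : H) ≠ 1 := fun h0 => hx1 (congrArg Subtype.val h0)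
    have hall : ∀ φ : Cfsg.IrrCharacter H, φ.1 ⟨x, hxH⟩ = φ.1 1 := by
      intro φ
      have h1 := (hmemK x).mp hxK φ
      have h2 := bsTilde_mem hyp φ.1 (isClassFunction_of_char (isCharacter_of_irr φ.2)) ⟨x, hxH⟩
      rw [← h1, ← h2]
    have hc1 := col_orth' (G := H) (⟨x, hxH⟩ : H) 1
    have hc2 := col_orth' (G := H) (1 : H) 1
    rw [if_neg (fun h => hx1' (isConj_one_left.mp h))] at hc1
    rw [if_pos (IsConj.refl 1)] at hc2
    have h3 : ∑ χ : Cfsg.IrrCharacter H, χ.1 ⟨x, hxH⟩ * (starRingEnd ℂ) (χ.1 1)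
        = ∑ χ : Cfsg.IrrCharacter H, χ.1 1 * (starRingEnd ℂ) (χ.1 1) :=
      Finset.sum_congr rfl (fun χ _ => by rw [hall χ])
    rw [h3, hc2] at hc1
    have h4 : Nat.card (Subgroup.centralizer ({1} : Set H)) ≠ 0 := Nat.card_pos.ne'
    exact h4 (by exact_mod_cast hc1)
  have hdisj : Disjoint K H := Subgroup.disjoint_def.mpr (fun hx hy => hKH _ hx hy)
  have hcardGH : Fintype.card H * H.index = Fintype.card G := by
    rw [← Nat.card_eq_fintype_card, ← Nat.card_eq_fintype_card]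
    exact Subgroup.card_mul_index H
  have hsec : bsSec H t 1 = H.index := by
    have h1 := bsA_eq hyp (1 : H)
    have h2 : bsCen H (1 : H) = Fintype.card H := by
      unfold bsCen
      rw [Finset.filter_true_of_mem (fun k _ => by group), Finset.card_univ]
    rw [h2] at h1
    exact Nat.eq_of_mul_eq_mul_left Fintype.card_pos (h1.trans hcardGH.symm)
  have hKge : H.index ≤ Nat.card K := by
    rw [← hsec, Nat.card_eq_fintype_card, Fintype.card_subtype]
    unfold bsSec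
    apply Finset.card_le_card
    intro x hx
    rw [Finset.mem_filter] at hx ⊢
    refine ⟨Finset.mem_univ _, ?_⟩
    have hxt : x ^ t = 1 := isConj_one_left.mp hx.2
    rw [hmemK]
    intro θ
    have hg : (1 : G) * x ^ t * (1 : G)⁻¹ ∈ H := by
      rw [hxt]
      simp
    rw [bsTilde_eq hyp θ.1 (isClassFunction_of_char (isCharacter_of_irr θ.2)) x 1 hg]
    have e : (⟨(1 : G) * x ^ t * (1 : G)⁻¹, hg⟩ : H) = 1 :=
      Subtype.ext (by show (1 : G) * x ^ t * (1 : G)⁻¹ = 1; rw [hxt]; group)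
    rw [e]
  have hKle : Nat.card K * Nat.card H ≤ Nat.card G := by
    rw [← Nat.card_prod]
    apply Nat.card_le_card_of_injective (fun p : K × H => (p.1 : G) * (p.2 : G))
    rintro ⟨k, h⟩ ⟨k', h'⟩ heq
    have heq' : (k : G) * (h : G) = (k' : G) * (h' : G) := heq
    have h1 : (k' : G)⁻¹ * (k : G) = (h' : G) * (h : G)⁻¹ := by
      calc (k' : G)⁻¹ * (k : G) = (k' : G)⁻¹ * ((k : G) * (h : G)) * (h : G)⁻¹ := by group
        _ = (k' : G)⁻¹ * ((k' : G) * (h' : G)) * (h : G)⁻¹ := by rw [heq']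
        _ = (h' : G) * (h : G)⁻¹ := by group
    have h2 : (k' : G)⁻¹ * (k : G) ∈ K := K.mul_mem (K.inv_mem k'.2) k.2
    have h3 : (k' : G)⁻¹ * (k : G) ∈ H := by
      rw [h1]
      exact H.mul_mem h'.2 (H.inv_mem h.2)
    have h4 := hKH _ h2 h3
    have h5 : (k : G) = (k' : G) := by
      calc (k : G) = (k' : G) * ((k' : G)⁻¹ * (k : G)) := by group
        _ = (k' : G) := by rw [h4, mul_one]
    have h6 : (h : G) = (h' : G) := by
      rw [h5] at heq'
      exact mul_left_cancel heq'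
    exact Prod.ext (Subtype.ext h5) (Subtype.ext h6)
  have hcard : Nat.card K * Nat.card H = Nat.card G := by
    apply le_antisymm hKle
    rw [← Subgroup.index_mul_card H]
    exact Nat.mul_le_mul_right _ hKge
  have hcompl := Subgroup.isComplement'_of_card_mul_and_disjoint hcard hdisj
  exact ⟨K, hKn, hcompl.sup_eq_top, disjoint_iff.mp hdisj⟩

end Cfsg.Agent.Lib.Lead
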