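import Mathlib

namespace Cfsg.Agent.Lib.Lead

open Finset

/-- the number of fixed points of `g` on `k`-tuples is the `k`-th power of the number of fixed
points -/
theorem card_fixedBy_pi {G α : Type*} [Group G] [MulAction G α] [Finite α] (k : ℕ) (g : G) :
    Nat.card (MulAction.fixedBy (Fin k → α) g) = Nat.card (MulAction.fixedBy α g) ^ k := by
  have h0 : Nat.card (Fin k → MulAction.fixedBy α g) = Nat.card (MulAction.fixedBy α g) ^ k := by
    rw [Nat.card_fun, Nat.card_eq_fintype_card (α := Fin k), Fintype.card_fin]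
  rw [← h0]
  apply Nat.card_congr
  refine ⟨fun v i => ⟨v.1 i, congrFun v.2 i⟩, fun w => ⟨fun i => (w i).1, funext fun i => (w i).2⟩,
    fun v => rfl, fun w => rfl⟩

/-- `|G|` divides `∑_g π(g)^k` -/
theorem card_dvd_sum_fix_pow {G α : Type*} [Group G] [Fintype G] [MulAction G α] [Finite α]
    (k : ℕ) : (Fintype.card G : ℤ) ∣ ∑ g : G, (Nat.card (MulAction.fixedBy α g) : ℤ) ^ k := by
  classical
  haveI : Fintype (Quotient (MulAction.orbitRel G (Fin k → α))) := Fintype.ofFinite _
  haveI : ∀ g : G, Fintype (MulAction.fixedBy (Fin k → α) g) := fun g => Fintype.ofFinite _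
  have hB := MulAction.sum_card_fixedBy_eq_card_orbits_mul_card_group G (Fin k → α)
  have h1 : ∑ g : G, (Nat.card (MulAction.fixedBy α g) : ℤ) ^ k =
      ((∑ g : G, Fintype.card (MulAction.fixedBy (Fin k → α) g) : ℕ) : ℤ) := by
    rw [Nat.cast_sum]
    apply Finset.sum_congr rfl
    intro g _
    rw [← Nat.card_eq_fintype_card, card_fixedBy_pi, Nat.cast_pow]
  rw [h1, hB, Nat.cast_mul]
  exact Dvd.intro_left _ rfl

/-- `|G|` divides `∑_g f(π(g))` for every integer polynomial `f` -/
theorem card_dvd_sum_poly {G α : Type*} [Group G] [Fintype G] [MulAction G α] [Finite α]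
    (f : Polynomial ℤ) :
    (Fintype.card G : ℤ) ∣ ∑ g : G, f.eval (Nat.card (MulAction.fixedBy α g) : ℤ) := by
  have h1 : ∑ g : G, f.eval (Nat.card (MulAction.fixedBy α g) : ℤ) =
      ∑ i ∈ Finset.range (f.natDegree + 1),
        f.coeff i * ∑ g : G, (Nat.card (MulAction.fixedBy α g) : ℤ) ^ i := by
    simp_rw [Polynomial.eval_eq_sum_range, Finset.mul_sum]
    rw [Finset.sum_comm]
  rw [h1]
  apply Finset.dvd_sum
  intro i _
  exact Dvd.dvd.mul_left (card_dvd_sum_fix_pow i) _

/-- **Blichfeldt's theorem** -/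
theorem blichfeldt {α : Type*} [Fintype α] [DecidableEq α] (G : Subgroup (Equiv.Perm α))
    (L : Finset ℕ) (hL : ∀ g ∈ G, g ≠ 1 → Nat.card (MulAction.fixedBy α g) ∈ L) :
    Nat.card G ∣ ∏ l ∈ L, (Fintype.card α - l) := by
  classical
  haveI : Fintype G := Fintype.ofFinite G
  by_cases hbig : ∃ l ∈ L, Fintype.card α < l
  · obtain ⟨l, hl, hlt⟩ := hbig
    have h0 : ∏ l ∈ L, (Fintype.card α - l) = 0 :=
      Finset.prod_eq_zero hl (Nat.sub_eq_zero_of_le hlt.le)
    rw [h0]; exact dvd_zero _
  · push Not at hbig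
    let f : Polynomial ℤ := ∏ l ∈ L, (Polynomial.X - Polynomial.C (l : ℤ))
    have hf : ∀ x : ℤ, f.eval x = ∏ l ∈ L, (x - (l : ℤ)) := by
      intro x
      simp only [f, Polynomial.eval_prod, Polynomial.eval_sub, Polynomial.eval_X, Polynomial.eval_C]
    have hdvd := card_dvd_sum_poly (G := G) (α := α) f
    have hfix : ∀ g : G, Nat.card (MulAction.fixedBy α g) = Nat.card (MulAction.fixedBy α (g : Equiv.Perm α)) :=
      fun g => rfl
    have hsum : ∑ g : G, f.eval (Nat.card (MulAction.fixedBy α g) : ℤ) =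
        f.eval (Nat.card (MulAction.fixedBy α (1 : G)) : ℤ) := by
      apply Finset.sum_eq_single (1 : G)
      · intro g _ hg
        rw [hf]
        have hg1 : (g : Equiv.Perm α) ≠ 1 := fun e => hg (Subtype.ext e)
        have hmem := hL g g.2 hg1
        rw [← hfix g] at hmem
        exact Finset.prod_eq_zero hmem (sub_self _)
      · intro h; exact absurd (Finset.mem_univ _) h
    rw [hsum, hf] at hdvd
    have h1 : Nat.card (MulAction.fixedBy α (1 : G)) = Fintype.card α := by
      rw [← Nat.card_eq_fintype_card]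
      exact Nat.card_congr (Equiv.subtypeUnivEquiv (fun x => one_smul _ x))
    rw [h1] at hdvd
    have h2 : ∏ l ∈ L, ((Fintype.card α : ℤ) - (l : ℤ)) =
        ((∏ l ∈ L, (Fintype.card α - l) : ℕ) : ℤ) := by
      rw [Nat.cast_prod]
      apply Finset.prod_congr rfl
      intro l hl
      rw [Nat.cast_sub (hbig l hl)]
    rw [h2, ← Nat.card_eq_fintype_card] at hdvd
    exact Int.natCast_dvd_natCast.1 hdvd

end Cfsg.Agent.Lib.Lead
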