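import Mathlib
import Cfsg.Prelude.Def_Blocks
import Cfsg.Agent.Lib.Lead.Block10

set_option autoImplicit false

namespace Cfsg.Agent.Lib.Lead

open scoped ComplexConjugate
open Module

section specgoodon

variable {G : Type*} [Group G] [Fintype G]

/-- spectral vectors realised by locally integral class functions supported on `C` -/
def SpecGoodOn (C : Subgroup G) (M : Ideal Cfsg.AlgInt) (v : Cfsg.IrrCharacter G → ℂ) : Prop :=
  ∃ c : G → ℂ, Cfsg.IsClassFunction G c ∧ (∀ g, Cfsg.MemLocalRing M (c g)) ∧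
    (∀ g, g ∉ C → c g = 0) ∧ ∀ χ : Cfsg.IrrCharacter G, Om χ.1 c = v χ

variable {M : Ideal Cfsg.AlgInt} {C : Subgroup G}

theorem specGoodOn_const (hM : M.IsMaximal) {a : ℂ} (ha : Cfsg.MemLocalRing M a) :
    SpecGoodOn (G := G) C M (fun _ => a) := by
  classical
  refine ⟨fun x => if x = 1 then a else 0, isClassFunction_delta a, ?_, ?_, ?_⟩
  · intro g
    show Cfsg.MemLocalRing M (if g = 1 then a else 0)
    split_ifs
    · exact ha
    · exact mlr_zero hM
  · intro g hg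
    show (if g = 1 then a else 0) = 0
    rw [if_neg]
    rintro rfl
    exact hg C.one_mem
  · intro χ
    exact Om_delta χ.1 (irr_deg_ne_zero χ) a

theorem specGoodOn_sub (hM : M.IsMaximal) {v w : Cfsg.IrrCharacter G → ℂ}
    (hv : SpecGoodOn C M v) (hw : SpecGoodOn C M w) : SpecGoodOn C M (fun χ => v χ - w χ) := by
  obtain ⟨c, hc, hc2, hc4, hc3⟩ := hv
  obtain ⟨d, hd, hd2, hd4, hd3⟩ := hw
  refine ⟨fun x => c x - d x, ?_, fun g => mlr_sub hM (hc2 g) (hd2 g), ?_, ?_⟩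
  · intro x k
    show c (k * x * k⁻¹) - d (k * x * k⁻¹) = c x - d x
    rw [hc x k, hd x k]
  · intro g hg
    show c g - d g = 0
    rw [hc4 g hg, hd4 g hg, sub_zero]
  · intro χ
    rw [Om_sub, hc3, hd3]

theorem specGoodOn_mul (hM : M.IsMaximal) {v w : Cfsg.IrrCharacter G → ℂ}
    (hv : SpecGoodOn C M v) (hw : SpecGoodOn C M w) : SpecGoodOn C M (fun χ => v χ * w χ) := by
  obtain ⟨c, hc, hc2, hc4, hc3⟩ := hv
  obtain ⟨d, hd, hd2, hd4, hd3⟩ := hw
  refine ⟨cconv c d, cconv_classFn hc hd, ?_, ?_, ?_⟩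
  · intro g
    exact mlr_sum hM _ _ (fun x _ => mlr_mul hM (hc2 x) (hd2 _))
  · intro g hg
    show ∑ x, c x * d (x⁻¹ * g) = 0
    apply Finset.sum_eq_zero
    intro x _
    by_cases hx : x ∈ C
    · rw [hd4 _ (fun h => hg (by simpa using C.mul_mem hx h)), mul_zero]
    · rw [hc4 x hx, zero_mul]
  · intro χ
    rw [Om_cconv χ hc hd, hc3, hd3]

theorem specGoodOn_prod (hM : M.IsMaximal) {ι : Type*} (s : Finset ι)
    (f : ι → Cfsg.IrrCharacter G → ℂ) (h : ∀ i ∈ s, SpecGoodOn C M (f i)) :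
    SpecGoodOn C M (fun χ => ∏ i ∈ s, f i χ) := by
  classical
  induction s using Finset.induction_on with
  | empty => simpa using specGoodOn_const (G := G) (C := C) hM (mlr_one hM)
  | insert a s ha ih =>
    have h1 := specGoodOn_mul hM (h a (Finset.mem_insert_self a s))
      (ih (fun i hi => h i (Finset.mem_insert_of_mem hi)))
    have h2 : (fun χ => ∏ i ∈ insert a s, f i χ) = fun χ => f a χ * ∏ i ∈ s, f i χ := by
      funext χ
      rw [Finset.prod_insert ha]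
    rw [h2]
    exact h1

theorem specGoodOn_omega [hC : C.Normal] (hM : M.IsMaximal) (g : G) (hg : g ∈ C) :
    SpecGoodOn C M (fun χ : Cfsg.IrrCharacter G => Cfsg.centralChar χ.1 g) := by
  classical
  refine ⟨fun x => if IsConj g x then 1 else 0, isClassFunction_conjInd g, ?_, ?_,
    fun χ => Om_classInd χ g⟩
  · intro x
    show Cfsg.MemLocalRing M (if IsConj g x then 1 else 0)
    split_ifs
    · exact mlr_one hM
    · exact mlr_zero hM
  · intro x hx
    show (if IsConj g x then (1 : ℂ) else 0) = 0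
    rw [if_neg]
    intro hconj
    obtain ⟨k, hk⟩ := isConj_iff.mp hconj
    apply hx
    rw [← hk]
    exact hC.conj_mem g hg k

theorem specGoodOn_good {v : Cfsg.IrrCharacter G → ℂ} (hv : SpecGoodOn C M v) :
    SpecGood M v := by
  obtain ⟨c, hc, hc2, hc4, hc3⟩ := hv
  exact ⟨c, hc, hc2, hc3⟩

open Classical in
/-- Osima with support: if central characters vanish mod the ideal off a normal subgroup `C`,
block idempotents are supported on `C`. -/
theorem osima_core_on [Fintype (Cfsg.IrrCharacter G)] {p : ℕ} (hM : Cfsg.IsPModular p M)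
    [hC : C.Normal]
    (hoff : ∀ g, g ∉ C → ∀ χ : Cfsg.IrrCharacter G, Cfsg.MemLocalIdeal M (Cfsg.centralChar χ.1 g))
    (χ₀ : Cfsg.IrrCharacter G) :
    SpecGoodOn C M (fun χ : Cfsg.IrrCharacter G =>
      if χ ∈ Cfsg.blockOf M χ₀.1 then (1 : ℂ) else 0) := by
  obtain ⟨hp, hmax, hpM⟩ := hM
  have hex : ∀ ψ : Cfsg.IrrCharacter G, ψ ∉ Cfsg.blockOf M χ₀.1 → ∃ g : G, g ∈ C ∧
      ¬ Cfsg.MemLocalIdeal M (Cfsg.centralChar χ₀.1 g - Cfsg.centralChar ψ.1 g) := by
    intro ψ hψ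
    by_contra hcon
    push Not at hcon
    apply hψ
    intro g
    by_cases hg : g ∈ C
    · exact hcon g hg
    · exact mli_sub hmax (hoff g hg χ₀) (hoff g hg ψ)
  choose! gψ hgψC hgψ using hex
  let v : Cfsg.IrrCharacter G → Cfsg.IrrCharacter G → ℂ :=
    fun ψ χ => Cfsg.centralChar χ.1 (gψ ψ) - Cfsg.centralChar ψ.1 (gψ ψ)
  have hv : ∀ ψ, ψ ∉ Cfsg.blockOf M χ₀.1 → SpecGoodOn C M (v ψ) := fun ψ hψ =>
    specGoodOn_sub hmax (specGoodOn_omega hmax (gψ ψ) (hgψC ψ hψ))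
      (specGoodOn_const hmax (mlr_of_integral hmax (centralChar_isIntegral ψ (gψ ψ))))
  let FN : Finset (Cfsg.IrrCharacter G) := Finset.univ.filter (· ∉ Cfsg.blockOf M χ₀.1)
  let FB : Finset (Cfsg.IrrCharacter G) := Finset.univ.filter (· ∈ Cfsg.blockOf M χ₀.1)
  let z : Cfsg.IrrCharacter G → ℂ := fun χ => ∏ ψ ∈ FN, v ψ χ
  have hz : SpecGoodOn C M z :=
    specGoodOn_prod hmax FN v (fun ψ hψ => hv ψ (Finset.mem_filter.mp hψ).2)
  have hz0 : ∀ χ, χ ∉ Cfsg.blockOf M χ₀.1 → z χ = 0 := by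
    intro χ hχ
    apply Finset.prod_eq_zero (i := χ) (Finset.mem_filter.mpr ⟨Finset.mem_univ _, hχ⟩)
    show Cfsg.centralChar χ.1 (gψ χ) - Cfsg.centralChar χ.1 (gψ χ) = 0
    exact sub_self _
  have hzB : ∀ θ, θ ∈ Cfsg.blockOf M χ₀.1 → ¬ Cfsg.MemLocalIdeal M (z θ) := by
    intro θ hθ
    apply not_mli_prod hmax
    · intro ψ _
      exact mlr_sub hmax (mlr_of_integral hmax (centralChar_isIntegral θ _))
        (mlr_of_integral hmax (centralChar_isIntegral ψ _))
    · intro ψ hψ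
      have hψ' : ψ ∉ Cfsg.blockOf M χ₀.1 := (Finset.mem_filter.mp hψ).2
      intro hcon
      apply hgψ ψ hψ'
      have h1 := mli_add hmax ((hθ : Cfsg.SameBlock M χ₀.1 θ.1) (gψ ψ)) hcon
      have h2 : Cfsg.centralChar χ₀.1 (gψ ψ) - Cfsg.centralChar θ.1 (gψ ψ) + v ψ θ
          = Cfsg.centralChar χ₀.1 (gψ ψ) - Cfsg.centralChar ψ.1 (gψ ψ) := by
        show Cfsg.centralChar χ₀.1 (gψ ψ) - Cfsg.centralChar θ.1 (gψ ψ)
          + (Cfsg.centralChar θ.1 (gψ ψ) - Cfsg.centralChar ψ.1 (gψ ψ)) = _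
        ring
      rw [← h2]
      exact h1
  have hzS : ∀ θ, Cfsg.MemLocalRing M (z θ) := fun θ => specGood_mlr hmax (specGoodOn_good hz) θ
  let w : Cfsg.IrrCharacter G → ℂ := fun χ => 1 - ∏ θ ∈ FB, (1 - (z θ)⁻¹ * z χ)
  have hw : SpecGoodOn C M w := by
    apply specGoodOn_sub hmax (specGoodOn_const hmax (mlr_one hmax))
    apply specGoodOn_prod hmax FB (fun θ χ => 1 - (z θ)⁻¹ * z χ)
    intro θ hθ
    have hθ' : θ ∈ Cfsg.blockOf M χ₀.1 := (Finset.mem_filter.mp hθ).2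
    apply specGoodOn_sub hmax (specGoodOn_const hmax (mlr_one hmax))
    exact specGoodOn_mul hmax (specGoodOn_const hmax (mlr_inv (hzS θ) (hzB θ hθ'))) hz
  have hweq : w = fun χ => if χ ∈ Cfsg.blockOf M χ₀.1 then (1 : ℂ) else 0 := by
    funext χ
    show 1 - ∏ θ ∈ FB, (1 - (z θ)⁻¹ * z χ) = _
    by_cases hχ : χ ∈ Cfsg.blockOf M χ₀.1
    · rw [if_pos hχ]
      have hne : z χ ≠ 0 := by
        intro h0
        apply hzB χ hχ
        rw [h0]
        exact mli_zero hmax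
      rw [Finset.prod_eq_zero (i := χ) (Finset.mem_filter.mpr ⟨Finset.mem_univ _, hχ⟩)
        (by rw [inv_mul_cancel₀ hne, sub_self]), sub_zero]
    · rw [if_neg hχ, hz0 χ hχ]
      simp
  rw [← hweq]
  exact hw

end specgoodon

/-- S4653 -/
theorem blockCoeff_off_centralizer {G : Type*} [Group G] [Fintype G] (p : ℕ) [Fact p.Prime]
    (M : Ideal Cfsg.AlgInt) (hM : Cfsg.IsPModular p M) (P : Subgroup G) [P.Normal]
    (hP : IsPGroup p P) (B : Set (Cfsg.IrrCharacter G)) (hB : Cfsg.IsPBlock M B) (g : G)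
    (hg : g ∉ Subgroup.centralizer (P : Set G)) : Cfsg.blockCoeff B g = 0 := by
  classical
  haveI : Finite G := Finite.of_fintype G
  haveI : Fintype (Cfsg.IrrCharacter G) := Fintype.ofFinite _
  obtain ⟨χ₀, rfl⟩ := hB
  haveI : (Subgroup.centralizer (P : Set G)).Normal := Subgroup.normal_centralizer
  obtain ⟨c, hc, hc2, hc4, hc3⟩ := osima_core_on (C := Subgroup.centralizer (P : Set G)) hM
    (fun g hg χ => central_char_mli_of_not_centralizing p M hM P hP g hg χ) χ₀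
  have h1 := Om_inv hc g
  rw [hc4 g hg] at h1
  refine (blockCoeff_eq _ g).trans (Eq.trans ?_ h1.symm)
  congr 1
  apply Finset.sum_congr rfl
  intro χ _
  rw [hc3]

end Cfsg.Agent.Lib.Lead
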