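import Mathlib
import Cfsg.Agent.Lib.Lead.Block26
import Cfsg.Prelude.Def_BlockLocal
import Cfsg.Prelude.Def_BrauerPairs

/-!
S4672: a stable block of a normal subgroup of `p`-power index.
-/

set_option autoImplicit false

namespace Cfsg.Agent.Lib.Lead

open scoped ComplexConjugate

theorem ppow_stable_block {G : Type*} [Group G] [Fintype G] (p : ℕ) [Fact p.Prime] (M : Ideal Cfsg.AlgInt) (hM : Cfsg.IsPModular p M) (N : Subgroup G) [N.Normal] (hN : ∃ k : ℕ, N.index = p ^ k) (c : Set (Cfsg.IrrCharacter N)) (hc : Cfsg.IsPBlock M c) (hst : ∀ x : G, Cfsg.StabilizesBlock N c x) : (∃ B : Set (Cfsg.IrrCharacter G), Cfsg.IsPBlock M B ∧ ∀ g : G, Cfsg.blockCoeff B g = Cfsg.subgroupBlockCoeff N c g) ∧ ∀ B : Set (Cfsg.IrrCharacter G), Cfsg.IsPBlock M B → (∀ g : G, Cfsg.blockCoeff B g = Cfsg.subgroupBlockCoeff N c g) → ∀ P : Subgroup G, Cfsg.IsDefectGroup p M B P → N ⊔ P = ⊤ ∧ Cfsg.IsDefectGroup p M c ((P ⊓ N).subgroupOf N) := by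
  classical
  haveI : Fintype N := Fintype.ofFinite N
  haveI : Fintype (Cfsg.IrrCharacter N) := Fintype.ofFinite _
  haveI : Fintype (Cfsg.IrrCharacter G) := Fintype.ofFinite _
  have hmax := hM.2.1
  have hNn : N.Normal := inferInstance
  have hstab : ∀ ψ ∈ c, ∀ k : G,
      (⟨conjFun N ψ.1 k, isIrrCharacter_conjFun N ψ.2 k⟩ : Cfsg.IrrCharacter N) ∈ c := by
    intro ψ hψ k
    obtain ⟨-, h⟩ := hst k⁻¹
    obtain ⟨ψ', hψ', hconj⟩ := h ψ hψ
    have e : ψ' = ⟨conjFun N ψ.1 k, isIrrCharacter_conjFun N ψ.2 k⟩ := by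
      apply Subtype.ext
      funext n
      have h1 := hconj ⟨k * n * k⁻¹, hNn.conj_mem n n.2 k⟩ n (by
        show (n : G) = k⁻¹ * (k * n * k⁻¹) * k⁻¹⁻¹
        group)
      rw [h1]
      rfl
    rw [← e]; exact hψ'
  obtain ⟨f, hfc, hfS, hf0, hfN, hfOm⟩ := stable_idem_fn N hM c hstab
    (fun ψ₀ hψ₀ ψ h => mem_block_of_sameBlock hmax hc hψ₀ h)
  have hfblock : ∀ n : N, f (n : G) = Cfsg.blockCoeff c n :=
    fun n => (hfN n).trans (blockCoeff_eq c n).symm
  have hfsub : ∀ g : G, f g = Cfsg.subgroupBlockCoeff N c g := by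
    intro g
    simp only [Cfsg.subgroupBlockCoeff]
    by_cases h : g ∈ N
    · rw [dif_pos h]; exact hfblock ⟨g, h⟩
    · rw [dif_neg h]; exact hf0 g h
  refine ⟨?_, ?_⟩
  · obtain ⟨B, ⟨hB, χ₀, hχ₀, θ₀, hθ₀, hcov⟩, huniq⟩ := unique_cover_ppow p M hM N hN c hc
    have hBiff : ∀ χ : Cfsg.IrrCharacter G, χ ∈ B ↔
        ∃ θ ∈ c, Cfsg.classInner (fun n : N => χ.1 n) θ.1 ≠ 0 := by
      intro χ
      constructor
      · intro hχ
        exact over_of_sameBlock N hM c hc χ₀ χ (sameBlock_of_mem_block hmax hB hχ₀ hχ)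
          ⟨θ₀, hθ₀, hcov⟩
      · rintro ⟨θ, hθ, h⟩
        have h1 := huniq (Cfsg.blockOf M χ.1) ⟨⟨χ, rfl⟩, χ, sameBlock_refl hmax _, θ, hθ, h⟩
        rw [← h1]
        exact sameBlock_refl hmax _
    refine ⟨B, hB, ?_⟩
    intro g
    rw [← hfsub g, blockCoeff_eq B g, Om_inv hfc g]
    congr 1
    apply Finset.sum_congr rfl
    intro χ _
    rw [hfOm χ]
    by_cases h : χ ∈ B
    · rw [if_pos h, if_pos ((hBiff χ).mp h)]
    · rw [if_neg h, if_neg (fun h' => h ((hBiff χ).mpr h'))]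
  · intro B hB hBc P hP
    obtain ⟨g, ⟨hgS, hgI, hgω⟩, Q, hPQ⟩ := hP
    have hgN : g ∈ N := by
      by_contra h
      apply hgI
      rw [hBc g, ← hfsub g, hf0 g h]
      exact mli_zero hmax
    have hcoef : Cfsg.blockCoeff B g = Cfsg.blockCoeff c ⟨g, hgN⟩ :=
      (hBc g).trans ((hfsub g).symm.trans (hfblock ⟨g, hgN⟩))
    obtain ⟨χ, hχ⟩ := block_nonempty hmax hB
    have hBf : (fun x => Cfsg.blockCoeff B x) = f := by
      funext x; rw [hBc x, hfsub x]
    have hovχ : ∃ θ ∈ c, Cfsg.classInner (fun n : N => χ.1 n) θ.1 ≠ 0 := by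
      by_contra hcon
      have h1 := Om_blockCoeff B χ
      rw [hBf, hfOm χ, if_neg hcon, if_pos hχ] at h1
      exact zero_ne_one h1
    have hpass := (passman_cover p M hM N B hB c hc).mp ⟨χ, hχ, hovχ⟩
    obtain ⟨θ₀, hθ₀⟩ := block_nonempty hmax hc
    obtain ⟨k, hk⟩ := hN
    have hidx_dvd : (N ⊔ Subgroup.centralizer ({g} : Set G)).index ∣ p ^ k := by
      rw [← hk]; exact Subgroup.index_dvd_of_le le_sup_left
    obtain ⟨j, hj, hidx⟩ := (Nat.dvd_prime_pow (Fact.out : p.Prime)).mp hidx_dvd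
    have hcong : ∀ θ ∈ c, Cfsg.MemLocalIdeal M (Cfsg.centralChar χ.1 g
        - ((N ⊔ Subgroup.centralizer ({g} : Set G)).index : ℂ)
          * Cfsg.centralChar θ.1 (⟨g, hgN⟩ : N)) := by
      intro θ hθ
      have h1 := hpass χ hχ θ hθ ⟨g, hgN⟩
      have h2 := icc_stable_congr N hM c hc hstab θ hθ ⟨g, hgN⟩
      have h3 := mli_add hmax h1 h2
      rw [sub_add_sub_cancel] at h3
      exact h3
    have hj0 : j = 0 := by
      by_contra hjne
      apply hgω χ hχ
      have h1 := hcong θ₀ hθ₀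
      have h2 : Cfsg.MemLocalIdeal M
          (((N ⊔ Subgroup.centralizer ({g} : Set G)).index : ℂ)
            * Cfsg.centralChar θ₀.1 (⟨g, hgN⟩ : N)) := by
        rw [mul_comm]
        exact mli_mul hmax (mlr_of_integral hmax (centralChar_isIntegral θ₀ _))
          (mli_natCast_of_dvd hM (by rw [hidx]; exact dvd_pow_self p hjne))
      have h3 := mli_add hmax h1 h2
      rw [sub_add_cancel] at h3
      exact h3
    have hidx1 : (N ⊔ Subgroup.centralizer ({g} : Set G)).index = 1 := by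
      rw [hidx, hj0, pow_zero]
    have hKtop : N ⊔ Subgroup.centralizer ({g} : Set G) = ⊤ := Subgroup.index_eq_one.mp hidx1
    have hdc : Cfsg.IsDefectClass M c (⟨g, hgN⟩ : N) := by
      refine ⟨by rw [← hcoef]; exact hgS, by rw [← hcoef]; exact hgI, ?_⟩
      intro θ hθ hmli
      apply hgω χ hχ
      have h1 := hcong θ hθ
      rw [hidx1, Nat.cast_one, one_mul] at h1
      have h3 := mli_add hmax h1 hmli
      rw [sub_add_cancel] at h3
      exact h3
    obtain ⟨hNP, hcardPN⟩ := sylow_normal_split p N k hk (Subgroup.centralizer ({g} : Set G))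
      hKtop Q P hPQ
    refine ⟨hNP, ⟨g, hgN⟩, hdc, ?_⟩
    have hPC : P ≤ Subgroup.centralizer ({g} : Set G) := by
      rw [hPQ]; exact Subgroup.map_subtype_le _
    have hle : (P ⊓ N).subgroupOf N ≤ Subgroup.centralizer ({(⟨g, hgN⟩ : N)} : Set N) := by
      intro n hn
      have h1 : (n : G) ∈ P := (Subgroup.mem_subgroupOf.mp hn).1
      have h2 := Subgroup.mem_centralizer_singleton_iff.mp (hPC h1)
      exact Subgroup.mem_centralizer_singleton_iff.mpr (Subtype.ext h2)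
    have e : Nat.card (Subgroup.centralizer ({(⟨g, hgN⟩ : N)} : Set N))
        = Nat.card (Subgroup.centralizer ({((⟨g, hgN⟩ : N) : G)} : Set G) ⊓ N : Subgroup G) := by
      rw [← map_centralizer_subtype N ⟨g, hgN⟩,
        Subgroup.card_map_of_injective N.subtype_injective]
    have hcard : Nat.card (((P ⊓ N).subgroupOf N).subgroupOf
        (Subgroup.centralizer ({(⟨g, hgN⟩ : N)} : Set N)))
        = p ^ (Nat.card (Subgroup.centralizer ({(⟨g, hgN⟩ : N)} : Set N))).factorization p := by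
      rw [card_subgroupOf_of_le hle, card_subgroupOf_of_le inf_le_right, hcardPN, e]
    refine ⟨Sylow.ofCard _ hcard, ?_⟩
    rw [Sylow.coe_ofCard, Subgroup.map_subgroupOf_eq_of_le hle]

end Cfsg.Agent.Lib.Lead
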