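import Mathlib
import Cfsg.Agent.Lib.Lead.Block21

/-!
S4433: defect groups of a block of a quotient lift.
-/

set_option autoImplicit false

namespace Cfsg.Agent.Lib.Lead

open scoped ComplexConjugate

theorem centralizer_conj_eq {G : Type*} [Group G] (g w : G) :
    (Subgroup.centralizer ({g} : Set G)).map (MulAut.conj w).toMonoidHom
      = Subgroup.centralizer ({w * g * w⁻¹} : Set G) := by
  ext y
  constructor
  · rintro ⟨u, hu, rfl⟩
    have h1 : u * g = g * u := Subgroup.mem_centralizer_singleton_iff.mp hu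
    apply Subgroup.mem_centralizer_singleton_iff.mpr
    show (MulAut.conj w) u * (w * g * w⁻¹) = w * g * w⁻¹ * (MulAut.conj w) u
    rw [MulAut.conj_apply]
    have e1 : w * u * w⁻¹ * (w * g * w⁻¹) = w * (u * g) * w⁻¹ := by group
    have e2 : w * g * w⁻¹ * (w * u * w⁻¹) = w * (g * u) * w⁻¹ := by group
    rw [e1, e2, h1]
  · intro hy
    have h1 : y * (w * g * w⁻¹) = w * g * w⁻¹ * y :=
      Subgroup.mem_centralizer_singleton_iff.mp hy
    refine ⟨w⁻¹ * y * w, ?_, ?_⟩
    · apply Subgroup.mem_centralizer_singleton_iff.mpr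
      have e1 : w⁻¹ * y * w * g = w⁻¹ * (y * (w * g * w⁻¹)) * w := by group
      have e2 : g * (w⁻¹ * y * w) = w⁻¹ * (w * g * w⁻¹ * y) * w := by group
      rw [e1, e2, h1]
    · show (MulAut.conj w) (w⁻¹ * y * w) = y
      rw [MulAut.conj_apply]; group

/-- a conjugate of a defect group is a defect group -/
theorem isDefectGroup_conj {G : Type*} [Group G] [Fintype G] (p : ℕ) [Fact p.Prime]
    {M : Ideal Cfsg.AlgInt} {B : Set (Cfsg.IrrCharacter G)} {P : Subgroup G}
    (hP : Cfsg.IsDefectGroup p M B P) (w : G) :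
    Cfsg.IsDefectGroup p M B (P.map (MulAut.conj w).toMonoidHom) := by
  obtain ⟨g, hg, S, rfl⟩ := hP
  refine ⟨w * g * w⁻¹, isDefectClass_conj hg (isConj_iff.mpr ⟨w, rfl⟩), ?_⟩
  have hinj : Function.Injective (MulAut.conj w).toMonoidHom := (MulAut.conj w).injective
  have hle : ((S : Subgroup _).map (Subgroup.centralizer ({g} : Set G)).subtype).map
      (MulAut.conj w).toMonoidHom ≤ Subgroup.centralizer ({w * g * w⁻¹} : Set G) := by
    rw [← centralizer_conj_eq]
    exact Subgroup.map_mono (Subgroup.map_subtype_le _)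
  have hcard : Nat.card ((((S : Subgroup _).map (Subgroup.centralizer ({g} : Set G)).subtype).map
      (MulAut.conj w).toMonoidHom).subgroupOf (Subgroup.centralizer ({w * g * w⁻¹} : Set G)))
      = p ^ (Nat.card (Subgroup.centralizer ({w * g * w⁻¹} : Set G))).factorization p := by
    rw [card_subgroupOf_of_le hle, Subgroup.card_map_of_injective hinj,
      Subgroup.card_map_of_injective (Subgroup.subtype_injective _), S.card_eq_multiplicity,
      ← centralizer_conj_eq, Subgroup.card_map_of_injective hinj]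
  refine ⟨Sylow.ofCard _ hcard, ?_⟩
  rw [Sylow.coe_ofCard, Subgroup.map_subgroupOf_eq_of_le hle]

open scoped Pointwise in
theorem sylow_conj_mem {G : Type*} [Group G] [Finite G] (p : ℕ) [Fact p.Prime]
    (Q S : Sylow p G) : ∃ c : G, ∀ q ∈ Q, c * q * c⁻¹ ∈ S := by
  obtain ⟨c, hc⟩ := MulAction.exists_smul_eq G Q S
  refine ⟨c, ?_⟩
  intro q hq
  rw [← hc]
  have h1 : MulAut.conj c • q ∈ MulAut.conj c • (Q : Subgroup G) :=
    Subgroup.smul_mem_pointwise_smul q (MulAut.conj c) (Q : Subgroup G) hq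
  rw [← Sylow.coe_subgroup_smul] at h1
  exact h1

theorem quot_defect_lift {G : Type*} [Group G] [Finite G] (p : ℕ) [Fact p.Prime] (M : Ideal Cfsg.AlgInt) (hM : Cfsg.IsPModular p M) (N : Subgroup G) [N.Normal] (Bbar : Set (Cfsg.IrrCharacter (G ⧸ N))) (hBbar : Cfsg.IsPBlock M Bbar) (B : Set (Cfsg.IrrCharacter G)) (hB : Cfsg.IsPBlock M B) (hsub : ∀ χ ∈ Bbar, ∀ ψ : Cfsg.IrrCharacter G, (ψ : G → ℂ) = (χ : G ⧸ N → ℂ) ∘ QuotientGroup.mk → ψ ∈ B) (Dbar : Subgroup (G ⧸ N)) (hDbar : Cfsg.IsDefectGroup p M Bbar Dbar) : ∃ P : Subgroup G, Cfsg.IsDefectGroup p M B P ∧ Dbar ≤ P.map (QuotientGroup.mk' N) := by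
  classical
  haveI : Fintype G := Fintype.ofFinite G
  haveI : Fintype (Cfsg.IrrCharacter G) := Fintype.ofFinite _
  haveI : Fintype (ConjClasses G) := Fintype.ofFinite _
  have hmax := hM.2.1
  have hp : p.Prime := Fact.out
  obtain ⟨χb, hχb⟩ := block_nonempty hmax hBbar
  have hirr : Cfsg.IsIrrCharacter G (fun g => χb.1 (QuotientGroup.mk' N g)) :=
    isIrrCharacter_comp_surj (QuotientGroup.mk' N) (QuotientGroup.mk'_surjective N) χb.2
  have hχ₀ : (⟨_, hirr⟩ : Cfsg.IrrCharacter G) ∈ B := hsub χb hχb ⟨_, hirr⟩ rfl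
  have hsum : ∑ C : ConjClasses G, Cfsg.blockCoeff B (ccRep C)
      * Cfsg.centralChar (fun g => χb.1 (QuotientGroup.mk' N g)) (ccRep C) = 1 := by
    have h1 := Om_class_sum (⟨_, hirr⟩ : Cfsg.IrrCharacter G) (blockCoeff_classFn B)
    rw [Om_blockCoeff B ⟨_, hirr⟩, if_pos hχ₀] at h1
    exact h1.symm
  obtain ⟨C, hC⟩ : ∃ C : ConjClasses G, ¬ Cfsg.MemLocalIdeal M (Cfsg.blockCoeff B (ccRep C)
      * Cfsg.centralChar (fun g => χb.1 (QuotientGroup.mk' N g)) (ccRep C)) := by
    by_contra hcon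
    push Not at hcon
    apply not_mli_one hmax
    rw [← hsum]
    exact mli_sum hmax _ _ (fun C _ => hcon C)
  obtain ⟨x, hxdef⟩ : ∃ x : G, x = ccRep C := ⟨_, rfl⟩
  rw [← hxdef] at hC
  have heS : Cfsg.MemLocalRing M (Cfsg.blockCoeff B x) := osima_thm p M hM B hB x
  have hωS : Cfsg.MemLocalRing M
      (Cfsg.centralChar (fun g => χb.1 (QuotientGroup.mk' N g)) x) :=
    mlr_of_integral hmax (centralChar_isIntegral ⟨_, hirr⟩ x)
  have heI : ¬ Cfsg.MemLocalIdeal M (Cfsg.blockCoeff B x) := by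
    intro h; apply hC; rw [mul_comm]; exact mli_mul hmax hωS h
  have hωI : ¬ Cfsg.MemLocalIdeal M
      (Cfsg.centralChar (fun g => χb.1 (QuotientGroup.mk' N g)) x) := by
    intro h; apply hC; exact mli_mul hmax heS h
  have hdc : Cfsg.IsDefectClass M B x := by
    refine ⟨heS, heI, ?_⟩
    intro χ hχ hmli
    apply hωI
    have h1 := sameBlock_of_mem_block hmax hB hχ hχ₀ x
    have h2 := mli_sub hmax hmli h1
    rw [sub_sub_cancel] at h2
    exact h2
  -- indices
  have hCle : Subgroup.centralizer ({x} : Set G)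
      ≤ (Subgroup.centralizer ({(QuotientGroup.mk' N x)} : Set (G ⧸ N))).comap
        (QuotientGroup.mk' N) := by
    intro u hu
    have h1 : u * x = x * u := Subgroup.mem_centralizer_singleton_iff.mp hu
    apply Subgroup.mem_comap.mpr
    apply Subgroup.mem_centralizer_singleton_iff.mpr
    rw [← map_mul, ← map_mul, h1]
  have hdiv : (Subgroup.centralizer ({(QuotientGroup.mk' N x)} : Set (G ⧸ N))).index
      ∣ (Subgroup.centralizer ({x} : Set G)).index := by
    rw [← Subgroup.index_comap_of_surjective _ (QuotientGroup.mk'_surjective N)]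
    exact Subgroup.index_dvd_of_le hCle
  obtain ⟨r, hr⟩ := hdiv
  have hω : Cfsg.centralChar (fun g => χb.1 (QuotientGroup.mk' N g)) x
      = (r : ℂ) * Cfsg.centralChar χb.1 (QuotientGroup.mk' N x) := by
    unfold Cfsg.centralChar
    beta_reduce
    rw [hr, map_one]
    push_cast
    ring
  rw [hω] at hωI
  have hωbS : Cfsg.MemLocalRing M (Cfsg.centralChar χb.1 (QuotientGroup.mk' N x)) :=
    mlr_of_integral hmax (centralChar_isIntegral χb _)
  have hpr : ¬ p ∣ r := by
    intro h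
    apply hωI
    rw [mul_comm]
    exact mli_mul hmax hωbS (mli_natCast_of_dvd hM h)
  have hωbI : ¬ Cfsg.MemLocalIdeal M (Cfsg.centralChar χb.1 (QuotientGroup.mk' N x)) := by
    intro h
    apply hωI
    exact mli_mul hmax (mlr_natCast hmax r) h
  -- min-max in the quotient
  obtain ⟨yb, hyb, D₀, hDD₀⟩ := hDbar
  obtain ⟨gb, Qb, hQb⟩ := (minmax_thm p M hM Bbar hBbar yb hyb D₀
    (QuotientGroup.mk' N x)).2 ⟨χb, hχb, hωbI⟩
  -- a defect group of `B`
  obtain ⟨Q⟩ : Nonempty (Sylow p (Subgroup.centralizer ({x} : Set G))) := inferInstance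
  have hP₀ : Cfsg.IsDefectGroup p M B
      (Q.toSubgroup.map (Subgroup.centralizer ({x} : Set G)).subtype) := ⟨x, hdc, Q, rfl⟩
  obtain ⟨P₀, hP₀def⟩ : ∃ P₀ : Subgroup G,
      P₀ = Q.toSubgroup.map (Subgroup.centralizer ({x} : Set G)).subtype := ⟨_, rfl⟩
  rw [← hP₀def] at hP₀
  have hP₀C : P₀ ≤ Subgroup.centralizer ({x} : Set G) := by
    rw [hP₀def]; exact Subgroup.map_subtype_le _
  have hP₀idx : P₀.index
      = Q.toSubgroup.index * (Subgroup.centralizer ({x} : Set G)).index := by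
    rw [← Subgroup.relIndex_mul_index hP₀C]
    congr 1
    show (P₀.subgroupOf (Subgroup.centralizer ({x} : Set G))).index = _
    have e : P₀.subgroupOf (Subgroup.centralizer ({x} : Set G)) = Q.toSubgroup := by
      rw [hP₀def]
      exact Subgroup.comap_map_eq_self_of_injective (Subgroup.subtype_injective _) _
    rw [e]
  have hPbC : P₀.map (QuotientGroup.mk' N)
      ≤ Subgroup.centralizer ({(QuotientGroup.mk' N x)} : Set (G ⧸ N)) := by
    rw [Subgroup.map_le_iff_le_comap]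
    exact hP₀C.trans hCle
  have hidx1 : (P₀.map (QuotientGroup.mk' N)).index ∣ P₀.index :=
    Subgroup.index_map_dvd P₀ (QuotientGroup.mk'_surjective N)
  have hidx2 := Subgroup.relIndex_mul_index hPbC
  have hrel : (P₀.map (QuotientGroup.mk' N)).relIndex
      (Subgroup.centralizer ({(QuotientGroup.mk' N x)} : Set (G ⧸ N)))
      ∣ Q.toSubgroup.index * r := by
    apply Nat.dvd_of_mul_dvd_mul_right
      (k := (Subgroup.centralizer ({(QuotientGroup.mk' N x)} : Set (G ⧸ N))).index)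
      (Nat.pos_of_ne_zero Subgroup.index_ne_zero_of_finite)
    rw [hidx2]
    have e : Q.toSubgroup.index * r
        * (Subgroup.centralizer ({(QuotientGroup.mk' N x)} : Set (G ⧸ N))).index
        = P₀.index := by rw [hP₀idx, hr]; ring
    rw [e]; exact hidx1
  have hprel : ¬ p ∣ (P₀.map (QuotientGroup.mk' N)).relIndex
      (Subgroup.centralizer ({(QuotientGroup.mk' N x)} : Set (G ⧸ N))) := by
    intro h
    rcases (hp.dvd_mul).mp (h.trans hrel) with h1 | h1
    · exact Q.not_dvd_index h1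
    · exact hpr h1
  have hPbp : IsPGroup p (P₀.map (QuotientGroup.mk' N)) := by
    rw [hP₀def]; exact (Q.isPGroup'.map _).map _
  obtain ⟨Sb, hSb⟩ : ∃ Sb : Sylow p
      (Subgroup.centralizer ({(QuotientGroup.mk' N x)} : Set (G ⧸ N))),
      Sb.toSubgroup = (P₀.map (QuotientGroup.mk' N)).subgroupOf
        (Subgroup.centralizer ({(QuotientGroup.mk' N x)} : Set (G ⧸ N))) :=
    ⟨IsPGroup.toSylow (hPbp.comap_subtype) hprel, rfl⟩
  obtain ⟨c, hc⟩ := sylow_conj_mem p Qb Sb
  obtain ⟨w, hw⟩ := QuotientGroup.mk'_surjective N ((c : G ⧸ N) * gb)⁻¹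
  refine ⟨P₀.map (MulAut.conj w).toMonoidHom, isDefectGroup_conj p hP₀ w, ?_⟩
  intro d hd
  have h1 : (MulAut.conj gb) d ∈ (Qb.toSubgroup.map
      (Subgroup.centralizer ({(QuotientGroup.mk' N x)} : Set (G ⧸ N))).subtype) := by
    apply hQb
    exact Subgroup.mem_map_of_mem _ (by rw [← hDD₀]; exact hd)
  obtain ⟨q, hq, hqd⟩ := Subgroup.mem_map.mp h1
  have hq' : (q : G ⧸ N) = gb * d * gb⁻¹ := by
    have h2 := hqd
    rw [MulAut.conj_apply] at h2
    exact h2
  have h2 : c * q * c⁻¹ ∈ Sb.toSubgroup := hc q hq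
  rw [hSb] at h2
  have h3 : ((c * q * c⁻¹ : Subgroup.centralizer ({(QuotientGroup.mk' N x)} : Set (G ⧸ N)))
      : G ⧸ N) ∈ P₀.map (QuotientGroup.mk' N) := Subgroup.mem_subgroupOf.mp h2
  obtain ⟨u, hu, hu'⟩ := Subgroup.mem_map.mp h3
  have hu'' : QuotientGroup.mk' N u = (c : G ⧸ N) * (gb * d * gb⁻¹) * (c : G ⧸ N)⁻¹ := by
    rw [hu', ← hq']; rfl
  refine Subgroup.mem_map.mpr ⟨(MulAut.conj w) u, Subgroup.mem_map.mpr ⟨u, hu, rfl⟩, ?_⟩
  rw [MulAut.conj_apply, map_mul, map_mul, map_inv, hw, hu'']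
  group

end Cfsg.Agent.Lib.Lead
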