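import Mathlib
import Cfsg.Prelude.Def_Blocks
import Cfsg.Agent.Lib.Lead.Block3

set_option autoImplicit false

namespace Cfsg.Agent.Lib.Lead

open scoped ComplexConjugate
open Module

/-- S0910 -/
theorem principal_block_ppow {G : Type*} [Group G] [Finite G] (p : ℕ) [Fact p.Prime]
    (M : Ideal Cfsg.AlgInt) (hM : Cfsg.IsPModular p M) [IsSimpleGroup G]
    (hna : ∃ a b : G, a * b ≠ b * a) (χ : Cfsg.IrrCharacter G)
    (hχ : χ ∈ Cfsg.principalBlock M G) (k : ℕ) (hdeg : (χ : G → ℂ) 1 = (p : ℂ) ^ k) :
    (χ : G → ℂ) = fun _ => 1 := by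
  classical
  haveI : Fintype G := Fintype.ofFinite G
  have hp : p.Prime := Fact.out
  by_contra hne
  have hZ : Subgroup.center G = ⊥ := by
    rcases IsSimpleGroup.eq_bot_or_eq_top_of_normal (Subgroup.center G) inferInstance with h | h
    · exact h
    · exfalso
      obtain ⟨a, b, hab⟩ := hna
      apply hab
      have : a ∈ Subgroup.center G := by rw [h]; exact Subgroup.mem_top a
      exact (Subgroup.mem_center_iff.mp this b).symm
  obtain ⟨n, ρ, hρ, hρχ⟩ := χ.2
  haveI := hρ
  have hfr : finrank ℂ (Fin n → ℂ) = p ^ k := by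
    have h1 : χ.1 1 = (finrank ℂ (Fin n → ℂ) : ℂ) := by rw [← hρχ, Representation.char_one]
    rw [h1] at hdeg
    exact_mod_cast hdeg
  have key : ∀ g : G, g ≠ 1 →
      Nat.Coprime (finrank ℂ (Fin n → ℂ)) (Subgroup.centralizer ({g} : Set G)).index →
      χ.1 g = 0 := by
    intro g hg hcop
    rcases burnside_coprime ρ g hcop with h0 | h1
    · rw [← hρχ]
      exact h0
    · exfalso
      obtain ⟨ω, hω⟩ := (char_norm_eq_iff ρ g).mp h1
      rcases IsSimpleGroup.eq_bot_or_eq_top_of_normal (MonoidHom.ker ρ)
        (MonoidHom.normal_ker ρ) with hk | hk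
      · apply hg
        have hgc : g ∈ Subgroup.center G := by
          rw [Subgroup.mem_center_iff]
          intro x
          have h2 : ρ (x * g) = ρ (g * x) := by
            rw [map_mul, map_mul, hω, smul_mul_assoc, mul_smul_comm, one_mul, mul_one]
          have h3 : (x * g) * (g * x)⁻¹ ∈ MonoidHom.ker ρ := by
            rw [MonoidHom.mem_ker, map_mul, h2, ← map_mul, mul_inv_cancel, map_one]
          rw [hk, Subgroup.mem_bot] at h3
          exact mul_inv_eq_one.mp h3
        rw [hZ, Subgroup.mem_bot] at hgc
        exact hgc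
      · apply hne
        have htriv : ∀ x : G, ρ x = 1 := by
          intro x
          have : x ∈ MonoidHom.ker ρ := by rw [hk]; exact Subgroup.mem_top x
          exact MonoidHom.mem_ker.mp this
        have h1dim := finrank_one_of_irr_trivial ρ htriv
        show χ.1 = fun _ => 1
        rw [← hρχ]
        funext x
        unfold Representation.character
        rw [htriv x, LinearMap.trace_one, h1dim]
        simp
  rcases Nat.eq_zero_or_pos k with hk0 | hkpos
  · subst hk0
    rw [pow_zero] at hfr
    have hall : ∀ g : G, g ≠ 1 → χ.1 g = 0 := fun g hg =>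
      key g hg (by rw [hfr]; exact Nat.coprime_one_left _)
    have h1 := irr_inner_self χ
    unfold Cfsg.classInner at h1
    rw [Finset.sum_eq_single 1 (fun g _ hg => by rw [hall g hg, zero_mul])
      (fun h => absurd (Finset.mem_univ _) h)] at h1
    rw [hdeg] at h1
    simp only [pow_zero, map_one, mul_one] at h1
    have hcard : Nat.card G = 1 := by
      have h2 : (Nat.card G : ℂ) = 1 := by
        rw [← inv_inv (Nat.card G : ℂ), h1, inv_one]
      exact_mod_cast h2
    obtain ⟨a, b, hab⟩ := hna
    haveI : Subsingleton G := (Nat.card_eq_one_iff_unique.mp hcard).1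
    exact hab (Subsingleton.elim _ _)
  · have hpdvd : ∀ g : G, g ≠ 1 → p ∣ (Subgroup.centralizer ({g} : Set G)).index := by
      intro g hg
      by_contra hnd
      have hcop : Nat.Coprime (finrank ℂ (Fin n → ℂ))
          (Subgroup.centralizer ({g} : Set G)).index := by
        rw [hfr]
        exact Nat.Coprime.pow_left k ((Nat.Prime.coprime_iff_not_dvd hp).mpr hnd)
      have h0 := key g hg hcop
      have h1 := hχ g
      unfold Cfsg.centralChar at h1
      rw [h0] at h1
      simp only [mul_one, div_one, mul_zero, zero_div, sub_zero] at h1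
      exact not_mli_natCast hM hnd h1
    haveI : Fintype (ConjClasses G) := Fintype.ofFinite _
    have hF : Cfsg.IsClassFunction G (fun _ => (1 : ℂ)) := fun _ _ => rfl
    have hsum := sum_eq_sum_classes (fun _ : G => (1 : ℂ)) hF ccRep ccRep_spec
    simp only [mul_one, Finset.sum_const, Finset.card_univ, nsmul_eq_mul] at hsum
    have hsum' : Fintype.card G
        = ∑ C : ConjClasses G, (Subgroup.centralizer ({ccRep C} : Set G)).index := by
      exact_mod_cast hsum
    have h1rep : ccRep (ConjClasses.mk (1 : G)) = 1 := by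
      have := ccRep_spec (ConjClasses.mk (1 : G))
      exact isConj_one_left.mp (ConjClasses.mk_eq_mk_iff_isConj.mp this)
    rw [← Finset.add_sum_erase _ _ (Finset.mem_univ (ConjClasses.mk (1 : G))), h1rep] at hsum'
    have hidx1 : (Subgroup.centralizer ({(1 : G)} : Set G)).index = 1 := by
      rw [Subgroup.index_eq_one]
      ext x
      simp [Subgroup.mem_centralizer_iff]
    rw [hidx1] at hsum'
    have hdvd2 : p ∣ ∑ C ∈ Finset.univ.erase (ConjClasses.mk (1 : G)),
        (Subgroup.centralizer ({ccRep C} : Set G)).index := by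
      apply Finset.dvd_sum
      intro C hC
      apply hpdvd
      intro h1
      apply Finset.ne_of_mem_erase hC
      rw [← ccRep_spec C, h1]
    have hdvd3 : p ∣ Fintype.card G := by
      have h2 := deg_dvd_card ρ
      rw [hfr] at h2
      rw [← Nat.card_eq_fintype_card]
      exact (dvd_pow_self p hkpos.ne').trans h2
    rw [hsum'] at hdvd3
    have h9 : p ∣ 1 := (Nat.dvd_add_left hdvd2).mp hdvd3
    exact hp.one_lt.ne' (Nat.dvd_one.mp h9)

end Cfsg.Agent.Lib.Lead
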