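import Mathlib
import Cfsg.Agent.Lib.Lead.Frob5

set_option autoImplicit false

namespace Cfsg.Agent.Lib.Lead

open scoped Pointwise

theorem sharp2_kernel {G α : Type*} [Group G] [MulAction G α] [Finite G] [Fintype α]
    (h2t : MulAction.IsMultiplyPretransitive G α 2)
    (hsh : ∀ (g : G) (a b : α), a ≠ b → g • a = a → g • b = b → g = 1)
    (h2 : 2 ≤ Fintype.card α) :
    ∃ N : Subgroup G, N.Normal ∧ (∀ g, g ∈ N ↔ g = 1 ∨ ∀ a : α, g • a ≠ a) ∧
      Nat.card N = Fintype.card α := by
  classical
  haveI htr : MulAction.IsPretransitive G α := MulAction.isPretransitive_of_is_two_pretransitive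
  have hne : Nonempty α := Fintype.card_pos_iff.1 (by omega)
  obtain ⟨a⟩ := hne
  have hex : ∀ a : α, ∃ b : α, b ≠ a := by
    intro a
    by_contra hh
    push Not at hh
    have : Fintype.card α ≤ 1 := Fintype.card_le_one_iff.2 (fun x y => by rw [hh x, hh y])
    omega
  rcases Nat.lt_or_ge 2 (Fintype.card α) with h3 | h3
  · -- n ≥ 3
    let H := MulAction.stabilizer G a
    obtain ⟨b, hb⟩ := hex a
    obtain ⟨c, hca, hcb⟩ : ∃ c : α, c ≠ a ∧ c ≠ b := by
      by_contra hh
      push Not at hh
      have : Fintype.card α ≤ 2 := by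
        have hsub : (Finset.univ : Finset α) ⊆ {a, b} := by
          intro x _
          by_cases hxa : x = a
          · simp [hxa]
          · simp [hh x hxa]
        calc Fintype.card α = (Finset.univ : Finset α).card := rfl
          _ ≤ ({a, b} : Finset α).card := Finset.card_le_card hsub
          _ ≤ 2 := Finset.card_le_two
      omega
    have hF : Cfsg.IsFrobeniusComplement H := by
      refine ⟨?_, ?_, ?_⟩
      · intro hbot
        have h2t' : ∀ (a b c d : α), a ≠ b → c ≠ d → ∃ g : G, g • a = c ∧ g • b = d :=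
          fun a b c d h h' => (MulAction.is_two_pretransitive_iff.1 h2t) h h'
        obtain ⟨g, hga, hgb⟩ := h2t' a b a c (Ne.symm hb) (Ne.symm hca)
        have : g ∈ H := hga
        rw [hbot, Subgroup.mem_bot] at this
        rw [this, one_smul] at hgb
        exact hcb hgb.symm
      · intro htop
        obtain ⟨g, hg⟩ := MulAction.exists_smul_eq G a b
        have : g ∈ H := htop ▸ Subgroup.mem_top g
        have h1 : g • a = a := this
        exact hb (hg.symm.trans h1)
      · intro g hg
        rw [eq_bot_iff]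
        rintro x ⟨hx1, hx2⟩
        rw [Subgroup.mem_bot]
        have hx2' : g⁻¹ * x * g ∈ H := (frob_mem_conj_smul H g x).1 hx2
        have h1 : x • a = a := hx1
        have h2 : x • (g • a) = g • a := by
          have : (g⁻¹ * x * g) • a = a := hx2'
          rw [mul_smul, mul_smul, inv_smul_eq_iff] at this
          exact this
        exact hsh x a (g • a) (fun h => hg (show g • a = a from h.symm)) h1 h2
    obtain ⟨N, hN, hNn, hcompl⟩ := frobenius_kernel_subgroup H hF
    refine ⟨N, hNn, ?_, ?_⟩
    · intro g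
      have : g ∈ N ↔ g ∈ Cfsg.frobeniusKernel H := by rw [← hN]; rfl
      rw [this]
      show (g = 1 ∨ ∀ k : G, g ∉ MulAut.conj k • H) ↔ _
      apply or_congr Iff.rfl
      constructor
      · intro h b hgb
        obtain ⟨k, rfl⟩ := MulAction.exists_smul_eq G a b
        apply h k
        rw [frob_mem_conj_smul]
        show (k⁻¹ * g * k) • a = a
        rw [mul_smul, mul_smul, hgb, inv_smul_smul]
      · intro h k hk
        rw [frob_mem_conj_smul] at hk
        have : (k⁻¹ * g * k) • a = a := hk
        rw [mul_smul, mul_smul, inv_smul_eq_iff] at this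
        exact h _ this
    · have h1 := hcompl.card_mul
      have h2' := Subgroup.card_mul_index H
      have h3' : H.index = Fintype.card α := by
        rw [MulAction.index_stabilizer, MulAction.orbit_eq_univ, Set.ncard_univ,
          Nat.card_eq_fintype_card]
      rw [h3'] at h2'
      have hpos : 0 < Nat.card H := Nat.card_pos
      have : Nat.card N * Nat.card H = Fintype.card α * Nat.card H := by
        rw [h1, ← h2', mul_comm]
      exact Nat.eq_of_mul_eq_mul_right hpos this
  · -- n = 2
    have hn : Fintype.card α = 2 := by omega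
    have hfix1 : ∀ g : G, ∀ b : α, g • b = b → g = 1 := by
      intro g b hgb
      obtain ⟨c, hc⟩ := hex b
      have : g • c = c := by
        by_contra hgc
        have hall : ∀ x : α, x = b ∨ x = c := by
          intro x
          by_contra hx
          push Not at hx
          have : 3 ≤ Fintype.card α := by
            have h3c : ({b, c, x} : Finset α).card = 3 := by
              rw [Finset.card_insert_of_notMem, Finset.card_insert_of_notMem,
                Finset.card_singleton]
              · simp [Ne.symm hx.2]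
              · simp [Ne.symm hc, Ne.symm hx.1]
            calc 3 = ({b, c, x} : Finset α).card := h3c.symm
              _ ≤ _ := Finset.card_le_univ _
          omega
        rcases hall (g • c) with h | h
        · rw [← hgb] at h
          exact hc (smul_left_cancel g h)
        · exact hgc h
      exact hsh g b c (Ne.symm hc) hgb this
    refine ⟨⊤, inferInstance, ?_, ?_⟩
    · intro g
      simp only [Subgroup.mem_top, true_iff]
      by_cases hg : g = 1
      · exact Or.inl hg
      · exact Or.inr (fun b hgb => hg (hfix1 g b hgb))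
    · rw [Subgroup.card_top]
      have hbij : Function.Bijective (fun g : G => g • a) := by
        constructor
        · intro g g' h
          have h' : g • a = g' • a := h
          have : (g'⁻¹ * g) • a = a := by
            rw [mul_smul, h', inv_smul_smul]
          exact (inv_mul_eq_one.1 (hfix1 _ a this)).symm
        · intro b; exact MulAction.exists_smul_eq G a b
      rw [Nat.card_eq_of_bijective _ hbij, Nat.card_eq_fintype_card]

theorem sharp2_structure {G α : Type*} [Group G] [MulAction G α] [Finite G] [Fintype α]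
    (h2t : MulAction.IsMultiplyPretransitive G α 2)
    (hsh : ∀ (g : G) (a b : α), a ≠ b → g • a = a → g • b = b → g = 1)
    (h2 : 2 ≤ Fintype.card α) (N : Subgroup G) (hNn : N.Normal)
    (hmem : ∀ g, g ∈ N ↔ g = 1 ∨ ∀ a : α, g • a ≠ a) (hcard : Nat.card N = Fintype.card α) :
    ∃ p j : ℕ, p.Prime ∧ 1 ≤ j ∧ Fintype.card α = p ^ j ∧ (∀ x ∈ N, x ^ p = 1) ∧
      (∀ x ∈ N, ∀ y ∈ N, x * y = y * x) ∧ (∀ a b : α, ∃ x ∈ N, x • a = b) ∧
      (∀ x ∈ N, ∀ a : α, x • a = a → x = 1) ∧
      ∀ (hp : Fact p.Prime) (P : Sylow p G), (P : Subgroup G) = N := by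
  classical
  have hne : Nonempty α := Fintype.card_pos_iff.1 (by omega)
  obtain ⟨a₀⟩ := hne
  have hfree : ∀ x ∈ N, ∀ a : α, x • a = a → x = 1 := by
    intro x hx a ha
    rcases (hmem x).1 hx with h | h
    · exact h
    · exact absurd ha (h a)
  have hinj : ∀ a : α, Function.Injective (fun x : N => (x : G) • a) := by
    intro a x y hxy
    have hxy' : (x : G) • a = (y : G) • a := hxy
    have : ((y : G)⁻¹ * x) • a = a := by
      rw [mul_smul, hxy', inv_smul_smul]
    have h1 := hfree _ (N.mul_mem (N.inv_mem y.2) x.2) a this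
    apply Subtype.ext
    exact (inv_mul_eq_one.1 h1).symm
  have hbij : ∀ a : α, Function.Bijective (fun x : N => (x : G) • a) := by
    intro a
    haveI : Fintype N := Fintype.ofFinite N
    rw [Fintype.bijective_iff_injective_and_card]
    exact ⟨hinj a, by rw [← Nat.card_eq_fintype_card, hcard]⟩
  have htrans : ∀ a b : α, ∃ x ∈ N, x • a = b := by
    intro a b
    obtain ⟨x, hx⟩ := (hbij a).2 b
    exact ⟨x, x.2, hx⟩
  have hconj : ∀ x ∈ N, ∀ y ∈ N, x ≠ 1 → y ≠ 1 → ∃ h : G, h * x * h⁻¹ = y := by
    intro x hx y hy hx1 hy1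
    have hxa : x • a₀ ≠ a₀ := fun h => hx1 (hfree x hx a₀ h)
    have hya : y • a₀ ≠ a₀ := fun h => hy1 (hfree y hy a₀ h)
    obtain ⟨h, h1, h2⟩ := (MulAction.is_two_pretransitive_iff.1 h2t) (Ne.symm hxa) (Ne.symm hya)
    refine ⟨h, ?_⟩
    have hmemc : h * x * h⁻¹ ∈ N := hNn.conj_mem x hx h
    have := hinj a₀ (a₁ := ⟨h * x * h⁻¹, hmemc⟩) (a₂ := ⟨y, hy⟩) (by
      show (h * x * h⁻¹) • a₀ = y • a₀
      rw [mul_smul, mul_smul]
      have : h⁻¹ • a₀ = a₀ := by rw [inv_smul_eq_iff, h1]
      rw [this, h2])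
    exact congrArg Subtype.val this
  have hN1 : 1 < Nat.card N := by rw [hcard]; omega
  obtain ⟨p, hp, hpd⟩ := Nat.exists_prime_and_dvd (n := Nat.card N) (by omega)
  haveI : Fact p.Prime := ⟨hp⟩
  obtain ⟨x₀, hx₀⟩ := exists_prime_orderOf_dvd_card' p hpd
  have hx₀1 : (x₀ : G) ≠ 1 := by
    intro h
    have : x₀ = 1 := Subtype.ext h
    rw [this, orderOf_one] at hx₀
    exact hp.one_lt.ne hx₀
  have hx₀p : (x₀ : G) ^ p = 1 := by
    have := pow_orderOf_eq_one x₀
    rw [hx₀] at this
    simpa using congrArg Subtype.val this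
  have hexp : ∀ x ∈ N, x ^ p = 1 := by
    intro x hx
    by_cases hx1 : x = 1
    · rw [hx1, one_pow]
    · obtain ⟨h, rfl⟩ := hconj x₀ x₀.2 x hx hx₀1 hx1
      rw [conj_pow, hx₀p, mul_one, mul_inv_cancel]
  have hpg : IsPGroup p N := by
    intro x
    exact ⟨1, by rw [pow_one]; exact Subtype.ext (by simpa using hexp x x.2)⟩
  obtain ⟨j, hj⟩ := IsPGroup.iff_card.1 hpg
  have hj1 : 1 ≤ j := by
    rcases Nat.eq_zero_or_pos j with h | h
    · rw [h, pow_zero] at hj; omega
    · exact h
  haveI : Nontrivial N := (Finite.one_lt_card_iff_nontrivial).1 hN1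
  obtain ⟨z, hz, hz1⟩ : ∃ z : N, z ∈ Subgroup.center N ∧ z ≠ 1 := by
    haveI := hpg.center_nontrivial
    obtain ⟨z, hz⟩ := exists_ne (1 : Subgroup.center N)
    exact ⟨z.1, z.2, fun h => hz (Subtype.ext h)⟩
  have hzG : (z : G) ≠ 1 := fun h => hz1 (Subtype.ext h)
  have hzc : ∀ w ∈ N, w * (z : G) = (z : G) * w := by
    intro w hw
    have := Subgroup.mem_center_iff.1 hz ⟨w, hw⟩
    exact congrArg Subtype.val this
  have hcomm : ∀ x ∈ N, ∀ y ∈ N, x * y = y * x := by
    intro x hx y hy
    by_cases hx1 : x = 1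
    · rw [hx1, one_mul, mul_one]
    · obtain ⟨h, rfl⟩ := hconj z z.2 x hx hzG hx1
      have hw : h⁻¹ * y * h ∈ N := by
        have := hNn.conj_mem y hy h⁻¹
        rwa [inv_inv] at this
      have := hzc _ hw
      calc h * z * h⁻¹ * y = h * ((z : G) * (h⁻¹ * y * h)) * h⁻¹ := by group
        _ = h * ((h⁻¹ * y * h) * z) * h⁻¹ := by rw [this]
        _ = y * (h * z * h⁻¹) := by group
  refine ⟨p, j, hp, hj1, by rw [← hcard, hj], hexp, hcomm, htrans, hfree, ?_⟩
  intro hp' P
  haveI := hNn
  have hle : N ≤ (P : Subgroup G) := hpg.le_sylow_of_normal P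
  apply le_antisymm _ hle
  intro x hx
  by_contra hxN
  have hx1 : x ≠ 1 := fun h => hxN (h ▸ N.one_mem)
  have hfix : ∃ a : α, x • a = a := by
    by_contra hh
    push Not at hh
    exact hxN ((hmem x).2 (Or.inr hh))
  obtain ⟨a, ha⟩ := hfix
  have hZ : IsPGroup p (Subgroup.zpowers x) := P.isPGroup'.to_le (Subgroup.zpowers_le.2 hx)
  have hc := hZ.card_modEq_card_fixedPoints α
  have hpα : p ∣ Nat.card α := by
    rw [Nat.card_eq_fintype_card, ← hcard, hj]; exact dvd_pow_self p (by omega)
  have hpf : p ∣ Nat.card (MulAction.fixedPoints (Subgroup.zpowers x) α) :=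
    (Nat.modEq_zero_iff_dvd).1 (hc.symm.trans ((Nat.modEq_zero_iff_dvd).2 hpα))
  have hafix : a ∈ MulAction.fixedPoints (Subgroup.zpowers x) α := by
    rintro ⟨g, hg⟩
    have : g ∈ MulAction.stabilizer G a :=
      (Subgroup.zpowers_le.2 (MulAction.mem_stabilizer_iff.2 ha)) hg
    exact MulAction.mem_stabilizer_iff.1 this
  have h2f : 1 < Nat.card (MulAction.fixedPoints (Subgroup.zpowers x) α) := by
    have hpos : 0 < Nat.card (MulAction.fixedPoints (Subgroup.zpowers x) α) :=
      Nat.card_pos_iff.2 ⟨⟨⟨a, hafix⟩⟩, inferInstance⟩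
    have := Nat.le_of_dvd hpos hpf
    exact lt_of_lt_of_le hp.one_lt this
  obtain ⟨⟨b, hb⟩, hba⟩ : ∃ b : MulAction.fixedPoints (Subgroup.zpowers x) α,
      b ≠ ⟨a, hafix⟩ := by
    haveI : Nontrivial (MulAction.fixedPoints (Subgroup.zpowers x) α) :=
      (Finite.one_lt_card_iff_nontrivial).1 h2f
    exact exists_ne _
  have hxb : x • b = b := hb ⟨x, Subgroup.mem_zpowers x⟩
  exact hx1 (hsh x a b (fun h => hba (Subtype.ext h.symm)) ha hxb)

end Cfsg.Agent.Lib.Lead
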