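import Mathlib
import Cfsg.Agent.Lib.Lead.Sharp2

set_option autoImplicit false

namespace Cfsg.Agent.Lib.Lead

universe u v

open MulAction

theorem three_trans_apply {G X : Type*} [Group G] [MulAction G X]
    (h3 : IsMultiplyPretransitive G X 3) (a b c a' b' c' : X)
    (hab : a ≠ b) (hac : a ≠ c) (hbc : b ≠ c) (hab' : a' ≠ b') (hac' : a' ≠ c') (hbc' : b' ≠ c') :
    ∃ g : G, g • a = a' ∧ g • b = b' ∧ g • c = c' := by
  have hx : Function.Injective ![a, b, c] := by
    intro i j h
    fin_cases i <;> fin_cases j <;> simp_all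
  have hy : Function.Injective ![a', b', c'] := by
    intro i j h
    fin_cases i <;> fin_cases j <;> simp_all
  obtain ⟨g, hg⟩ := h3.exists_smul_eq (⟨![a, b, c], hx⟩ : Fin 3 ↪ X) ⟨![a', b', c'], hy⟩
  refine ⟨g, ?_, ?_, ?_⟩
  · have := DFunLike.congr_fun hg 0
    simpa using this
  · have := DFunLike.congr_fun hg 1
    simpa using this
  · have := DFunLike.congr_fun hg 2
    simpa using this

theorem four_trans_apply {G X : Type*} [Group G] [MulAction G X]
    (h4 : IsMultiplyPretransitive G X 4) (a b c d a' b' c' d' : X)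
    (hab : a ≠ b) (hac : a ≠ c) (had : a ≠ d) (hbc : b ≠ c) (hbd : b ≠ d) (hcd : c ≠ d)
    (hab' : a' ≠ b') (hac' : a' ≠ c') (had' : a' ≠ d') (hbc' : b' ≠ c') (hbd' : b' ≠ d')
    (hcd' : c' ≠ d') :
    ∃ g : G, g • a = a' ∧ g • b = b' ∧ g • c = c' ∧ g • d = d' := by
  have hx : Function.Injective ![a, b, c, d] := by
    intro i j h
    fin_cases i <;> fin_cases j <;> simp_all
  have hy : Function.Injective ![a', b', c', d'] := by
    intro i j h
    fin_cases i <;> fin_cases j <;> simp_all
  obtain ⟨g, hg⟩ := h4.exists_smul_eq (⟨![a, b, c, d], hx⟩ : Fin 4 ↪ X) ⟨![a', b', c', d'], hy⟩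
  refine ⟨g, ?_, ?_, ?_, ?_⟩
  · have := DFunLike.congr_fun hg 0
    simpa using this
  · have := DFunLike.congr_fun hg 1
    simpa using this
  · have := DFunLike.congr_fun hg 2
    simpa using this
  · have := DFunLike.congr_fun hg 3
    simpa using this

/-- in a regular normal subgroup, an element is determined by the image of a point,
and conjugation corresponds to the action. -/
theorem regular_conj_eq {G X : Type*} [Group G] [MulAction G X] (R : Subgroup G) [hR : R.Normal]
    (hfree : ∀ r ∈ R, ∀ x : X, r • x = x → r = 1) (a : X) (g : G) (hg : g • a = a)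
    (r s : G) (hr : r ∈ R) (hs : s ∈ R) (h : g • (r • a) = s • a) : g * r * g⁻¹ = s := by
  have h1 : g * r * g⁻¹ ∈ R := hR.conj_mem r hr g
  have h2 : (s⁻¹ * (g * r * g⁻¹)) • a = a := by
    have hga : g⁻¹ • a = a := by rw [inv_smul_eq_iff, hg]
    rw [mul_smul, mul_smul, mul_smul, hga, h, inv_smul_smul]
  have h3 := hfree _ (R.mul_mem (R.inv_mem hs) h1) a h2
  exact (inv_mul_eq_one.1 h3).symm

theorem regular_normal_three_trans {G X : Type*} [Group G] [MulAction G X] [Finite X]
    (R : Subgroup G) [hR : R.Normal]
    (h3 : IsMultiplyPretransitive G X 3) (hn : 3 < Nat.card X)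
    (hfree : ∀ r ∈ R, ∀ x : X, r • x = x → r = 1) (htrans : ∀ x y : X, ∃ r ∈ R, r • x = y) :
    ∀ r ∈ R, r ^ 2 = 1 := by
  classical
  haveI : Fintype X := Fintype.ofFinite X
  intro r hr
  by_contra hr2
  have hne : Nonempty X := by
    rw [← Finite.card_pos_iff]; omega
  obtain ⟨a⟩ := hne
  have hr1 : r ≠ 1 := fun h => hr2 (by rw [h, one_pow])
  have h1 : a ≠ r • a := fun h => hr1 (hfree r hr a h.symm)
  have h2 : a ≠ r⁻¹ • a := fun h => hr1 (by
    have := hfree r⁻¹ (R.inv_mem hr) a h.symm
    simpa using this)
  have h3' : r • a ≠ r⁻¹ • a := by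
    intro h
    apply hr2
    apply hfree (r ^ 2) (R.pow_mem hr 2) a
    rw [pow_two, mul_smul, h, smul_inv_smul]
  -- a fourth point
  obtain ⟨d, hd⟩ : ∃ d : X, d ∉ ({a, r • a, r⁻¹ • a} : Finset X) := by
    by_contra hh
    push Not at hh
    have : (Finset.univ : Finset X) ⊆ {a, r • a, r⁻¹ • a} := fun x _ => hh x
    have := Finset.card_le_card this
    rw [Finset.card_univ, ← Nat.card_eq_fintype_card] at this
    have h4 : ({a, r • a, r⁻¹ • a} : Finset X).card ≤ 3 := Finset.card_le_three
    omega
  simp only [Finset.mem_insert, Finset.mem_singleton, not_or] at hd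
  obtain ⟨y, hy, hya⟩ := htrans a d
  obtain ⟨g, hg1, hg2, hg3⟩ := three_trans_apply h3 a (r • a) (r⁻¹ • a) a (r • a) d h1 h2 h3'
    h1 (Ne.symm hd.1) (Ne.symm hd.2.1)
  have e1 : g * r * g⁻¹ = r := regular_conj_eq R hfree a g hg1 r r hr hr hg2
  have e2 : g * r⁻¹ * g⁻¹ = y := regular_conj_eq R hfree a g hg1 r⁻¹ y (R.inv_mem hr) hy
    (by rw [hg3, hya])
  have e3 : y = r⁻¹ := by
    rw [← e2]
    have : g * r⁻¹ * g⁻¹ = (g * r * g⁻¹)⁻¹ := by group
    rw [this, e1]
  apply hd.2.2
  rw [← hya, e3]

theorem regular_normal_four_trans {G X : Type*} [Group G] [MulAction G X] [Finite X]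
    (R : Subgroup G) [hR : R.Normal]
    (h4 : IsMultiplyPretransitive G X 4) (hn : 4 < Nat.card X)
    (hfree : ∀ r ∈ R, ∀ x : X, r • x = x → r = 1) (htrans : ∀ x y : X, ∃ r ∈ R, r • x = y) :
    False := by
  classical
  haveI : Fintype X := Fintype.ofFinite X
  haveI := h4
  have h3 : IsMultiplyPretransitive G X 3 :=
    isMultiplyPretransitive_of_le (n := 4) (m := 3) (by omega) (by omega)
  have hexp := regular_normal_three_trans R h3 (by omega) hfree htrans
  have hne : Nonempty X := by
    rw [← Finite.card_pos_iff]; omega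
  obtain ⟨a⟩ := hne
  have hinj : ∀ r ∈ R, ∀ s ∈ R, r • a = s • a → r = s := by
    intro r hr s hs h
    have : (s⁻¹ * r) • a = a := by rw [mul_smul, h, inv_smul_smul]
    exact (inv_mul_eq_one.1 (hfree _ (R.mul_mem (R.inv_mem hs) hr) a this)).symm
  obtain ⟨b, hb⟩ : ∃ b : X, b ∉ ({a} : Finset X) := by
    by_contra hh
    push Not at hh
    have : (Finset.univ : Finset X) ⊆ {a} := fun x _ => hh x
    have := Finset.card_le_card this
    rw [Finset.card_univ, ← Nat.card_eq_fintype_card, Finset.card_singleton] at this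
    omega
  obtain ⟨c, hc⟩ : ∃ c : X, c ∉ ({a, b} : Finset X) := by
    by_contra hh
    push Not at hh
    have : (Finset.univ : Finset X) ⊆ {a, b} := fun x _ => hh x
    have := Finset.card_le_card this
    rw [Finset.card_univ, ← Nat.card_eq_fintype_card] at this
    have h4 : ({a, b} : Finset X).card ≤ 2 := Finset.card_le_two
    omega
  simp only [Finset.mem_singleton] at hb
  simp only [Finset.mem_insert, Finset.mem_singleton, not_or] at hc
  obtain ⟨x, hx, hxa⟩ := htrans a b
  obtain ⟨y, hy, hya⟩ := htrans a c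
  have hx1 : x ≠ 1 := by
    intro h; rw [h, one_smul] at hxa; exact hb hxa.symm
  have hy1 : y ≠ 1 := by
    intro h; rw [h, one_smul] at hya; exact hc.1 hya.symm
  have hxy : x ≠ y := by
    intro h; rw [h, hya] at hxa; exact hc.2 hxa
  have hxyR : x * y ∈ R := R.mul_mem hx hy
  have hx2 : x * x = 1 := by have := hexp x hx; rwa [pow_two] at this
  have k1 : a ≠ (x * y) • a := by
    intro h
    have h' := hfree _ hxyR a h.symm
    apply hxy
    have hxinv : x⁻¹ = x := inv_eq_of_mul_eq_one_left hx2
    have hyx : y = x⁻¹ := eq_inv_of_mul_eq_one_right h'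
    rw [hyx, hxinv]
  have k2 : b ≠ (x * y) • a := by
    intro h
    rw [← hxa] at h
    have := hinj x hx _ hxyR h
    apply hy1
    calc y = x⁻¹ * (x * y) := by group
      _ = x⁻¹ * x := by rw [← this]
      _ = 1 := by group
  have k3 : c ≠ (x * y) • a := by
    intro h
    rw [← hya] at h
    have := hinj y hy _ hxyR h
    apply hx1
    calc x = (x * y) * y⁻¹ := by group
      _ = y * y⁻¹ := by rw [← this]
      _ = 1 := by group
  obtain ⟨d, hd⟩ : ∃ d : X, d ∉ ({a, b, c, (x * y) • a} : Finset X) := by
    by_contra hh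
    push Not at hh
    have : (Finset.univ : Finset X) ⊆ {a, b, c, (x * y) • a} := fun x _ => hh x
    have := Finset.card_le_card this
    rw [Finset.card_univ, ← Nat.card_eq_fintype_card] at this
    have h4 : ({a, b, c, (x * y) • a} : Finset X).card ≤ 4 := Finset.card_le_four
    omega
  simp only [Finset.mem_insert, Finset.mem_singleton, not_or] at hd
  obtain ⟨z, hz, hza⟩ := htrans a d
  obtain ⟨g, hg1, hg2, hg3, hg4⟩ := four_trans_apply h4 a b c ((x * y) • a) a b c d
    (Ne.symm hb) (Ne.symm hc.1) k1 (Ne.symm hc.2) k2 k3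
    (Ne.symm hb) (Ne.symm hc.1) (Ne.symm hd.1) (Ne.symm hc.2) (Ne.symm hd.2.1) (Ne.symm hd.2.2.1)
  have e1 : g * x * g⁻¹ = x := regular_conj_eq R hfree a g hg1 x x hx hx (by rw [hxa, hg2])
  have e2 : g * y * g⁻¹ = y := regular_conj_eq R hfree a g hg1 y y hy hy (by rw [hya, hg3])
  have e3 : g * (x * y) * g⁻¹ = z := regular_conj_eq R hfree a g hg1 (x * y) z hxyR hz
    (by rw [hg4, hza])
  have e4 : z = x * y := by
    rw [← e3]
    calc g * (x * y) * g⁻¹ = (g * x * g⁻¹) * (g * y * g⁻¹) := by group
      _ = x * y := by rw [e1, e2]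
  apply hd.2.2.2
  rw [← hza, e4]

theorem comm_of_exp_two {G : Type*} [Group G] (a b : G) (ha2 : a ^ 2 = 1) (hb2 : b ^ 2 = 1)
    (hab2 : (a * b) ^ 2 = 1) : a * b = b * a := by
  have ha : a⁻¹ = a := inv_eq_of_mul_eq_one_left (by rw [← pow_two]; exact ha2)
  have hb : b⁻¹ = b := inv_eq_of_mul_eq_one_left (by rw [← pow_two]; exact hb2)
  have hab : (a * b)⁻¹ = a * b := inv_eq_of_mul_eq_one_left (by rw [← pow_two]; exact hab2)
  calc a * b = (a * b)⁻¹ := hab.symm
    _ = b⁻¹ * a⁻¹ := mul_inv_rev a b
    _ = b * a := by rw [ha, hb]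

theorem bridge_trans {G X : Type*} [Group G] [MulAction G X] (N : Subgroup G) (a : X) (j : ℕ)
    (h : IsMultiplyPretransitive (N.subgroupOf (stabilizer G a))
      (SubMulAction.ofStabilizer G a) j) :
    IsMultiplyPretransitive (stabilizer N a) (SubMulAction.ofStabilizer N a) j := by
  constructor
  intro x y
  let ι : SubMulAction.ofStabilizer N a ↪ SubMulAction.ofStabilizer G a :=
    ⟨fun z => ⟨z.1, (SubMulAction.mem_ofStabilizer_iff G a).2
      ((SubMulAction.mem_ofStabilizer_iff N a).1 z.2)⟩,
      fun z w e => Subtype.ext (congrArg Subtype.val e)⟩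
  obtain ⟨g, hg⟩ := h.exists_smul_eq (x.trans ι) (y.trans ι)
  have hgN : ((g : stabilizer G a) : G) ∈ N := Subgroup.mem_subgroupOf.1 g.2
  have hga : ((g : stabilizer G a) : G) • a = a := (g : stabilizer G a).2
  refine ⟨⟨⟨((g : stabilizer G a) : G), hgN⟩, hga⟩, ?_⟩
  ext i
  have h1 := DFunLike.congr_fun hg i
  have h2 := congrArg (fun z : SubMulAction.ofStabilizer G a => (z : X)) h1
  exact h2

theorem normal_trans_of_two_trans {G X : Type*} [Group G] [MulAction G X] [FaithfulSMul G X]
    (h2 : IsMultiplyPretransitive G X 2) (N : Subgroup G) [N.Normal] (hN : N ≠ ⊥) :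
    IsPretransitive N X := by
  haveI : IsPreprimitive G X := isPreprimitive_of_is_two_pretransitive h2
  apply IsQuasiPreprimitive.isPretransitive_of_normal (G := G)
  intro hfix
  apply hN
  rw [eq_bot_iff]
  intro n hn
  rw [Subgroup.mem_bot]
  apply FaithfulSMul.eq_of_smul_eq_smul (α := X)
  intro x
  rw [one_smul]
  have : x ∈ fixedPoints N X := by rw [hfix]; trivial
  exact this ⟨n, hn⟩

set_option maxHeartbeats 800000 in
theorem jordan_normal_aux : ∀ (j : ℕ) (G : Type u) (X : Type v) [Group G] [MulAction G X]
    [Finite G] [Finite X] [FaithfulSMul G X],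
    j + 2 < Nat.card X → IsMultiplyPretransitive G X (j + 2) → ∀ (N : Subgroup G), N.Normal →
    N ≠ ⊥ →
    IsMultiplyPretransitive N X (j + 1) ∨ (j + 2 = 3 ∧ ∀ n ∈ N, n ^ 2 = 1) := by
  intro j
  induction j with
  | zero =>
    intro G X _ _ _ _ _ hn hG N hNn hN
    left
    haveI := hNn
    exact is_one_pretransitive_iff.2 (normal_trans_of_two_trans hG N hN)
  | succ j ih =>
    intro G X _ _ _ _ _ hn hG N hNn hN
    classical
    haveI : Fintype X := Fintype.ofFinite X
    haveI := hNn
    haveI := hG
    have h2 : IsMultiplyPretransitive G X 2 :=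
      isMultiplyPretransitive_of_le (n := j + 1 + 2) (m := 2) (by omega) (by omega)
    have h3 : IsMultiplyPretransitive G X 3 :=
      isMultiplyPretransitive_of_le (n := j + 1 + 2) (m := 3) (by omega) (by omega)
    haveI htrG : IsPretransitive G X := isPretransitive_of_is_two_pretransitive (h2 := h2)
    haveI htrN : IsPretransitive N X := normal_trans_of_two_trans h2 N hN
    have hne : Nonempty X := by
      rw [← Finite.card_pos_iff]; omega
    obtain ⟨a⟩ := hne
    have hGa : IsMultiplyPretransitive (stabilizer G a) (SubMulAction.ofStabilizer G a) (j + 2) :=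
      (SubMulAction.ofStabilizer.isMultiplyPretransitive (G := G) (α := X) (n := j + 2)
        (a := a)).1 hG
    haveI hfaith : FaithfulSMul (stabilizer G a) (SubMulAction.ofStabilizer G a) := by
      constructor
      intro g g' h
      apply Subtype.ext
      apply FaithfulSMul.eq_of_smul_eq_smul (α := X)
      intro x
      by_cases hx : x = a
      · rw [hx]
        have e1 : (g : G) • a = a := g.2
        have e2 : (g' : G) • a = a := g'.2
        rw [e1, e2]
      · have := h ⟨x, (SubMulAction.mem_ofStabilizer_iff G a).2 hx⟩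
        exact congrArg Subtype.val this
    have hcardXa : j + 2 < Nat.card (SubMulAction.ofStabilizer G a) := by
      have := SubMulAction.nat_card_ofStabilizer_add_one_eq G a; omega
    by_cases hNa : N.subgroupOf (stabilizer G a) = ⊥
    · have hfree : ∀ r ∈ N, ∀ x : X, r • x = x → r = 1 := by
        intro r hr x hx
        obtain ⟨m, hm⟩ := exists_smul_eq N a x
        have hm' : (m : G) • a = x := hm
        have hfa : ((m : G)⁻¹ * r * m) • a = a := by
          rw [mul_smul, mul_smul, hm', hx, ← hm', inv_smul_smul]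
        have hmem : (⟨(m : G)⁻¹ * r * m, hfa⟩ : stabilizer G a)
            ∈ N.subgroupOf (stabilizer G a) := by
          rw [Subgroup.mem_subgroupOf]
          exact N.mul_mem (N.mul_mem (N.inv_mem m.2) hr) m.2
        rw [hNa, Subgroup.mem_bot] at hmem
        have h1 : (m : G)⁻¹ * r * m = 1 := congrArg Subtype.val hmem
        calc r = m * ((m : G)⁻¹ * r * m) * (m : G)⁻¹ := by group
          _ = 1 := by rw [h1]; group
      have htrans : ∀ x y : X, ∃ r ∈ N, r • x = y := by
        intro x y
        obtain ⟨m, hm⟩ := exists_smul_eq N x y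
        exact ⟨m, m.2, hm⟩
      have hexp := regular_normal_three_trans N h3 (by omega) hfree htrans
      by_cases hj : j = 0
      · right; exact ⟨by omega, hexp⟩
      · exfalso
        have h4 : IsMultiplyPretransitive G X 4 :=
          isMultiplyPretransitive_of_le (n := j + 1 + 2) (m := 4) (by omega) (by omega)
        exact regular_normal_four_trans N h4 (by omega) hfree htrans
    · rcases ih (stabilizer G a) (SubMulAction.ofStabilizer G a) hcardXa hGa
        (N.subgroupOf (stabilizer G a)) inferInstance hNa with hA1 | ⟨hj, hA2⟩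
      · left
        have hb := bridge_trans N a (j + 1) hA1
        exact (SubMulAction.ofStabilizer.isMultiplyPretransitive (G := N) (α := X) (n := j + 1)
          (a := a)).2 hb
      · exfalso
        have hj0 : j = 1 := by omega
        subst hj0
        have h4 : IsMultiplyPretransitive G X 4 := hG
        haveI := hGa
        have h2a : IsMultiplyPretransitive (stabilizer G a) (SubMulAction.ofStabilizer G a) 2 :=
          isMultiplyPretransitive_of_le (n := 1 + 2) (m := 2) (by omega) (by omega)
        haveI hNatr : IsPretransitive (N.subgroupOf (stabilizer G a))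
            (SubMulAction.ofStabilizer G a) :=
          normal_trans_of_two_trans h2a (N.subgroupOf (stabilizer G a)) hNa
        have hfreeNa : ∀ n ∈ N.subgroupOf (stabilizer G a),
            ∀ b : SubMulAction.ofStabilizer G a, n • b = b → n = 1 := by
          intro n hn b hb
          apply FaithfulSMul.eq_of_smul_eq_smul (α := SubMulAction.ofStabilizer G a)
          intro c
          obtain ⟨m, hm⟩ := exists_smul_eq (N.subgroupOf (stabilizer G a)) b c
          have hm' : (m : stabilizer G a) • b = c := hm
          have hcomm : n * (m : stabilizer G a) = (m : stabilizer G a) * n :=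
            comm_of_exp_two n m (hA2 n hn) (hA2 m m.2) (hA2 _ (Subgroup.mul_mem _ hn m.2))
          rw [one_smul, ← hm', ← mul_smul, hcomm, mul_smul, hb]
        have h2N : IsMultiplyPretransitive N X 2 :=
          (SubMulAction.ofStabilizer.isMultiplyPretransitive (G := N) (α := X) (n := 1)
            (a := a)).2 (bridge_trans N a 1 (is_one_pretransitive_iff.2 hNatr))
        have hshN : ∀ (g : N) (b c : X), b ≠ c → g • b = b → g • c = c → g = 1 := by
          intro g b c hbc hb hc
          obtain ⟨m, hm⟩ := exists_smul_eq N b a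
          have hm' : (m : G) • b = a := hm
          have hb' : (g : G) • b = b := hb
          have hc' : (g : G) • c = c := hc
          have hfa : ((m : G) * g * (m : G)⁻¹) • a = a := by
            have : (m : G)⁻¹ • a = b := by rw [inv_smul_eq_iff]; exact hm'.symm
            rw [mul_smul, mul_smul, this, hb', hm']
          have hn' : (⟨(m : G) * g * (m : G)⁻¹, hfa⟩ : stabilizer G a)
              ∈ N.subgroupOf (stabilizer G a) := by
            rw [Subgroup.mem_subgroupOf]
            exact N.mul_mem (N.mul_mem m.2 g.2) (N.inv_mem m.2)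
          have hmc : (m : G) • c ≠ a := by
            intro h
            rw [← hm'] at h
            exact hbc (smul_left_cancel _ h).symm
          have h1' := hfreeNa _ hn' ⟨(m : G) • c, (SubMulAction.mem_ofStabilizer_iff G a).2 hmc⟩
            (by
              apply Subtype.ext
              show ((m : G) * g * (m : G)⁻¹) • ((m : G) • c) = (m : G) • c
              rw [mul_smul, mul_smul, inv_smul_smul, hc'])
          have h1 : (m : G) * g * (m : G)⁻¹ = 1 := congrArg Subtype.val h1'
          apply Subtype.ext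
          calc (g : G) = (m : G)⁻¹ * ((m : G) * g * (m : G)⁻¹) * m := by group
            _ = 1 := by rw [h1]; group
        have hcard2 : 2 ≤ Fintype.card X := by
          rw [← Nat.card_eq_fintype_card]; omega
        obtain ⟨K, hKn, hKmem, hKcard⟩ := sharp2_kernel h2N hshN hcard2
        obtain ⟨p, j', hp, hj', hpj, hexpK, hcommK, htransK, hfreeK, hsylK⟩ :=
          sharp2_structure h2N hshN hcard2 K hKn hKmem hKcard
        haveI hK'n : (K.map N.subtype).Normal := by
          constructor
          intro x hx g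
          obtain ⟨k, hk, rfl⟩ := hx
          have hmemN : g * (k : G) * g⁻¹ ∈ N := hNn.conj_mem k k.2 g
          refine ⟨⟨g * (k : G) * g⁻¹, hmemN⟩, ?_, rfl⟩
          apply (hKmem _).2
          rcases (hKmem k).1 hk with h1 | hfpf
          · left
            apply Subtype.ext
            show g * (k : G) * g⁻¹ = 1
            rw [h1]; simp
          · right
            intro b hb
            apply hfpf (g⁻¹ • b)
            have hb' : (g * (k : G) * g⁻¹) • b = b := hb
            show (k : G) • (g⁻¹ • b) = g⁻¹ • b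
            rw [mul_smul, mul_smul] at hb'
            apply smul_left_cancel g
            rw [smul_inv_smul]; exact hb'
        have hfreeK' : ∀ r ∈ K.map N.subtype, ∀ x : X, r • x = x → r = 1 := by
          rintro _ ⟨k, hk, rfl⟩ x hx
          have := hfreeK k hk x hx
          rw [this]; rfl
        have htransK' : ∀ x y : X, ∃ r ∈ K.map N.subtype, r • x = y := by
          intro x y
          obtain ⟨k, hk, hkxy⟩ := htransK x y
          exact ⟨(k : G), ⟨k, hk, rfl⟩, hkxy⟩
        exact regular_normal_four_trans (K.map N.subtype) h4 (by omega) hfreeK' htransK'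

end Cfsg.Agent.Lib.Lead
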