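import Mathlib

set_option autoImplicit false

namespace Cfsg.Agent.Lib.Lead

/-- `(Fin (n+1) → T) ≃* T × (Fin n → T)` -/
def piFinSuccMulEquiv (n : ℕ) (T : Type*) [Mul T] : T × (Fin n → T) ≃* (Fin (n + 1) → T) :=
  { Fin.consEquiv (fun _ : Fin (n + 1) => T) with
    map_mul' := fun x y => by
      funext i
      refine Fin.cases ?_ (fun j => ?_) i
      · rfl
      · rfl }

theorem sup_equiv_prod {K : Type*} [Group K] (M B : Subgroup K) (hM : M.Normal) (hB : B.Normal)
    (hd : M ⊓ B = ⊥) : Nonempty ((M ⊔ B : Subgroup K) ≃* M × B) := by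
  have comm : ∀ (m : M) (b : B), Commute (M.subtype m) (B.subtype b) := fun m b =>
    Subgroup.commute_of_normal_of_disjoint M B hM hB (disjoint_iff.2 hd) m b m.2 b.2
  have hinj : Function.Injective (MonoidHom.noncommCoprod M.subtype B.subtype comm) :=
    (MonoidHom.noncommCoprod_injective _ _ comm).2
      ⟨M.subtype_injective, B.subtype_injective, by
        rw [Subgroup.range_subtype, Subgroup.range_subtype]; exact disjoint_iff.2 hd⟩
  have hrange : (MonoidHom.noncommCoprod M.subtype B.subtype comm).range = M ⊔ B := by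
    rw [MonoidHom.noncommCoprod_range, Subgroup.range_subtype, Subgroup.range_subtype]
  exact ⟨((MulEquiv.subgroupCongr hrange).symm).trans (MonoidHom.ofInjective hinj).symm⟩

theorem dirprod_family {K : Type*} [Group K] [Finite K] (A : Subgroup K)
    (𝒜 : Set (Subgroup K))
    (h0 : A ∈ 𝒜) (h1 : ∀ B ∈ 𝒜, B.Normal) (h2 : ∀ B ∈ 𝒜, Nonempty (B ≃* A))
    (h3 : ∀ B ∈ 𝒜, ∀ M : Subgroup K, M.Normal → B ≤ M ∨ B ⊓ M = ⊥)
    (h4 : ∀ M : Subgroup K, M.Normal → (∀ B ∈ 𝒜, B ≤ M) → M = ⊤) :
    (∃ m : ℕ, 0 < m ∧ Nonempty (K ≃* (Fin m → A))) ∧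
    ∀ k : K, ∃ a ∈ A, ∃ c ∈ Subgroup.centralizer (A : Set K), k = a * c := by
  have hAn : A.Normal := h1 A h0
  have key : ∀ n : ℕ, ∀ M : Subgroup K, M.Normal → A ≤ M → Nat.card K - Nat.card M ≤ n →
      (∀ x ∈ M, ∃ a ∈ A, ∃ c ∈ Subgroup.centralizer (A : Set K), x = a * c) →
      (∃ m : ℕ, 0 < m ∧ Nonempty (M ≃* (Fin m → A))) →
      (∃ m : ℕ, 0 < m ∧ Nonempty (K ≃* (Fin m → A))) ∧
      ∀ k : K, ∃ a ∈ A, ∃ c ∈ Subgroup.centralizer (A : Set K), k = a * c := by
    intro n
    induction n with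
    | zero =>
      intro M hMn hAM hcard hfac hiso
      have hMtop : M = ⊤ := by
        apply Subgroup.eq_top_of_card_eq
        have := Subgroup.card_le_card_group M
        omega
      subst hMtop
      obtain ⟨m, hm, ⟨φ⟩⟩ := hiso
      exact ⟨⟨m, hm, ⟨(Subgroup.topEquiv.symm).trans φ⟩⟩, fun k => hfac k (Subgroup.mem_top k)⟩
    | succ n ih =>
      intro M hMn hAM hcard hfac hiso
      by_cases hMtop : M = ⊤
      · subst hMtop
        obtain ⟨m, hm, ⟨φ⟩⟩ := hiso
        exact ⟨⟨m, hm, ⟨(Subgroup.topEquiv.symm).trans φ⟩⟩,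
          fun k => hfac k (Subgroup.mem_top k)⟩
      · have : ∃ B ∈ 𝒜, ¬ B ≤ M := by
          by_contra hh
          push Not at hh
          exact hMtop (h4 M hMn hh)
        obtain ⟨B, hB, hBM⟩ := this
        have hBn := h1 B hB
        have hdisj : B ⊓ M = ⊥ := (h3 B hB M hMn).resolve_left hBM
        have hMB : M ⊓ B = ⊥ := by rw [inf_comm]; exact hdisj
        haveI := hMn
        haveI := hBn
        have hM'n : (M ⊔ B).Normal := inferInstance
        apply ih (M ⊔ B) hM'n (le_trans hAM le_sup_left)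
        · have hlt : Nat.card M < Nat.card (M ⊔ B : Subgroup K) := by
            by_contra hh
            push Not at hh
            have := Subgroup.eq_of_le_of_card_ge (le_sup_left : M ≤ M ⊔ B) hh
            exact hBM (le_of_le_of_eq le_sup_right this.symm)
          have h2' := Subgroup.card_le_card_group (M ⊔ B)
          omega
        · intro x hx
          obtain ⟨m, hm, b, hb, rfl⟩ := Subgroup.mem_sup_of_normal_right.1 hx
          obtain ⟨a, ha, c, hc, rfl⟩ := hfac m hm
          refine ⟨a, ha, c * b, ?_, by rw [mul_assoc]⟩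
          apply Subgroup.mul_mem _ hc
          rw [Subgroup.mem_centralizer_iff]
          intro y hy
          have hdAB : Disjoint A B := by
            rw [disjoint_iff]
            exact le_bot_iff.1 (le_trans (inf_le_inf_right B hAM) (le_of_eq hMB))
          exact (Subgroup.commute_of_normal_of_disjoint A B hAn hBn hdAB y b hy hb).eq
        · obtain ⟨m, hm, ⟨φ⟩⟩ := hiso
          obtain ⟨ψ⟩ := h2 B hB
          obtain ⟨χ⟩ := sup_equiv_prod M B hMn hBn hMB
          refine ⟨m + 1, Nat.succ_pos m, ⟨?_⟩⟩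
          exact χ.trans ((MulEquiv.prodCongr φ ψ).trans
            ((MulEquiv.prodComm).trans (piFinSuccMulEquiv m A)))
  exact key (Nat.card K) A hAn le_rfl (by omega)
    (fun x hx => ⟨x, hx, 1, Subgroup.one_mem _, (mul_one x).symm⟩)
    ⟨1, one_pos, ⟨(MulEquiv.funUnique (Fin 1) A).symm⟩⟩

theorem minimal_normal_prod {H : Type*} [Group H] [Finite H] (N : Subgroup H) [hNn : N.Normal]
    (hN : N ≠ ⊥) (hmin : ∀ M : Subgroup H, M.Normal → M ≤ N → M = ⊥ ∨ M = N) :
    ∃ (T : Type) (_ : Group T) (m : ℕ), IsSimpleGroup T ∧ 0 < m ∧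
      Nonempty (N ≃* (Fin m → T)) := by
  classical
  haveI : Nontrivial N := (Subgroup.nontrivial_iff_ne_bot N).2 hN
  have hex : ∃ n : ℕ, ∃ A : Subgroup N, A.Normal ∧ A ≠ ⊥ ∧ Nat.card A = n :=
    ⟨_, ⊤, inferInstance, top_ne_bot, rfl⟩
  obtain ⟨A, hAn, hA1, hAcard⟩ := Nat.find_spec hex
  have hAmin : ∀ M : Subgroup N, M.Normal → M ≠ ⊥ → Nat.card A ≤ Nat.card M := by
    intro M hMn hM1
    rw [hAcard]
    exact Nat.find_min' hex ⟨M, hMn, hM1, rfl⟩
  let 𝒜 : Set (Subgroup N) :=
    {B | ∃ h : H, B = A.map (MulAut.conjNormal h : MulAut N).toMonoidHom}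
  have hcardB : ∀ B ∈ 𝒜, Nat.card B = Nat.card A := by
    rintro B ⟨h, rfl⟩
    exact Subgroup.card_map_of_injective (MulAut.conjNormal h : MulAut N).injective
  have h0 : A ∈ 𝒜 := by
    refine ⟨1, ?_⟩
    ext x
    simp
  have h1 : ∀ B ∈ 𝒜, B.Normal := by
    rintro B ⟨h, rfl⟩
    exact hAn.map _ (MulAut.conjNormal h : MulAut N).surjective
  have h2 : ∀ B ∈ 𝒜, Nonempty (B ≃* A) := by
    rintro B ⟨h, rfl⟩
    exact ⟨(A.equivMapOfInjective _ (MulAut.conjNormal h : MulAut N).injective).symm⟩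
  have h3 : ∀ B ∈ 𝒜, ∀ M : Subgroup N, M.Normal → B ≤ M ∨ B ⊓ M = ⊥ := by
    intro B hB M hMn
    by_cases hbot : B ⊓ M = ⊥
    · exact Or.inr hbot
    · left
      haveI := h1 B hB
      haveI := hMn
      have hle := hAmin (B ⊓ M) inferInstance hbot
      rw [← hcardB B hB] at hle
      have : B ⊓ M = B := Subgroup.eq_of_le_of_card_ge inf_le_left hle
      exact le_of_eq_of_le this.symm inf_le_right
  have h4 : ∀ M : Subgroup N, M.Normal → (∀ B ∈ 𝒜, B ≤ M) → M = ⊤ := by
    intro M hMn hall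
    have hA'N : A.map N.subtype ≤ N := by
      rintro _ ⟨a, -, rfl⟩; exact a.2
    have hL1 : Subgroup.normalClosure ((A.map N.subtype : Subgroup H) : Set H) ≤ N :=
      Subgroup.normalClosure_le_normal hA'N
    have hL2 : Subgroup.normalClosure ((A.map N.subtype : Subgroup H) : Set H) ≠ ⊥ := by
      intro hbot
      apply hA1
      rw [eq_bot_iff]
      intro a ha
      have : (a : H) ∈ Subgroup.normalClosure ((A.map N.subtype : Subgroup H) : Set H) :=
        Subgroup.subset_normalClosure (Subgroup.mem_map_of_mem _ ha)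
      rw [hbot, Subgroup.mem_bot] at this
      rw [Subgroup.mem_bot]
      exact Subtype.ext this
    have hL := (hmin _ inferInstance hL1).resolve_left hL2
    have hLM : Subgroup.normalClosure ((A.map N.subtype : Subgroup H) : Set H)
        ≤ M.map N.subtype := by
      show Subgroup.closure (Group.conjugatesOfSet ((A.map N.subtype : Subgroup H) : Set H)) ≤ _
      rw [Subgroup.closure_le]
      intro x hx
      obtain ⟨b, hb, hconj⟩ := Group.mem_conjugatesOfSet_iff.1 hx
      obtain ⟨c, rfl⟩ := isConj_iff.1 hconj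
      obtain ⟨a, ha, rfl⟩ := hb
      have hmem : (MulAut.conjNormal c a : N) ∈ M :=
        hall _ ⟨c, rfl⟩ (Subgroup.mem_map_of_mem _ ha)
      have : (c * N.subtype a * c⁻¹) = N.subtype (MulAut.conjNormal c a : N) :=
        (MulAut.conjNormal_apply c a).symm
      rw [SetLike.mem_coe, this]
      exact Subgroup.mem_map_of_mem _ hmem
    rw [eq_top_iff]
    intro n _
    have : (n : H) ∈ M.map N.subtype := hLM (by rw [hL]; exact n.2)
    obtain ⟨m, hm, hmn⟩ := this
    have : m = n := Subtype.ext hmn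
    exact this ▸ hm
  obtain ⟨⟨m, hm, ⟨φ⟩⟩, hfac⟩ := dirprod_family A 𝒜 h0 h1 h2 h3 h4
  have hAsimple : IsSimpleGroup A := by
    haveI : Nontrivial A := (Subgroup.nontrivial_iff_ne_bot A).2 hA1
    refine ⟨fun C hC => ?_⟩
    have hC'n : (C.map A.subtype).Normal := by
      constructor
      intro x hx k
      obtain ⟨y, hy, rfl⟩ := hx
      obtain ⟨a, ha, c, hc, rfl⟩ := hfac k
      have hcy : c * (y : N) = (y : N) * c :=
        ((Subgroup.mem_centralizer_iff.1 hc) y y.2).symm
      have : a * c * (A.subtype y) * (a * c)⁻¹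
          = A.subtype ((⟨a, ha⟩ : A) * y * (⟨a, ha⟩ : A)⁻¹) := by
        show a * c * (y : N) * (a * c)⁻¹ = a * (y : N) * a⁻¹
        rw [mul_inv_rev, mul_assoc a c, hcy]; group
      rw [this]
      exact Subgroup.mem_map_of_mem _ (hC.conj_mem y hy _)
    by_cases hCbot : C = ⊥
    · exact Or.inl hCbot
    · right
      have hC'1 : C.map A.subtype ≠ ⊥ := by
        intro h
        apply hCbot
        rw [eq_bot_iff]
        intro y hy
        have : A.subtype y ∈ C.map A.subtype := Subgroup.mem_map_of_mem _ hy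
        rw [h, Subgroup.mem_bot] at this
        rw [Subgroup.mem_bot]
        exact Subtype.ext this
      have hle := hAmin _ hC'n hC'1
      rw [Subgroup.card_map_of_injective A.subtype_injective] at hle
      exact Subgroup.eq_top_of_le_card C hle
  let e : {k : ℕ // k < Nat.card A} ≃ A :=
    (Fin.equivSubtype.symm).trans (Finite.equivFin A).symm
  letI : Group {k : ℕ // k < Nat.card A} := e.group
  let eM : {k : ℕ // k < Nat.card A} ≃* A := e.mulEquiv
  refine ⟨{k : ℕ // k < Nat.card A}, inferInstance, m, ?_, hm,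
    ⟨φ.trans (MulEquiv.piCongrRight (fun _ => eM.symm))⟩⟩
  haveI := hAsimple
  exact eM.isSimpleGroup

end Cfsg.Agent.Lib.Lead
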