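import Mathlib

namespace Cfsg.Agent.Lib.Lead

universe u v

/-- transitivity from a divisibility condition on orbits minus `j`-sets -/
theorem transitive_of_dvd_orbit_diff {G X : Type*} [Group G] [MulAction G X] [Finite X]
    (j d : ℕ) (hj : 1 ≤ j) (hjn : j < Nat.card X) (hd : 1 < d)
    (h : ∀ s : Finset X, s.card = j → ∀ a : X,
      d ∣ (MulAction.orbit G a \ (s : Set X)).ncard) :
    MulAction.IsPretransitive G X := by
  classical
  haveI : Fintype X := Fintype.ofFinite X
  by_contra hnt
  have : ∃ x y : X, y ∉ MulAction.orbit G x := by
    by_contra hh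
    push Not at hh
    exact hnt ⟨fun x y => hh x y⟩
  obtain ⟨x, y, hy⟩ := this
  have hxy : x ≠ y := fun e => hy (e ▸ MulAction.mem_orbit_self x)
  have hcard : j - 1 ≤ ((Finset.univ.erase x).erase y).card := by
    rw [Finset.card_erase_of_mem (by simp [hxy.symm]),
      Finset.card_erase_of_mem (Finset.mem_univ _), Finset.card_univ,
      ← Nat.card_eq_fintype_card]
    omega
  obtain ⟨t, ht, htc⟩ := Finset.exists_subset_card_eq hcard
  have hxt : x ∉ t := fun h => by have := ht h; simp at this
  have hyt : y ∉ t := fun h => by have := ht h; simp at this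
  have h1 := h (insert x t) (by rw [Finset.card_insert_of_notMem hxt, htc]; omega) x
  have h2 := h (insert y t) (by rw [Finset.card_insert_of_notMem hyt, htc]; omega) x
  have e2 : MulAction.orbit G x \ ((insert y t : Finset X) : Set X)
      = MulAction.orbit G x \ (t : Set X) := by
    ext z
    simp only [Set.mem_diff, Finset.coe_insert, Set.mem_insert_iff, Finset.mem_coe, not_or]
    constructor
    · rintro ⟨hz, -, hzt⟩; exact ⟨hz, hzt⟩
    · rintro ⟨hz, hzt⟩; exact ⟨hz, fun e => hy (e ▸ hz), hzt⟩
  have e1 : MulAction.orbit G x \ ((insert x t : Finset X) : Set X)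
      = (MulAction.orbit G x \ (t : Set X)) \ {x} := by
    ext z
    simp only [Set.mem_diff, Finset.coe_insert, Set.mem_insert_iff, Finset.mem_coe, not_or,
      Set.mem_singleton_iff]
    tauto
  rw [e2] at h2
  rw [e1] at h1
  have hx : x ∈ MulAction.orbit G x \ (t : Set X) := ⟨MulAction.mem_orbit_self x, hxt⟩
  have h4 := Set.ncard_diff_singleton_add_one hx (Set.toFinite _)
  have : d ∣ 1 := by
    have h3 : d ∣ ((MulAction.orbit G x \ (t : Set X)) \ {x}).ncard + 1 := by rw [h4]; exact h2
    exact (Nat.dvd_add_right h1).1 h3
  exact absurd (Nat.le_of_dvd one_pos this) (by omega)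

/-- lift a finset of `ofStabilizer G a` to a finset of `X` containing `a`. -/
noncomputable def liftStab {G X : Type*} [Group G] [MulAction G X] (a : X)
    (s : Finset (SubMulAction.ofStabilizer G a)) : Finset X :=
  open Classical in
  insert a (s.map (Function.Embedding.subtype (fun x => x ∈ SubMulAction.ofStabilizer G a)))

theorem mem_liftStab {G X : Type*} [Group G] [MulAction G X] {a : X}
    {s : Finset (SubMulAction.ofStabilizer G a)} {x : X} :
    x ∈ liftStab a s ↔ x = a ∨ ∃ h : x ∈ SubMulAction.ofStabilizer G a,
      (⟨x, h⟩ : SubMulAction.ofStabilizer G a) ∈ s := by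
  classical
  unfold liftStab
  rw [Finset.mem_insert, Finset.mem_map]
  constructor
  · rintro (h | ⟨y, hy, rfl⟩)
    · exact Or.inl h
    · exact Or.inr ⟨y.2, hy⟩
  · rintro (h | ⟨h, hs⟩)
    · exact Or.inl h
    · exact Or.inr ⟨⟨x, h⟩, hs, rfl⟩

theorem card_liftStab {G X : Type*} [Group G] [MulAction G X] {a : X}
    (s : Finset (SubMulAction.ofStabilizer G a)) :
    (liftStab a s).card = s.card + 1 := by
  classical
  unfold liftStab
  rw [Finset.card_insert_of_notMem, Finset.card_map]
  intro h
  obtain ⟨y, -, hy⟩ := Finset.mem_map.1 h
  exact (SubMulAction.mem_ofStabilizer_iff G a).1 y.2 hy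

theorem dvd_card_of_forall_orbit_card {H T : Type*} [Group H] [MulAction H T] [Finite T]
    (d : ℕ) (h : ∀ x : T, Nat.card (MulAction.orbit H x) = d) : d ∣ Nat.card T := by
  classical
  have e := MulAction.selfEquivSigmaOrbits H T
  rw [Nat.card_congr e]
  haveI : Fintype (Quotient (MulAction.orbitRel H T)) := Fintype.ofFinite _
  rw [Nat.card_sigma]
  apply Finset.dvd_sum
  intro ω _
  rw [h]

/-- Gleason's lemma, multiply transitive version. -/
theorem gleason_multi {p : ℕ} (hp : p.Prime) : ∀ (k : ℕ), 1 ≤ k →
    ∀ (G : Type u) (X : Type v) [Group G] [MulAction G X] [Finite X],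
    k < Nat.card X →
    (∀ s : Finset X, s.card = k → ∃ P : Subgroup G, IsPGroup p P ∧
      MulAction.fixedPoints P X = (s : Set X)) →
    MulAction.IsMultiplyPretransitive G X k := by
  intro k
  induction k with
  | zero => intro h; omega
  | succ k ih =>
    intro _ G X _ _ _ hkn h
    haveI : Fact p.Prime := ⟨hp⟩
    haveI htr : MulAction.IsPretransitive G X := by
      apply transitive_of_dvd_orbit_diff (k+1) p (by omega) hkn hp.one_lt
      intro s hs a
      obtain ⟨P, hP, hfix⟩ := h s hs
      let T : SubMulAction P X :=
        { carrier := MulAction.orbit G a \ (s : Set X)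
          smul_mem' := by
            rintro ⟨g, hg⟩ z ⟨hz1, hz2⟩
            refine ⟨?_, ?_⟩
            · obtain ⟨c, rfl⟩ := hz1
              exact ⟨g * c, by simp [mul_smul]⟩
            · intro hgz
              rw [← hfix] at hgz hz2
              apply hz2
              have := hgz ⟨g⁻¹, P.inv_mem hg⟩
              have h2 : g⁻¹ • (g • z) = g • z := this
              rw [inv_smul_smul] at h2
              rw [h2]; exact hgz }
      have hc := hP.card_modEq_card_fixedPoints T
      haveI hempty : IsEmpty (MulAction.fixedPoints P T) := by
        constructor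
        rintro ⟨⟨z, hz1, hz2⟩, hz⟩
        apply hz2
        rw [← hfix]
        intro g
        exact congrArg Subtype.val (hz g)
      have h0 : Nat.card (MulAction.fixedPoints P T) = 0 := Nat.card_of_isEmpty
      rw [h0] at hc
      have hT : Nat.card T = (MulAction.orbit G a \ (s : Set X)).ncard := rfl
      rw [← hT]
      exact (Nat.modEq_zero_iff_dvd).1 hc
    by_cases hk0 : k = 0
    · subst hk0; exact (MulAction.is_one_pretransitive_iff).2 htr
    · have hne : Nonempty X := by
        by_contra hh
        rw [not_nonempty_iff] at hh
        rw [Nat.card_of_isEmpty] at hkn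
        omega
      obtain ⟨a⟩ := hne
      refine (SubMulAction.ofStabilizer.isMultiplyPretransitive (G := G) (α := X) (n := k)
        (a := a)).2 ?_
      apply ih (by omega)
      · have := SubMulAction.nat_card_ofStabilizer_add_one_eq G a; omega
      · intro s' hs'
        obtain ⟨P, hP, hfix⟩ := h (liftStab a s') (by rw [card_liftStab, hs'])
        have haP : ∀ g ∈ P, g • a = a := by
          intro g hg
          have : a ∈ MulAction.fixedPoints P X := by
            rw [hfix]; exact (mem_liftStab).2 (Or.inl rfl)
          exact this ⟨g, hg⟩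
        refine ⟨P.subgroupOf (MulAction.stabilizer G a), hP.comap_subtype, ?_⟩
        ext x
        simp only [MulAction.mem_fixedPoints, Finset.mem_coe]
        constructor
        · intro hx
          have : (x : X) ∈ MulAction.fixedPoints P X := by
            rintro ⟨g, hg⟩
            have := hx ⟨⟨g, haP g hg⟩, hg⟩
            exact congrArg Subtype.val this
          rw [hfix] at this
          rcases (mem_liftStab).1 this with h | ⟨h, h'⟩
          · exact absurd h ((SubMulAction.mem_ofStabilizer_iff G a).1 x.2)
          · exact h'
        · intro hx g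
          have : (x : X) ∈ MulAction.fixedPoints P X := by
            rw [hfix]; exact mem_liftStab.2 (Or.inr ⟨x.2, hx⟩)
          apply Subtype.ext
          exact this ⟨g.1.1, g.2⟩

theorem fixingSubgroup_liftStab {G X : Type*} [Group G] [MulAction G X] (a : X)
    (s : Finset (SubMulAction.ofStabilizer G a)) :
    (fixingSubgroup (MulAction.stabilizer G a)
      ((s : Set (SubMulAction.ofStabilizer G a)))).map (MulAction.stabilizer G a).subtype
      = fixingSubgroup G ((liftStab a s : Finset X) : Set X) := by
  ext g
  rw [Subgroup.mem_map, mem_fixingSubgroup_iff]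
  constructor
  · rintro ⟨h, hh, rfl⟩ y hy
    rw [mem_fixingSubgroup_iff] at hh
    rcases mem_liftStab.1 (Finset.mem_coe.1 hy) with rfl | ⟨hy1, hy2⟩
    · exact h.2
    · exact congrArg Subtype.val (hh ⟨y, hy1⟩ (Finset.mem_coe.2 hy2))
  · intro hg
    have hga : g ∈ MulAction.stabilizer G a := hg a (Finset.mem_coe.2 (mem_liftStab.2 (Or.inl rfl)))
    refine ⟨⟨g, hga⟩, ?_, rfl⟩
    rw [mem_fixingSubgroup_iff]
    intro y hy
    apply Subtype.ext
    exact hg y (Finset.mem_coe.2 (mem_liftStab.2 (Or.inr ⟨y.2, Finset.mem_coe.1 hy⟩)))

/-- constant orders of pointwise stabilisers of `j`-sets and `(j+1)`-sets give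
`j`-transitivity. -/
theorem const_stab_multi : ∀ (j : ℕ), 1 ≤ j →
    ∀ (G : Type u) (X : Type v) [Group G] [MulAction G X] [Finite G] [Finite X],
    j + 1 ≤ Nat.card X → ∀ l m : ℕ, l ≠ m →
    (∀ s : Finset X, s.card = j → Nat.card (fixingSubgroup G (s : Set X)) = l) →
    (∀ s : Finset X, s.card = j + 1 → Nat.card (fixingSubgroup G (s : Set X)) = m) →
    MulAction.IsMultiplyPretransitive G X j := by
  intro j
  induction j with
  | zero => intro h; omega
  | succ k ih =>
    intro _ G X _ _ _ _ hkn l m hlm hl hm
    classical
    haveI htr : MulAction.IsPretransitive G X := by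
      -- some basic facts about l, m
      have hex : ∃ s : Finset X, s.card = k + 1 := by
        haveI : Fintype X := Fintype.ofFinite X
        obtain ⟨s, -, hs⟩ := Finset.exists_subset_card_eq (s := (Finset.univ : Finset X))
          (n := k + 1) (by rw [Finset.card_univ, ← Nat.card_eq_fintype_card]; omega)
        exact ⟨s, hs⟩
      obtain ⟨s₀, hs₀⟩ := hex
      have hex2 : ∃ z : X, z ∉ s₀ := by
        haveI : Fintype X := Fintype.ofFinite X
        by_contra hh
        push Not at hh
        have : s₀ = Finset.univ := Finset.eq_univ_iff_forall.2 hh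
        rw [this, Finset.card_univ, ← Nat.card_eq_fintype_card] at hs₀
        omega
      obtain ⟨z₀, hz₀⟩ := hex2
      have hml : m ∣ l := by
        rw [← hl s₀ hs₀, ← hm (insert z₀ s₀) (by rw [Finset.card_insert_of_notMem hz₀, hs₀])]
        apply Subgroup.card_dvd_of_le
        intro g hg
        rw [mem_fixingSubgroup_iff] at hg ⊢
        intro y hy
        exact hg y (by simp [Finset.mem_coe.1 hy])
      have hm0 : 0 < m := by
        rw [← hm (insert z₀ s₀) (by rw [Finset.card_insert_of_notMem hz₀, hs₀])]
        exact Nat.card_pos
      have hl0 : 0 < l := by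
        rw [← hl s₀ hs₀]
        exact Nat.card_pos
      obtain ⟨c, hc⟩ := hml
      have hc2 : 1 < c := by
        rcases Nat.lt_or_ge 1 c with h | h
        · exact h
        · interval_cases c
          · simp at hc; omega
          · simp at hc; omega
      apply transitive_of_dvd_orbit_diff (k+1) c (by omega) (by omega) hc2
      intro s hs a
      let H : Subgroup G := fixingSubgroup G (s : Set X)
      let T : SubMulAction H X :=
        { carrier := MulAction.orbit G a \ (s : Set X)
          smul_mem' := by
            rintro ⟨g, hg⟩ z ⟨hz1, hz2⟩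
            refine ⟨?_, ?_⟩
            · obtain ⟨c, rfl⟩ := hz1
              exact ⟨g * c, by simp [mul_smul]⟩
            · intro hgz
              apply hz2
              have hg' : g⁻¹ ∈ fixingSubgroup G (s : Set X) := inv_mem hg
              have h2 : g⁻¹ • (g • z) = g • z := (mem_fixingSubgroup_iff G).1 hg' _ hgz
              rw [inv_smul_smul] at h2
              rw [h2]; exact hgz }
      have hT : Nat.card T = (MulAction.orbit G a \ (s : Set X)).ncard := rfl
      rw [← hT]
      apply dvd_card_of_forall_orbit_card (H := H)
      intro z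
      have hzs : (z : X) ∉ s := fun h => z.2.2 (Finset.mem_coe.2 h)
      have hmap : (MulAction.stabilizer H z).map H.subtype
          = fixingSubgroup G ((insert (z : X) s : Finset X) : Set X) := by
        ext g
        rw [Subgroup.mem_map, mem_fixingSubgroup_iff]
        constructor
        · rintro ⟨h, hh, rfl⟩ y hy
          rw [Finset.coe_insert, Set.mem_insert_iff] at hy
          rcases hy with rfl | hy
          · exact congrArg Subtype.val (MulAction.mem_stabilizer_iff.1 hh)
          · exact (mem_fixingSubgroup_iff G).1 h.2 y hy
        · intro hg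
          have hgH : g ∈ H := by
            rw [mem_fixingSubgroup_iff]
            intro y hy
            exact hg y (by rw [Finset.coe_insert]; exact Set.mem_insert_of_mem _ hy)
          refine ⟨⟨g, hgH⟩, ?_, rfl⟩
          rw [MulAction.mem_stabilizer_iff]
          apply Subtype.ext
          exact hg z (by rw [Finset.coe_insert]; exact Set.mem_insert _ _)
      have h1 : Nat.card (MulAction.stabilizer H z) = m := by
        rw [← Subgroup.card_map_of_injective (H.subtype_injective), hmap]
        exact hm (insert (z : X) s) (by rw [Finset.card_insert_of_notMem hzs, hs])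
      have h2 : Nat.card H = l := hl s hs
      have h3 := Subgroup.card_mul_index (MulAction.stabilizer H z)
      rw [h1, h2, MulAction.index_stabilizer, hc] at h3
      have h4 : (MulAction.orbit H z).ncard = c := Nat.eq_of_mul_eq_mul_left hm0 h3
      rw [← h4]; rfl
    by_cases hk0 : k = 0
    · subst hk0; exact (MulAction.is_one_pretransitive_iff).2 htr
    · have hne : Nonempty X := by
        by_contra hh
        rw [not_nonempty_iff] at hh
        rw [Nat.card_of_isEmpty] at hkn
        omega
      obtain ⟨a⟩ := hne
      refine (SubMulAction.ofStabilizer.isMultiplyPretransitive (G := G) (α := X) (n := k)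
        (a := a)).2 ?_
      apply ih (by omega) _ _ _ l m hlm
      · intro s' hs'
        rw [← Subgroup.card_map_of_injective (MulAction.stabilizer G a).subtype_injective,
          fixingSubgroup_liftStab]
        exact hl _ (by rw [card_liftStab, hs'])
      · intro s' hs'
        rw [← Subgroup.card_map_of_injective (MulAction.stabilizer G a).subtype_injective,
          fixingSubgroup_liftStab]
        exact hm _ (by rw [card_liftStab, hs'])
      · have := SubMulAction.nat_card_ofStabilizer_add_one_eq G a; omega

/-- generous `k`-transitivity implies `k`-transitivity. -/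
theorem generous_multi : ∀ (k : ℕ),
    ∀ (G : Type u) (X : Type v) [Group G] [MulAction G X] [Finite X],
    k < Nat.card X →
    (∀ s : Finset X, s.card = k + 1 → ∀ τ : Equiv.Perm X, (∀ x ∈ s, τ x ∈ s) →
      ∃ g : G, ∀ x ∈ s, g • x = τ x) →
    MulAction.IsMultiplyPretransitive G X k := by
  intro k
  induction k with
  | zero => intro G X _ _ _ _ _; exact MulAction.is_zero_pretransitive'
  | succ k ih =>
    intro G X _ _ _ hkn h
    classical
    haveI : Fintype X := Fintype.ofFinite X
    haveI htr : MulAction.IsPretransitive G X := by
      constructor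
      intro x y
      by_cases hxy : x = y
      · exact ⟨1, by rw [one_smul, hxy]⟩
      · have hcard : k ≤ ((Finset.univ.erase x).erase y).card := by
          rw [Finset.card_erase_of_mem (by simp [Ne.symm hxy]),
            Finset.card_erase_of_mem (Finset.mem_univ _), Finset.card_univ,
            ← Nat.card_eq_fintype_card]
          omega
        obtain ⟨t, ht, htc⟩ := Finset.exists_subset_card_eq hcard
        have hxt : x ∉ t := fun h => by have := ht h; simp at this
        have hyt : y ∉ t := fun h => by have := ht h; simp at this
        obtain ⟨g, hg⟩ := h (insert x (insert y t)) (by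
          rw [Finset.card_insert_of_notMem (by simp [hxy, hxt]),
            Finset.card_insert_of_notMem hyt, htc]) (Equiv.swap x y) (by
          intro z hz
          by_cases hzx : z = x
          · subst hzx; simp
          · by_cases hzy : z = y
            · subst hzy; simp
            · rw [Equiv.swap_apply_of_ne_of_ne hzx hzy]; exact hz)
        exact ⟨g, by rw [hg x (Finset.mem_insert_self _ _), Equiv.swap_apply_left]⟩
    have hne : Nonempty X := by
      by_contra hh
      rw [not_nonempty_iff] at hh
      rw [Nat.card_of_isEmpty] at hkn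
      omega
    obtain ⟨a⟩ := hne
    refine (SubMulAction.ofStabilizer.isMultiplyPretransitive (G := G) (α := X) (n := k)
      (a := a)).2 ?_
    apply ih
    · have := SubMulAction.nat_card_ofStabilizer_add_one_eq G a; omega
    · intro s' hs' τ' hτ'
      let τ : Equiv.Perm X := Equiv.Perm.ofSubtype (p := fun x => x ∈ SubMulAction.ofStabilizer G a) τ'
      have hτa : τ a = a := by
        apply Equiv.Perm.ofSubtype_apply_of_not_mem
        intro h'
        exact (SubMulAction.mem_ofStabilizer_iff G a).1 h' rfl
      have hτx : ∀ x : SubMulAction.ofStabilizer G a, τ (x : X) = (τ' x : X) := by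
        intro x
        exact Equiv.Perm.ofSubtype_apply_coe τ' x
      obtain ⟨g, hg⟩ := h (liftStab a s') (by rw [card_liftStab, hs']) τ (by
        intro x hx
        rcases mem_liftStab.1 hx with rfl | ⟨h1, h2⟩
        · rw [hτa]; exact mem_liftStab.2 (Or.inl rfl)
        · rw [hτx ⟨x, h1⟩]
          exact mem_liftStab.2 (Or.inr ⟨(τ' ⟨x, h1⟩).2, hτ' _ h2⟩))
      have hga : g ∈ MulAction.stabilizer G a := by
        rw [MulAction.mem_stabilizer_iff, hg a (mem_liftStab.2 (Or.inl rfl)), hτa]
      refine ⟨⟨g, hga⟩, ?_⟩
      intro x hx
      apply Subtype.ext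
      rw [← hτx x]
      exact hg x (mem_liftStab.2 (Or.inr ⟨x.2, hx⟩))

end Cfsg.Agent.Lib.Lead
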