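import Mathlib
import Cfsg.Agent.Lib.Lead.JordanNormal
import Cfsg.Agent.Lib.Lead.MinNormal
import Cfsg.Agent.Lib.Lead.MultTrans
import Cfsg.Agent.Lib.Lead.Frob5

set_option autoImplicit false

namespace Cfsg.Agent.Lib.Lead

open MulAction
open scoped Pointwise

/-- a normal subgroup whose non-identity elements are all conjugate is elementary abelian -/
theorem conj_elementary {G : Type*} [Group G] [Finite G] (N : Subgroup G) (hNn : N.Normal)
    (hN1 : N ≠ ⊥)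
    (hconj : ∀ x ∈ N, ∀ y ∈ N, x ≠ 1 → y ≠ 1 → ∃ h : G, h * x * h⁻¹ = y) :
    ∃ p : ℕ, p.Prime ∧ (∀ x ∈ N, x ^ p = 1) ∧ (∀ x ∈ N, ∀ y ∈ N, x * y = y * x) := by
  classical
  haveI : Nontrivial N := (Subgroup.nontrivial_iff_ne_bot N).2 hN1
  have hN1' : 1 < Nat.card N := Finite.one_lt_card
  obtain ⟨p, hp, hpd⟩ := Nat.exists_prime_and_dvd (n := Nat.card N) (by omega)
  haveI : Fact p.Prime := ⟨hp⟩
  obtain ⟨x₀, hx₀⟩ := exists_prime_orderOf_dvd_card' p hpd
  have hx₀1 : (x₀ : G) ≠ 1 := by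
    intro h
    have : x₀ = 1 := Subtype.ext h
    rw [this, orderOf_one] at hx₀
    exact hp.one_lt.ne hx₀
  have hx₀p : (x₀ : G) ^ p = 1 := by
    have := pow_orderOf_eq_one x₀
    rw [hx₀] at this
    simpa using congrArg Subtype.val this
  have hexp : ∀ x ∈ N, x ^ p = 1 := by
    intro x hx
    by_cases hx1 : x = 1
    · rw [hx1, one_pow]
    · obtain ⟨h, rfl⟩ := hconj x₀ x₀.2 x hx hx₀1 hx1
      rw [conj_pow, hx₀p, mul_one, mul_inv_cancel]
  have hpg : IsPGroup p N := by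
    intro x
    exact ⟨1, by rw [pow_one]; exact Subtype.ext (by simpa using hexp x x.2)⟩
  obtain ⟨z, hz, hz1⟩ : ∃ z : N, z ∈ Subgroup.center N ∧ z ≠ 1 := by
    haveI := hpg.center_nontrivial
    obtain ⟨z, hz⟩ := exists_ne (1 : Subgroup.center N)
    exact ⟨z.1, z.2, fun h => hz (Subtype.ext h)⟩
  have hzG : (z : G) ≠ 1 := fun h => hz1 (Subtype.ext h)
  have hzc : ∀ w ∈ N, w * (z : G) = (z : G) * w := by
    intro w hw
    have := Subgroup.mem_center_iff.1 hz ⟨w, hw⟩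
    exact congrArg Subtype.val this
  refine ⟨p, hp, hexp, ?_⟩
  intro x hx y hy
  by_cases hx1 : x = 1
  · rw [hx1, one_mul, mul_one]
  · obtain ⟨h, rfl⟩ := hconj z z.2 x hx hzG hx1
    have hw : h⁻¹ * y * h ∈ N := by
      have := hNn.conj_mem y hy h⁻¹
      rwa [inv_inv] at this
    have := hzc _ hw
    calc h * z * h⁻¹ * y = h * ((z : G) * (h⁻¹ * y * h)) * h⁻¹ := by group
      _ = h * ((h⁻¹ * y * h) * z) * h⁻¹ := by rw [this]
      _ = y * (h * z * h⁻¹) := by group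

theorem regular_min_normal {G X : Type*} [Group G] [MulAction G X] [Finite G]
    (h2 : IsMultiplyPretransitive G X 2) (N : Subgroup G) [hNn : N.Normal] (hN : N ≠ ⊥) (a₀ : X)
    (hfree : ∀ n ∈ N, ∀ a : X, n • a = a → n = 1) :
    ∃ p : ℕ, p.Prime ∧ (∀ x ∈ N, x ^ p = 1) ∧ (∀ x ∈ N, ∀ y ∈ N, x * y = y * x) := by
  apply conj_elementary N hNn hN
  intro x hx y hy hx1 hy1
  have hxa : x • a₀ ≠ a₀ := fun h => hx1 (hfree x hx a₀ h)
  have hya : y • a₀ ≠ a₀ := fun h => hy1 (hfree y hy a₀ h)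
  obtain ⟨h, h1, h2'⟩ := (MulAction.is_two_pretransitive_iff.1 h2) (Ne.symm hxa) (Ne.symm hya)
  exact ⟨h, regular_conj_eq N hfree a₀ h h1 x y hx hy h2'⟩

theorem normal_trans_of_prim {G X : Type*} [Group G] [MulAction G X] [FaithfulSMul G X]
    [IsPreprimitive G X] (N : Subgroup G) [N.Normal] (hN : N ≠ ⊥) :
    IsPretransitive N X := by
  apply IsQuasiPreprimitive.isPretransitive_of_normal (G := G)
  intro hfix
  apply hN
  rw [eq_bot_iff]
  intro n hn
  rw [Subgroup.mem_bot]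
  apply FaithfulSMul.eq_of_smul_eq_smul (α := X)
  intro x
  rw [one_smul]
  have : x ∈ fixedPoints N X := by rw [hfix]; trivial
  exact this ⟨n, hn⟩

/-- blocks of a normal subgroup of a 2-transitive group give a linear space; consequently
non-identity elements of an imprimitive normal subgroup fix at most one point. -/
theorem free2_of_block {G X : Type*} [Group G] [MulAction G X] [Finite X] [FaithfulSMul G X]
    (h2 : IsMultiplyPretransitive G X 2) (N : Subgroup G) [hNn : N.Normal]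
    (B : Set X) (hB : ∀ n ∈ N, ∀ x ∈ B, n • x ∈ B → ∀ y ∈ B, n • y ∈ B) (hB1 : B.Nontrivial)
    (hB2 : B ≠ Set.univ) :
    ∀ h ∈ N, ∀ x y : X, x ≠ y → h • x = x → h • y = y → h = 1 := by
  classical
  let P : Set X → Prop := fun B =>
    (∀ n ∈ N, ∀ x ∈ B, n • x ∈ B → ∀ y ∈ B, n • y ∈ B) ∧ B.Nontrivial ∧ B ≠ Set.univ
  have hex : ∃ k, ∃ B, P B ∧ B.ncard = k := ⟨_, B, ⟨hB, hB1, hB2⟩, rfl⟩
  obtain ⟨B₀, ⟨hblk, hnt, hne⟩, hcard⟩ := Nat.find_spec hex
  have hmin : ∀ B', P B' → B₀.ncard ≤ B'.ncard := by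
    intro B' hB'
    rw [hcard]
    exact Nat.find_min' hex ⟨B', hB', rfl⟩
  let Line : Set X → Prop := fun L => ∃ g : G, L = (fun z => g • z) '' B₀
  have hLblk : ∀ L, Line L → ∀ n ∈ N, ∀ x ∈ L, n • x ∈ L → ∀ y ∈ L, n • y ∈ L := by
    rintro L ⟨g, rfl⟩ n hn x hx hnx y hy
    obtain ⟨x', hx', rfl⟩ := hx
    obtain ⟨y', hy', rfl⟩ := hy
    obtain ⟨w, hw, hwe⟩ := hnx
    have hwe' : g • w = n • g • x' := hwe
    have hn' : g⁻¹ * n * g ∈ N := by
      have := hNn.conj_mem n hn g⁻¹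
      rwa [inv_inv] at this
    have h1 : (g⁻¹ * n * g) • x' ∈ B₀ := by
      rw [mul_smul, mul_smul, ← hwe', inv_smul_smul]; exact hw
    have h2' := hblk _ hn' x' hx' h1 y' hy'
    refine ⟨_, h2', ?_⟩
    show g • (g⁻¹ * n * g) • y' = n • g • y'
    rw [mul_smul, mul_smul, smul_inv_smul]
  have hLcard : ∀ L, Line L → L.ncard = B₀.ncard := by
    rintro L ⟨g, rfl⟩
    exact Set.ncard_image_of_injective _ (MulAction.injective g)
  have hLne : ∀ L, Line L → L ≠ Set.univ := by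
    intro L hL hLu
    have h1 := hLcard L hL
    rw [hLu] at h1
    exact hne (Set.eq_of_subset_of_ncard_le (Set.subset_univ _) (le_of_eq h1))
  have hLuniq : ∀ L₁ L₂, Line L₁ → Line L₂ → ∀ x y, x ≠ y → x ∈ L₁ → y ∈ L₁ → x ∈ L₂ →
      y ∈ L₂ → L₁ = L₂ := by
    intro L₁ L₂ h1 h2' x y hxy hx1 hy1 hx2 hy2
    have hP : P (L₁ ∩ L₂) := by
      refine ⟨?_, ⟨x, ⟨hx1, hx2⟩, y, ⟨hy1, hy2⟩, hxy⟩, ?_⟩
      · intro n hn u hu hnu v hv
        exact ⟨hLblk L₁ h1 n hn u hu.1 hnu.1 v hv.1, hLblk L₂ h2' n hn u hu.2 hnu.2 v hv.2⟩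
      · intro hu
        apply hLne L₁ h1
        rw [Set.eq_univ_iff_forall] at hu ⊢
        exact fun z => (hu z).1
    have hc := hmin _ hP
    have e1 : L₁ ∩ L₂ = L₁ :=
      Set.eq_of_subset_of_ncard_le Set.inter_subset_left (by rw [hLcard L₁ h1]; exact hc)
    have e2 : L₁ ∩ L₂ = L₂ :=
      Set.eq_of_subset_of_ncard_le Set.inter_subset_right (by rw [hLcard L₂ h2']; exact hc)
    exact e1.symm.trans e2
  have hLex : ∀ x y, x ≠ y → ∃ L, Line L ∧ x ∈ L ∧ y ∈ L := by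
    intro x y hxy
    obtain ⟨p, hp, q, hq, hpq⟩ := hnt
    obtain ⟨g, hg1, hg2⟩ := (MulAction.is_two_pretransitive_iff.1 h2) hpq hxy
    exact ⟨_, ⟨g, rfl⟩, ⟨p, hp, hg1⟩, ⟨q, hq, hg2⟩⟩
  have key : ∀ h ∈ N, ∀ x y, x ≠ y → h • x = x → h • y = y → ∀ L, Line L → x ∈ L → y ∈ L →
      ∀ z, z ∉ L → h • z = z := by
    intro h hh x y hxy hx hy L hL hxL hyL z hz
    have hzx : z ≠ x := fun e => hz (e ▸ hxL)
    have hzy : z ≠ y := fun e => hz (e ▸ hyL)
    obtain ⟨L₁, hL₁, hx1, hz1⟩ := hLex x z (Ne.symm hzx)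
    obtain ⟨L₂, hL₂, hy2, hz2⟩ := hLex y z (Ne.symm hzy)
    by_contra hne'
    have hz1' : h • z ∈ L₁ := hLblk L₁ hL₁ h hh x hx1 (by rw [hx]; exact hx1) z hz1
    have hz2' : h • z ∈ L₂ := hLblk L₂ hL₂ h hh y hy2 (by rw [hy]; exact hy2) z hz2
    have e := hLuniq L₁ L₂ hL₁ hL₂ z (h • z) (Ne.symm hne') hz1 hz1' hz2 hz2'
    have e' := hLuniq L₁ L hL₁ hL x y hxy hx1 (e ▸ hy2) hxL hyL
    exact hz (e' ▸ hz1)
  intro h hh x y hxy hx hy
  apply FaithfulSMul.eq_of_smul_eq_smul (α := X)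
  intro z
  rw [one_smul]
  obtain ⟨L, hL, hxL, hyL⟩ := hLex x y hxy
  by_cases hzL : z ∈ L
  · by_cases hzx : z = x
    · rw [hzx]; exact hx
    · obtain ⟨w, hw⟩ : ∃ w, w ∉ L := by
        by_contra hh'
        push Not at hh'
        exact hLne L hL (Set.eq_univ_iff_forall.2 hh')
      have hwfix := key h hh x y hxy hx hy L hL hxL hyL w hw
      have hwx : x ≠ w := fun e => hw (e ▸ hxL)
      obtain ⟨L', hL', hxL', hwL'⟩ := hLex x w hwx
      apply key h hh x w hwx hx hwfix L' hL' hxL' hwL' z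
      intro hzL'
      have e := hLuniq L' L hL' hL x z (Ne.symm hzx) hxL' hzL' hxL hzL
      exact hw (e ▸ hwL')
  · exact key h hh x y hxy hx hy L hL hxL hyL z hzL

theorem frob_kernel_of_free2 {G α : Type*} [Group G] [MulAction G α] [Finite G]
    [IsPretransitive G α]
    (hsh : ∀ (g : G) (a b : α), a ≠ b → g • a = a → g • b = b → g = 1)
    (hnr : ∃ (g : G) (a : α), g ≠ 1 ∧ g • a = a)
    (hnt : ∃ (g : G) (a : α), g • a ≠ a) :
    ∃ K : Subgroup G, K.Normal ∧ (∀ g, g ∈ K ↔ g = 1 ∨ ∀ a : α, g • a ≠ a) ∧ K ≠ ⊥ ∧ K ≠ ⊤ := by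
  classical
  obtain ⟨g₀, a, hg₀, hg₀a⟩ := hnr
  let H := MulAction.stabilizer G a
  have hHtop : H ≠ ⊤ := by
    intro htop
    obtain ⟨g₁, b, hne⟩ := hnt
    obtain ⟨k, rfl⟩ := MulAction.exists_smul_eq G a b
    have h1 : k ∈ H := htop ▸ Subgroup.mem_top k
    have h2 : g₁ * k ∈ H := htop ▸ Subgroup.mem_top _
    have h1' : k • a = a := h1
    have h2' : (g₁ * k) • a = a := h2
    apply hne
    rw [← mul_smul, h2', h1']
  have hF : Cfsg.IsFrobeniusComplement H := by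
    refine ⟨?_, hHtop, ?_⟩
    · intro hbot
      have : g₀ ∈ H := hg₀a
      rw [hbot, Subgroup.mem_bot] at this
      exact hg₀ this
    · intro g hg
      rw [eq_bot_iff]
      rintro x ⟨hx1, hx2⟩
      rw [Subgroup.mem_bot]
      have hx2' : g⁻¹ * x * g ∈ H := (frob_mem_conj_smul H g x).1 hx2
      have h1 : x • a = a := hx1
      have h2 : x • (g • a) = g • a := by
        have : (g⁻¹ * x * g) • a = a := hx2'
        rw [mul_smul, mul_smul, inv_smul_eq_iff] at this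
        exact this
      exact hsh x a (g • a) (fun h => hg (show g • a = a from h.symm)) h1 h2
  obtain ⟨K, hK, hKn, hcompl⟩ := frobenius_kernel_subgroup H hF
  have hmem : ∀ g, g ∈ K ↔ g = 1 ∨ ∀ a : α, g • a ≠ a := by
    intro g
    have : g ∈ K ↔ g ∈ Cfsg.frobeniusKernel H := by rw [← hK]; rfl
    rw [this]
    show (g = 1 ∨ ∀ k : G, g ∉ MulAut.conj k • H) ↔ _
    apply or_congr Iff.rfl
    constructor
    · intro h b hgb
      obtain ⟨k, rfl⟩ := MulAction.exists_smul_eq G a b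
      apply h k
      rw [frob_mem_conj_smul]
      show (k⁻¹ * g * k) • a = a
      rw [mul_smul, mul_smul, hgb, inv_smul_smul]
    · intro h k hk
      rw [frob_mem_conj_smul] at hk
      have : (k⁻¹ * g * k) • a = a := hk
      rw [mul_smul, mul_smul, inv_smul_eq_iff] at this
      exact h _ this
  refine ⟨K, hKn, hmem, ?_, ?_⟩
  · intro hbot
    have h1 := hcompl.card_mul
    rw [hbot, Subgroup.card_bot, one_mul] at h1
    exact hHtop (Subgroup.eq_top_of_card_eq H h1)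
  · intro htop
    have : g₀ ∈ K := htop ▸ Subgroup.mem_top g₀
    rcases (hmem g₀).1 this with h | h
    · exact hg₀ h
    · exact h a hg₀a

theorem prim_of_min_normal {G X : Type*} [Group G] [MulAction G X] [Finite G] [Finite X]
    [FaithfulSMul G X]
    (h2 : IsMultiplyPretransitive G X 2) (N : Subgroup G) [hNn : N.Normal] (hN : N ≠ ⊥)
    (hmin : ∀ M : Subgroup G, M.Normal → M ≤ N → M = ⊥ ∨ M = N)
    (hnr : ∃ n ∈ N, n ≠ 1 ∧ ∃ a : X, n • a = a) : IsPreprimitive N X := by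
  classical
  haveI htr : IsPretransitive N X := normal_trans_of_two_trans h2 N hN
  obtain ⟨n₀, hn₀, hn₀1, a₀, hn₀a⟩ := hnr
  apply IsPreprimitive.of_isTrivialBlock_base a₀
  intro B haB hB
  by_contra hBt
  have hB1 : B.Nontrivial := by
    by_contra h; exact hBt (Or.inl (Set.not_nontrivial_iff.1 h))
  have hB2 : B ≠ Set.univ := fun h => hBt (Or.inr h)
  have hblk : ∀ n ∈ N, ∀ x ∈ B, n • x ∈ B → ∀ y ∈ B, n • y ∈ B := by
    intro n hn x hx hnx y hy
    have := (isBlock_iff_smul_eq_of_mem.1 hB) (g := ⟨n, hn⟩) hx hnx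
    rw [← this]
    exact Set.smul_mem_smul_set (a := (⟨n, hn⟩ : N)) hy
  have hfree := free2_of_block h2 N B hblk hB1 hB2
  have hnt : ∃ (g : N) (a : X), g • a ≠ a := by
    refine ⟨⟨n₀, hn₀⟩, ?_⟩
    by_contra hh
    push Not at hh
    apply hn₀1
    apply FaithfulSMul.eq_of_smul_eq_smul (α := X)
    intro x
    rw [one_smul]
    exact hh x
  obtain ⟨K, hKn, hKmem, hKbot, hKtop⟩ := frob_kernel_of_free2 (G := N) (α := X)
    (fun g a b hab ha hb => Subtype.ext (hfree g.1 g.2 a b hab ha hb))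
    ⟨⟨n₀, hn₀⟩, a₀, fun e => hn₀1 (congrArg Subtype.val e), hn₀a⟩ hnt
  have hMn : (K.map N.subtype).Normal := by
    constructor
    rintro _ ⟨k, hk, rfl⟩ g
    have hc : g * (k : G) * g⁻¹ ∈ N := hNn.conj_mem _ k.2 g
    refine ⟨⟨_, hc⟩, ?_, rfl⟩
    show (⟨_, hc⟩ : N) ∈ K
    rw [hKmem]
    rcases (hKmem k).1 hk with h | h
    · left
      apply Subtype.ext
      show g * (k : G) * g⁻¹ = 1
      rw [h]; simp
    · right
      intro a ha
      apply h (g⁻¹ • a)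
      have ha' : (g * (k : G) * g⁻¹) • a = a := ha
      show (k : G) • g⁻¹ • a = g⁻¹ • a
      rw [mul_smul, mul_smul] at ha'
      rw [eq_inv_smul_iff]; exact ha'
  rcases hmin _ hMn (Subgroup.map_subtype_le K) with h | h
  · apply hKbot
    rw [eq_bot_iff]; intro k hk
    have : (k : G) ∈ K.map N.subtype := ⟨k, hk, rfl⟩
    rw [h, Subgroup.mem_bot] at this
    exact Subgroup.mem_bot.2 (Subtype.ext this)
  · apply hKtop
    rw [eq_top_iff]; intro k _
    have : (k : G) ∈ K.map N.subtype := by rw [h]; exact k.2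
    obtain ⟨k', hk', e⟩ := this
    have : k' = k := Subtype.ext e
    exact this ▸ hk'

end Cfsg.Agent.Lib.Lead
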