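import Mathlib
import Cfsg.Agent.Lib.Lead.BurnsideMin

set_option autoImplicit false

namespace Cfsg.Agent.Lib.Lead

open MulAction
open scoped Pointwise

theorem stab_orbit_card_eq {G X : Type*} [Group G] [MulAction G X] [Finite X]
    (h2 : IsMultiplyPretransitive G X 2) (N : Subgroup G) [hNn : N.Normal] (a : X)
    (x y : SubMulAction.ofStabilizer N a) :
    Nat.card (orbit (stabilizer N a) x) = Nat.card (orbit (stabilizer N a) y) := by
  classical
  let O : X → Set X := fun x => {z | ∃ h ∈ N, h • a = a ∧ h • x = z}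
  have hO : ∀ x : SubMulAction.ofStabilizer N a,
      Nat.card (orbit (stabilizer N a) x) = (O x.1).ncard := by
    intro x
    rw [Nat.card_coe_set_eq]
    have : O x.1 = Subtype.val '' (orbit (stabilizer N a) x) := by
      ext z
      constructor
      · rintro ⟨h, hh, ha, rfl⟩
        refine ⟨(⟨⟨h, hh⟩, ha⟩ : stabilizer N a) • x, ⟨_, rfl⟩, rfl⟩
      · rintro ⟨w, ⟨h, rfl⟩, rfl⟩
        exact ⟨h.1.1, h.1.2, h.2, rfl⟩
    rw [this, Set.ncard_image_of_injective _ Subtype.val_injective]
  have hconj : ∀ (g : G) (u : X), g • a = a → (fun z => g • z) '' (O u) ⊆ O (g • u) := by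
    rintro g u hg _ ⟨z, ⟨h, hh, ha, rfl⟩, rfl⟩
    refine ⟨g * h * g⁻¹, hNn.conj_mem h hh g, ?_, ?_⟩
    · have : g⁻¹ • a = a := by rw [inv_smul_eq_iff, hg]
      rw [mul_smul, mul_smul, this, ha, hg]
    · rw [mul_smul, mul_smul, inv_smul_smul]
  have hle : ∀ (g : G) (u : X), g • a = a → (O u).ncard ≤ (O (g • u)).ncard := by
    intro g u hg
    rw [← Set.ncard_image_of_injective (O u) (MulAction.injective g)]
    exact Set.ncard_le_ncard (hconj g u hg)
  have hxa : x.1 ≠ a := (SubMulAction.mem_ofStabilizer_iff N a).1 x.2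
  have hya : y.1 ≠ a := (SubMulAction.mem_ofStabilizer_iff N a).1 y.2
  obtain ⟨g, hg1, hg2⟩ := (MulAction.is_two_pretransitive_iff.1 h2) (Ne.symm hxa) (Ne.symm hya)
  rw [hO x, hO y]
  apply le_antisymm
  · have := hle g x.1 hg1
    rwa [hg2] at this
  · have hg1' : g⁻¹ • a = a := by rw [inv_smul_eq_iff, hg1]
    have h7 : g⁻¹ • y.1 = x.1 := by rw [← hg2, inv_smul_smul]
    have := hle g⁻¹ y.1 hg1'
    rwa [h7] at this

theorem card_eq_of_regular {H X : Type*} [Group H] [MulAction H X] [Finite H]
    [IsPretransitive H X] (a : X) (hfree : ∀ h : H, h • a = a → h = 1) :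
    Nat.card H = Nat.card X := by
  apply Nat.card_eq_of_bijective (fun h : H => h • a)
  constructor
  · intro g g' h
    have h' : g • a = g' • a := h
    have : (g'⁻¹ * g) • a = a := by rw [mul_smul, h', inv_smul_smul]
    exact (inv_mul_eq_one.1 (hfree _ this)).symm
  · intro b; exact MulAction.exists_smul_eq H a b

theorem no_prod_of_prim_two_trans {G X : Type*} [Group G] [MulAction G X] [Finite G] [Finite X]
    [FaithfulSMul G X]
    (h2 : IsMultiplyPretransitive G X 2) (N : Subgroup G) [hNn : N.Normal] [IsPreprimitive N X]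
    {T S : Type*} [Group T] [Group S] [Nontrivial T] [Nontrivial S] (ψ : N ≃* T × S) : False := by
  classical
  let fA : N →* S := (MonoidHom.snd T S).comp ψ.toMonoidHom
  let fC : N →* T := (MonoidHom.fst T S).comp ψ.toMonoidHom
  let A : Subgroup N := fA.ker
  let C : Subgroup N := fC.ker
  have hfAs : Function.Surjective fA := fun s => ⟨ψ.symm (1, s), by simp [fA]⟩
  have hfCs : Function.Surjective fC := fun t => ⟨ψ.symm (t, 1), by simp [fC]⟩
  have hA1 : A ≠ ⊥ := by
    obtain ⟨t, ht⟩ := exists_ne (1 : T)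
    intro hbot
    have : ψ.symm (t, 1) ∈ A := by
      show fA (ψ.symm (t, 1)) = 1
      simp [fA]
    rw [hbot, Subgroup.mem_bot] at this
    have h1 : ψ (ψ.symm (t, 1)) = ψ 1 := by rw [this]
    rw [ψ.apply_symm_apply, map_one] at h1
    exact ht (congrArg Prod.fst h1)
  have hC1 : C ≠ ⊥ := by
    obtain ⟨s, hs⟩ := exists_ne (1 : S)
    intro hbot
    have : ψ.symm (1, s) ∈ C := by
      show fC (ψ.symm (1, s)) = 1
      simp [fC]
    rw [hbot, Subgroup.mem_bot] at this
    have h1 : ψ (ψ.symm (1, s)) = ψ 1 := by rw [this]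
    rw [ψ.apply_symm_apply, map_one] at h1
    exact hs (congrArg Prod.snd h1)
  have hcomm : ∀ x ∈ A, ∀ y ∈ C, x * y = y * x := by
    intro x hx y hy
    have hx' : (ψ x).2 = 1 := hx
    have hy' : (ψ y).1 = 1 := hy
    apply ψ.injective
    rw [map_mul, map_mul]
    apply Prod.ext
    · simp [hy']
    · simp [hx']
  haveI hAt : IsPretransitive A X := normal_trans_of_prim (G := N) A hA1
  haveI hCt : IsPretransitive C X := normal_trans_of_prim (G := N) C hC1
  have hCfree : ∀ (a : X) (c : C), c • a = a → c = 1 := by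
    intro a c hc
    apply Subtype.ext
    apply FaithfulSMul.eq_of_smul_eq_smul (α := X)
    intro x
    rw [Subgroup.coe_one, one_smul]
    obtain ⟨α, rfl⟩ := MulAction.exists_smul_eq A a x
    have e : (c : N) * (α : N) = (α : N) * (c : N) := (hcomm α α.2 c c.2).symm
    show (c : N) • (α : N) • a = (α : N) • a
    rw [← mul_smul, e, mul_smul]
    have hc' : (c : N) • a = a := hc
    rw [hc']
  have hAfree : ∀ (a : X) (c : A), c • a = a → c = 1 := by
    intro a c hc
    apply Subtype.ext
    apply FaithfulSMul.eq_of_smul_eq_smul (α := X)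
    intro x
    rw [Subgroup.coe_one, one_smul]
    obtain ⟨α, rfl⟩ := MulAction.exists_smul_eq C a x
    have e : (c : N) * (α : N) = (α : N) * (c : N) := hcomm c c.2 α α.2
    show (c : N) • (α : N) • a = (α : N) • a
    rw [← mul_smul, e, mul_smul]
    have hc' : (c : N) • a = a := hc
    rw [hc']
  haveI : Nontrivial A := (Subgroup.nontrivial_iff_ne_bot A).2 hA1
  have hA2 : 1 < Nat.card A := Finite.one_lt_card
  obtain ⟨a⟩ : Nonempty X := by
    by_contra hemp
    rw [not_nonempty_iff] at hemp
    apply hA1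
    rw [eq_bot_iff]
    intro n _
    rw [Subgroup.mem_bot]
    apply FaithfulSMul.eq_of_smul_eq_smul (α := X)
    intro x
    exact hemp.elim x
  have hAn : Nat.card A = Nat.card X := card_eq_of_regular a (hAfree a)
  have hCn : Nat.card C = Nat.card X := card_eq_of_regular a (hCfree a)
  have hNTS : Nat.card N = Nat.card T * Nat.card S := by
    rw [Nat.card_congr ψ.toEquiv, Nat.card_prod]
  have hAS : Nat.card A * Nat.card S = Nat.card N := by
    have h1 := Subgroup.card_mul_index A
    have h3 : A.index = Nat.card S := by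
      have h4 := Subgroup.index_ker fA
      rw [MonoidHom.range_eq_top.2 hfAs, Subgroup.card_top] at h4
      exact h4
    rw [h3] at h1
    exact h1
  have hCT : Nat.card C * Nat.card T = Nat.card N := by
    have h1 := Subgroup.card_mul_index C
    have h3 : C.index = Nat.card T := by
      have h4 := Subgroup.index_ker fC
      rw [MonoidHom.range_eq_top.2 hfCs, Subgroup.card_top] at h4
      exact h4
    rw [h3] at h1
    exact h1
  have hNpos : 0 < Nat.card N := Nat.card_pos
  rw [hNTS] at hNpos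
  have hTpos : 0 < Nat.card T :=
    Nat.pos_of_ne_zero (fun h => by rw [h, zero_mul] at hNpos; exact lt_irrefl _ hNpos)
  have hSpos : 0 < Nat.card S :=
    Nat.pos_of_ne_zero (fun h => by rw [h, mul_zero] at hNpos; exact lt_irrefl _ hNpos)
  have hAT : Nat.card A = Nat.card T := by
    have : Nat.card A * Nat.card S = Nat.card T * Nat.card S := by rw [hAS, hNTS]
    exact Nat.eq_of_mul_eq_mul_right hSpos this
  have hCS : Nat.card C = Nat.card S := by
    have : Nat.card C * Nat.card T = Nat.card S * Nat.card T := by rw [hCT, hNTS, mul_comm]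
    exact Nat.eq_of_mul_eq_mul_right hTpos this
  have hNn2 : Nat.card N = Nat.card X * Nat.card X := by
    rw [hNTS, ← hAT, ← hCS, hAn, hCn]
  -- stabilizer
  haveI hNt : IsPretransitive N X := IsPreprimitive.toIsPretransitive
  let H := stabilizer N a
  have hH : Nat.card H = Nat.card X := by
    have h1 := Subgroup.card_mul_index H
    have h3 : H.index = Nat.card X := by
      rw [MulAction.index_stabilizer, MulAction.orbit_eq_univ, Set.ncard_univ]
    rw [h3, hNn2] at h1
    have hXpos : 0 < Nat.card X := by rw [← hAn]; omega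
    exact Nat.eq_of_mul_eq_mul_right hXpos h1
  have hT1 := SubMulAction.nat_card_ofStabilizer_add_one_eq N a
  have hX2 : 1 < Nat.card X := by rw [← hAn]; exact hA2
  have hTne : Nonempty (SubMulAction.ofStabilizer N a) := by
    apply (Nat.card_pos_iff.1 (by omega)).1
  obtain ⟨x₀⟩ := hTne
  have hc1 : Nat.card (orbit H x₀) ∣ Nat.card (SubMulAction.ofStabilizer N a) :=
    dvd_card_of_forall_orbit_card _ (fun x => stab_orbit_card_eq h2 N a x x₀)
  have hc2 : Nat.card (orbit H x₀) ∣ Nat.card H := by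
    haveI : Fintype H := Fintype.ofFinite H
    haveI : Fintype (orbit H x₀) := Fintype.ofFinite _
    haveI : Fintype (stabilizer H x₀) := Fintype.ofFinite _
    have := MulAction.card_orbit_mul_card_stabilizer_eq_card_group H x₀
    rw [Nat.card_eq_fintype_card, Nat.card_eq_fintype_card]
    exact Dvd.intro _ this
  have hc : Nat.card (orbit H x₀) = 1 := by
    have h3 : Nat.card (orbit H x₀) ∣ Nat.card X - Nat.card (SubMulAction.ofStabilizer N a) :=
      Nat.dvd_sub (hH ▸ hc2) hc1
    have h4 : Nat.card X - Nat.card (SubMulAction.ofStabilizer N a) = 1 := by omega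
    rw [h4] at h3
    exact Nat.dvd_one.1 h3
  have hall : ∀ x : SubMulAction.ofStabilizer N a, Nat.card (orbit H x) = 1 := fun x =>
    (stab_orbit_card_eq h2 N a x x₀).trans hc
  have hHbot : ∀ h : H, h = 1 := by
    intro h
    apply Subtype.ext
    apply FaithfulSMul.eq_of_smul_eq_smul (α := X)
    intro x
    rw [Subgroup.coe_one, one_smul]
    by_cases hxa : x = a
    · rw [hxa]; exact h.2
    · let x' : SubMulAction.ofStabilizer N a := ⟨x, (SubMulAction.mem_ofStabilizer_iff N a).2 hxa⟩
      haveI : Subsingleton (orbit H x') :=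
        (Finite.card_le_one_iff_subsingleton).1 (le_of_eq (hall x'))
      have h5 : (⟨h • x', ⟨h, rfl⟩⟩ : orbit H x') = ⟨x', MulAction.mem_orbit_self x'⟩ :=
        Subsingleton.elim _ _
      have h6 : h • x' = x' := congrArg Subtype.val h5
      exact congrArg Subtype.val h6
  have hH1 : Nat.card H = 1 := by
    haveI : Subsingleton H := ⟨fun u v => by rw [hHbot u, hHbot v]⟩
    exact Nat.card_of_subsingleton 1
  omega

/-- Burnside: minimal normal subgroups of 2-transitive groups -/
theorem burnside_min {G X : Type*} [Group G] [MulAction G X] [Finite G] [Finite X]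
    [FaithfulSMul G X]
    (h2 : IsMultiplyPretransitive G X 2) (N : Subgroup G) [hNn : N.Normal] (hN : N ≠ ⊥)
    (hmin : ∀ M : Subgroup G, M.Normal → M ≤ N → M = ⊥ ∨ M = N) :
    ((∀ x ∈ N, ∀ y ∈ N, x * y = y * x) ∧ (∃ p : ℕ, p.Prime ∧ ∀ x ∈ N, x ^ p = 1) ∧
      ∀ n ∈ N, ∀ a : X, n • a = a → n = 1) ∨ (IsSimpleGroup N ∧ IsPreprimitive N X) := by
  classical
  by_cases hreg : ∀ n ∈ N, ∀ a : X, n • a = a → n = 1
  · left
    obtain ⟨a₀⟩ : Nonempty X := by
      by_contra hemp
      rw [not_nonempty_iff] at hemp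
      apply hN
      rw [eq_bot_iff]
      intro n _
      rw [Subgroup.mem_bot]
      apply FaithfulSMul.eq_of_smul_eq_smul (α := X)
      intro x
      exact hemp.elim x
    obtain ⟨p, hp, hexp, hcomm⟩ := regular_min_normal h2 N hN a₀ hreg
    exact ⟨hcomm, ⟨p, hp, hexp⟩, hreg⟩
  · right
    push Not at hreg
    obtain ⟨n₀, hn₀, a₀, hn₀a, hn₀1⟩ := hreg
    haveI hprim : IsPreprimitive N X := prim_of_min_normal h2 N hN hmin ⟨n₀, hn₀, hn₀1, a₀, hn₀a⟩
    refine ⟨?_, hprim⟩
    obtain ⟨T, hT, m, hTs, hm, ⟨φ⟩⟩ := minimal_normal_prod N hN hmin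
    haveI := hTs
    rcases Nat.lt_or_ge m 2 with h | h
    · have hm1 : m = 1 := by omega
      subst hm1
      exact (φ.trans (MulEquiv.funUnique (Fin 1) T)).isSimpleGroup
    · exfalso
      obtain ⟨k, rfl⟩ : ∃ k, m = k + 2 := ⟨m - 2, by omega⟩
      exact no_prod_of_prim_two_trans h2 N (φ.trans (piFinSuccMulEquiv (k + 1) T).symm)

end Cfsg.Agent.Lib.Lead
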