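import Mathlib
import Cfsg.Prelude.Def_Characters
import Cfsg.Prelude.Def_Perm
import Cfsg.Agent.Lib.Lead.Char4

set_option autoImplicit false

namespace Cfsg.Agent.Lib.Lead

/-- the sum of the conjugates of a linear map intertwines -/
theorem avg_intertwining {G : Type*} [Group G] [Fintype G] {V W : Type*} [AddCommGroup V]
    [Module ℂ V] [AddCommGroup W] [Module ℂ W] (ρ : Representation ℂ G V)
    (σ : Representation ℂ G W) (Y : V →ₗ[ℂ] W) (h : G) :
    (∑ g : G, σ g ∘ₗ Y ∘ₗ ρ g⁻¹) ∘ₗ ρ h = σ h ∘ₗ (∑ g : G, σ g ∘ₗ Y ∘ₗ ρ g⁻¹) := by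
  apply LinearMap.ext
  intro v
  simp only [LinearMap.comp_apply, LinearMap.sum_apply, map_sum]
  apply Fintype.sum_equiv (Equiv.mulLeft h⁻¹)
  intro g
  show σ g (Y (ρ g⁻¹ (ρ h v))) = σ h (σ (h⁻¹ * g) (Y (ρ (h⁻¹ * g)⁻¹ v)))
  rw [← Module.End.mul_apply (σ h), ← map_mul, mul_inv_cancel_left,
    ← Module.End.mul_apply (ρ g⁻¹), ← map_mul, mul_inv_rev, inv_inv]

theorem permRep_character {G : Type*} [Group G] {Ω : Type*} [Fintype Ω] [MulAction G Ω] (g : G) :
    (Cfsg.permRep ℂ G Ω).character g = (Nat.card (MulAction.fixedBy Ω g) : ℂ) := by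
  classical
  unfold Representation.character
  rw [LinearMap.trace_eq_matrix_trace ℂ (Pi.basisFun ℂ Ω), Matrix.trace]
  have h : ∀ a : Ω, (LinearMap.toMatrix (Pi.basisFun ℂ Ω) (Pi.basisFun ℂ Ω)
      (Cfsg.permRep ℂ G Ω g)).diag a = if g • a = a then 1 else 0 := by
    intro a
    rw [Matrix.diag_apply, LinearMap.toMatrix_apply, Pi.basisFun_apply, Pi.basisFun_repr]
    show (Pi.single a (1 : ℂ) : Ω → ℂ) (g⁻¹ • a) = _
    rw [Pi.single_apply]
    by_cases ha : g • a = a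
    · rw [if_pos ha, if_pos (by rw [inv_smul_eq_iff, ha])]
    · rw [if_neg ha, if_neg (by rw [inv_smul_eq_iff]; exact fun h => ha h.symm)]
  simp only [h]
  rw [Finset.sum_boole, Nat.card_eq_fintype_card, Fintype.card_subtype]
  rfl

theorem mult_free_comm {G : Type*} [Group G] [Fintype G] {Ω : Type*} [Fintype Ω] [MulAction G Ω]
    (hmf : ∀ χ : G → ℂ, Cfsg.IsIrrCharacter G χ →
      Cfsg.classInner (fun g : G => (Nat.card (MulAction.fixedBy Ω g) : ℂ)) χ = 0 ∨
      Cfsg.classInner (fun g : G => (Nat.card (MulAction.fixedBy Ω g) : ℂ)) χ = 1)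
    (S T : (Ω → ℂ) →ₗ[ℂ] (Ω → ℂ))
    (hS : ∀ g : G, S ∘ₗ Cfsg.permRep ℂ G Ω g = Cfsg.permRep ℂ G Ω g ∘ₗ S)
    (hT : ∀ g : G, T ∘ₗ Cfsg.permRep ℂ G Ω g = Cfsg.permRep ℂ G Ω g ∘ₗ T) :
    S ∘ₗ T = T ∘ₗ S := by
  classical
  haveI : Fintype (Cfsg.IrrCharacter G) := Fintype.ofFinite _
  obtain ⟨σ, hσ⟩ : ∃ σ : Representation ℂ G (Ω → ℂ), σ = Cfsg.permRep ℂ G Ω := ⟨_, rfl⟩
  rw [← hσ] at hS hT
  have hπ : σ.character = fun g : G => (Nat.card (MulAction.fixedBy Ω g) : ℂ) := by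
    rw [hσ]
    exact funext permRep_character
  obtain ⟨R, hR⟩ : ∃ R : (Ω → ℂ) →ₗ[ℂ] (Ω → ℂ), R = S ∘ₗ T - T ∘ₗ S := ⟨_, rfl⟩
  have step : ∀ χ : Cfsg.IrrCharacter G, ∀ v : Ω → ℂ,
      ∑ g : G, (starRingEnd ℂ) (χ.1 g) • R (σ g v) = 0 := by
    intro χ v
    obtain ⟨n, ρ, hρ, hρχ⟩ := χ.2
    haveI := hρ
    have hfr : Module.finrank ℂ (Representation.IntertwiningMap ρ σ) ≤ 1 := by
      have h1 := classInner_char ρ σ
      rw [hπ, hρχ] at h1
      rcases hmf χ.1 χ.2 with h0 | h0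
      · rw [h0] at h1
        have : Module.finrank ℂ (Representation.IntertwiningMap ρ σ) = 0 := by
          exact_mod_cast h1.symm
        omega
      · rw [h0] at h1
        have : Module.finrank ℂ (Representation.IntertwiningMap ρ σ) = 1 := by
          exact_mod_cast h1.symm
        omega
    obtain ⟨f₀, hf₀⟩ := finrank_le_one_iff.mp hfr
    have hRf : ∀ f : Representation.IntertwiningMap ρ σ, R ∘ₗ f.toLinearMap = 0 := by
      intro f
      obtain ⟨c, hc⟩ := hf₀ f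
      obtain ⟨s, hs⟩ := hf₀ ⟨S ∘ₗ f₀.toLinearMap, fun g => by
        rw [LinearMap.comp_assoc, f₀.isIntertwining' g, ← LinearMap.comp_assoc, hS g,
          LinearMap.comp_assoc]⟩
      obtain ⟨t, ht⟩ := hf₀ ⟨T ∘ₗ f₀.toLinearMap, fun g => by
        rw [LinearMap.comp_assoc, f₀.isIntertwining' g, ← LinearMap.comp_assoc, hT g,
          LinearMap.comp_assoc]⟩
      have hs' : S ∘ₗ f₀.toLinearMap = s • f₀.toLinearMap :=
        (congrArg Representation.IntertwiningMap.toLinearMap hs).symm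
      have ht' : T ∘ₗ f₀.toLinearMap = t • f₀.toLinearMap :=
        (congrArg Representation.IntertwiningMap.toLinearMap ht).symm
      have h0 : R ∘ₗ f₀.toLinearMap = 0 := by
        rw [hR, LinearMap.sub_comp, LinearMap.comp_assoc, LinearMap.comp_assoc, ht', hs',
          LinearMap.comp_smul, LinearMap.comp_smul, hs', ht', smul_smul, smul_smul, mul_comm,
          sub_self]
      have hc' : f.toLinearMap = c • f₀.toLinearMap :=
        (congrArg Representation.IntertwiningMap.toLinearMap hc).symm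
      rw [hc', LinearMap.comp_smul, h0, smul_zero]
    have hRY : ∀ Y : (Fin n → ℂ) →ₗ[ℂ] (Ω → ℂ), R ∘ₗ (∑ g : G, σ g ∘ₗ Y ∘ₗ ρ g⁻¹) = 0 := by
      intro Y
      exact hRf ⟨_, avg_intertwining ρ σ Y⟩
    have h3 : ∀ i : Fin n, ∑ g : G, (ρ g⁻¹ (Pi.single i 1)) i • R (σ g v) = 0 := by
      intro i
      have h4 := congrArg (fun F : (Fin n → ℂ) →ₗ[ℂ] (Ω → ℂ) => F (Pi.single i 1))
        (hRY ((LinearMap.proj i : (Fin n → ℂ) →ₗ[ℂ] ℂ).smulRight v))
      simp only [LinearMap.comp_apply, LinearMap.sum_apply, LinearMap.zero_apply, map_sum,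
        LinearMap.smulRight_apply, LinearMap.proj_apply, map_smul] at h4
      exact h4
    have h5 : ∑ g : G, ρ.character g⁻¹ • R (σ g v) = 0 := by
      have h6 : ∀ g : G, ρ.character g⁻¹ = ∑ i : Fin n, (ρ g⁻¹ (Pi.single i 1)) i := by
        intro g
        unfold Representation.character
        rw [LinearMap.trace_eq_matrix_trace ℂ (Pi.basisFun ℂ (Fin n)), Matrix.trace]
        apply Finset.sum_congr rfl
        intro i _
        rw [Matrix.diag_apply, LinearMap.toMatrix_apply, Pi.basisFun_apply, Pi.basisFun_repr]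
      simp only [h6, Finset.sum_smul]
      rw [Finset.sum_comm]
      exact Finset.sum_eq_zero (fun i _ => h3 i)
    rw [← h5]
    apply Finset.sum_congr rfl
    intro g _
    rw [← hρχ, char_inv]
  have hR0 : R = 0 := by
    apply LinearMap.ext
    intro v
    have h7 : ∑ χ : Cfsg.IrrCharacter G,
        χ.1 1 • ∑ g : G, (starRingEnd ℂ) (χ.1 g) • R (σ g v) = 0 :=
      Finset.sum_eq_zero (fun χ _ => by rw [step χ v, smul_zero])
    simp only [Finset.smul_sum, smul_smul] at h7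
    rw [Finset.sum_comm] at h7
    simp only [← Finset.sum_smul] at h7
    simp only [col_orth' (1 : G)] at h7
    rw [Finset.sum_eq_single 1] at h7
    · rw [if_pos (IsConj.refl 1), map_one, Module.End.one_apply] at h7
      rcases smul_eq_zero.mp h7 with h8 | h8
      · exfalso
        have h9 : (Nat.card (Subgroup.centralizer ({1} : Set G)) : ℂ) ≠ 0 := by
          exact_mod_cast Nat.card_pos.ne'
        exact h9 h8
      · exact h8
    · intro g _ hg
      rw [if_neg, zero_smul]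
      intro hc
      exact hg (isConj_one_right.mp hc)
    · intro h
      exact absurd (Finset.mem_univ _) h
  rw [hR0] at hR
  exact sub_eq_zero.mp hR.symm

theorem comm_mult_free {G : Type*} [Group G] [Fintype G] {Ω : Type*} [Fintype Ω] [MulAction G Ω]
    (hcomm : ∀ S T : (Ω → ℂ) →ₗ[ℂ] (Ω → ℂ),
      (∀ g : G, S ∘ₗ Cfsg.permRep ℂ G Ω g = Cfsg.permRep ℂ G Ω g ∘ₗ S) →
      (∀ g : G, T ∘ₗ Cfsg.permRep ℂ G Ω g = Cfsg.permRep ℂ G Ω g ∘ₗ T) → S ∘ₗ T = T ∘ₗ S)
    (χ : G → ℂ) (hχ : Cfsg.IsIrrCharacter G χ) :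
    Cfsg.classInner (fun g : G => (Nat.card (MulAction.fixedBy Ω g) : ℂ)) χ = 0 ∨
      Cfsg.classInner (fun g : G => (Nat.card (MulAction.fixedBy Ω g) : ℂ)) χ = 1 := by
  classical
  obtain ⟨σ, hσ⟩ : ∃ σ : Representation ℂ G (Ω → ℂ), σ = Cfsg.permRep ℂ G Ω := ⟨_, rfl⟩
  rw [← hσ] at hcomm
  have hπ : σ.character = fun g : G => (Nat.card (MulAction.fixedBy Ω g) : ℂ) := by
    rw [hσ]
    exact funext permRep_character
  obtain ⟨n, ρ, hρ, hρχ⟩ := hχ
  haveI := hρ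
  have h1 := classInner_char ρ σ
  rw [hπ, hρχ] at h1
  rw [h1]
  suffices hfr : Module.finrank ℂ (Representation.IntertwiningMap ρ σ) ≤ 1 by
    rcases Nat.le_one_iff_eq_zero_or_eq_one.mp hfr with h | h
    · left; rw [h]; simp
    · right; rw [h]; simp
  rw [finrank_le_one_iff]
  by_cases hex : ∃ f : Representation.IntertwiningMap ρ σ, f ≠ 0
  swap
  · push Not at hex
    exact ⟨0, fun w => ⟨0, by rw [hex w]; simp⟩⟩
  obtain ⟨f, hf⟩ := hex
  refine ⟨f, fun f' => ?_⟩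
  have hne : ∃ u₀ : Fin n → ℂ, ∃ ω : Ω, f u₀ ω ≠ 0 := by
    by_contra hcon
    push Not at hcon
    apply hf
    apply Representation.IntertwiningMap.ext
    apply LinearMap.ext
    intro u
    funext ω
    exact hcon u ω
  obtain ⟨u₀, ω, hu⟩ := hne
  obtain ⟨q₀, hq₀⟩ : ∃ q₀ : (Ω → ℂ) →ₗ[ℂ] (Fin n → ℂ),
      q₀ = (LinearMap.proj ω : (Ω → ℂ) →ₗ[ℂ] ℂ).smulRight u₀ := ⟨_, rfl⟩
  obtain ⟨q, hq⟩ : ∃ q : Representation.IntertwiningMap σ ρ,
      q.toLinearMap = ∑ g : G, ρ g ∘ₗ q₀ ∘ₗ σ g⁻¹ := ⟨⟨_, avg_intertwining σ ρ q₀⟩, rfl⟩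
  obtain ⟨c₀, hc₀⟩ :=
    (Representation.IsIrreducible.algebraMap_intertwiningMap_bijective_of_isAlgClosed (ρ := ρ)).2
      (q.comp f)
  have hc₀' : q.toLinearMap ∘ₗ f.toLinearMap = c₀ • (1 : Module.End ℂ (Fin n → ℂ)) := by
    have h2 := congrArg Representation.IntertwiningMap.toLinearMap hc₀
    rw [Representation.IntertwiningMap.algebraMap_apply] at h2
    exact h2.symm
  obtain ⟨c₁, hc₁⟩ :=
    (Representation.IsIrreducible.algebraMap_intertwiningMap_bijective_of_isAlgClosed (ρ := ρ)).2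
      (q.comp f')
  have hc₁' : q.toLinearMap ∘ₗ f'.toLinearMap = c₁ • (1 : Module.End ℂ (Fin n → ℂ)) := by
    have h2 := congrArg Representation.IntertwiningMap.toLinearMap hc₁
    rw [Representation.IntertwiningMap.algebraMap_apply] at h2
    exact h2.symm
  have hc₀ne : c₀ ≠ 0 := by
    intro h0
    have htr : LinearMap.trace ℂ (Fin n → ℂ) (q.toLinearMap ∘ₗ f.toLinearMap)
        = (Fintype.card G : ℂ) * f u₀ ω := by
      have e0 : (∑ g : G, ρ g ∘ₗ q₀ ∘ₗ σ g⁻¹) ∘ₗ f.toLinearMap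
          = ∑ g : G, (ρ g ∘ₗ q₀ ∘ₗ σ g⁻¹) ∘ₗ f.toLinearMap := by
        apply LinearMap.ext
        intro v
        simp only [LinearMap.comp_apply, LinearMap.sum_apply]
      rw [hq, e0, map_sum]
      have h3 : ∀ g : G, LinearMap.trace ℂ (Fin n → ℂ)
          ((ρ g ∘ₗ q₀ ∘ₗ σ g⁻¹) ∘ₗ f.toLinearMap) = f u₀ ω := by
        intro g
        have e : (ρ g ∘ₗ q₀ ∘ₗ σ g⁻¹) ∘ₗ f.toLinearMap
            = ρ g * ((q₀ ∘ₗ f.toLinearMap) * ρ g⁻¹) := by
          rw [Module.End.mul_eq_comp, Module.End.mul_eq_comp, LinearMap.comp_assoc,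
            LinearMap.comp_assoc, LinearMap.comp_assoc, f.isIntertwining' g⁻¹]
        rw [e, LinearMap.trace_mul_comm, mul_assoc, ← map_mul, inv_mul_cancel, map_one, mul_one]
        have e2 : q₀ ∘ₗ f.toLinearMap
            = ((LinearMap.proj ω : (Ω → ℂ) →ₗ[ℂ] ℂ) ∘ₗ f.toLinearMap).smulRight u₀ := by
          apply LinearMap.ext
          intro u
          rw [hq₀]
          rfl
        rw [e2, LinearMap.trace_smulRight]
        rfl
      rw [Finset.sum_congr rfl (fun g _ => h3 g), Finset.sum_const, Finset.card_univ,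
        nsmul_eq_mul]
    rw [hc₀', h0, zero_smul, map_zero] at htr
    have hG : (Fintype.card G : ℂ) ≠ 0 := by exact_mod_cast Fintype.card_ne_zero
    exact (mul_ne_zero hG hu) htr.symm
  have hqf : ∀ u : Fin n → ℂ, q (f u) = c₀ • u := by
    intro u
    have h2 := congrArg (fun F : Module.End ℂ (Fin n → ℂ) => F u) hc₀'
    exact h2
  have hqf' : ∀ u : Fin n → ℂ, q (f' u) = c₁ • u := by
    intro u
    have h2 := congrArg (fun F : Module.End ℂ (Fin n → ℂ) => F u) hc₁'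
    exact h2
  have hST := hcomm (f'.toLinearMap ∘ₗ q.toLinearMap) (f.toLinearMap ∘ₗ q.toLinearMap)
    (fun g => by
      rw [LinearMap.comp_assoc, q.isIntertwining' g, ← LinearMap.comp_assoc, f'.isIntertwining' g,
        LinearMap.comp_assoc])
    (fun g => by
      rw [LinearMap.comp_assoc, q.isIntertwining' g, ← LinearMap.comp_assoc, f.isIntertwining' g,
        LinearMap.comp_assoc])
  refine ⟨c₁ / c₀, ?_⟩
  apply Representation.IntertwiningMap.ext
  apply LinearMap.ext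
  intro u
  have h2 := congrArg (fun F : (Ω → ℂ) →ₗ[ℂ] (Ω → ℂ) => F (f u)) hST
  have h3 : f' (q (f (q (f u)))) = f (q (f' (q (f u)))) := h2
  have e1 : f' (q (f (q (f u)))) = c₀ • (c₀ • f' u) := by
    rw [hqf u, map_smul, map_smul, hqf u, map_smul, map_smul]
  have e2 : f (q (f' (q (f u)))) = c₀ • (c₁ • f u) := by
    rw [hqf u, map_smul, map_smul, hqf' u, map_smul, map_smul]
  show (c₁ / c₀) • f u = f' u
  have h4 : c₀ • (c₀ • f' u) = c₀ • (c₁ • f u) := by rw [← e1, ← e2, h3]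
  have h5 : c₀ • f' u = c₁ • f u := smul_right_injective _ hc₀ne h4
  rw [div_eq_inv_mul, ← smul_smul, ← h5, smul_smul, inv_mul_cancel₀ hc₀ne, one_smul]

theorem mult_free_iff_comm {G : Type*} [Group G] [Fintype G] {Ω : Type*} [Fintype Ω]
    [MulAction G Ω] :
    (∀ χ : G → ℂ, Cfsg.IsIrrCharacter G χ →
      Cfsg.classInner (fun g : G => (Nat.card (MulAction.fixedBy Ω g) : ℂ)) χ = 0 ∨
      Cfsg.classInner (fun g : G => (Nat.card (MulAction.fixedBy Ω g) : ℂ)) χ = 1) ↔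
    ∀ S T : (Ω → ℂ) →ₗ[ℂ] (Ω → ℂ),
      S ∈ ((Cfsg.permRep ℂ G Ω).linHom (Cfsg.permRep ℂ G Ω)).invariants →
      T ∈ ((Cfsg.permRep ℂ G Ω).linHom (Cfsg.permRep ℂ G Ω)).invariants → S ∘ₗ T = T ∘ₗ S := by
  have key : ∀ S : (Ω → ℂ) →ₗ[ℂ] (Ω → ℂ),
      S ∈ ((Cfsg.permRep ℂ G Ω).linHom (Cfsg.permRep ℂ G Ω)).invariants ↔
        ∀ g : G, S ∘ₗ Cfsg.permRep ℂ G Ω g = Cfsg.permRep ℂ G Ω g ∘ₗ S := by
    intro S
    rw [Representation.mem_invariants]
    constructor
    · intro h g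
      have h1 := h g
      rw [Representation.linHom_apply] at h1
      have h2 := congrArg (fun F : (Ω → ℂ) →ₗ[ℂ] (Ω → ℂ) => F ∘ₗ Cfsg.permRep ℂ G Ω g) h1
      simp only [LinearMap.comp_assoc] at h2
      rw [← Module.End.mul_eq_comp (Cfsg.permRep ℂ G Ω g⁻¹), ← map_mul, inv_mul_cancel, map_one,
        Module.End.one_eq_id, LinearMap.comp_id] at h2
      exact h2.symm
    · intro h g
      rw [Representation.linHom_apply, ← LinearMap.comp_assoc, ← h g, LinearMap.comp_assoc,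
        ← Module.End.mul_eq_comp (Cfsg.permRep ℂ G Ω g), ← map_mul, mul_inv_cancel, map_one,
        Module.End.one_eq_id, LinearMap.comp_id]
  constructor
  · intro hmf S T hS hT
    exact mult_free_comm hmf S T ((key S).mp hS) ((key T).mp hT)
  · intro hcomm χ hχ
    exact comm_mult_free (fun S T hS hT => hcomm S T ((key S).mpr hS) ((key T).mpr hT)) χ hχ

end Cfsg.Agent.Lib.Lead
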