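import Mathlib
import Cfsg.Prelude.Def_Characters
import Cfsg.Agent.Lib.Lead.Char15
import Cfsg.Agent.Lib.Lead.Char9
import Cfsg.Agent.Lib.Lead.Brauer4

set_option autoImplicit false

namespace Cfsg.Agent.Lib.Lead

/-- a weighted orbit count modulo `p` -/
theorem orbit_sum_dvd {E X : Type*} [Group E] [MulAction E X] [Fintype X] (p : ℕ)
    (w : X → ℕ) (hw : ∀ (g : E) (x : X), w (g • x) = w x)
    (horb : ∀ x : X, ∃ k : ℕ, Nat.card (MulAction.orbit E x) = p ^ k)
    (hfix : ∀ x : X, (∀ g : E, g • x = x) → p ∣ w x) : p ∣ ∑ x, w x := by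
  classical
  haveI : Fintype (MulAction.orbitRel.Quotient E X) := Fintype.ofFinite _
  rw [← Finset.sum_fiberwise Finset.univ
    (fun x => (Quotient.mk'' x : MulAction.orbitRel.Quotient E X)) w]
  apply Finset.dvd_sum
  intro q _
  induction q using Quotient.inductionOn' with
  | h x0 =>
    have h1 : ∀ x ∈ Finset.univ.filter (fun x =>
        (Quotient.mk'' x : MulAction.orbitRel.Quotient E X) = Quotient.mk'' x0), w x = w x0 := by
      intro x hx
      rw [Finset.mem_filter] at hx
      have h2 := Quotient.eq''.mp hx.2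
      rw [MulAction.orbitRel_apply] at h2
      obtain ⟨g, rfl⟩ := h2
      exact hw g x0
    rw [Finset.sum_congr rfl h1, Finset.sum_const, smul_eq_mul]
    have h3 : Nat.card (MulAction.orbit E x0) = (Finset.univ.filter (fun x =>
        (Quotient.mk'' x : MulAction.orbitRel.Quotient E X) = Quotient.mk'' x0)).card := by
      apply Nat.subtype_card
      intro x
      rw [Finset.mem_filter]
      constructor
      · rintro ⟨-, hx⟩
        have h2 := Quotient.eq''.mp hx
        rw [MulAction.orbitRel_apply] at h2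
        exact h2
      · intro hx
        refine ⟨Finset.mem_univ _, Quotient.eq''.mpr ?_⟩
        rw [MulAction.orbitRel_apply]
        exact hx
    obtain ⟨k, hk⟩ := horb x0
    rw [← h3, hk]
    rcases Nat.eq_zero_or_pos k with rfl | hkpos
    · rw [pow_zero] at hk
      haveI : Subsingleton (MulAction.orbit E x0) := (Nat.card_eq_one_iff_unique.mp hk).1
      have hfixed : ∀ g : E, g • x0 = x0 := by
        intro g
        exact Subtype.ext_iff.mp (Subsingleton.elim
          (⟨g • x0, MulAction.mem_orbit x0 g⟩ : MulAction.orbit E x0)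
          ⟨x0, MulAction.mem_orbit_self x0⟩)
      exact Dvd.dvd.mul_left (hfix x0 hfixed) _
    · exact Dvd.dvd.mul_right (dvd_pow_self p hkpos.ne') _

theorem classInner_conjFun_conjFun {G : Type*} [Group G] (H : Subgroup G) [hN : H.Normal]
    [Fintype H] (a b : H → ℂ) (g : G) :
    Cfsg.classInner (conjFun H a g) (conjFun H b g) = Cfsg.classInner a b := by
  unfold Cfsg.classInner
  congr 1
  exact Fintype.sum_equiv (MulAut.conjNormal g : H ≃* H).toEquiv _ _ (fun x => rfl)

/-- the core step of Dade's detection argument -/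
theorem dade_core {E : Type*} [Group E] [Fintype E] (p : ℕ) (hp : p.Prime) (D : Subgroup E)
    [hD : D.Normal] [Fintype D] (hind : ∃ k, D.index = p ^ k)
    (ξ : D → ℂ) (hξ : Cfsg.IsCharacter D ξ) (hinv : ∀ g : E, conjFun D ξ g = ξ)
    (lam : E → ℂ) (hlam : Cfsg.IsCharacter E lam) (z : ℕ)
    (hz : Cfsg.classInner (fun d : D => lam d * ξ d) ξ = (z : ℂ)) (hpz : ¬ p ∣ z) :
    ∃ φ : D → ℂ, Cfsg.IsIrrCharacter D φ ∧ (∀ g : E, conjFun D φ g = φ) ∧
      ∃ m : ℕ, ¬ p ∣ m ∧ Cfsg.classInner ξ φ = (m : ℂ) := by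
  classical
  haveI : Fintype (Cfsg.IrrCharacter D) := Fintype.ofFinite _
  letI act : MulAction E (Cfsg.IrrCharacter D) :=
    { smul := fun g φ => ⟨conjFun D φ.1 g⁻¹, isIrrCharacter_conjFun D φ.2 g⁻¹⟩
      one_smul := by
        intro φ
        apply Subtype.ext
        show conjFun D φ.1 (1 : E)⁻¹ = φ.1
        rw [inv_one, conjFun_one]
      mul_smul := by
        intro g h φ
        apply Subtype.ext
        show conjFun D φ.1 (g * h)⁻¹ = conjFun D (conjFun D φ.1 h⁻¹) g⁻¹
        rw [conjFun_mul, mul_inv_rev] }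
  have hsmul : ∀ (g : E) (φ : Cfsg.IrrCharacter D), (g • φ).1 = conjFun D φ.1 g⁻¹ :=
    fun g φ => rfl
  obtain ⟨m, hm⟩ := isCharacter_decomp hξ
  have hmφ : ∀ φ : Cfsg.IrrCharacter D, Cfsg.classInner ξ φ.1 = (m φ : ℂ) := by
    intro φ
    conv_lhs => rw [hm]
    exact classInner_nat_comb (fun φ => (m φ : ℂ)) φ
  set lamξ : D → ℂ := fun d : D => lam d * ξ d with hlamξ
  have hlamξ_char : Cfsg.IsCharacter D lamξ := by
    have := isCharacter_mul (isCharacter_restrict D hlam) hξ
    exact this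
  have ha : ∀ φ : Cfsg.IrrCharacter D, ∃ n : ℕ, Cfsg.classInner lamξ φ.1 = (n : ℂ) :=
    fun φ => classInner_char_nat hlamξ_char (isCharacter_of_irr φ.2)
  choose a ha using ha
  have hzsum : z = ∑ φ, m φ * a φ := by
    have h1 : (z : ℂ) = ((∑ φ, m φ * a φ : ℕ) : ℂ) := by
      rw [← hz]
      conv_lhs => rw [hm]
      rw [classInner_sum_right, Nat.cast_sum]
      refine Finset.sum_congr rfl (fun φ _ => ?_)
      rw [classInner_smul_right, ha φ, Complex.conj_natCast, Nat.cast_mul]
    exact_mod_cast h1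
  have hlamξ_inv : ∀ g : E, conjFun D lamξ g = lamξ := by
    intro g
    funext d
    rw [conjFun_apply]
    show lam (g * d * g⁻¹) * ξ ⟨g * d * g⁻¹, _⟩ = lam d * ξ d
    have h1 : lam (g * d * g⁻¹) = lam d := isClassFunction_of_char hlam d g
    have h2 : ξ ⟨g * d * g⁻¹, hD.conj_mem d d.2 g⟩ = ξ d := by
      have := congrFun (hinv g) d
      rw [conjFun_apply] at this
      exact this
    rw [h1, h2]
  have hm_inv : ∀ (g : E) (φ : Cfsg.IrrCharacter D), m (g • φ) = m φ := by
    intro g φ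
    have h1 : (m (g • φ) : ℂ) = (m φ : ℂ) := by
      rw [← hmφ, ← hmφ, hsmul]
      conv_lhs => rw [← hinv g⁻¹]
      exact classInner_conjFun_conjFun D ξ φ.1 g⁻¹
    exact_mod_cast h1
  have ha_inv : ∀ (g : E) (φ : Cfsg.IrrCharacter D), a (g • φ) = a φ := by
    intro g φ
    have h1 : (a (g • φ) : ℂ) = (a φ : ℂ) := by
      rw [← ha, ← ha, hsmul]
      conv_lhs => rw [← hlamξ_inv g⁻¹]
      exact classInner_conjFun_conjFun D lamξ φ.1 g⁻¹
    exact_mod_cast h1
  have horb : ∀ φ : Cfsg.IrrCharacter D, ∃ k : ℕ, Nat.card (MulAction.orbit E φ) = p ^ k := by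
    intro φ
    have h1 : D ≤ MulAction.stabilizer E φ := by
      intro d hd
      rw [MulAction.mem_stabilizer_iff]
      apply Subtype.ext
      rw [hsmul]
      funext h
      rw [conjFun_apply]
      have := isClassFunction_of_char (isCharacter_of_irr φ.2) h (⟨d, hd⟩⁻¹ : D)
      rw [← this]
      congr 1
    obtain ⟨k, hk⟩ := hind
    have h2 : (MulAction.stabilizer E φ).index ∣ p ^ k := by
      rw [← hk]
      exact Subgroup.index_dvd_of_le h1
    obtain ⟨j, -, hj⟩ := (Nat.dvd_prime_pow hp).mp h2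
    refine ⟨j, ?_⟩
    rw [← hj, MulAction.index_stabilizer, Nat.card_coe_set_eq]
  by_contra hcon
  apply hpz
  rw [hzsum]
  apply orbit_sum_dvd (E := E) p (fun φ => m φ * a φ)
  · intro g φ
    show m (g • φ) * a (g • φ) = m φ * a φ
    rw [hm_inv, ha_inv]
  · exact horb
  · intro φ hφ
    by_contra hnd
    apply hcon
    refine ⟨φ.1, φ.2, ?_, m φ, ?_, hmφ φ⟩
    · intro g
      have := hφ g⁻¹
      have h2 := congrArg Subtype.val this
      rw [hsmul, inv_inv] at h2
      exact h2
    · intro hdvd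
      exact hnd (Dvd.dvd.mul_right hdvd _)

end Cfsg.Agent.Lib.Lead
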