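import Mathlib
import Cfsg.Prelude.Def_Characters
import Cfsg.Agent.Lib.Lead.Dade1
import Cfsg.Agent.Lib.Lead.Char13

set_option autoImplicit false

namespace Cfsg.Agent.Lib.Lead

open ComplexConjugate

theorem ind_normal_sum {G : Type*} [Group G] [Fintype G] (N : Subgroup G) [hN : N.Normal]
    [Fintype N] (E : Subgroup G) (lam : E → ℂ) (F : N → ℂ) (hF : ∀ g : G, conjFun N F g = F) :
    ∑ n : N, Cfsg.indFun E lam n * F n =
      (Nat.card E : ℂ)⁻¹ * (Nat.card G : ℂ) * ∑ n : N, Cfsg.extendByZero E lam n * F n := by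
  have h1 : ∀ x : G, ∑ n : N, Cfsg.extendByZero E lam (x⁻¹ * n * x) * F n =
      ∑ n : N, Cfsg.extendByZero E lam n * F n := by
    intro x
    apply Fintype.sum_equiv (MulAut.conjNormal x⁻¹ : N ≃* N).toEquiv
    intro n
    have e1 : (((MulAut.conjNormal x⁻¹ : N ≃* N).toEquiv n : N) : G) = x⁻¹ * n * x := by
      show x⁻¹ * (n : G) * x⁻¹⁻¹ = _
      rw [inv_inv]
    have e2 : F ((MulAut.conjNormal x⁻¹ : N ≃* N).toEquiv n) = F n := by
      have := congrFun (hF x⁻¹) n
      rw [conjFun_apply] at this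
      exact this
    rw [e1, e2]
  have h2 : ∀ n : N, Cfsg.indFun E lam n * F n =
      (Nat.card E : ℂ)⁻¹ * ∑ x : G, Cfsg.extendByZero E lam (x⁻¹ * n * x) * F n := by
    intro n
    rw [indFun_apply, mul_assoc, Finset.sum_mul]
  rw [Finset.sum_congr rfl (fun n _ => h2 n), ← Finset.mul_sum, Finset.sum_comm,
    Finset.sum_congr rfl (fun x _ => h1 x), Finset.sum_const, Finset.card_univ, nsmul_eq_mul,
    Nat.card_eq_fintype_card (α := G), mul_assoc]

theorem sum_extend_subgroupOf {G : Type*} [Group G] (N : Subgroup G) [Fintype N]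
    (E : Subgroup G) [Fintype (N.subgroupOf E)] (lam : E → ℂ) (F : N → ℂ) :
    ∑ n : N, Cfsg.extendByZero E lam n * F n =
      ∑ d : N.subgroupOf E, lam d * F ⟨((d : E) : G), Subgroup.mem_subgroupOf.mp d.2⟩ := by
  symm
  apply Fintype.sum_of_injective
    (fun d : N.subgroupOf E => (⟨((d : E) : G), Subgroup.mem_subgroupOf.mp d.2⟩ : N))
  · intro d1 d2 h
    apply Subtype.ext
    apply Subtype.ext
    have h' : ((d1 : E) : G) = ((d2 : E) : G) := congrArg (fun n : N => (n : G)) h
    exact h'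
  · intro n hn
    have hnE : (n : G) ∉ E := by
      intro hE
      apply hn
      exact ⟨⟨⟨n, hE⟩, Subgroup.mem_subgroupOf.mpr n.2⟩, rfl⟩
    rw [extendByZero_not_mem E _ hnE, zero_mul]
  · intro d
    show lam d * _ = Cfsg.extendByZero E lam ((d : E) : G) * _
    rw [extendByZero_mem' E lam (d : E).2]

/-- Dade's detection theorem -/
theorem dade_detect {G : Type*} [Group G] [Fintype G] (p : ℕ) (hp : p.Prime) (N : Subgroup G)
    [hN : N.Normal] (hind : ∃ k : ℕ, N.index = p ^ k) (ϑ : N → ℂ)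
    (hϑ : Cfsg.IsIrrCharacter N ϑ)
    (hinv : ∀ (g : G) (n : N), ϑ ⟨g * n * g⁻¹, hN.conj_mem n n.2 g⟩ = ϑ n) :
    ∃ (E : Subgroup G) (φ : ↥(E ⊓ N) → ℂ), Cfsg.IsElementary p E ∧ E ⊔ N = ⊤ ∧
      Cfsg.IsIrrCharacter ↥(E ⊓ N) φ ∧
      (∀ (g : G) (hg : g ∈ E) (x : ↥(E ⊓ N)),
        φ ⟨g * x * g⁻¹, ⟨E.mul_mem (E.mul_mem hg x.2.1) (E.inv_mem hg),
          hN.conj_mem (x : G) x.2.2 g⟩⟩ = φ x) ∧
      ∃ m : ℕ, ¬ p ∣ m ∧ (Nat.card ↥(E ⊓ N) : ℂ)⁻¹ *
        ∑ᶠ x : ↥(E ⊓ N), ϑ ⟨(x : G), x.2.2⟩ * conj (φ x) = (m : ℂ) := by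
  classical
  haveI : Fintype N := Fintype.ofFinite N
  by_contra hcon
  obtain ⟨k, hk⟩ := hind
  set F : N → ℂ := fun n => ϑ n * conj (ϑ n) with hFdef
  have hF : ∀ g : G, conjFun N F g = F := by
    intro g
    funext n
    rw [conjFun_apply]
    show ϑ _ * conj (ϑ _) = ϑ n * conj (ϑ n)
    rw [hinv g n]
  set Φ : (G → ℂ) → ℂ := fun f => (Nat.card N : ℂ)⁻¹ * ∑ n : N, f n * F n with hΦ
  have hcardN : (Nat.card N : ℂ) ≠ 0 := by
    exact_mod_cast Nat.card_pos.ne'
  have claim : ∀ f ∈ elemSpan G p, ∃ z : ℤ, Φ f = (z : ℂ) ∧ (p : ℤ) ∣ z := by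
    intro f hf
    refine AddSubgroup.closure_induction
      (p := fun f _ => ∃ z : ℤ, Φ f = (z : ℂ) ∧ (p : ℤ) ∣ z) ?_ ?_ ?_ ?_ hf
    · rintro f ⟨E, lam, hE, hlam, rfl⟩
      haveI : Fintype E := Fintype.ofFinite E
      haveI : Fintype (N.subgroupOf E) := Fintype.ofFinite _
      set ξ : N.subgroupOf E → ℂ :=
        fun d => ϑ ⟨((d : E) : G), Subgroup.mem_subgroupOf.mp d.2⟩ with hξdef
      have hξ : Cfsg.IsCharacter (N.subgroupOf E) ξ := by
        let j : N.subgroupOf E →* N :=
          { toFun := fun d => ⟨((d : E) : G), Subgroup.mem_subgroupOf.mp d.2⟩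
            map_one' := rfl
            map_mul' := fun _ _ => rfl }
        exact isCharacter_comp j (isCharacter_of_irr hϑ)
      have hlamξ : Cfsg.IsCharacter (N.subgroupOf E) (fun d => lam d * ξ d) := by
        have := isCharacter_mul (isCharacter_restrict (N.subgroupOf E) hlam) hξ
        exact this
      obtain ⟨z0, hz0⟩ := classInner_char_nat hlamξ hξ
      have hval : Φ (Cfsg.indFun E lam) = (((N ⊔ E).index * z0 : ℕ) : ℂ) := by
        show (Nat.card N : ℂ)⁻¹ * ∑ n : N, Cfsg.indFun E lam n * F n = _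
        rw [ind_normal_sum N E lam F hF, sum_extend_subgroupOf N E lam F]
        have h3 : ∑ d : N.subgroupOf E, lam d * F ⟨((d : E) : G), Subgroup.mem_subgroupOf.mp d.2⟩
            = (Nat.card (N.subgroupOf E) : ℂ) * (z0 : ℂ) := by
          rw [← hz0]
          unfold Cfsg.classInner
          rw [← mul_assoc, mul_inv_cancel₀ (by exact_mod_cast Nat.card_pos.ne'), one_mul]
          refine Finset.sum_congr rfl (fun d _ => ?_)
          show lam d * (ξ d * conj (ξ d)) = lam d * ξ d * conj (ξ d)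
          ring
        rw [h3]
        have h4 : Nat.card (N.subgroupOf E) * N.relIndex E = Nat.card E :=
          Subgroup.card_mul_index (N.subgroupOf E)
        have h5 : Nat.card N * N.index = Nat.card G := Subgroup.card_mul_index N
        have h6 : N.relIndex E * (N ⊔ E).index = N.index := by
          rw [← Subgroup.relIndex_sup_left E N]
          exact Subgroup.relIndex_mul_index le_sup_left
        have hcardE : (Nat.card E : ℂ) ≠ 0 := by
          exact_mod_cast Nat.card_pos.ne'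
        have hcardD : (Nat.card (N.subgroupOf E) : ℂ) ≠ 0 := by
          exact_mod_cast Nat.card_pos.ne'
        have hrel : (N.relIndex E : ℂ) ≠ 0 := by
          have : N.relIndex E ≠ 0 := by
            intro h0
            rw [h0, mul_zero] at h4
            exact Nat.card_pos.ne' h4.symm
          exact_mod_cast this
        have h4' : (Nat.card E : ℂ) = (Nat.card (N.subgroupOf E) : ℂ) * (N.relIndex E : ℂ) := by
          exact_mod_cast h4.symm
        have h5' : (Nat.card G : ℂ) = (Nat.card N : ℂ) * ((N.relIndex E : ℂ) * ((N ⊔ E).index : ℂ)) := by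
          rw [← h5, ← h6]
          push_cast
          ring
        rw [h4', h5']
        push_cast
        field_simp
      by_cases hsup : E ⊔ N = ⊤
      · by_cases hpz0 : p ∣ z0
        · refine ⟨(((N ⊔ E).index * z0 : ℕ) : ℤ), ?_, ?_⟩
          · rw [hval]
            push_cast
            ring
          · exact_mod_cast Dvd.dvd.mul_left hpz0 _
        · exfalso
          have hindD : ∃ j, (N.subgroupOf E).index = p ^ j := by
            have h1 : N.relIndex E ∣ p ^ k := by
              rw [← hk]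
              exact Subgroup.relIndex_dvd_index_of_normal N E
            obtain ⟨j, -, hj⟩ := (Nat.dvd_prime_pow hp).mp h1
            exact ⟨j, hj⟩
          have hinvξ : ∀ g : E, conjFun (N.subgroupOf E) ξ g = ξ := by
            intro g
            funext d
            rw [conjFun_apply]
            exact hinv (g : G) ⟨((d : E) : G), Subgroup.mem_subgroupOf.mp d.2⟩
          obtain ⟨φ', hφ', hφ'inv, m, hm, hmval⟩ :=
            dade_core p hp (N.subgroupOf E) hindD ξ hξ hinvξ lam hlam z0 hz0 hpz0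
          let e : ↥(E ⊓ N) ≃* ↥(N.subgroupOf E) :=
            { toFun := fun x => ⟨⟨(x : G), x.2.1⟩, Subgroup.mem_subgroupOf.mpr x.2.2⟩
              invFun := fun d => ⟨((d : E) : G), ⟨(d : E).2, Subgroup.mem_subgroupOf.mp d.2⟩⟩
              left_inv := fun x => rfl
              right_inv := fun d => rfl
              map_mul' := fun _ _ => rfl }
          apply hcon
          refine ⟨E, fun x => φ' (e x), hE, hsup,
            isIrrCharacter_comp_surj e.toMonoidHom e.surjective hφ', ?_, m, hm, ?_⟩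
          · intro g hg x
            have := congrFun (hφ'inv ⟨g, hg⟩) (e x)
            rw [conjFun_apply] at this
            exact this
          · haveI : Fintype ↥(E ⊓ N) := Fintype.ofFinite _
            rw [finsum_eq_sum_of_fintype, Nat.card_congr e.toEquiv, ← hmval]
            unfold Cfsg.classInner
            congr 1
            exact Fintype.sum_equiv e.toEquiv _ _ (fun x => rfl)
      · have h1 : (N ⊔ E).index ∣ p ^ k := by
          rw [← hk]
          exact Subgroup.index_dvd_of_le le_sup_left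
        obtain ⟨j, -, hj⟩ := (Nat.dvd_prime_pow hp).mp h1
        have hj0 : j ≠ 0 := by
          rintro rfl
          rw [pow_zero, Subgroup.index_eq_one, sup_comm] at hj
          exact hsup hj
        refine ⟨(((N ⊔ E).index * z0 : ℕ) : ℤ), ?_, ?_⟩
        · rw [hval]
          push_cast
          ring
        · rw [hj]
          exact_mod_cast Dvd.dvd.mul_right (dvd_pow_self p hj0) _
    · refine ⟨0, ?_, dvd_zero _⟩
      show (Nat.card N : ℂ)⁻¹ * ∑ n : N, (0 : G → ℂ) n * F n = _
      simp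
    · rintro f g _ _ ⟨z1, h1, hd1⟩ ⟨z2, h2, hd2⟩
      refine ⟨z1 + z2, ?_, dvd_add hd1 hd2⟩
      have : Φ (f + g) = Φ f + Φ g := by
        show (Nat.card N : ℂ)⁻¹ * ∑ n : N, (f + g) n * F n =
          (Nat.card N : ℂ)⁻¹ * ∑ n : N, f n * F n + (Nat.card N : ℂ)⁻¹ * ∑ n : N, g n * F n
        rw [← mul_add, ← Finset.sum_add_distrib]
        congr 1
        refine Finset.sum_congr rfl (fun n _ => ?_)
        rw [Pi.add_apply, add_mul]
      rw [this, h1, h2]
      push_cast
      ring
    · rintro f _ ⟨z1, h1, hd1⟩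
      refine ⟨-z1, ?_, (dvd_neg).mpr hd1⟩
      have : Φ (-f) = -Φ f := by
        show (Nat.card N : ℂ)⁻¹ * ∑ n : N, (-f) n * F n =
          -((Nat.card N : ℂ)⁻¹ * ∑ n : N, f n * F n)
        rw [← mul_neg, ← Finset.sum_neg_distrib]
        congr 1
        refine Finset.sum_congr rfl (fun n _ => ?_)
        rw [Pi.neg_apply, neg_mul]
      rw [this, h1]
      push_cast
      ring
  obtain ⟨m, hm, hmem⟩ := brauer_local_mem (G := G) p hp
  obtain ⟨z, hz, hpz⟩ := claim _ hmem
  have hΦm : Φ (fun _ : G => (m : ℂ)) = (m : ℂ) := by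
    show (Nat.card N : ℂ)⁻¹ * ∑ n : N, (m : ℂ) * F n = _
    rw [← Finset.mul_sum, mul_left_comm]
    have := irr_inner_self (⟨ϑ, hϑ⟩ : Cfsg.IrrCharacter N)
    unfold Cfsg.classInner at this
    show (m : ℂ) * ((Nat.card N : ℂ)⁻¹ * ∑ n : N, ϑ n * conj (ϑ n)) = _
    rw [this, mul_one]
  rw [hΦm] at hz
  have : m = z := by exact_mod_cast hz
  rw [this] at hm
  exact hm hpz

end Cfsg.Agent.Lib.Lead
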