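import Mathlib
import Cfsg.Prelude.Def_Characters
import Cfsg.Agent.Lib.Lead.Dade2
import Cfsg.Agent.Lib.Lead.Brauer6
import Cfsg.Agent.Lib.Lead.LinTransfer
import Cfsg.Agent.Lib.Lead.Char4
import Cfsg.Agent.Lib.Helper6.CliffCorr2

set_option autoImplicit false

namespace Cfsg.Agent.Lib.Lead

open ComplexConjugate

open scoped commutatorElement in
theorem commutator_center_mul_left {E : Type*} [Group E] {z : E} (hz : z ∈ Subgroup.center E)
    (a b : E) : ⁅z * a, b⁆ = ⁅a, b⁆ := by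
  have hc : ∀ g : E, g * z = z * g := Subgroup.mem_center_iff.mp hz
  rw [commutatorElement_def, commutatorElement_def]
  have e2 : z⁻¹ * b⁻¹ = b⁻¹ * z⁻¹ := by rw [← mul_inv_rev, ← mul_inv_rev, hc b]
  calc z * a * b * (z * a)⁻¹ * b⁻¹ = z * (a * b * a⁻¹ * (z⁻¹ * b⁻¹)) := by group
    _ = z * (a * b * a⁻¹ * b⁻¹ * z⁻¹) := by rw [e2]; group
    _ = a * b * a⁻¹ * b⁻¹ := by rw [← mul_assoc, ← hc, mul_inv_cancel_right]

open scoped commutatorElement in
theorem commutator_center_mul_right {E : Type*} [Group E] {z : E} (hz : z ∈ Subgroup.center E)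
    (a b : E) : ⁅a, z * b⁆ = ⁅a, b⁆ := by
  rw [← commutatorElement_inv, commutator_center_mul_left hz, commutatorElement_inv]

theorem elementary_decomp {p : ℕ} (hp : p.Prime) {E : Type*} [Group E] [Finite E]
    (hE : Cfsg.IsElementary p E) :
    ∃ Q : Subgroup E, IsPGroup p Q ∧ ∀ x : E, ∃ z ∈ Subgroup.center E, ∃ w ∈ Q, x = z * w := by
  classical
  haveI : Fact p.Prime := ⟨hp⟩
  haveI hnil : Group.IsNilpotent E := isNilpotent_of_elementary hp hE
  obtain ⟨x₀, hx₀, hcop, k, hk⟩ := hE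
  obtain ⟨P⟩ : Nonempty (Sylow p E) := inferInstance
  have hPn : (P : Subgroup E).Normal := inferInstance
  have huniq : ∀ Q : Sylow p E, Q = P := by
    intro Q
    haveI := Sylow.unique_of_normal P hPn
    exact Subsingleton.elim Q P
  have hle : Subgroup.zpowers x₀ ≤ Subgroup.center E := Subgroup.zpowers_le.2 hx₀
  haveI hnorm : (Subgroup.zpowers x₀).Normal := by
    constructor
    intro n hn g
    have h1 := Subgroup.mem_center_iff.1 (hle hn) g
    rw [h1, mul_inv_cancel_right]; exact hn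
  refine ⟨(P : Subgroup E), P.2, ?_⟩
  intro x
  have h1 : x ^ (p ^ k) ∈ Subgroup.zpowers x₀ := by
    rw [← QuotientGroup.eq_one_iff, QuotientGroup.mk_pow]
    have h2 : Nat.card (E ⧸ Subgroup.zpowers x₀) = p ^ k := hk
    rw [← h2]
    exact pow_card_eq_one'
  have hcop' : Nat.Coprime (p ^ k) (orderOf x₀) := (Nat.Coprime.pow_right k hcop).symm
  have hbez := Nat.gcd_eq_gcd_ab (p ^ k) (orderOf x₀)
  rw [hcop'.gcd_eq_one] at hbez
  obtain ⟨α, hα⟩ : ∃ α : ℤ, α = Nat.gcdA (p ^ k) (orderOf x₀) := ⟨_, rfl⟩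
  obtain ⟨β, hβ⟩ : ∃ β : ℤ, β = Nat.gcdB (p ^ k) (orderOf x₀) := ⟨_, rfl⟩
  rw [← hα, ← hβ] at hbez
  have hw : (x ^ ((orderOf x₀ : ℤ) * β)) ^ (p ^ k) = 1 := by
    obtain ⟨j, hj⟩ := Subgroup.mem_zpowers_iff.mp h1
    have e : (x ^ ((orderOf x₀ : ℤ) * β)) ^ (p ^ k) = (x ^ (p ^ k)) ^ ((orderOf x₀ : ℤ) * β) := by
      rw [← zpow_natCast, ← zpow_natCast x (p ^ k), ← zpow_mul, ← zpow_mul, mul_comm]
    rw [e, ← hj, ← zpow_mul, mul_comm j, mul_assoc, zpow_mul, zpow_natCast, pow_orderOf_eq_one,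
      one_zpow]
  refine ⟨x ^ (((p ^ k : ℕ) : ℤ) * α), ?_, x ^ ((orderOf x₀ : ℤ) * β), ?_, ?_⟩
  · rw [zpow_mul, zpow_natCast]
    exact hle (Subgroup.zpow_mem _ h1 α)
  · have h3 : orderOf (x ^ ((orderOf x₀ : ℤ) * β)) ∣ p ^ k := orderOf_dvd_of_pow_eq_one hw
    obtain ⟨j, _, hj⟩ := (Nat.dvd_prime_pow hp).1 h3
    have h4 : IsPGroup p (Subgroup.zpowers (x ^ ((orderOf x₀ : ℤ) * β))) := by
      apply IsPGroup.of_card (n := j)
      rw [Nat.card_zpowers, hj]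
    obtain ⟨Q, hQ⟩ := h4.exists_le_sylow
    rw [huniq Q] at hQ
    exact hQ (Subgroup.mem_zpowers _)
  · rw [← zpow_add, ← hbez]
    push_cast
    rw [zpow_one]

theorem commutator_elementary_le {p : ℕ} (hp : p.Prime) {E : Type*} [Group E] [Finite E]
    (hE : Cfsg.IsElementary p E) : ∃ Q : Subgroup E, IsPGroup p Q ∧ commutator E ≤ ⁅Q, Q⁆ := by
  obtain ⟨Q, hQ, hdec⟩ := elementary_decomp hp hE
  refine ⟨Q, hQ, ?_⟩
  rw [commutator_def, Subgroup.commutator_le]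
  intro g₁ _ g₂ _
  obtain ⟨z₁, hz₁, w₁, hw₁, rfl⟩ := hdec g₁
  obtain ⟨z₂, hz₂, w₂, hw₂, rfl⟩ := hdec g₂
  rw [commutator_center_mul_left hz₁, commutator_center_mul_right hz₂]
  exact Subgroup.commutator_mem_commutator hw₁ hw₂

theorem abelian_sep {A : Type*} [Group A] [Fintype A] (hA : ∀ a b : A, a * b = b * a) {a : A}
    (ha : a ≠ 1) : ∃ lam : A → ℂ, Cfsg.IsCharacter A lam ∧ lam 1 = 1 ∧ lam a ≠ 1 := by
  classical
  haveI : Fintype (Cfsg.IrrCharacter A) := Fintype.ofFinite _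
  by_contra hcon
  push Not at hcon
  have h1 : ∀ χ : Cfsg.IrrCharacter A, χ.1 a = 1 := fun χ =>
    hcon χ.1 (isCharacter_of_irr χ.2) (Cfsg.Agent.Lib.Helper6.irr_deg_one_of_comm hA χ)
  have h2 := col_orth' a (1 : A)
  rw [if_neg (by rw [isConj_one_left]; exact ha)] at h2
  have h4 := col_orth' (1 : A) (1 : A)
  rw [if_pos (IsConj.refl 1)] at h4
  have h5 : ∑ χ : Cfsg.IrrCharacter A, χ.1 1 * (starRingEnd ℂ) (χ.1 1) =
      ∑ χ : Cfsg.IrrCharacter A, χ.1 a * (starRingEnd ℂ) (χ.1 1) :=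
    Finset.sum_congr rfl (fun χ _ => by
      rw [h1 χ, Cfsg.Agent.Lib.Helper6.irr_deg_one_of_comm hA χ])
  rw [h5, h2] at h4
  have : (Nat.card (Subgroup.centralizer ({1} : Set A)) : ℂ) ≠ 0 := by
    exact_mod_cast Nat.card_pos.ne'
  exact this h4.symm

theorem linear_extend {E : Type*} [Group E] [Finite E] (D : Subgroup E)
    (h : ∀ d ∈ D, d ∈ commutator E → d = 1) (ν : D →* ℂˣ) :
    ∃ ν' : E →* ℂˣ, ∀ d : D, ν' d = ν d := by
  let f : E →* Abelianization E := Abelianization.of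
  let j : D →* Abelianization E := f.comp D.subtype
  have hj : Function.Injective j := by
    rw [injective_iff_map_eq_one]
    intro d hd
    have h1 : (d : E) ∈ (Abelianization.of : E →* Abelianization E).ker := hd
    rw [Abelianization.ker_of] at h1
    exact Subtype.ext (h d d.2 h1)
  let e := MonoidHom.ofInjective hj
  haveI : NeZero (Monoid.exponent (Abelianization E)) := ⟨Monoid.exponent_ne_zero_of_finite⟩
  obtain ⟨ν'', hν''⟩ := MonoidHom.domRestrict_surjective ℂ j.range (ν.comp e.symm.toMonoidHom)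
  refine ⟨ν''.comp f, fun d => ?_⟩
  have h2 := DFunLike.congr_fun hν'' (e d)
  have h3 : ν'' ((e d : j.range) : Abelianization E) = ν (e.symm (e d)) := h2
  rw [e.symm_apply_apply] at h3
  exact h3

theorem sylow_comm_trivial {G : Type*} [Group G] [Finite G] (N P : Subgroup G)
    (hcent : ∀ x ∈ P ⊓ N, ∀ y ∈ P, x * y = y * x)
    (hlin : ∀ lam : ↥(P ⊓ N) → ℂ, Cfsg.IsCharacter ↥(P ⊓ N) lam → lam 1 = 1 →
      ∃ μ : ↥P → ℂ, Cfsg.IsCharacter ↥P μ ∧ μ 1 = 1 ∧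
        ∀ x : ↥(P ⊓ N), μ ⟨(x : G), x.2.1⟩ = lam x)
    (y : G) (hyN : y ∈ N) (hy : y ∈ ⁅P, P⁆) : y = 1 := by
  classical
  by_contra hne
  rw [← Subgroup.map_subtype_commutator P] at hy
  obtain ⟨y', hy', rfl⟩ := hy
  haveI : Fintype ↥(P ⊓ N) := Fintype.ofFinite _
  have hA : ∀ a b : ↥(P ⊓ N), a * b = b * a := fun a b => Subtype.ext (hcent a a.2 b b.2.1)
  obtain ⟨lam, hlam, hlam1, hlamy⟩ := abelian_sep hA (a := ⟨(y' : G), ⟨y'.2, hyN⟩⟩)
    (by intro h; apply hne; exact congrArg Subtype.val h)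
  obtain ⟨μ, hμ, hμ1, hμlam⟩ := hlin lam hlam hlam1
  obtain ⟨ν, hν⟩ := hom_of_isCharacter_one hμ hμ1
  have h1 : ν y' = 1 := Abelianization.commutator_subset_ker ν hy'
  have h2 := hμlam ⟨(y' : G), ⟨y'.2, hyN⟩⟩
  rw [hν] at h2
  apply hlamy
  rw [← h2]
  show ((ν y' : ℂˣ) : ℂ) = 1
  rw [h1]
  rfl

theorem elem_comm_trivial {G : Type*} [Group G] [Finite G] (p : ℕ) [Fact p.Prime]
    (N : Subgroup G) [hN : N.Normal] (P : Sylow p G)
    (hcent : ∀ x ∈ (P : Subgroup G) ⊓ N, ∀ y ∈ (P : Subgroup G), x * y = y * x)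
    (hlin : ∀ lam : ↥((P : Subgroup G) ⊓ N) → ℂ, Cfsg.IsCharacter ↥((P : Subgroup G) ⊓ N) lam →
      lam 1 = 1 → ∃ μ : ↥(P : Subgroup G) → ℂ, Cfsg.IsCharacter ↥(P : Subgroup G) μ ∧ μ 1 = 1 ∧
        ∀ x : ↥((P : Subgroup G) ⊓ N), μ ⟨(x : G), x.2.1⟩ = lam x)
    (E : Subgroup G) (hE : Cfsg.IsElementary p E) (x : E) (hxN : (x : G) ∈ N)
    (hx : x ∈ commutator ↥E) : x = 1 := by
  obtain ⟨Q, hQ, hle⟩ := commutator_elementary_le (Fact.out : p.Prime) hE
  have h1 : (x : G) ∈ ⁅Q.map E.subtype, Q.map E.subtype⁆ := by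
    rw [← Subgroup.map_commutator]
    exact ⟨x, hle hx, rfl⟩
  have hQ' : IsPGroup p (Q.map E.subtype) := hQ.map E.subtype
  obtain ⟨R, hR⟩ := hQ'.exists_le_sylow
  obtain ⟨g, hg⟩ := MulAction.exists_smul_eq G P R
  have h2 : (R : Subgroup G) = (P : Subgroup G).map (MulAut.conj g).toMonoidHom := by
    rw [← hg, Sylow.coe_subgroup_smul, Subgroup.pointwise_smul_def]
    rfl
  have h3 : (x : G) ∈ ⁅(R : Subgroup G), (R : Subgroup G)⁆ := Subgroup.commutator_mono hR hR h1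
  rw [h2, ← Subgroup.map_commutator] at h3
  obtain ⟨y, hy, hyx⟩ := h3
  have hyx' : g * y * g⁻¹ = (x : G) := hyx
  have hyN : y ∈ N := by
    have h4 : y = g⁻¹ * (x : G) * g⁻¹⁻¹ := by
      rw [← hyx']
      group
    rw [h4]
    exact hN.conj_mem _ hxN g⁻¹
  have hy1 := sylow_comm_trivial N (P : Subgroup G) hcent hlin y hyN hy
  rw [hy1, mul_one, mul_inv_cancel] at hyx'
  exact Subtype.ext hyx'.symm

theorem ind_normal_inner {G : Type*} [Group G] [Fintype G] (N : Subgroup G) [hN : N.Normal]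
    [Fintype N] (E : Subgroup G) [Fintype (N.subgroupOf E)] (lam : E → ℂ) (F : N → ℂ)
    (hF : ∀ g : G, conjFun N F g = F) :
    (Nat.card N : ℂ)⁻¹ * ∑ n : N, Cfsg.indFun E lam n * F n =
      ((N ⊔ E).index : ℂ) * ((Nat.card (N.subgroupOf E) : ℂ)⁻¹ *
        ∑ d : N.subgroupOf E, lam d * F ⟨((d : E) : G), Subgroup.mem_subgroupOf.mp d.2⟩) := by
  rw [ind_normal_sum N E lam F hF, sum_extend_subgroupOf N E lam F]
  have h4 : Nat.card (N.subgroupOf E) * N.relIndex E = Nat.card E :=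
    Subgroup.card_mul_index (N.subgroupOf E)
  have h5 : Nat.card N * N.index = Nat.card G := Subgroup.card_mul_index N
  have h6 : N.relIndex E * (N ⊔ E).index = N.index := by
    rw [← Subgroup.relIndex_sup_left E N]
    exact Subgroup.relIndex_mul_index le_sup_left
  have hcardN : (Nat.card N : ℂ) ≠ 0 := by
    exact_mod_cast Nat.card_pos.ne'
  have hcardD : (Nat.card (N.subgroupOf E) : ℂ) ≠ 0 := by
    exact_mod_cast Nat.card_pos.ne'
  have hrel : (N.relIndex E : ℂ) ≠ 0 := by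
    have : N.relIndex E ≠ 0 := by
      intro h0
      rw [h0, mul_zero] at h4
      exact Nat.card_pos.ne' h4.symm
    exact_mod_cast this
  have h4' : (Nat.card E : ℂ) = (Nat.card (N.subgroupOf E) : ℂ) * (N.relIndex E : ℂ) := by
    exact_mod_cast h4.symm
  have h5' : (Nat.card G : ℂ) =
      (Nat.card N : ℂ) * ((N.relIndex E : ℂ) * ((N ⊔ E).index : ℂ)) := by
    rw [← h5, ← h6]
    push_cast
    ring
  rw [h4', h5']
  field_simp

end Cfsg.Agent.Lib.Lead
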