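import Mathlib
import Cfsg.Prelude.Def_Characters
import Cfsg.Agent.Lib.Lead.Dade3
import Cfsg.Agent.Lib.Helper7.Clifford
import Cfsg.Agent.S0887

set_option autoImplicit false

namespace Cfsg.Agent.Lib.Lead

open ComplexConjugate
open scoped commutatorElement

/-- Dade's extension criterion for invariant characters of a normal subgroup of `p`-power index -/
theorem dade_extend {G : Type*} [Group G] [Fintype G] (p : ℕ) [Fact p.Prime] (N : Subgroup G)
    [hN : N.Normal] (hind : ∃ k : ℕ, N.index = p ^ k) (P : Sylow p G)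
    (hcent : ∀ x ∈ (P : Subgroup G) ⊓ N, ∀ y ∈ (P : Subgroup G), x * y = y * x)
    (hlin : ∀ lam : ↥((P : Subgroup G) ⊓ N) → ℂ, Cfsg.IsCharacter ↥((P : Subgroup G) ⊓ N) lam →
      lam 1 = 1 → ∃ μ : ↥(P : Subgroup G) → ℂ, Cfsg.IsCharacter ↥(P : Subgroup G) μ ∧ μ 1 = 1 ∧
        ∀ x : ↥((P : Subgroup G) ⊓ N), μ ⟨(x : G), x.2.1⟩ = lam x)
    (ϑ : N → ℂ) (hϑ : Cfsg.IsIrrCharacter N ϑ)
    (hinv : ∀ (g : G) (n : N), ϑ ⟨g * n * g⁻¹, hN.conj_mem (n : G) n.2 g⟩ = ϑ n) :
    ∃ χ : G → ℂ, Cfsg.IsIrrCharacter G χ ∧ ∀ n : N, χ n = ϑ n := by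
  classical
  have hp : p.Prime := Fact.out
  haveI : Fintype N := Fintype.ofFinite N
  haveI : Fintype (Cfsg.IrrCharacter G) := Fintype.ofFinite _
  haveI : Fintype (Cfsg.IrrCharacter N) := Fintype.ofFinite _
  obtain ⟨E, φ, hE, hsup, hφ, hφinv, m, hm, hmval⟩ := dade_detect p hp N hind ϑ hϑ hinv
  haveI : Fintype E := Fintype.ofFinite E
  haveI : Fintype (N.subgroupOf E) := Fintype.ofFinite _
  haveI : Fintype ↥(E ⊓ N) := Fintype.ofFinite _
  let e : ↥(E ⊓ N) ≃* ↥(N.subgroupOf E) :=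
    { toFun := fun x => ⟨⟨(x : G), x.2.1⟩, Subgroup.mem_subgroupOf.mpr x.2.2⟩
      invFun := fun d => ⟨((d : E) : G), ⟨(d : E).2, Subgroup.mem_subgroupOf.mp d.2⟩⟩
      left_inv := fun x => rfl
      right_inv := fun d => rfl
      map_mul' := fun _ _ => rfl }
  have htriv : ∀ d ∈ N.subgroupOf E, d ∈ commutator ↥E → d = 1 := fun d hd hdc =>
    elem_comm_trivial p N P hcent hlin E hE d (Subgroup.mem_subgroupOf.mp hd) hdc
  have hab : ∀ a b : ↥(N.subgroupOf E), a * b = b * a := by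
    intro a b
    have h1 : ⁅(a : E), (b : E)⁆ = 1 := by
      apply htriv
      · rw [commutatorElement_def]
        exact (N.subgroupOf E).mul_mem ((N.subgroupOf E).mul_mem
          ((N.subgroupOf E).mul_mem a.2 b.2) ((N.subgroupOf E).inv_mem a.2))
          ((N.subgroupOf E).inv_mem b.2)
      · rw [commutator_def]
        exact Subgroup.commutator_mem_commutator (Subgroup.mem_top _) (Subgroup.mem_top _)
    exact Subtype.ext (commutatorElement_eq_one_iff_mul_comm.mp h1)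
  have hφ' : Cfsg.IsIrrCharacter ↥(N.subgroupOf E) (fun d => φ (e.symm d)) :=
    isIrrCharacter_comp_surj e.symm.toMonoidHom e.symm.surjective hφ
  have hφ'1 := Cfsg.Agent.Lib.Helper6.irr_deg_one_of_comm hab ⟨_, hφ'⟩
  obtain ⟨ν, hν⟩ := hom_of_isCharacter_one (isCharacter_of_irr hφ') hφ'1
  obtain ⟨ν', hν'⟩ := linear_extend (N.subgroupOf E) htriv ν
  obtain ⟨φh, hφhdef⟩ : ∃ φh : E → ℂ, φh = fun x => ((ν' x : ℂˣ) : ℂ) := ⟨_, rfl⟩
  have hφh : Cfsg.IsCharacter E φh := by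
    rw [hφhdef]
    exact isCharacter_of_hom ν'
  have hφhD : ∀ d : N.subgroupOf E, φh d = φ (e.symm d) := by
    intro d
    rw [hφhdef]
    show ((ν' d : ℂˣ) : ℂ) = _
    rw [hν' d]
    exact (congrFun hν d).symm
  obtain ⟨ψ, hψdef⟩ : ∃ ψ : G → ℂ, ψ = Cfsg.indFun E φh := ⟨_, rfl⟩
  have hψc : Cfsg.IsCharacter G ψ := by
    rw [hψdef]
    exact isCharacter_indFun E φh hφh
  obtain ⟨F, hFdef⟩ : ∃ F : N → ℂ, F = fun n => conj (ϑ n) := ⟨_, rfl⟩
  have hFinv : ∀ g : G, conjFun N F g = F := by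
    intro g
    funext n
    rw [conjFun_apply, hFdef]
    show conj (ϑ _) = conj (ϑ n)
    rw [hinv g n]
  have hidx : (N ⊔ E).index = 1 := by rw [sup_comm, hsup, Subgroup.index_top]
  have hinner : Cfsg.classInner (fun n : N => ψ n) ϑ = (m : ℂ) := by
    have h1 := ind_normal_inner N E φh F hFinv
    rw [hidx, Nat.cast_one, one_mul] at h1
    have h0 : Cfsg.classInner (fun n : N => ψ n) ϑ =
        (Nat.card N : ℂ)⁻¹ * ∑ n : N, Cfsg.indFun E φh n * F n := by
      rw [hψdef, hFdef]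
      rfl
    rw [h0, h1]
    rw [finsum_eq_sum_of_fintype] at hmval
    have h2 := congrArg (starRingEnd ℂ) hmval
    rw [map_mul, map_inv₀, map_natCast, map_natCast, map_sum] at h2
    rw [← h2, Nat.card_congr e.toEquiv]
    congr 1
    symm
    apply Fintype.sum_equiv e.toEquiv
    intro x
    rw [map_mul, Complex.conj_conj, hφhD, hFdef, mul_comm]
    rfl
  obtain ⟨a, ha⟩ := isCharacter_decomp hψc
  have hc : ∀ χ : Cfsg.IrrCharacter G, ∃ c : ℕ,
      Cfsg.classInner (fun n : N => χ.1 n) ϑ = (c : ℂ) := fun χ =>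
    classInner_char_nat
      (isCharacter_restrict N (isCharacter_of_irr χ.2))
      (isCharacter_of_irr hϑ)
  choose c hc using hc
  have hsum : m = ∑ χ, a χ * c χ := by
    have h1 : (m : ℂ) = ((∑ χ, a χ * c χ : ℕ) : ℂ) := by
      rw [← hinner, Nat.cast_sum]
      have h2 : (fun n : N => ψ n) =
          ∑ χ : Cfsg.IrrCharacter G, (a χ : ℂ) • (fun n : N => χ.1 n) := by
        funext n
        rw [ha]
        simp [Finset.sum_apply]
      rw [h2, classInner_sum_left]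
      refine Finset.sum_congr rfl (fun χ _ => ?_)
      rw [classInner_smul_left, hc χ, Nat.cast_mul]
    exact_mod_cast h1
  obtain ⟨χ, hχ⟩ : ∃ χ : Cfsg.IrrCharacter G, ¬ p ∣ c χ := by
    by_contra hcon
    push Not at hcon
    apply hm
    rw [hsum]
    exact Finset.dvd_sum (fun χ _ => Dvd.dvd.mul_left (hcon χ) _)
  have hcne : Cfsg.classInner (fun n : N => χ.1 n) ϑ ≠ 0 := by
    rw [hc χ]
    intro h0
    have : c χ = 0 := by exact_mod_cast h0
    rw [this] at hχ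
    exact hχ (dvd_zero p)
  have hres : (fun n : N => χ.1 n) = (c χ : ℂ) • ϑ := by
    have hcf : Cfsg.IsClassFunction N (fun n : N => χ.1 n) :=
      isClassFunction_of_char
        (isCharacter_restrict N (isCharacter_of_irr χ.2))
    have h1 := class_fn_expand' (fun n : N => χ.1 n) hcf
    rw [Finset.sum_eq_single (⟨ϑ, hϑ⟩ : Cfsg.IrrCharacter N)] at h1
    · rw [← hc χ]
      exact h1
    · intro θ' _ hne
      have h0 : Cfsg.classInner (fun n : N => χ.1 n) θ'.1 = 0 := by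
        by_contra hne0
        obtain ⟨x, hx⟩ := Cfsg.Agent.Lib.Helper7.Cliff.exists_conj_of_constituents N χ ⟨ϑ, hϑ⟩ θ'
          hcne hne0
        apply hne
        apply Subtype.ext
        rw [hx]
        funext n
        rw [conjFun_apply]
        exact hinv x n
      rw [h0, zero_smul]
    · intro h
      exact absurd (Finset.mem_univ _) h
  obtain ⟨d, hdpos, hd⟩ := irr_one_eq_nat (⟨ϑ, hϑ⟩ : Cfsg.IrrCharacter N)
  have hd' : ϑ 1 = (d : ℂ) := hd
  have hχ1 : χ.1 1 = ((c χ * d : ℕ) : ℂ) := by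
    have := congrFun hres 1
    rw [Nat.cast_mul, ← hd']
    exact this
  obtain ⟨-, h2⟩ := Cfsg.Agent.S0887.result N χ.1 χ.2 ϑ hϑ hcne (c χ * d) d hχ1 hd'
  rw [Nat.mul_div_cancel _ hdpos] at h2
  obtain ⟨k, hk⟩ := hind
  rw [hk] at h2
  obtain ⟨j, -, hj⟩ := (Nat.dvd_prime_pow hp).mp h2
  have hj0 : j = 0 := by
    by_contra hj0
    apply hχ
    rw [hj]
    exact dvd_pow_self p hj0
  rw [hj0, pow_zero] at hj
  refine ⟨χ.1, χ.2, fun n => ?_⟩
  have := congrFun hres n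
  rw [hj, Nat.cast_one, one_smul] at this
  exact this

end Cfsg.Agent.Lib.Lead
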