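import Mathlib
import Cfsg.Agent.Lib.Lead.Brauer5
import Cfsg.Agent.Lib.Lead.Char7
import Cfsg.Agent.Lib.Lead.Char14

set_option autoImplicit false

namespace Cfsg.Agent.Lib.Lead

open Module Representation

/-- in an elementary group the `p`-regular elements form a normal subgroup of `p`-power index
whose elements have centralizers of order divisible by that index -/
theorem elementary_regular_subgroup {q : ℕ} (hq : q.Prime) {E : Type*} [Group E] [Finite E]
    (hE : Cfsg.IsElementary q E) (p : ℕ) (hp : p.Prime) :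
    ∃ (Q : Subgroup E) (a : ℕ), Q.Normal ∧ Q.index = p ^ a ∧ Nat.Coprime (Nat.card Q) p ∧
      ∀ x ∈ Q, p ^ a ∣ Nat.card (Subgroup.centralizer ({x} : Set E)) := by
  classical
  obtain ⟨z, hz, hcop, k, hk⟩ := hE
  have hle : Subgroup.zpowers z ≤ Subgroup.center E := Subgroup.zpowers_le.2 hz
  have hnorm : (Subgroup.zpowers z).Normal := by
    constructor
    intro n hn g
    have h1 := Subgroup.mem_center_iff.1 (hle hn) g
    rw [h1, mul_inv_cancel_right]; exact hn
  have hcardE : Nat.card E = q ^ k * orderOf z := by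
    rw [← hk, ← Nat.card_zpowers]; exact (Subgroup.index_mul_card _).symm
  have hcentral : ∀ x : E, x ∈ Subgroup.center E → Subgroup.centralizer ({x} : Set E) = ⊤ := by
    intro x hx
    rw [eq_top_iff]
    intro g _
    rw [Subgroup.mem_centralizer_iff]
    intro h hh
    rw [Set.mem_singleton_iff] at hh
    rw [hh]
    exact (Subgroup.mem_center_iff.1 hx g).symm
  by_cases hpq : p = q
  · subst hpq
    refine ⟨Subgroup.zpowers z, k, hnorm, hk, ?_, ?_⟩
    · rw [Nat.card_zpowers]; exact hcop
    · intro x hx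
      rw [hcentral x (hle hx), Subgroup.card_top, hcardE]
      exact dvd_mul_right _ _
  · haveI : Fact p.Prime := ⟨hp⟩
    obtain ⟨a, s, hs, hor⟩ := Nat.exists_eq_pow_mul_and_not_dvd (orderOf_pos z).ne' p hp.ne_one
    have hspos : 0 < s := by
      rcases Nat.eq_zero_or_pos s with h | h
      · exfalso; rw [h, mul_zero] at hor; exact (orderOf_pos z).ne' hor
      · exact h
    have hP₀card : Nat.card (Subgroup.zpowers (z ^ s)) = p ^ a := by
      rw [Nat.card_zpowers, orderOf_pow_of_dvd hspos.ne' (by rw [hor]; exact dvd_mul_left _ _), hor,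
        Nat.mul_div_cancel _ hspos]
    have hP₀ : IsPGroup p (Subgroup.zpowers (z ^ s)) := IsPGroup.of_card hP₀card
    obtain ⟨P, hP⟩ := hP₀.exists_le_sylow
    have hcopq : Nat.Coprime p (q ^ k * s) := by
      apply Nat.Coprime.mul_right
      · exact Nat.Coprime.pow_right k ((Nat.coprime_primes hp hq).2 hpq)
      · exact (Nat.Prime.coprime_iff_not_dvd hp).2 hs
    have hPeq : Subgroup.zpowers (z ^ s) = (P : Subgroup E) := by
      apply Subgroup.eq_of_le_of_card_ge hP
      obtain ⟨b, hb⟩ := P.isPGroup'.exists_card_eq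
      rw [hb, hP₀card]
      have h1 : p ^ b ∣ Nat.card E := by rw [← hb]; exact Subgroup.card_subgroup_dvd_card _
      rw [hcardE, hor] at h1
      have h2 : p ^ b ∣ p ^ a * (q ^ k * s) := by
        have h3 : q ^ k * (p ^ a * s) = p ^ a * (q ^ k * s) := by ring
        rwa [h3] at h1
      have h4 : p ^ b ∣ p ^ a :=
        Nat.Coprime.dvd_of_dvd_mul_right (Nat.Coprime.pow_left b hcopq) h2
      exact Nat.le_of_dvd (pow_pos hp.pos a) h4
    have hPc : ∀ u ∈ (P : Subgroup E), u ∈ Subgroup.center E := by
      intro u hu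
      rw [← hPeq] at hu
      exact (Subgroup.zpowers_le.2 (Subgroup.pow_mem _ hz s)) hu
    have hPN : Subgroup.normalizer ((P : Subgroup E) : Set E) ≤ Subgroup.centralizer ((P : Subgroup E) : Set E) := by
      intro g _
      rw [Subgroup.mem_centralizer_iff]
      intro h hh
      exact (Subgroup.mem_center_iff.1 (hPc h hh) g).symm
    have hcompl := MonoidHom.ker_transferSylow_isComplement' P hPN
    have hPcard : Nat.card (P : Subgroup E) = p ^ a := by rw [← hPeq]; exact hP₀card
    refine ⟨(MonoidHom.transferSylow P hPN).ker, a, inferInstance, ?_, ?_, ?_⟩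
    · rw [hcompl.symm.index_eq_card, hPcard]
    · have h1 := hcompl.card_mul_card
      rw [hPcard, hcardE, hor] at h1
      have h2 : Nat.card (MonoidHom.transferSylow P hPN).ker = q ^ k * s := by
        have h3 : q ^ k * (p ^ a * s) = (q ^ k * s) * p ^ a := by ring
        rw [h3] at h1
        exact Nat.eq_of_mul_eq_mul_right (pow_pos hp.pos a) h1
      rw [h2]; exact hcopq.symm
    · intro x _
      have h1 : (P : Subgroup E) ≤ Subgroup.centralizer ({x} : Set E) := by
        intro u hu
        rw [Subgroup.mem_centralizer_iff]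
        intro h hh
        rw [Set.mem_singleton_iff] at hh
        rw [hh]
        exact Subgroup.mem_center_iff.1 (hPc u hu) x
      rw [← hPcard]
      exact Subgroup.card_dvd_of_le h1

/-- a class function with integer inner products is a generalized character -/
theorem isGen_of_inner_int {G : Type*} [Group G] [Fintype G] (θ : G → ℂ)
    (hθ : Cfsg.IsClassFunction G θ)
    (h : ∀ χ : Cfsg.IrrCharacter G, ∃ n : ℤ, Cfsg.classInner θ χ.1 = (n : ℂ)) :
    Cfsg.IsGeneralizedCharacter G θ := by
  haveI : Fintype (Cfsg.IrrCharacter G) := Fintype.ofFinite _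
  choose c hc using h
  refine ⟨∑ χ : Cfsg.IrrCharacter G, (((c χ).toNat : ℕ) : ℂ) • χ.1,
    ∑ χ : Cfsg.IrrCharacter G, (((-c χ).toNat : ℕ) : ℂ) • χ.1,
    isCharacter_of_nat_comb _, isCharacter_of_nat_comb _, ?_⟩
  rw [← Finset.sum_sub_distrib]
  conv_lhs => rw [class_fn_expand' θ hθ]
  refine Finset.sum_congr rfl (fun χ _ => ?_)
  rw [hc χ, ← sub_smul]
  congr 1
  have h1 : (c χ : ℤ) = ((c χ).toNat : ℤ) - ((-c χ).toNat : ℤ) := by omega
  have h2 := congrArg (fun z : ℤ => (z : ℂ)) h1
  simp only [Int.cast_sub, Int.cast_natCast] at h2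
  exact h2

end Cfsg.Agent.Lib.Lead
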