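import Mathlib
import Cfsg.Agent.Lib.Lead.DefZero

set_option autoImplicit false

namespace Cfsg.Agent.Lib.Lead

open Module Representation

set_option maxHeartbeats 1000000 in
theorem defect_zero_vanish {G : Type*} [Group G] [Finite G] {V : Type*} [AddCommGroup V]
    [Module ℂ V] [FiniteDimensional ℂ V] (ρ : Representation ℂ G V) [hirr : ρ.IsIrreducible]
    (p n : ℕ) (hp : p.Prime) (hn : p ^ n ∣ Nat.card G) (hn' : ¬ p ^ (n + 1) ∣ Nat.card G)
    (hdeg : p ^ n ∣ Module.finrank ℂ V) (x : G) (hx : p ∣ orderOf x) : ρ.character x = 0 := by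
  classical
  haveI : Fintype G := Fintype.ofFinite G
  obtain ⟨χ, hχdef⟩ : ∃ χ : G → ℂ, χ = ρ.character := ⟨_, rfl⟩
  rw [← hχdef]
  have hχirr : Cfsg.IsIrrCharacter G χ := by rw [hχdef]; exact isIrrCharacter_of_rep ρ
  have hχchar : Cfsg.IsCharacter G χ := isCharacter_of_irr hχirr
  obtain ⟨g', hg'⟩ := hn
  have hpg' : ¬ p ∣ g' := by
    intro h; apply hn'; rw [hg', pow_succ]; exact Nat.mul_dvd_mul_left _ h
  obtain ⟨d', hd'⟩ := hdeg
  have hnt : Nontrivial V := ((irr_iff ρ).mp hirr).1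
  have hdpos : 0 < finrank ℂ V := finrank_pos
  have hd'pos : 0 < d' := by
    rcases Nat.eq_zero_or_pos d' with h | h
    · rw [h, mul_zero] at hd'; omega
    · exact h
  have hp0 : (p : ℂ) ≠ 0 := by exact_mod_cast hp.ne_zero
  have hnat : ∀ k : ℕ, IsIntegral ℤ (k : ℂ) := by
    intro k
    have h := isIntegral_algebraMap (R := ℤ) (A := ℂ) (x := (k : ℤ))
    simpa using h
  have hint : ∀ (e : G) (a : ℕ), p ^ a ∣ Nat.card (Subgroup.centralizer ({e} : Set G)) →
      IsIntegral ℤ ((g' : ℂ) * χ e / (p : ℂ) ^ a) := by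
    intro e a ⟨c₁, hc₁⟩
    have h1 := omega_isIntegral ρ e
    have h2 := Subgroup.index_mul_card (Subgroup.centralizer ({e} : Set G))
    rw [hc₁, hg'] at h2
    have hc₁0 : (c₁ : ℂ) ≠ 0 := by
      have h5 : c₁ ≠ 0 := by
        rintro rfl
        rw [mul_zero] at hc₁
        exact Nat.card_pos.ne' hc₁
      exact_mod_cast h5
    have hd0 : (d' : ℂ) ≠ 0 := by exact_mod_cast hd'pos.ne'
    have h4 : ((Subgroup.centralizer ({e} : Set G)).index : ℂ) * ((p : ℂ) ^ a * c₁)
        = (p : ℂ) ^ n * g' := by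
      exact_mod_cast h2
    have h3 : (g' : ℂ) * χ e / (p : ℂ) ^ a = ((c₁ * d' : ℕ) : ℂ) *
        (((Subgroup.centralizer ({e} : Set G)).index : ℂ) * ρ.character e
          / (finrank ℂ V : ℂ)) := by
      rw [hd', ← hχdef]
      push_cast
      field_simp
      linear_combination (-(χ e)) * h4
    rw [h3]
    exact IsIntegral.mul (hnat _) h1
  obtain ⟨θ, hθ⟩ : ∃ θ : G → ℂ, θ = fun g => if p ∣ orderOf g then 0 else χ g := ⟨_, rfl⟩
  have hθclass : Cfsg.IsClassFunction G θ := by
    intro g h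
    rw [hθ]
    have h1 : orderOf (h * g * h⁻¹) = orderOf g :=
      orderOf_injective (MulAut.conj h).toMonoidHom (MulAut.conj h).injective g
    show (if p ∣ orderOf (h * g * h⁻¹) then 0 else χ (h * g * h⁻¹))
      = if p ∣ orderOf g then 0 else χ g
    rw [h1, isClassFunction_of_char hχchar g h]
  have hθgen : Cfsg.IsGeneralizedCharacter G θ := by
    apply brauer_char θ hθclass
    intro E q hq hE
    haveI : Fintype E := Fintype.ofFinite E
    haveI : Fintype (Cfsg.IrrCharacter E) := Fintype.ofFinite _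
    obtain ⟨Q, a, hQn, hQidx, hQcop, hQcent⟩ := elementary_regular_subgroup hq hE p hp
    haveI := hQn
    haveI : Fintype Q := Fintype.ofFinite Q
    have hreg : ∀ e : E, ¬ p ∣ orderOf (e : G) ↔ e ∈ Q := by
      intro e
      have hord : orderOf (e : G) = orderOf e := Subgroup.orderOf_coe e
      rw [hord]
      constructor
      · intro h
        have h1 : e ^ (p ^ a) ∈ Q := by rw [← hQidx]; exact Subgroup.pow_index_mem Q e
        have hcop : Nat.Coprime (p ^ a) (orderOf e) :=
          Nat.Coprime.pow_left a ((Nat.Prime.coprime_iff_not_dvd hp).2 h)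
        have hb := Nat.gcd_eq_gcd_ab (p ^ a) (orderOf e)
        rw [hcop.gcd_eq_one] at hb
        have h3 : e = (e ^ (p ^ a)) ^ (Nat.gcdA (p ^ a) (orderOf e))
            * (e ^ (orderOf e)) ^ (Nat.gcdB (p ^ a) (orderOf e)) := by
          rw [← zpow_natCast e (p ^ a), ← zpow_natCast e (orderOf e), ← zpow_mul, ← zpow_mul,
            ← zpow_add, ← hb]
          simp
        rw [h3, pow_orderOf_eq_one, one_zpow, mul_one]
        exact Q.zpow_mem h1 _
      · intro he hdvd
        have h1 : orderOf e ∣ Nat.card Q := by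
          have h2 := orderOf_dvd_natCard (⟨e, he⟩ : Q)
          rwa [Subgroup.orderOf_mk] at h2
        exact (Nat.Prime.coprime_iff_not_dvd hp).1 hQcop.symm (hdvd.trans h1)
    have hθE : ∀ e : E, θ e = if e ∈ Q then χ e else 0 := by
      intro e
      rw [hθ]
      show (if p ∣ orderOf (e : G) then 0 else χ e) = _
      by_cases h : p ∣ orderOf (e : G)
      · rw [if_pos h, if_neg (fun hq => (hreg e).2 hq h)]
      · rw [if_neg h, if_pos ((hreg e).1 h)]
    have hclassE : Cfsg.IsClassFunction E (fun e : E => θ e) := by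
      intro e h
      exact hθclass (e : G) (h : G)
    apply isGen_of_inner_int _ hclassE
    intro ψ
    obtain ⟨n₁, hn₁⟩ := classInner_char_nat (G := Q)
      (isCharacter_restrict Q (isCharacter_restrict E hχchar))
      (isCharacter_restrict Q (isCharacter_of_irr ψ.2))
    have hsumQ : ∑ e : E, θ e * (starRingEnd ℂ) (ψ.1 e)
        = ∑ u : Q, χ ((u : E) : G) * (starRingEnd ℂ) (ψ.1 (u : E)) := by
      have h1 : ∀ e : E, θ e * (starRingEnd ℂ) (ψ.1 e)
          = if e ∈ Q then χ e * (starRingEnd ℂ) (ψ.1 e) else 0 := by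
        intro e
        rw [hθE]
        split_ifs <;> simp
      rw [Finset.sum_congr rfl (fun e _ => h1 e), ← Finset.sum_filter]
      exact Finset.sum_subtype (Finset.univ.filter (fun e : E => e ∈ Q)) (by intro e; simp)
        (fun e => χ e * (starRingEnd ℂ) (ψ.1 e))
    have hcardEQ : Nat.card E = p ^ a * Nat.card Q := by
      rw [← hQidx]; exact (Subgroup.index_mul_card Q).symm
    have hQpos : (Nat.card Q : ℂ) ≠ 0 := by exact_mod_cast Nat.card_pos.ne'
    have hS : ∑ u : Q, χ ((u : E) : G) * (starRingEnd ℂ) (ψ.1 (u : E))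
        = (Nat.card Q : ℂ) * n₁ := by
      unfold Cfsg.classInner at hn₁
      rw [← hn₁]
      field_simp
    have hintS : IsIntegral ℤ ((g' : ℂ) / (p : ℂ) ^ a
        * ∑ u : Q, χ ((u : E) : G) * (starRingEnd ℂ) (ψ.1 (u : E))) := by
      rw [Finset.mul_sum]
      apply IsIntegral.sum
      intro u _
      have h1 : (g' : ℂ) / (p : ℂ) ^ a * (χ ((u : E) : G) * (starRingEnd ℂ) (ψ.1 (u : E)))
          = ((g' : ℂ) * χ ((u : E) : G) / (p : ℂ) ^ a) * (starRingEnd ℂ) (ψ.1 (u : E)) := by
        ring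
      rw [h1]
      apply IsIntegral.mul
      · apply hint
        have h2 := hQcent (u : E) u.2
        have h3 : (Subgroup.centralizer ({(u : E)} : Set E)).map E.subtype
            ≤ Subgroup.centralizer ({((u : E) : G)} : Set G) := by
          rintro _ ⟨y, hy, rfl⟩
          have hy' : y ∈ Subgroup.centralizer ({(u : E)} : Set E) := hy
          rw [Subgroup.mem_centralizer_iff] at hy' ⊢
          intro h hh
          rw [Set.mem_singleton_iff] at hh
          rw [hh]
          have h6 := hy' (u : E) rfl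
          exact congrArg Subtype.val h6
        have h4 := Subgroup.card_dvd_of_le h3
        rw [Subgroup.card_map_of_injective E.subtype_injective] at h4
        exact h2.trans h4
      · exact map_isIntegral_int (starRingEnd ℂ) (irr_isIntegral ψ (u : E))
    rw [hS] at hintS
    have h5 : (g' : ℂ) / (p : ℂ) ^ a * ((Nat.card Q : ℂ) * n₁)
        = ((g' * Nat.card Q * n₁ : ℕ) : ℂ) / ((p ^ a : ℕ) : ℂ) := by
      push_cast; ring
    rw [h5] at hintS
    have h6 := dvd_of_isIntegral_div (pow_pos hp.pos a) hintS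
    have hcop2 : Nat.Coprime (p ^ a) (g' * Nat.card Q) := by
      apply Nat.Coprime.pow_left
      exact Nat.Coprime.mul_right ((Nat.Prime.coprime_iff_not_dvd hp).2 hpg') hQcop.symm
    have h7 : p ^ a ∣ n₁ := hcop2.dvd_of_dvd_mul_left h6
    obtain ⟨n₂, hn₂⟩ := h7
    refine ⟨(n₂ : ℤ), ?_⟩
    show (Nat.card E : ℂ)⁻¹ * ∑ e : E, θ e * (starRingEnd ℂ) (ψ.1 e) = _
    rw [hsumQ, hS, hcardEQ, hn₂]
    push_cast
    field_simp
  obtain ⟨χ₁, χ₂, hχ₁, hχ₂, hθeq⟩ := hθgen
  obtain ⟨n₁, hn₁⟩ := classInner_char_nat hχ₁ hχchar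
  obtain ⟨n₂, hn₂⟩ := classInner_char_nat hχ₂ hχchar
  have hN : Cfsg.classInner θ χ = (n₁ : ℂ) - (n₂ : ℂ) := by
    rw [hθeq, sub_eq_add_neg, classInner_add_left, ← hn₁]
    have h1 : -χ₂ = (-1 : ℂ) • χ₂ := by simp
    rw [h1, classInner_smul_left, hn₂]; ring
  obtain ⟨A, hAdef⟩ : ∃ A : ℝ, A = ∑ g : G, if p ∣ orderOf g then 0 else Complex.normSq (χ g) :=
    ⟨_, rfl⟩
  obtain ⟨B, hBdef⟩ : ∃ B : ℝ, B = ∑ g : G, Complex.normSq (χ g) := ⟨_, rfl⟩
  have hc : (Nat.card G : ℂ) ≠ 0 := by exact_mod_cast Nat.card_pos.ne'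
  have hA : Cfsg.classInner θ χ = (Nat.card G : ℂ)⁻¹ * (A : ℂ) := by
    unfold Cfsg.classInner
    congr 1
    rw [hAdef]
    push_cast
    refine Finset.sum_congr rfl (fun g _ => ?_)
    rw [hθ]
    by_cases h : p ∣ orderOf g
    · simp [h]
    · simp only [if_neg h]
      rw [Complex.mul_conj]
  have hB : (1 : ℂ) = (Nat.card G : ℂ)⁻¹ * (B : ℂ) := by
    have h1 := irr_inner_self (⟨χ, hχirr⟩ : Cfsg.IrrCharacter G)
    unfold Cfsg.classInner at h1
    rw [← h1]
    congr 1
    rw [hBdef]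
    push_cast
    refine Finset.sum_congr rfl (fun g _ => ?_)
    rw [Complex.mul_conj]
  have hBreal : B = Nat.card G := by
    have h1 : (B : ℂ) = ((Nat.card G : ℝ) : ℂ) := by
      push_cast
      field_simp at hB
      exact hB.symm
    exact_mod_cast h1
  have hAreal : A = ((n₁ : ℝ) - n₂) * Nat.card G := by
    have h1 : (A : ℂ) = ((n₁ : ℂ) - n₂) * Nat.card G := by
      rw [← hN, hA]; field_simp
    exact_mod_cast h1
  have hAB : A ≤ B := by
    rw [hAdef, hBdef]
    apply Finset.sum_le_sum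
    intro g _
    split_ifs
    · exact Complex.normSq_nonneg _
    · exact le_rfl
  have hApos : 0 < A := by
    have h1 : (if p ∣ orderOf (1 : G) then (0 : ℝ) else Complex.normSq (χ 1)) ≤ A := by
      rw [hAdef]
      exact Finset.single_le_sum
        (f := fun g : G => if p ∣ orderOf g then (0 : ℝ) else Complex.normSq (χ g))
        (fun g _ => by
          show (0 : ℝ) ≤ if p ∣ orderOf g then (0 : ℝ) else Complex.normSq (χ g)
          split_ifs
          · exact le_rfl
          · exact Complex.normSq_nonneg _) (Finset.mem_univ 1)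
    have h2 : ¬ p ∣ orderOf (1 : G) := by
      rw [orderOf_one, Nat.dvd_one]; exact hp.one_lt.ne'
    rw [if_neg h2] at h1
    have h3 : 0 < Complex.normSq (χ 1) := by
      rw [Complex.normSq_pos, hχdef, Representation.char_one]
      exact_mod_cast hdpos.ne'
    linarith
  have hcardpos : (0 : ℝ) < (Nat.card G : ℝ) := by exact_mod_cast Nat.card_pos
  have hk1 : (n₁ : ℝ) - n₂ = 1 := by
    have h1 : 0 < ((n₁ : ℝ) - n₂) * Nat.card G := by rw [← hAreal]; exact hApos
    have h2 : ((n₁ : ℝ) - n₂) * Nat.card G ≤ Nat.card G := by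
      rw [← hAreal]; rw [hBreal] at hAB; exact hAB
    have h3 : 0 < (n₁ : ℝ) - n₂ := by
      by_contra hneg
      push Not at hneg
      nlinarith
    have h4 : (n₁ : ℝ) - n₂ ≤ 1 := by
      by_contra hneg
      push Not at hneg
      nlinarith
    have h5 : (n₂ : ℤ) < n₁ := by exact_mod_cast (sub_pos.1 h3)
    have h6 : (n₁ : ℤ) ≤ n₂ + 1 := by
      have h8 : (n₁ : ℝ) ≤ n₂ + 1 := by linarith
      exact_mod_cast h8
    have h7 : (n₁ : ℤ) = n₂ + 1 := by omega
    have h9 : (n₁ : ℝ) = n₂ + 1 := by exact_mod_cast h7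
    linarith
  have hAeqB : A = B := by rw [hAreal, hk1, one_mul, hBreal]
  have hdiff : ∑ g : G, (Complex.normSq (χ g)
      - (if p ∣ orderOf g then 0 else Complex.normSq (χ g))) = 0 := by
    rw [Finset.sum_sub_distrib, ← hAdef, ← hBdef, hAeqB, sub_self]
  have hterm := (Finset.sum_eq_zero_iff_of_nonneg (fun g _ => by
    show (0 : ℝ) ≤ Complex.normSq (χ g) - (if p ∣ orderOf g then 0 else Complex.normSq (χ g))
    split_ifs
    · simp [Complex.normSq_nonneg]
    · simp)).1 hdiff x (Finset.mem_univ x)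
  rw [if_pos hx, sub_zero] at hterm
  exact Complex.normSq_eq_zero.1 hterm

end Cfsg.Agent.Lib.Lead
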