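import Mathlib
import Cfsg.Prelude.Def_Characters
import Cfsg.Agent.Lib.Lead.Char18
import Cfsg.Agent.Lib.Lead.Nilpotent
import Cfsg.Agent.Lib.Helper7.Schur

set_option autoImplicit false

namespace Cfsg.Agent.Lib.Lead

open Module Representation

/-- a faithful irreducible representation forces a cyclic centre -/
theorem center_cyclic_of_faithful_irr {G : Type*} [Group G] [Finite G] {V : Type*}
    [AddCommGroup V] [Module ℂ V] [FiniteDimensional ℂ V] (ρ : Representation ℂ G V)
    [hρ : ρ.IsIrreducible] (hinj : Function.Injective ρ) : IsCyclic (Subgroup.center G) := by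
  haveI : Nontrivial V := ((irr_iff ρ).mp hρ).1
  have hone : (1 : Module.End ℂ V) ≠ 0 := by
    intro h
    obtain ⟨v, hv⟩ := exists_ne (0 : V)
    apply hv
    have : (1 : Module.End ℂ V) v = (0 : Module.End ℂ V) v := by rw [h]
    simpa using this
  have hsc : ∀ z : Subgroup.center G, ∃ c : ℂ, ρ (z : G) = c • (1 : Module.End ℂ V) :=
    fun z => Cfsg.Agent.Lib.Helper7.central_scalar ρ z z.2
  choose c hc using hsc
  have hcinj : ∀ a b : ℂ, a • (1 : Module.End ℂ V) = b • (1 : Module.End ℂ V) → a = b :=
    fun a b h => smul_left_injective ℂ hone h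
  let f : Subgroup.center G →* ℂ :=
    { toFun := c
      map_one' := by
        apply hcinj
        rw [← hc, one_smul]
        exact map_one ρ
      map_mul' := by
        intro x y
        apply hcinj
        rw [← hc, Subgroup.coe_mul, map_mul, hc, hc, smul_mul_smul_comm, one_mul] }
  apply isCyclic_of_subgroup_isDomain f
  intro x y hxy
  have h1 : c x = c y := hxy
  have h2 : ρ (x : G) = ρ (y : G) := by rw [hc, hc, h1]
  exact Subtype.ext (hinj h2)

/-- in a finite group with cyclic centre, a central element of prime order `p` lies in every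
subgroup of the centre containing an element of order `p` -/
theorem mem_of_cyclic_center {G : Type*} [Group G] [Finite G] (hcyc : IsCyclic (Subgroup.center G))
    (p : ℕ) [hp : Fact p.Prime] (z w : G) (hz : z ∈ Subgroup.center G) (hw : w ∈ Subgroup.center G)
    (hzp : orderOf z = p) (hwp : orderOf w = p) : z ∈ Subgroup.zpowers w := by
  classical
  haveI : Fintype (Subgroup.center G) := Fintype.ofFinite _
  have hle := IsCyclic.card_pow_eq_one_le (α := Subgroup.center G) (n := p) hp.out.pos
  -- the set of `p`-torsion elements of the centre is `zpowers w`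
  let w' : Subgroup.center G := ⟨w, hw⟩
  let z' : Subgroup.center G := ⟨z, hz⟩
  have hw'p : orderOf w' = p := by rw [← hwp]; exact Subgroup.orderOf_mk w hw
  have hz'p : orderOf z' = p := by rw [← hzp]; exact Subgroup.orderOf_mk z hz
  have hsub : ((Subgroup.zpowers w' : Set (Subgroup.center G)).toFinset)
      ⊆ Finset.univ.filter (fun a : Subgroup.center G => a ^ p = 1) := by
    intro x hx
    rw [Set.mem_toFinset] at hx
    rw [Finset.mem_filter]
    refine ⟨Finset.mem_univ _, ?_⟩
    obtain ⟨k, rfl⟩ := Subgroup.mem_zpowers_iff.mp hx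
    rw [← zpow_natCast, ← zpow_mul, mul_comm, zpow_mul, zpow_natCast, ← hw'p, pow_orderOf_eq_one,
      one_zpow]
  have hcard : ((Subgroup.zpowers w' : Set (Subgroup.center G)).toFinset).card = p := by
    rw [Set.toFinset_card, ← Nat.card_eq_fintype_card]
    exact (Nat.card_zpowers w').trans hw'p
  have heq := Finset.eq_of_subset_of_card_le hsub (by rw [hcard]; exact hle)
  have hz' : z' ∈ Finset.univ.filter (fun a : Subgroup.center G => a ^ p = 1) := by
    rw [Finset.mem_filter]
    exact ⟨Finset.mem_univ _, by rw [← hz'p, pow_orderOf_eq_one]⟩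
  rw [← heq, Set.mem_toFinset] at hz'
  obtain ⟨k, hk⟩ := Subgroup.mem_zpowers_iff.mp hz'
  rw [Subgroup.mem_zpowers_iff]
  refine ⟨k, ?_⟩
  have := congrArg Subtype.val hk
  simpa using this

/-- a finite `p`-group with cyclic centre has a faithful irreducible representation -/
theorem exists_faithful_irr_of_cyclic_center {G : Type*} [Group G] [Finite G] (p : ℕ)
    [hp : Fact p.Prime] (hG : IsPGroup p G) (hcyc : IsCyclic (Subgroup.center G)) :
    ∃ (n : ℕ) (ρ : Representation ℂ G (Fin n → ℂ)), ρ.IsIrreducible ∧ Function.Injective ρ := by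
  classical
  by_cases hGt : Subsingleton G
  · refine ⟨1, Representation.trivial ℂ G (Fin 1 → ℂ), ?_, ?_⟩
    · apply irr_of_finrank_one
      simp
    · intro a b _
      exact Subsingleton.elim a b
  · rw [not_subsingleton_iff_nontrivial] at hGt
    haveI := hGt
    haveI : Group.IsNilpotent G := hG.isNilpotent
    haveI : Nontrivial (Subgroup.center G) := hG.center_nontrivial
    -- a central element of order `p`
    have hpc : p ∣ Nat.card (Subgroup.center G) := by
      obtain ⟨k, hk⟩ := IsPGroup.iff_card.mp (hG.to_subgroup (Subgroup.center G))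
      have hk0 : k ≠ 0 := by
        rintro rfl
        rw [pow_zero] at hk
        have := Finite.one_lt_card (α := Subgroup.center G)
        omega
      rw [hk]
      exact dvd_pow_self p hk0
    obtain ⟨z', hz'⟩ := exists_prime_orderOf_dvd_card' p hpc
    have hz : orderOf (z' : G) = p := by rw [← hz']; exact (Subgroup.orderOf_coe z').symm ▸ rfl
    have hz1 : (z' : G) ≠ 1 := by
      intro h
      rw [h, orderOf_one] at hz
      exact hp.out.one_lt.ne hz
    -- an irreducible character not trivial at `z`
    have hex : ∃ χ : Cfsg.IrrCharacter G, χ.1 (z' : G) ≠ χ.1 1 := by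
      by_contra hcon
      push Not at hcon
      have := (isConj_iff_irr (z' : G) 1).mpr hcon
      exact hz1 (isConj_one_left.mp this)
    obtain ⟨χ, hχ⟩ := hex
    obtain ⟨n, ρ, hρ, hρχ⟩ := χ.2
    refine ⟨n, ρ, hρ, ?_⟩
    have hzker : (z' : G) ∉ MonoidHom.ker ρ := by
      intro h
      apply hχ
      rw [← hρχ]
      show LinearMap.trace ℂ _ (ρ (z' : G)) = LinearMap.trace ℂ _ (ρ 1)
      have h2 : ρ (z' : G) = ρ 1 := by rw [MonoidHom.mem_ker.mp h, map_one]
      rw [h2]
    have hker : MonoidHom.ker ρ = ⊥ := by
      by_contra hne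
      haveI : (MonoidHom.ker ρ).Normal := MonoidHom.normal_ker ρ
      have h1 := normal_inf_center_ne_bot (MonoidHom.ker ρ) hne
      -- a nontrivial element of `ker ρ ⊓ center G`, hence one of order `p`
      haveI : Nontrivial ↥(MonoidHom.ker ρ ⊓ Subgroup.center G) :=
        (Subgroup.nontrivial_iff_ne_bot _).mpr h1
      have hpc2 : p ∣ Nat.card ↥(MonoidHom.ker ρ ⊓ Subgroup.center G) := by
        obtain ⟨k, hk⟩ := IsPGroup.iff_card.mp
          (hG.to_subgroup (MonoidHom.ker ρ ⊓ Subgroup.center G))
        have hk0 : k ≠ 0 := by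
          rintro rfl
          rw [pow_zero] at hk
          have := Finite.one_lt_card (α := ↥(MonoidHom.ker ρ ⊓ Subgroup.center G))
          omega
        rw [hk]
        exact dvd_pow_self p hk0
      obtain ⟨w', hw'⟩ := exists_prime_orderOf_dvd_card' p hpc2
      have hw : orderOf (w' : G) = p := by rw [← hw']; exact (Subgroup.orderOf_coe w').symm ▸ rfl
      have hmem := mem_of_cyclic_center hcyc p (z' : G) (w' : G) z'.2 w'.2.2 hz hw
      exact hzker ((Subgroup.zpowers_le.mpr w'.2.1) hmem)
    intro a b hab
    have h1 : a⁻¹ * b ∈ MonoidHom.ker ρ := by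
      rw [MonoidHom.mem_ker, map_mul, ← hab, ← map_mul, inv_mul_cancel, map_one]
    rw [hker, Subgroup.mem_bot] at h1
    exact inv_mul_eq_one.mp h1

end Cfsg.Agent.Lib.Lead
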