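import Mathlib
import Cfsg.Prelude.Def_Characters
import Cfsg.Agent.Lib.Lead.Char18

set_option autoImplicit false

namespace Cfsg.Agent.Lib.Lead

open Module Representation

/-- a representation all of whose irreducible subrepresentations are one-dimensional has
commuting image -/
theorem comm_of_irr_sub_dim_one {G : Type*} [Group G] [Finite G] {V : Type*} [AddCommGroup V]
    [Module ℂ V] [FiniteDimensional ℂ V] (ρ : Representation ℂ G V)
    (h1 : ∀ (X : Submodule ℂ V) (hX : ∀ g : G, ∀ v ∈ X, ρ g v ∈ X),
      (subRep ρ X hX).IsIrreducible → finrank ℂ X = 1) (a b : G) :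
    ρ (a * b) = ρ (b * a) := by
  let E : Set V := {v | ∀ g : G, ∃ c : ℂ, ρ g v = c • v}
  have hW : ∀ g : G, ∀ v ∈ Submodule.span ℂ E, ρ g v ∈ Submodule.span ℂ E := by
    intro g v hv
    induction hv using Submodule.span_induction with
    | mem v hv =>
      obtain ⟨c, hc⟩ := hv g
      rw [hc]
      exact Submodule.smul_mem _ _ (Submodule.subset_span hv)
    | zero => rw [map_zero]; exact Submodule.zero_mem _
    | add x y _ _ hx hy => rw [map_add]; exact Submodule.add_mem _ hx hy
    | smul k x _ hx => rw [map_smul]; exact Submodule.smul_mem _ _ hx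
  have htop : Submodule.span ℂ E = ⊤ := by
    obtain ⟨U', hU', hcompl⟩ := exists_invariant_compl ρ (Submodule.span ℂ E) hW
    by_cases hne : U' = ⊥
    · have := hcompl.sup_eq_top
      rw [hne, sup_bot_eq] at this
      exact this
    · exfalso
      obtain ⟨X, hX, hXU, hXne, hXirr⟩ := exists_irr_sub ρ U' hU' hne
      have hX1 := h1 X hX hXirr
      obtain ⟨v, hv0, hv⟩ := finrank_eq_one_iff'.mp hX1
      have hvE : (v : V) ∈ E := by
        intro g
        obtain ⟨c, hc⟩ := hv ⟨ρ g v, hX g v v.2⟩
        refine ⟨c, ?_⟩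
        have := congrArg Subtype.val hc
        exact this.symm
      have hvW : (v : V) ∈ Submodule.span ℂ E := Submodule.subset_span hvE
      have hvU : (v : V) ∈ U' := hXU v.2
      have : (v : V) ∈ Submodule.span ℂ E ⊓ U' := ⟨hvW, hvU⟩
      rw [hcompl.inf_eq_bot, Submodule.mem_bot] at this
      apply hv0
      exact Subtype.ext this
  have heq : Set.EqOn (ρ (a * b)) (ρ (b * a)) E := by
    intro v hv
    obtain ⟨ca, hca⟩ := hv a
    obtain ⟨cb, hcb⟩ := hv b
    rw [map_mul, map_mul, Module.End.mul_apply, Module.End.mul_apply, hcb, hca, map_smul,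
      map_smul, hca, hcb, smul_smul, smul_smul, mul_comm]
  apply LinearMap.ext_on htop heq

/-- **faithful representation of small degree**: a finite group with a faithful complex
representation of degree smaller than every prime divisor of its order is abelian -/
theorem comm_of_faithful_small {G : Type*} [Group G] [Finite G] {V : Type*} [AddCommGroup V]
    [Module ℂ V] [FiniteDimensional ℂ V] (ρ : Representation ℂ G V)
    (hfaithful : Function.Injective ρ)
    (hdeg : ∀ p : ℕ, p.Prime → p ∣ Nat.card G → finrank ℂ V < p) (a b : G) :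
    a * b = b * a := by
  apply hfaithful
  apply comm_of_irr_sub_dim_one
  intro X hX hirr
  have hdvd : finrank ℂ X ∣ Nat.card G := deg_dvd_card (subRep ρ X hX)
  have hle : finrank ℂ X ≤ finrank ℂ V := Submodule.finrank_le X
  by_contra hne
  obtain ⟨q, hq, hqd⟩ := Nat.exists_prime_and_dvd hne
  have h2 := hdeg q hq (hqd.trans hdvd)
  have hpos : 0 < finrank ℂ X := by
    haveI : Nontrivial X := ((irr_iff _).mp hirr).1
    exact Module.finrank_pos
  have h3 := Nat.le_of_dvd hpos hqd
  omega

end Cfsg.Agent.Lib.Lead
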