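import Mathlib

namespace Cfsg.Agent.Lib.Lead

open Finset

variable {F : Type*} [Field F] [Fintype F]

/-- for `x ≠ 0`, the equation `x ⬝ y = c` has `q^m / q` solutions -/
theorem card_dot_eq (m : ℕ) (x : Fin m → F) (hx : x ≠ 0) (c : F) :
    Nat.card {y : Fin m → F // ∑ i, x i * y i = c} * Fintype.card F = Fintype.card F ^ m := by
  classical
  obtain ⟨i, hi⟩ : ∃ i, x i ≠ 0 := by
    by_contra h
    push Not at h
    exact hx (funext h)
  have hval : ∀ d : F, ∑ j, x j * (Pi.single i (d / x i) : Fin m → F) j = d := by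
    intro d
    rw [Finset.sum_eq_single i]
    · rw [Pi.single_eq_same]
      field_simp
    · intro j _ hj
      rw [Pi.single_eq_of_ne hj, mul_zero]
    · intro h
      exact absurd (Finset.mem_univ i) h
  have hfib : ∀ d : F, Nat.card {y : Fin m → F // ∑ i, x i * y i = d} =
      Nat.card {y : Fin m → F // ∑ i, x i * y i = c} := by
    intro d
    apply Nat.card_congr
    refine Equiv.subtypeEquiv (Equiv.addRight (Pi.single i ((c - d) / x i) : Fin m → F)) ?_
    intro y
    show _ ↔ ∑ j, x j * ((y + Pi.single i ((c - d) / x i) : Fin m → F) j) = c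
    simp only [Pi.add_apply, mul_add, Finset.sum_add_distrib]
    rw [hval (c - d)]
    constructor
    · intro h; rw [h]; ring
    · intro h; linear_combination h
  have htot : Fintype.card (Fin m → F) =
      ∑ d : F, Fintype.card {y : Fin m → F // ∑ i, x i * y i = d} := by
    rw [← Fintype.card_sigma]
    exact Fintype.card_congr (Equiv.sigmaFiberEquiv (fun y : Fin m → F => ∑ i, x i * y i)).symm
  rw [Fintype.card_fun, Fintype.card_fin] at htot
  rw [htot]
  have : ∀ d : F, Fintype.card {y : Fin m → F // ∑ i, x i * y i = d} =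
      Nat.card {y : Fin m → F // ∑ i, x i * y i = c} := by
    intro d
    rw [← Nat.card_eq_fintype_card]
    exact hfib d
  rw [Finset.sum_congr rfl (fun d _ => this d), Finset.sum_const, Finset.card_univ, smul_eq_mul,
    mul_comm]

/-- the number of `(t, x, y)` with `g t + x ⬝ y = 0`, when `g` vanishes at exactly one point -/
theorem card_aux_form (m : ℕ) {T : Type*} [Fintype T] (g : T → F) (t₀ : T)
    (h0 : ∀ t, g t = 0 ↔ t = t₀) :
    Nat.card {p : T × ((Fin m → F) × (Fin m → F)) // g p.1 + ∑ i, p.2.1 i * p.2.2 i = 0} *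
        Fintype.card F =
      Fintype.card F ^ (m + 1) +
        Fintype.card T * ((Fintype.card F ^ m - 1) * Fintype.card F ^ m) := by
  classical
  -- fibre over (t, x)
  have hfix : ∀ (t : T) (x : Fin m → F),
      Nat.card {y : Fin m → F // g t + ∑ i, x i * y i = 0} * Fintype.card F =
        if x = 0 then (if t = t₀ then Fintype.card F ^ (m + 1) else 0) else Fintype.card F ^ m := by
    intro t x
    by_cases hx : x = 0
    · subst hx
      rw [if_pos rfl]
      by_cases ht : t = t₀
      · rw [if_pos ht]
        have : ∀ y : Fin m → F, g t + ∑ i, (0 : Fin m → F) i * y i = 0 := by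
          intro y
          simp [(h0 t).mpr ht]
        rw [Nat.card_congr (Equiv.subtypeUnivEquiv this), Nat.card_eq_fintype_card,
          Fintype.card_fun, Fintype.card_fin, pow_succ]
      · rw [if_neg ht]
        have : ∀ y : Fin m → F, ¬ (g t + ∑ i, (0 : Fin m → F) i * y i = 0) := by
          intro y
          simp [(h0 t).not.mpr ht]
        haveI : IsEmpty {y : Fin m → F // g t + ∑ i, (0 : Fin m → F) i * y i = 0} :=
          ⟨fun y => this y.1 y.2⟩
        rw [Nat.card_of_isEmpty, zero_mul]
    · rw [if_neg hx, ← card_dot_eq m x hx (-g t)]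
      congr 1
      apply Nat.card_congr
      refine Equiv.subtypeEquiv (Equiv.refl _) ?_
      intro y
      show _ ↔ ∑ i, x i * y i = -g t
      constructor
      · intro h; linear_combination h
      · intro h; linear_combination h
  have hcard : Nat.card {p : T × ((Fin m → F) × (Fin m → F)) //
        g p.1 + ∑ i, p.2.1 i * p.2.2 i = 0} =
      ∑ t : T, ∑ x : Fin m → F, Nat.card {y : Fin m → F // g t + ∑ i, x i * y i = 0} := by
    rw [Nat.card_eq_fintype_card]
    have e1 : {p : T × ((Fin m → F) × (Fin m → F)) // g p.1 + ∑ i, p.2.1 i * p.2.2 i = 0} ≃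
        Σ t : T, Σ x : Fin m → F, {y : Fin m → F // g t + ∑ i, x i * y i = 0} :=
      { toFun := fun p => ⟨p.1.1, p.1.2.1, p.1.2.2, p.2⟩
        invFun := fun s => ⟨(s.1, s.2.1, s.2.2.1), s.2.2.2⟩
        left_inv := fun p => rfl
        right_inv := fun s => rfl }
    rw [Fintype.card_congr e1, Fintype.card_sigma]
    refine Finset.sum_congr rfl (fun t _ => ?_)
    rw [Fintype.card_sigma]
    refine Finset.sum_congr rfl (fun x _ => ?_)
    rw [Nat.card_eq_fintype_card]
  rw [hcard, Finset.sum_mul]
  have hinner : ∀ t : T, (∑ x : Fin m → F,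
      Nat.card {y : Fin m → F // g t + ∑ i, x i * y i = 0}) * Fintype.card F =
      (if t = t₀ then Fintype.card F ^ (m + 1) else 0) +
        (Fintype.card F ^ m - 1) * Fintype.card F ^ m := by
    intro t
    rw [Finset.sum_mul, Finset.sum_congr rfl (fun x _ => hfix t x),
      ← Finset.add_sum_erase Finset.univ _ (Finset.mem_univ (0 : Fin m → F)), if_pos rfl]
    congr 1
    rw [Finset.sum_congr rfl (fun x hx => if_neg (Finset.ne_of_mem_erase hx)), Finset.sum_const,
      Finset.card_erase_of_mem (Finset.mem_univ _), Finset.card_univ, Fintype.card_fun,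
      Fintype.card_fin, smul_eq_mul]
  rw [Finset.sum_congr rfl (fun t _ => hinner t), Finset.sum_add_distrib, Finset.sum_ite_eq'
    Finset.univ t₀, if_pos (Finset.mem_univ _), Finset.sum_const, Finset.card_univ, smul_eq_mul]

end Cfsg.Agent.Lib.Lead
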