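import Mathlib
import Cfsg.Prelude.Def_Solvable
import Cfsg.Agent.Lib.Lead.Basic
import Cfsg.Agent.Lib.Lead.CoprimeSylow
import Cfsg.Agent.Lib.Lead.Fitting2

set_option autoImplicit false
open Pointwise

namespace Cfsg.Agent.Lib.Lead

variable {G : Type*} [Group G]

/-- A normal subgroup `N ⊇ Φ(G)` with `N / Φ(G)` nilpotent is nilpotent. -/
theorem isNilpotent_of_frattini_quotient [Finite G] (N : Subgroup G) [hN : N.Normal]
    (hΦ : frattini G ≤ N)
    (hnil : Group.IsNilpotent ↥(N.map (QuotientGroup.mk' (frattini G)))) : Group.IsNilpotent N := by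
  have key : Group.IsNilpotent ↥N ↔
      ∀ (p : ℕ) (_hp : Fact p.Prime) (P : Sylow p ↥N), (↑P : Subgroup ↥N).Normal :=
    (Group.isNilpotent_of_finite_tfae (G := ↥N)).out 0 3
  rw [key]
  intro p hp P
  set π := QuotientGroup.mk' (frattini G) with hπ
  haveI : (N.map π).Normal := hN.map π (QuotientGroup.mk'_surjective _)
  -- image Sylow
  have hsurj : Function.Surjective (π.subgroupMap N) := π.subgroupMap_surjective N
  have hPbn : ((P.mapSurjective hsurj : Sylow p ↥(N.map π)) : Subgroup ↥(N.map π)).Normal := inferInstance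
  haveI := Sylow.characteristic_of_normal (P.mapSurjective hsurj) hPbn
  have hn1 : (((P.mapSurjective hsurj : Sylow p ↥(N.map π)) : Subgroup ↥(N.map π)).map (N.map π).subtype).Normal :=
    inferInstance
  have heq : ((P.mapSurjective hsurj : Sylow p ↥(N.map π)) : Subgroup ↥(N.map π)).map (N.map π).subtype =
      ((P : Subgroup N).map N.subtype).map π := by
    rw [Sylow.coe_mapSurjective, Subgroup.map_map, Subgroup.map_map]
    rfl
  rw [heq] at hn1
  have hMn : ((P : Subgroup N).map N.subtype ⊔ frattini G).Normal := by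
    have h3 := hn1.comap π
    rwa [Subgroup.comap_map_eq, QuotientGroup.ker_mk'] at h3
  have hP'N : (P : Subgroup N).map N.subtype ≤ N := Subgroup.map_subtype_le _
  have hMN : (P : Subgroup N).map N.subtype ⊔ frattini G ≤ N := sup_le hP'N hΦ
  have hcP : Nat.card ((P : Subgroup N).map N.subtype) = p ^ (Nat.card N).factorization p := card_sylow_map N P
  have hcPM : Nat.card ((P : Subgroup N).map N.subtype) =
      p ^ (Nat.card ↥((P : Subgroup N).map N.subtype ⊔ frattini G)).factorization p := by
    rw [hcP]
    congr 1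
    apply le_antisymm
    · have h1 : p ^ (Nat.card N).factorization p ∣ Nat.card ↥((P : Subgroup N).map N.subtype ⊔ frattini G) := by
        rw [← hcP]; exact Subgroup.card_dvd_of_le le_sup_left
      exact (hp.out.pow_dvd_iff_le_factorization Nat.card_pos.ne').mp h1
    · have h2 := Subgroup.card_dvd_of_le hMN
      exact (Nat.factorization_le_iff_dvd Nat.card_pos.ne' Nat.card_pos.ne').mpr h2 p
  -- Frattini argument
  have htop : Subgroup.normalizer (((P : Subgroup N).map N.subtype : Subgroup G) : Set G) = ⊤ := by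
    apply frattini_nongenerating
    rw [eq_top_iff]
    intro g _
    have hgM : MulAut.conj g • (P : Subgroup N).map N.subtype ≤ (P : Subgroup N).map N.subtype ⊔ frattini G := by
      intro x hx
      rw [mem_conj_smul] at hx
      have h1 := hMn.conj_mem _ (Subgroup.mem_sup_left hx) g
      simpa [mul_assoc] using h1
    obtain ⟨P₁, hP₁⟩ := exists_sylow_map_eq (p := p) _ _ (le_sup_left :
      (P : Subgroup N).map N.subtype ≤ (P : Subgroup N).map N.subtype ⊔ frattini G) hcPM
    obtain ⟨P₂, hP₂⟩ := exists_sylow_map_eq (p := p) _ _ hgM (by rw [card_conj_smul]; exact hcPM)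
    obtain ⟨m, hm, hmP⟩ := sylow_map_conj _ P₁ P₂
    rw [hP₁, hP₂] at hmP
    have h4 : MulAut.conj (m⁻¹ * g) • (P : Subgroup N).map N.subtype = (P : Subgroup N).map N.subtype := by
      rw [map_mul, mul_smul, ← hmP, ← mul_smul, ← map_mul, inv_mul_cancel, map_one, one_smul]
    have h5 : g = m * (m⁻¹ * g) := by group
    rw [h5]
    have hm' : m ∈ Subgroup.normalizer (((P : Subgroup N).map N.subtype : Subgroup G) : Set G) ⊔ frattini G := by
      have : (P : Subgroup N).map N.subtype ⊔ frattini G ≤
          Subgroup.normalizer (((P : Subgroup N).map N.subtype : Subgroup G) : Set G) ⊔ frattini G :=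
        sup_le_sup_right Subgroup.le_normalizer _
      exact this hm
    exact Subgroup.mul_mem _ hm' (Subgroup.mem_sup_left (mem_normalizer_of_conj_smul_eq h4))
  have hPn : ((P : Subgroup N).map N.subtype).Normal := Subgroup.normalizer_eq_top_iff.mp htop
  have h6 := hPn.comap N.subtype
  rwa [Subgroup.comap_map_eq_self_of_injective N.subtype_injective] at h6

end Cfsg.Agent.Lib.Lead
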