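import Mathlib
import Cfsg.Agent.Lib.Lead.Charac
import Cfsg.Agent.Lib.Lead.Char8

set_option autoImplicit false

namespace Cfsg.Agent.Lib.Lead

open scoped commutatorElement

set_option maxHeartbeats 1000000 in
/-- a group `H` normalising `F`, acting freely on `F \ {1}` by conjugation with at most two
orbits, forces `F` to be elementary abelian. -/
theorem free2_elementary {G : Type*} [Group G] [Finite G] (F H : Subgroup G)
    (hnorm : ∀ h ∈ H, ∀ u ∈ F, h * u * h⁻¹ ∈ F)
    (hfree : ∀ h ∈ H, ∀ u ∈ F, u ≠ 1 → h * u * h⁻¹ = u → h = 1)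
    (hcard : Nat.card F - 1 ≤ 2 * Nat.card H) (hF : F ≠ ⊥) :
    ∃ p : ℕ, p.Prime ∧ (∀ u ∈ F, u ^ p = 1) ∧ (∀ x ∈ F, ∀ y ∈ F, x * y = y * x) := by
  classical
  obtain ⟨d, hd⟩ : ∃ d, d = Nat.card H := ⟨_, rfl⟩
  obtain ⟨n, hn⟩ : ∃ n, n = Nat.card F := ⟨_, rfl⟩
  rw [← hd, ← hn] at hcard
  have hdpos : 0 < d := hd ▸ Nat.card_pos
  have hncF : ((F : Set G)).ncard = n := by rw [hn, ← Nat.card_coe_set_eq]; rfl
  have hcls : ∀ x ∈ F, x ≠ 1 → ((fun h => h * x * h⁻¹) '' (H : Set G)).ncard = d := by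
    intro x hx hx1
    rw [Set.InjOn.ncard_image, hd, ← Nat.card_coe_set_eq]
    · rfl
    · intro h hh h' hh' e
      have e' : h * x * h⁻¹ = h' * x * h'⁻¹ := e
      have h1 : (h'⁻¹ * h) * x * (h'⁻¹ * h)⁻¹ = x := by
        calc (h'⁻¹ * h) * x * (h'⁻¹ * h)⁻¹ = h'⁻¹ * (h * x * h⁻¹) * h' := by group
          _ = h'⁻¹ * (h' * x * h'⁻¹) * h' := by rw [e']
          _ = x := by group
      have h2 := hfree _ (H.mul_mem (H.inv_mem hh') hh) x hx hx1 h1
      exact (inv_mul_eq_one.1 h2).symm
  have hHnorm : H ≤ Subgroup.normalizer (F : Set G) := by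
    intro h hh
    rw [Subgroup.mem_normalizer_iff]
    intro u
    refine ⟨hnorm h hh u, fun hu => ?_⟩
    have := hnorm h⁻¹ (H.inv_mem hh) _ hu
    have e : h⁻¹ * (h * u * h⁻¹) * h⁻¹⁻¹ = u := by group
    rwa [e] at this
  -- (c)
  have hc : ∀ M : Subgroup G, M ≤ F → (∀ h ∈ H, ∀ m ∈ M, h * m * h⁻¹ ∈ M) → M ≠ ⊥ → M = F := by
    intro M hMF hMinv hM1
    by_contra hne
    obtain ⟨v, hvF, hvM⟩ : ∃ v ∈ F, v ∉ M := by
      by_contra hh
      push Not at hh
      exact hne (le_antisymm hMF hh)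
    obtain ⟨m, hmM, hm1⟩ : ∃ m ∈ M, m ≠ 1 := by
      by_contra hh
      push Not at hh
      exact hM1 ((Subgroup.eq_bot_iff_forall M).2 hh)
    have hv1 : v ≠ 1 := fun h => hvM (h ▸ M.one_mem)
    have hncM : ((M : Set G)).ncard = Nat.card M := by rw [← Nat.card_coe_set_eq]; rfl
    have h1 : insert 1 ((fun h => h * m * h⁻¹) '' (H : Set G)) ⊆ (M : Set G) := by
      intro y hy
      rcases hy with rfl | ⟨h, hh, rfl⟩
      · exact M.one_mem
      · exact hMinv h hh m hmM
    have h2 : (insert (1 : G) ((fun h => h * m * h⁻¹) '' (H : Set G))).ncard = d + 1 := by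
      rw [Set.ncard_insert_of_notMem, hcls m (hMF hmM) hm1]
      rintro ⟨h, hh, e⟩
      apply hm1
      have e' : h * m * h⁻¹ = 1 := e
      have : m = h⁻¹ * (h * m * h⁻¹) * h := by group
      rw [this, e']; group
    have h3 : d + 1 ≤ Nat.card M := by
      rw [← h2, ← hncM]
      exact Set.ncard_le_ncard h1
    have h4 : (fun h => h * v * h⁻¹) '' (H : Set G) ⊆ (F : Set G) \ (M : Set G) := by
      rintro y ⟨h, hh, rfl⟩
      refine ⟨hnorm h hh v hvF, fun hy => hvM ?_⟩
      have := hMinv h⁻¹ (H.inv_mem hh) _ hy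
      have e : h⁻¹ * (h * v * h⁻¹) * h⁻¹⁻¹ = v := by group
      rwa [e] at this
    have h5 : d ≤ n - Nat.card M := by
      have := Set.ncard_le_ncard h4
      rw [hcls v hvF hv1, Set.ncard_sdiff (show (M : Set G) ⊆ F from hMF), hncF, hncM] at this
      exact this
    have h6 : Nat.card M ∣ n := hn ▸ Subgroup.card_dvd_of_le hMF
    have hnpos : 0 < n := hn ▸ Nat.card_pos
    have hMn : Nat.card M ≤ n := Nat.le_of_dvd hnpos h6
    have h7 : Nat.card M = d + 1 := by omega
    have h8 : n = 2 * d + 1 := by omega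
    rw [h7, h8] at h6
    have h9 : d + 1 ∣ 2 * (d + 1) := Dvd.intro_left _ rfl
    have h10 := Nat.dvd_sub h9 h6
    rw [show 2 * (d + 1) - (2 * d + 1) = 1 by omega] at h10
    have := Nat.le_of_dvd one_pos h10
    omega
  have hchar : ∀ C : Subgroup F, C.Characteristic → C ≠ ⊥ → C = ⊤ := by
    intro C hC hC1
    have h1 := hc (C.map F.subtype) (Subgroup.map_subtype_le C) (by
      intro h hh m hm
      have h2 := le_normalizer_map_of_characteristic F C (hHnorm hh)
      exact (Subgroup.mem_normalizer_iff.1 h2 m).1 hm) (by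
      intro h
      apply hC1
      rw [eq_bot_iff]
      intro x hx
      have : (x : G) ∈ C.map F.subtype := ⟨x, hx, rfl⟩
      rw [h, Subgroup.mem_bot] at this
      exact Subgroup.mem_bot.2 (Subtype.ext this))
    rw [eq_top_iff]
    intro x _
    have : (x : G) ∈ C.map F.subtype := by rw [h1]; exact x.2
    obtain ⟨y, hy, e⟩ := this
    have : y = x := Subtype.ext e
    exact this ▸ hy
  haveI hFnt : Nontrivial F := (Subgroup.nontrivial_iff_ne_bot F).2 hF
  have hn2 : 2 ≤ n := by rw [hn]; exact Finite.one_lt_card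
  obtain ⟨p, hp, hpn⟩ := Nat.exists_prime_and_dvd (n := n) (by omega)
  have huniq : ∀ {q : ℕ}, q.Prime → q ∣ n → q = p := by
    intro q hq hqn
    by_contra hqp
    haveI := Fact.mk hp
    haveI := Fact.mk hq
    obtain ⟨xp, hxp⟩ := exists_prime_orderOf_dvd_card' (G := F) p (hn ▸ hpn)
    obtain ⟨xq, hxq⟩ := exists_prime_orderOf_dvd_card' (G := F) q (hn ▸ hqn)
    have hxp' : orderOf (xp : G) = p := by rw [Subgroup.orderOf_coe]; exact hxp
    have hxq' : orderOf (xq : G) = q := by rw [Subgroup.orderOf_coe]; exact hxq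
    have hxp1 : (xp : G) ≠ 1 := by
      intro h
      rw [h, orderOf_one] at hxp'
      exact hp.one_lt.ne hxp'
    have hxq1 : (xq : G) ≠ 1 := by
      intro h
      rw [h, orderOf_one] at hxq'
      exact hq.one_lt.ne hxq'
    have hconjord : ∀ (h x : G), orderOf (h * x * h⁻¹) = orderOf x := fun h x =>
      (MulAut.conj h).orderOf_eq x
    have hord : ∀ u ∈ F, u ≠ 1 → orderOf u = p ∨ orderOf u = q := by
      have hsub : ((fun h => h * (xp : G) * h⁻¹) '' (H : Set G)) ∪
          ((fun h => h * (xq : G) * h⁻¹) '' (H : Set G)) ⊆ (F : Set G) \ {1} := by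
        rintro y (⟨h, hh, rfl⟩ | ⟨h, hh, rfl⟩)
        · refine ⟨hnorm h hh _ xp.2, fun h1 => ?_⟩
          have h2 : h * (xp : G) * h⁻¹ = 1 := h1
          have h3 := hconjord h (xp : G)
          rw [h2, orderOf_one, hxp'] at h3
          exact hp.one_lt.ne h3
        · refine ⟨hnorm h hh _ xq.2, fun h1 => ?_⟩
          have h2 : h * (xq : G) * h⁻¹ = 1 := h1
          have h3 := hconjord h (xq : G)
          rw [h2, orderOf_one, hxq'] at h3
          exact hq.one_lt.ne h3
      have hdisj : Disjoint ((fun h => h * (xp : G) * h⁻¹) '' (H : Set G))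
          ((fun h => h * (xq : G) * h⁻¹) '' (H : Set G)) := by
        rw [Set.disjoint_left]
        rintro y ⟨h, hh, rfl⟩ ⟨h', hh', e⟩
        have e' : h' * (xq : G) * h'⁻¹ = h * (xp : G) * h⁻¹ := e
        have h3 := hconjord h (xp : G)
        rw [← e', hconjord, hxp', hxq'] at h3
        exact hqp h3
      have hcardU : (((fun h => h * (xp : G) * h⁻¹) '' (H : Set G)) ∪
          ((fun h => h * (xq : G) * h⁻¹) '' (H : Set G))).ncard = 2 * d := by
        rw [Set.ncard_union_eq hdisj, hcls _ xp.2 hxp1, hcls _ xq.2 hxq1]; ring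
      have hF1 : ((F : Set G) \ {1}).ncard = n - 1 := by
        rw [Set.ncard_sdiff (by
          intro y hy
          rw [Set.mem_singleton_iff] at hy
          rw [hy]; exact F.one_mem), Set.ncard_singleton, hncF]
      have heq := Set.eq_of_subset_of_ncard_le hsub (by rw [hF1, hcardU]; exact hcard)
      intro u hu hu1
      have hmem : u ∈ (F : Set G) \ {1} := ⟨hu, hu1⟩
      rw [← heq] at hmem
      rcases hmem with ⟨h, hh, rfl⟩ | ⟨h, hh, rfl⟩
      · left; rw [hconjord, hxp']
      · right; rw [hconjord, hxq']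
    obtain ⟨a, m, hpm, hnm⟩ := Nat.exists_eq_pow_mul_and_not_dvd (n := n) (by omega) p hp.ne_one
    have hm0 : m ≠ 0 := by
      intro h
      rw [h, mul_zero] at hnm
      omega
    obtain ⟨b, m', hqm', hmm'⟩ := Nat.exists_eq_pow_mul_and_not_dvd (n := m) hm0 q hq.ne_one
    have hm'1 : m' = 1 := by
      by_contra h
      obtain ⟨ℓ, hℓ, hℓm⟩ := Nat.exists_prime_and_dvd h
      have hℓm2 : ℓ ∣ m := by rw [hmm']; exact Dvd.dvd.mul_left hℓm _
      have hℓn : ℓ ∣ n := by rw [hnm]; exact Dvd.dvd.mul_left hℓm2 _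
      haveI := Fact.mk hℓ
      obtain ⟨xl, hxl⟩ := exists_prime_orderOf_dvd_card' (G := F) ℓ (hn ▸ hℓn)
      have hxl' : orderOf (xl : G) = ℓ := by rw [Subgroup.orderOf_coe]; exact hxl
      have hxl1 : (xl : G) ≠ 1 := by
        intro h
        rw [h, orderOf_one] at hxl'
        exact hℓ.one_lt.ne hxl'
      rcases hord xl xl.2 hxl1 with h | h
      · rw [hxl'] at h
        exact hpm (h ▸ hℓm2)
      · rw [hxl'] at h
        exact hqm' (h ▸ hℓm)
    have hcardF : Nat.card F = p ^ a * q ^ b := by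
      rw [← hn, hnm, hmm', hm'1, mul_one]
    haveI hsolv : Group.IsSolvable F := burnside_paqb p q a b hp hq hcardF
    have hlt := Group.IsSolvable.commutator_lt_top_of_nontrivial F
    have hcb : commutator F = ⊥ := by
      by_contra h
      exact (ne_of_lt hlt) (hchar (commutator F) inferInstance h)
    have hcomm : (xp : G) * (xq : G) = (xq : G) * (xp : G) := by
      have h1 : ⁅xp, xq⁆ ∈ commutator F := by
        rw [commutator_def]
        exact Subgroup.commutator_mem_commutator (Subgroup.mem_top xp) (Subgroup.mem_top xq)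
      rw [hcb, Subgroup.mem_bot, commutatorElement_eq_one_iff_mul_comm] at h1
      exact congrArg Subtype.val h1
    have hcop : (orderOf (xp : G)).Coprime (orderOf (xq : G)) := by
      rw [hxp', hxq']
      exact (Nat.coprime_primes hp hq).2 (Ne.symm hqp)
    have ho := Commute.orderOf_mul_eq_mul_orderOf_of_coprime hcomm hcop
    rw [hxp', hxq'] at ho
    have hne1 : (xp : G) * (xq : G) ≠ 1 := by
      intro h
      rw [h, orderOf_one] at ho
      have := Nat.mul_le_mul hp.two_le hq.two_le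
      omega
    rcases hord _ (F.mul_mem xp.2 xq.2) hne1 with h | h
    · rw [ho] at h
      have : q = 1 := by
        have h' : p * q = p * 1 := by rw [mul_one]; exact h
        exact Nat.eq_of_mul_eq_mul_left hp.pos h'
      exact hq.one_lt.ne this.symm
    · rw [ho] at h
      have : p = 1 := by
        have h' : p * q = 1 * q := by rw [one_mul]; exact h
        exact Nat.eq_of_mul_eq_mul_right hq.pos h'
      exact hp.one_lt.ne this.symm
  haveI := Fact.mk hp
  have hnpow := Nat.eq_prime_pow_of_unique_prime_dvd (n := n) (p := p) (by omega) huniq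
  have hpg : IsPGroup p F := IsPGroup.of_card (hn ▸ hnpow)
  have hcenter : Subgroup.center F = ⊤ := by
    apply hchar _ inferInstance
    haveI := hpg.center_nontrivial
    exact (Subgroup.nontrivial_iff_ne_bot _).1 inferInstance
  have hcomm : ∀ x ∈ F, ∀ y ∈ F, x * y = y * x := by
    intro x hx y hy
    have h1 : (⟨x, hx⟩ : F) ∈ Subgroup.center F := by rw [hcenter]; trivial
    have h2 := Subgroup.mem_center_iff.1 h1 ⟨y, hy⟩
    exact (congrArg Subtype.val h2).symm
  refine ⟨p, hp, ?_, hcomm⟩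
  let M : Subgroup G :=
    { carrier := {x | x ∈ F ∧ x ^ p = 1}
      mul_mem' := fun {x y} hx hy => ⟨F.mul_mem hx.1 hy.1, by
        have hc' : Commute x y := hcomm x hx.1 y hy.1
        rw [hc'.mul_pow, hx.2, hy.2, one_mul]⟩
      one_mem' := ⟨F.one_mem, one_pow p⟩
      inv_mem' := fun {x} hx => ⟨F.inv_mem hx.1, by rw [inv_pow, hx.2, inv_one]⟩ }
  have hM := hc M (fun x hx => hx.1) (by
    intro h hh m hm
    exact ⟨hnorm h hh m hm.1, by rw [conj_pow, hm.2, mul_one, mul_inv_cancel]⟩) (by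
    intro hbot
    obtain ⟨xp, hxp⟩ := exists_prime_orderOf_dvd_card' (G := F) p (hn ▸ hpn)
    have hxp' : orderOf (xp : G) = p := by rw [Subgroup.orderOf_coe]; exact hxp
    have h1 : (xp : G) ∈ M := ⟨xp.2, by rw [← hxp']; exact pow_orderOf_eq_one _⟩
    rw [hbot, Subgroup.mem_bot] at h1
    rw [h1, orderOf_one] at hxp'
    exact hp.one_lt.ne hxp')
  intro u hu
  have : u ∈ M := by rw [hM]; exact hu
  exact this.2

end Cfsg.Agent.Lib.Lead
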