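import Mathlib
import Cfsg.Agent.Lib.Lead.Frob2

set_option autoImplicit false

namespace Cfsg.Agent.Lib.Lead

open scoped Pointwise

section Frob3
variable {G : Type*} [Group G]

set_option maxHeartbeats 1000000 in
/-- A Frobenius complement containing an involution: the kernel is closed under products. -/
theorem frob_invol_closed [Finite G] (H : Subgroup G) (hH : Cfsg.IsFrobeniusComplement H) (t : G)
    (ht : t ∈ H) (ht1 : t ≠ 1) (ht2 : t * t = 1) :
    ∀ x ∈ Cfsg.frobeniusKernel H, ∀ y ∈ Cfsg.frobeniusKernel H,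
      x * y ∈ Cfsg.frobeniusKernel H := by
  classical
  haveI : Fintype G := Fintype.ofFinite G
  have hti : t⁻¹ = t := inv_eq_of_mul_eq_one_left ht2
  have hconjH : ∀ g : G, g * t * g⁻¹ ∈ H → g ∈ H := by
    intro g hg
    have h1 := frob_TI H hH g⁻¹ t ht ht1 (by rw [inv_inv]; exact hg)
    exact (H.inv_mem_iff).mp h1
  have hss : ∀ g : G, (g * t * g⁻¹) * (g * t * g⁻¹) = 1 := by
    intro g
    calc (g * t * g⁻¹) * (g * t * g⁻¹) = g * (t * t) * g⁻¹ := by group
      _ = 1 := by rw [ht2]; group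
  have claim1 : ∀ g : G, g ∉ H →
      t * (g * t * g⁻¹) ∈ Cfsg.frobeniusKernel H ∧ t * (g * t * g⁻¹) ≠ 1 := by
    intro g hg
    have hne : t * (g * t * g⁻¹) ≠ 1 := by
      intro h0
      apply hg
      apply hconjH
      have h1 : g * t * g⁻¹ = t⁻¹ := eq_inv_of_mul_eq_one_right h0
      rw [h1, hti]; exact ht
    refine ⟨?_, hne⟩
    rw [frob_mem_kernel_iff]
    right
    intro y hy
    obtain ⟨u, hu⟩ : ∃ u : G, u = t * (g * t * g⁻¹) := ⟨_, rfl⟩
    rw [← hu] at hy hne
    have hv1 : y⁻¹ * u * y ≠ 1 := by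
      intro h0
      apply hne
      calc u = y * (y⁻¹ * u * y) * y⁻¹ := by group
        _ = 1 := by rw [h0]; group
    have hinv : t * u * t⁻¹ = u⁻¹ := by
      have hs : (g * t * g⁻¹)⁻¹ = g * t * g⁻¹ := inv_eq_of_mul_eq_one_left (hss g)
      rw [hu, hti, mul_inv_rev, hs, hti, ← mul_assoc t t, ht2, one_mul]
    have ht'H : y⁻¹ * t * y ∈ H := by
      have h1 : ((y⁻¹ * t * y)⁻¹)⁻¹ * (y⁻¹ * u * y) * (y⁻¹ * t * y)⁻¹ ∈ H := by
        have e : ((y⁻¹ * t * y)⁻¹)⁻¹ * (y⁻¹ * u * y) * (y⁻¹ * t * y)⁻¹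
            = y⁻¹ * (t * u * t⁻¹) * y := by group
        rw [e, hinv]
        have e2 : y⁻¹ * u⁻¹ * y = (y⁻¹ * u * y)⁻¹ := by group
        rw [e2]; exact H.inv_mem hy
      have h2 := frob_TI H hH _ _ hy hv1 h1
      exact (H.inv_mem_iff).mp h2
    have hyH : y ∈ H := frob_TI H hH y t ht ht1 ht'H
    have huH : u ∈ H := by
      have e : u = y * (y⁻¹ * u * y) * y⁻¹ := by group
      rw [e]; exact H.mul_mem (H.mul_mem hyH hy) (H.inv_mem hyH)
    have hsH : g * t * g⁻¹ ∈ H := by
      have e : g * t * g⁻¹ = t⁻¹ * u := by rw [hu, inv_mul_cancel_left]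
      rw [e]; exact H.mul_mem (H.inv_mem ht) huH
    exact hg (hconjH g hsH)
  have hCH : Subgroup.centralizer ({t} : Set G) ≤ H := by
    intro c hc
    rw [Subgroup.mem_centralizer_singleton_iff] at hc
    apply frob_TI H hH c t ht ht1
    rw [mul_assoc, ← hc, inv_mul_cancel_left]; exact ht
  let A : Finset G := Finset.univ.filter (fun g => g ∉ H)
  let F : G → G := fun g => t * (g * t * g⁻¹)
  let Kf : Finset G := Finset.univ.filter (fun x => x ∈ Cfsg.frobeniusKernel H)
  let Cf : Finset G := Finset.univ.filter (fun c => c ∈ Subgroup.centralizer ({t} : Set G))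
  have h1K : (1 : G) ∈ Kf := Finset.mem_filter.mpr ⟨Finset.mem_univ _, Or.inl rfl⟩
  have himg : A.image F ⊆ Kf.erase 1 := by
    intro a ha
    obtain ⟨g, hg, rfl⟩ := Finset.mem_image.mp ha
    have h1 := claim1 g (Finset.mem_filter.mp hg).2
    exact Finset.mem_erase.mpr ⟨h1.2, Finset.mem_filter.mpr ⟨Finset.mem_univ _, h1.1⟩⟩
  have hfib : ∀ a ∈ A.image F, (A.filter (fun g => F g = a)).card ≤ Cf.card := by
    intro a ha
    obtain ⟨g₀, hg₀, rfl⟩ := Finset.mem_image.mp ha
    calc (A.filter (fun g => F g = F g₀)).card ≤ (Cf.image (fun c => g₀ * c)).card := by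
          apply Finset.card_le_card
          intro g hg
          have hFg : F g = F g₀ := (Finset.mem_filter.mp hg).2
          have h1 : g * t * g⁻¹ = g₀ * t * g₀⁻¹ := mul_left_cancel hFg
          rw [Finset.mem_image]
          refine ⟨g₀⁻¹ * g, ?_, by group⟩
          rw [Finset.mem_filter]
          refine ⟨Finset.mem_univ _, ?_⟩
          rw [Subgroup.mem_centralizer_singleton_iff]
          calc g₀⁻¹ * g * t = g₀⁻¹ * (g * t * g⁻¹) * g := by group
            _ = g₀⁻¹ * (g₀ * t * g₀⁻¹) * g := by rw [h1]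
            _ = t * (g₀⁻¹ * g) := by group
      _ ≤ Cf.card := Finset.card_image_le
  have hcard1 := Finset.card_le_mul_card_image A Cf.card hfib
  have hB : (Kf.erase 1).card + 1 = H.index := by
    rw [Finset.card_erase_of_mem h1K]
    have h1 := frob_kernel_card H hH
    have h2 : Nat.card (Cfsg.frobeniusKernel H) = Kf.card := by
      rw [Nat.card_eq_fintype_card, ← Fintype.card_subtype]
    have hpos : 0 < Kf.card := Finset.card_pos.mpr ⟨1, h1K⟩
    omega
  have hA : A.card + Nat.card H = Nat.card G := by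
    have h1 : A.card + (Finset.univ.filter (fun g => g ∈ H)).card = Fintype.card G := by
      rw [add_comm, Finset.card_filter_add_card_filter_not, Finset.card_univ]
    have h2 : Nat.card H = (Finset.univ.filter (fun g => g ∈ H)).card := by
      rw [Nat.card_eq_fintype_card, ← Fintype.card_subtype]
    rw [h2, Nat.card_eq_fintype_card]; exact h1
  have hCf : Cf.card = Nat.card (Subgroup.centralizer ({t} : Set G)) := by
    rw [Nat.card_eq_fintype_card, ← Fintype.card_subtype]
  have hCle : Cf.card ≤ Nat.card H := by rw [hCf]; exact Subgroup.card_le_of_le hCH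
  have hidx := Subgroup.card_mul_index H
  have himgcard : (A.image F).card ≤ (Kf.erase 1).card := Finset.card_le_card himg
  have hn2 : 2 ≤ H.index := by
    have h1 : H.index ≠ 1 := fun h => hH.2.1 (Subgroup.index_eq_one.mp h)
    have h0 : H.index ≠ 0 := Subgroup.index_ne_zero_of_finite
    omega
  have hA2 : A.card = Nat.card H * (Kf.erase 1).card := by
    have h1 : Nat.card H * H.index = Nat.card H * (Kf.erase 1).card + Nat.card H := by
      rw [← hB]; ring
    omega
  have hHC : Nat.card H ≤ Cf.card := by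
    have h1 : Nat.card H * (Kf.erase 1).card ≤ Cf.card * (Kf.erase 1).card := by
      rw [← hA2]; exact le_trans hcard1 (Nat.mul_le_mul_left _ himgcard)
    exact Nat.le_of_mul_le_mul_right h1 (by omega)
  have hCeq : Subgroup.centralizer ({t} : Set G) = H :=
    Subgroup.eq_of_le_of_card_ge hCH (by rw [← hCf]; exact hHC)
  have himgeq : A.image F = Kf.erase 1 := by
    apply Finset.eq_of_subset_of_card_le himg
    have h1 : Nat.card H * (Kf.erase 1).card ≤ Nat.card H * (A.image F).card := by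
      rw [← hA2]; exact le_trans hcard1 (Nat.mul_le_mul_right _ hCle)
    exact Nat.le_of_mul_le_mul_left h1 Nat.card_pos
  have hKconj : ∀ x ∈ Cfsg.frobeniusKernel H, ∀ g : G,
      g⁻¹ * x * g ∈ Cfsg.frobeniusKernel H := by
    intro x hx g
    rw [frob_mem_kernel_iff] at hx ⊢
    rcases hx with hx | hx
    · left; rw [hx]; group
    · right
      intro y hy
      apply hx (g * y)
      have e : (g * y)⁻¹ * x * (g * y) = y⁻¹ * (g⁻¹ * x * g) * y := by group
      rw [e]; exact hy
  have hrep : ∀ x ∈ Cfsg.frobeniusKernel H, x ≠ 1 →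
      ∃ g : G, g ∉ H ∧ x = t * (g * t * g⁻¹) := by
    intro x hx hx1
    have hxB : x ∈ Kf.erase 1 :=
      Finset.mem_erase.mpr ⟨hx1, Finset.mem_filter.mpr ⟨Finset.mem_univ _, hx⟩⟩
    rw [← himgeq, Finset.mem_image] at hxB
    obtain ⟨g, hg, hgx⟩ := hxB
    exact ⟨g, (Finset.mem_filter.mp hg).2, hgx.symm⟩
  intro x hx y hy
  by_cases hx1 : x = 1
  · rw [hx1, one_mul]; exact hy
  by_cases hy1 : y = 1
  · rw [hy1, mul_one]; exact hx
  obtain ⟨g, hg, hxg⟩ := hrep x hx hx1
  have hy' : g⁻¹ * y * g ∈ Cfsg.frobeniusKernel H := hKconj y hy g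
  have hy'1 : g⁻¹ * y * g ≠ 1 := by
    intro h0
    apply hy1
    calc y = g * (g⁻¹ * y * g) * g⁻¹ := by group
      _ = 1 := by rw [h0]; group
  obtain ⟨g₁, hg₁, hyg⟩ := hrep _ hy' hy'1
  have hyeq : y = (g * t * g⁻¹) * ((g * g₁) * t * (g * g₁)⁻¹) := by
    calc y = g * (g⁻¹ * y * g) * g⁻¹ := by group
      _ = g * (t * (g₁ * t * g₁⁻¹)) * g⁻¹ := by rw [hyg]
      _ = _ := by group
  have hxy : x * y = t * ((g * g₁) * t * (g * g₁)⁻¹) := by
    rw [hxg, hyeq]
    calc t * (g * t * g⁻¹) * ((g * t * g⁻¹) * ((g * g₁) * t * (g * g₁)⁻¹))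
        = t * (((g * t * g⁻¹) * (g * t * g⁻¹)) * ((g * g₁) * t * (g * g₁)⁻¹)) := by
          simp only [mul_assoc]
      _ = t * ((g * g₁) * t * (g * g₁)⁻¹) := by rw [hss g, one_mul]
  rw [hxy]
  by_cases hgg : g * g₁ ∈ H
  · have hc : g * g₁ ∈ Subgroup.centralizer ({t} : Set G) := by rw [hCeq]; exact hgg
    rw [Subgroup.mem_centralizer_singleton_iff] at hc
    rw [hc, mul_inv_cancel_right, ht2]
    exact Or.inl rfl
  · exact (claim1 _ hgg).1

end Frob3

end Cfsg.Agent.Lib.Lead
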