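import Mathlib

namespace Cfsg.Agent.Lib.Lead

open Finset

theorem sum_card_commute (X : Type*) [Group X] [Finite X] [Fintype X] :
    ∑ x : X, Nat.card {y : X // Commute x y} = Nat.card (ConjClasses X) * Nat.card X := by
  rw [← card_comm_eq_card_conjClasses_mul_card, ← Nat.card_sigma]
  exact Nat.card_congr (Equiv.subtypeProdEquivSigmaSubtype (fun x y : X => Commute x y)).symm

theorem card_commute_subgroup {G : Type*} [Group G] (S : Subgroup G) (s : S)
    (hs : ∀ y : G, (s : G) * y = y * s → y ∈ S) :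
    Nat.card {y : G // Commute (s : G) y} = Nat.card {y : S // Commute s y} := by
  apply Nat.card_congr
  refine ⟨fun y => ⟨⟨y.1, hs y.1 y.2.eq⟩, (show s * _ = _ * s from Subtype.ext y.2.eq)⟩,
    fun y => ⟨y.1.1, (show (s : G) * _ = _ * (s : G) from congrArg Subtype.val y.2.eq)⟩,
    fun y => rfl, fun y => rfl⟩

theorem card_commute_one (X : Type*) [Group X] :
    Nat.card {y : X // Commute (1 : X) y} = Nat.card X :=
  Nat.card_congr (Equiv.subtypeUnivEquiv (fun y => Commute.one_left y))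

theorem card_commute_conj {G : Type*} [Group G] (a x : G) :
    Nat.card {y : G // Commute (a * x * a⁻¹) y} = Nat.card {y : G // Commute x y} := by
  apply Nat.card_congr
  refine Equiv.subtypeEquiv (MulAut.conj a⁻¹).toEquiv ?_
  intro y
  show Commute (a * x * a⁻¹) y ↔ Commute x (a⁻¹ * y * a⁻¹⁻¹)
  rw [inv_inv]
  constructor
  · intro h
    have h' : a * x * a⁻¹ * y = y * (a * x * a⁻¹) := h.eq
    show x * (a⁻¹ * y * a) = a⁻¹ * y * a * x
    calc x * (a⁻¹ * y * a) = a⁻¹ * (a * x * a⁻¹ * y) * a := by group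
      _ = a⁻¹ * (y * (a * x * a⁻¹)) * a := by rw [h']
      _ = a⁻¹ * y * a * x := by group
  · intro h
    have h' : x * (a⁻¹ * y * a) = a⁻¹ * y * a * x := h.eq
    show a * x * a⁻¹ * y = y * (a * x * a⁻¹)
    calc a * x * a⁻¹ * y = a * (x * (a⁻¹ * y * a)) * a⁻¹ := by group
      _ = a * (a⁻¹ * y * a * x) * a⁻¹ := by rw [h']
      _ = y * (a * x * a⁻¹) := by group

theorem frob_class_number {G : Type*} [Group G] [Finite G] (K H : Subgroup G) [hKn : K.Normal]
    (hKH : K ⊓ H = ⊥) (hKH' : K ⊔ H = ⊤)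
    (hfpf : ∀ h ∈ H, h ≠ 1 → ∀ k ∈ K, h * k = k * h → k = 1) :
    Nat.card H * Nat.card (ConjClasses G) + 1 =
      Nat.card H * Nat.card (ConjClasses H) + Nat.card (ConjClasses K) := by
  classical
  haveI : Fintype G := Fintype.ofFinite G
  haveI : Fintype K := Fintype.ofFinite K
  haveI : Fintype H := Fintype.ofFinite H
  have hcompl : Subgroup.IsComplement' K H := by
    apply Subgroup.isComplement'_of_disjoint_and_mul_eq_univ (disjoint_iff.2 hKH)
    rw [← Subgroup.normal_mul, hKH']; rfl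
  have hbij : Function.Bijective (fun p : K × H => (p.1 : G) * (p.2 : G)) := hcompl
  have huniq : ∀ (k k' h h' : G), k ∈ K → k' ∈ K → h ∈ H → h' ∈ H → k * h = k' * h' →
      k = k' ∧ h = h' := by
    intro k k' h h' hk hk' hh hh' e
    have h1 := hbij.1 (a₁ := (⟨k, hk⟩, ⟨h, hh⟩)) (a₂ := (⟨k', hk'⟩, ⟨h', hh'⟩)) e
    exact ⟨congrArg (fun p : K × H => (p.1 : G)) h1, congrArg (fun p : K × H => (p.2 : G)) h1⟩
  -- every element of `K h` is conjugate to `h`
  have hconj : ∀ h ∈ H, h ≠ 1 → ∀ k ∈ K, ∃ a ∈ K, k * h = a * h * a⁻¹ := by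
    intro h hh h1 k hk
    let φ : K → K := fun a => ⟨a * h * (a : G)⁻¹ * h⁻¹, by
      have h2 : h * (a : G)⁻¹ * h⁻¹ ∈ K := hKn.conj_mem _ (inv_mem a.2) h
      have h3 := mul_mem a.2 h2
      have e : (a : G) * (h * (a : G)⁻¹ * h⁻¹) = a * h * (a : G)⁻¹ * h⁻¹ := by group
      rwa [e] at h3⟩
    have hinj : Function.Injective φ := by
      intro a b hab
      have h2 : (a : G) * h * (a : G)⁻¹ * h⁻¹ = b * h * (b : G)⁻¹ * h⁻¹ := congrArg Subtype.val hab
      have h3 : (a : G) * h * (a : G)⁻¹ = b * h * (b : G)⁻¹ := mul_right_cancel h2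
      have h4 : h * ((b : G)⁻¹ * a) = ((b : G)⁻¹ * a) * h := by
        calc h * ((b : G)⁻¹ * a) = (b : G)⁻¹ * (b * h * (b : G)⁻¹) * a := by group
          _ = (b : G)⁻¹ * (a * h * (a : G)⁻¹) * a := by rw [h3]
          _ = ((b : G)⁻¹ * a) * h := by group
      have h5 := hfpf h hh h1 _ (mul_mem (inv_mem b.2) a.2) h4
      apply Subtype.ext
      exact (inv_mul_eq_one.1 h5).symm
    obtain ⟨a, ha⟩ := (Finite.injective_iff_surjective.1 hinj) ⟨k, hk⟩
    refine ⟨a, a.2, ?_⟩
    have h2 : (a : G) * h * (a : G)⁻¹ * h⁻¹ = k := congrArg Subtype.val ha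
    rw [← h2]; group
  have hcentH : ∀ h ∈ H, h ≠ 1 → ∀ y : G, h * y = y * h → y ∈ H := by
    intro h hh h1 y hy
    obtain ⟨⟨k, h₁⟩, rfl⟩ := hbij.2 y
    have hy' : h * ((k : G) * h₁) = k * h₁ * h := hy
    have e : (h * k * h⁻¹) * (h * h₁) = k * (h₁ * h) := by
      calc (h * k * h⁻¹) * (h * h₁) = h * ((k : G) * h₁) := by group
        _ = k * h₁ * h := hy'
        _ = k * (h₁ * h) := by group
    obtain ⟨e1, -⟩ := huniq _ _ _ _ (hKn.conj_mem _ k.2 h) k.2 (mul_mem hh h₁.2)
      (mul_mem h₁.2 hh) e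
    have e2 : h * k = k * h := mul_inv_eq_iff_eq_mul.1 e1
    have e3 := hfpf h hh h1 k k.2 e2
    show (k : G) * h₁ ∈ H
    rw [e3, one_mul]; exact h₁.2
  have hcentK : ∀ k ∈ K, k ≠ 1 → ∀ y : G, k * y = y * k → y ∈ K := by
    intro k hk k1 y hy
    obtain ⟨⟨k₁, h₁⟩, rfl⟩ := hbij.2 y
    have hy' : k * ((k₁ : G) * h₁) = k₁ * h₁ * k := hy
    by_cases hh1 : (h₁ : G) = 1
    · show (k₁ : G) * h₁ ∈ K
      rw [hh1, mul_one]; exact k₁.2
    · exfalso
      obtain ⟨a, ha, e⟩ := hconj h₁ h₁.2 hh1 k₁ k₁.2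
      rw [e] at hy'
      have h2 : (h₁ : G) * (a⁻¹ * k * a) = (a⁻¹ * k * a) * h₁ := by
        calc (h₁ : G) * (a⁻¹ * k * a) = a⁻¹ * (a * h₁ * a⁻¹ * k) * a := by group
          _ = a⁻¹ * (k * (a * h₁ * a⁻¹)) * a := by rw [hy']
          _ = (a⁻¹ * k * a) * h₁ := by group
      have h3 : a⁻¹ * k * a⁻¹⁻¹ ∈ K := hKn.conj_mem _ hk a⁻¹
      rw [inv_inv] at h3
      have h4 := hfpf h₁ h₁.2 hh1 _ h3 h2
      apply k1
      calc k = a * (a⁻¹ * k * a) * a⁻¹ := by group
        _ = 1 := by rw [h4]; group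
  -- the key identities
  have hkeyH : ∀ (k : K) (h : H), h ≠ 1 →
      Nat.card {y : G // Commute ((k : G) * h) y} = Nat.card {y : H // Commute h y} := by
    intro k h h1
    have h1' : (h : G) ≠ 1 := fun e => h1 (Subtype.ext e)
    obtain ⟨a, ha, e⟩ := hconj h h.2 h1' k k.2
    rw [e, card_commute_conj]
    exact card_commute_subgroup H h (hcentH h h.2 h1')
  have hkeyK : ∀ (k : K), k ≠ 1 →
      Nat.card {y : G // Commute (k : G) y} = Nat.card {y : K // Commute k y} := by
    intro k k1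
    have k1' : (k : G) ≠ 1 := fun e => k1 (Subtype.ext e)
    exact card_commute_subgroup K k (hcentK k k.2 k1')
  have hsumG : ∑ x : G, Nat.card {y : G // Commute x y} =
      ∑ k : K, ∑ h : H, Nat.card {y : G // Commute ((k : G) * h) y} := by
    rw [← Fintype.sum_prod_type']
    exact (Fintype.sum_equiv (Equiv.ofBijective _ hbij) _ _ (fun p => rfl)).symm
  have hrow : ∀ k : K, ∑ h : H, Nat.card {y : G // Commute ((k : G) * h) y} + Nat.card H =
      Nat.card {y : G // Commute (k : G) y} + ∑ h : H, Nat.card {y : H // Commute h y} := by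
    intro k
    rw [← Finset.add_sum_erase _ _ (Finset.mem_univ (1 : H)),
      ← Finset.add_sum_erase (univ : Finset H) (fun h : H => Nat.card {y : H // Commute h y})
        (Finset.mem_univ (1 : H))]
    have e2 : ∑ h ∈ (univ : Finset H).erase 1, Nat.card {y : G // Commute ((k : G) * h) y} =
        ∑ h ∈ (univ : Finset H).erase 1, Nat.card {y : H // Commute h y} :=
      Finset.sum_congr rfl (fun h hh => hkeyH k h (Finset.ne_of_mem_erase hh))
    rw [e2, card_commute_one H, Subgroup.coe_one, mul_one]; ring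
  have hA : ∑ x : G, Nat.card {y : G // Commute x y} + Nat.card K * Nat.card H =
      ∑ k : K, Nat.card {y : G // Commute (k : G) y} +
        Nat.card K * ∑ h : H, Nat.card {y : H // Commute h y} := by
    rw [hsumG]
    have e1 : ∑ k : K, (∑ h : H, Nat.card {y : G // Commute ((k : G) * h) y} + Nat.card H) =
        ∑ k : K, (Nat.card {y : G // Commute (k : G) y} +
          ∑ h : H, Nat.card {y : H // Commute h y}) :=
      Finset.sum_congr rfl (fun k _ => hrow k)
    rw [Finset.sum_add_distrib, Finset.sum_add_distrib, Finset.sum_const, Finset.sum_const,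
      Finset.card_univ, smul_eq_mul, smul_eq_mul, ← Nat.card_eq_fintype_card] at e1
    exact e1
  have hB : ∑ k : K, Nat.card {y : G // Commute (k : G) y} + Nat.card K =
      Nat.card G + ∑ k : K, Nat.card {y : K // Commute k y} := by
    rw [← Finset.add_sum_erase _ _ (Finset.mem_univ (1 : K)),
      ← Finset.add_sum_erase (univ : Finset K) (fun k : K => Nat.card {y : K // Commute k y})
        (Finset.mem_univ (1 : K))]
    have e2 : ∑ k ∈ (univ : Finset K).erase 1, Nat.card {y : G // Commute (k : G) y} =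
        ∑ k ∈ (univ : Finset K).erase 1, Nat.card {y : K // Commute k y} :=
      Finset.sum_congr rfl (fun k hk => hkeyK k (Finset.ne_of_mem_erase hk))
    rw [e2, card_commute_one K, Subgroup.coe_one, card_commute_one G]; ring
  rw [sum_card_commute G] at hA
  rw [sum_card_commute K] at hB
  rw [sum_card_commute H] at hA
  have hG : Nat.card G = Nat.card K * Nat.card H := hcompl.card_mul_card.symm
  rw [hG] at hA hB
  have hK0 : 0 < Nat.card K := Nat.card_pos
  apply Nat.eq_of_mul_eq_mul_left hK0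
  nlinarith [hA, hB]

end Cfsg.Agent.Lib.Lead
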