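import Mathlib
import Cfsg.Agent.Lib.Lead.FrobCenter2

namespace Cfsg.Agent.Lib.Lead

open scoped Pointwise

universe u

theorem frob_compl_conj_eq_aux {G : Type u} [Group G] [Finite G] (H H₀ : Subgroup G)
    (hH : Cfsg.IsFrobeniusComplement H) (hH₀ : Cfsg.IsFrobeniusComplement H₀)
    (hle : Nat.card H₀ ≤ Nat.card H) : ∃ g : G, MulAut.conj g • H₀ = H := by
  obtain ⟨g, hg⟩ := frob_compl_conj_le H H₀ hH hH₀ hle
  refine ⟨g, le_antisymm hg ?_⟩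
  obtain ⟨K, hK, hKn, hKc⟩ := frobenius_kernel_subgroup H hH
  have hKne : K ≠ ⊥ := by
    rintro rfl
    have h1 := hKc.card_mul_card
    rw [Subgroup.card_bot, one_mul] at h1
    exact hH.2.1 (Subgroup.eq_top_of_card_eq H h1)
  have hfpf : ∀ h ∈ H, h ≠ 1 → K ⊓ Subgroup.centralizer {h} = ⊥ := by
    intro h hh h1
    rw [eq_bot_iff]
    intro c hc
    have hch : h * c = c * h := Subgroup.mem_centralizer_iff.1 hc.2 h rfl
    have h2 : c⁻¹ * h * c ∈ H := by rw [mul_assoc, hch, inv_mul_cancel_left]; exact hh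
    have h3 : c ∈ H := frob_TI H hH c h hh h1 h2
    have h4 : c ∈ K ⊓ H := ⟨hc.1, h3⟩
    rw [hKc.disjoint.eq_bot] at h4
    exact h4
  have hcen := frob_compl_center_ne_bot K H hKne hH.1 hfpf
  obtain ⟨⟨z, hz⟩, hz1⟩ := (Subgroup.ne_bot_iff_exists_ne_one).1 hcen
  have hzc : ∀ h ∈ H, h * (z : G) = (z : G) * h := by
    intro h hh
    have := Subgroup.mem_center_iff.1 hz ⟨h, hh⟩
    exact congrArg Subtype.val this
  have hz1' : ((z : H) : G) ≠ 1 := fun e => hz1 (Subtype.ext (Subtype.ext e))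
  obtain ⟨x₀, hx₀1⟩ := (Subgroup.ne_bot_iff_exists_ne_one).1 hH₀.1
  have hx₀1' : (x₀ : G) ≠ 1 := fun e => hx₀1 (Subtype.ext e)
  have hxH : g * (x₀ : G) * g⁻¹ ∈ H := by
    apply hg
    rw [frob_mem_conj_smul]
    have e : g⁻¹ * (g * (x₀ : G) * g⁻¹) * g = x₀ := by group
    rw [e]; exact x₀.2
  have hz'H₀ : g⁻¹ * ((z : H) : G) * g ∈ H₀ := by
    apply frob_TI H₀ hH₀ _ (x₀ : G) x₀.2 hx₀1'
    have h1 := hzc _ hxH
    have e : (g⁻¹ * ((z : H) : G) * g)⁻¹ * (x₀ : G) * (g⁻¹ * ((z : H) : G) * g) =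
        g⁻¹ * (((z : H) : G)⁻¹ * (g * (x₀ : G) * g⁻¹ * ((z : H) : G))) * g := by group
    rw [e, h1]
    have e2 : g⁻¹ * (((z : H) : G)⁻¹ * (((z : H) : G) * (g * (x₀ : G) * g⁻¹))) * g = x₀ := by group
    rw [e2]; exact x₀.2
  have hz'1 : g⁻¹ * ((z : H) : G) * g ≠ 1 := by
    intro e
    apply hz1'
    calc ((z : H) : G) = g * (g⁻¹ * ((z : H) : G) * g) * g⁻¹ := by group
      _ = 1 := by rw [e]; group
  intro h hh
  rw [frob_mem_conj_smul]
  apply frob_TI H₀ hH₀ _ _ hz'H₀ hz'1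
  have h1 := hzc h hh
  have e : (g⁻¹ * h * g)⁻¹ * (g⁻¹ * ((z : H) : G) * g) * (g⁻¹ * h * g) =
      g⁻¹ * (h⁻¹ * (((z : H) : G) * h)) * g := by group
  rw [e, ← h1]
  have e2 : g⁻¹ * (h⁻¹ * (h * ((z : H) : G))) * g = g⁻¹ * ((z : H) : G) * g := by group
  rw [e2]; exact hz'H₀

/-- All Frobenius complements are conjugate. -/
theorem frob_compl_conj {G : Type u} [Group G] [Finite G] (H H₀ : Subgroup G)
    (hH : Cfsg.IsFrobeniusComplement H) (hH₀ : Cfsg.IsFrobeniusComplement H₀) :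
    ∃ g : G, MulAut.conj g • H₀ = H := by
  rcases le_total (Nat.card H₀) (Nat.card H) with h | h
  · exact frob_compl_conj_eq_aux H H₀ hH hH₀ h
  · obtain ⟨g, hg⟩ := frob_compl_conj_eq_aux H₀ H hH₀ hH h
    refine ⟨g⁻¹, ?_⟩
    rw [← hg, smul_smul, ← map_mul, inv_mul_cancel, map_one, one_smul]

end Cfsg.Agent.Lib.Lead
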