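import Mathlib
import Cfsg.Agent.Lib.Lead.FrobConj

namespace Cfsg.Agent.Lib.Lead

open scoped Pointwise

/-- a nontrivial subgroup all of whose non-identity elements lie in conjugates of a Frobenius
complement `H` is conjugate into `H` -/
theorem frob_conj_of_forall_mem {G : Type*} [Group G] [Finite G] (H L : Subgroup G)
    (hH : Cfsg.IsFrobeniusComplement H) (hL1 : L ≠ ⊥)
    (hex : ∀ x ∈ L, x ≠ 1 → ∃ g : G, g⁻¹ * x * g ∈ H) : ∃ g : G, MulAut.conj g • L ≤ H := by
  classical
  -- orbit counting for `L` acting on `G ⧸ H`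
  haveI : Fintype L := Fintype.ofFinite _
  haveI : Fintype (G ⧸ H) := Fintype.ofFinite _
  haveI : Fintype (Quotient (MulAction.orbitRel L (G ⧸ H))) := Fintype.ofFinite _
  haveI : ∀ a : L, Fintype (MulAction.fixedBy (G ⧸ H) a) := fun a => Fintype.ofFinite _
  have hB := MulAction.sum_card_fixedBy_eq_card_orbits_mul_card_group L (G ⧸ H)
  have hfix1 : ∀ a : L, a ≠ 1 → Fintype.card (MulAction.fixedBy (G ⧸ H) a) = 1 := by
    intro a ha
    have ha1 : (a : G) ≠ 1 := fun e => ha (Subtype.ext e)
    obtain ⟨g, hg⟩ := hex a a.2 ha1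
    rw [Fintype.card_eq_one_iff]
    refine ⟨⟨QuotientGroup.mk g, ?_⟩, ?_⟩
    · show (a : G) • (QuotientGroup.mk g : G ⧸ H) = QuotientGroup.mk g
      exact (frob_fix_iff H (a : G) g).2 hg
    · rintro ⟨c, hc⟩
      apply Subtype.ext
      obtain ⟨g', rfl⟩ := QuotientGroup.mk_surjective c
      have hc' : (a : G) • (QuotientGroup.mk g' : G ⧸ H) = QuotientGroup.mk g' := hc
      have hg' : g'⁻¹ * (a : G) * g' ∈ H := (frob_fix_iff H (a : G) g').1 hc'
      show (QuotientGroup.mk g' : G ⧸ H) = QuotientGroup.mk g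
      rw [QuotientGroup.eq]
      have hy1 : g⁻¹ * (a : G) * g ≠ 1 := by
        intro e; apply ha1
        calc (a : G) = g * (g⁻¹ * a * g) * g⁻¹ := by group
          _ = 1 := by rw [e]; group
      have h2 : (g⁻¹ * g')⁻¹ * (g⁻¹ * (a : G) * g) * (g⁻¹ * g') ∈ H := by
        have e : (g⁻¹ * g')⁻¹ * (g⁻¹ * (a : G) * g) * (g⁻¹ * g') = g'⁻¹ * (a : G) * g' := by group
        rw [e]; exact hg'
      have h3 := frob_TI H hH (g⁻¹ * g') _ hg hy1 h2
      have h4 := H.inv_mem h3
      rwa [mul_inv_rev, inv_inv] at h4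
  have hsum : ∑ a : L, Fintype.card (MulAction.fixedBy (G ⧸ H) a) =
      Fintype.card (G ⧸ H) + (Fintype.card L - 1) := by
    rw [← Finset.add_sum_erase _ _ (Finset.mem_univ (1 : L))]
    congr 1
    · exact Fintype.card_congr (Equiv.subtypeUnivEquiv (fun x => one_smul _ x))
    · rw [Finset.sum_congr rfl (fun a ha => hfix1 a (Finset.ne_of_mem_erase ha)), Finset.sum_const,
        Finset.card_erase_of_mem (Finset.mem_univ _), Finset.card_univ, smul_eq_mul, mul_one]
  have hcls : Fintype.card (G ⧸ H) = ∑ ω : Quotient (MulAction.orbitRel L (G ⧸ H)),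
      (MulAction.stabilizer L ω.out).index := by
    rw [← Nat.card_eq_fintype_card,
      Nat.card_congr (MulAction.selfEquivSigmaOrbitsQuotientStabilizer L (G ⧸ H)), Nat.card_sigma]
    rfl
  have hn : Nat.card L = Fintype.card L := Nat.card_eq_fintype_card
  have hn2 : 2 ≤ Fintype.card L := by
    rw [← hn]
    exact (Subgroup.one_lt_card_iff_ne_bot L).2 hL1
  have hidx_le : ∀ ω : Quotient (MulAction.orbitRel L (G ⧸ H)),
      (MulAction.stabilizer L ω.out).index ≤ Fintype.card L := by
    intro ω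
    rw [← hn]
    exact Nat.le_of_dvd Nat.card_pos (Subgroup.index_dvd_card _)
  have htsum : ∑ ω : Quotient (MulAction.orbitRel L (G ⧸ H)),
      (Fintype.card L - (MulAction.stabilizer L ω.out).index) = Fintype.card L - 1 := by
    rw [Finset.sum_tsub_distrib _ (fun ω _ => hidx_le ω), ← hcls, Finset.sum_const, Finset.card_univ,
      smul_eq_mul, ← hB, hsum]
    omega
  by_contra hcon
  push Not at hcon
  have hidx2 : ∀ ω : Quotient (MulAction.orbitRel L (G ⧸ H)),
      2 ≤ (MulAction.stabilizer L ω.out).index := by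
    intro ω
    have h1 : (MulAction.stabilizer L ω.out).index ≠ 1 := by
      intro h1
      rw [Subgroup.index_eq_one] at h1
      obtain ⟨g, hg⟩ := QuotientGroup.mk_surjective ω.out
      apply hcon g⁻¹
      intro x hx
      rw [frob_mem_conj_smul, inv_inv] at hx
      have h2 : (⟨_, hx⟩ : L) ∈ MulAction.stabilizer L ω.out := by rw [h1]; exact Subgroup.mem_top _
      rw [MulAction.mem_stabilizer_iff, ← hg] at h2
      have h3 : (g * x * g⁻¹) • (QuotientGroup.mk g : G ⧸ H) = QuotientGroup.mk g := h2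
      have h4 := (frob_fix_iff H _ g).1 h3
      have e : g⁻¹ * (g * x * g⁻¹) * g = x := by group
      rwa [e] at h4
    have h0 : (MulAction.stabilizer L ω.out).index ≠ 0 := Subgroup.index_ne_zero_of_finite
    omega
  have hbig : ∀ ω : Quotient (MulAction.orbitRel L (G ⧸ H)),
      Fintype.card L - (MulAction.stabilizer L ω.out).index ≠ 0 →
      Fintype.card L ≤ 2 * (Fintype.card L - (MulAction.stabilizer L ω.out).index) := by
    intro ω hω
    obtain ⟨s, hs⟩ := Subgroup.index_dvd_card (MulAction.stabilizer L ω.out)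
    rw [hn] at hs
    have h0 : (MulAction.stabilizer L ω.out).index ≠ 0 := Subgroup.index_ne_zero_of_finite
    have hs2 : 2 ≤ s := by
      by_contra h
      push Not at h
      interval_cases s
      · omega
      · omega
    have : 2 * (MulAction.stabilizer L ω.out).index ≤ (MulAction.stabilizer L ω.out).index * s := by
      rw [mul_comm]; exact Nat.mul_le_mul_left _ hs2
    omega
  have hpos : ∑ ω : Quotient (MulAction.orbitRel L (G ⧸ H)),
      (Fintype.card L - (MulAction.stabilizer L ω.out).index) ≠ 0 := by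
    rw [htsum]; omega
  obtain ⟨ω₁, -, hω₁⟩ := Finset.exists_ne_zero_of_sum_ne_zero hpos
  have h1 := hbig ω₁ hω₁
  have h1' := hidx2 ω₁
  rw [← Finset.add_sum_erase _ _ (Finset.mem_univ ω₁)] at htsum
  have hpos2 : ∑ ω ∈ (Finset.univ : Finset (Quotient (MulAction.orbitRel L (G ⧸ H)))).erase ω₁,
      (Fintype.card L - (MulAction.stabilizer L ω.out).index) ≠ 0 := by
    omega
  obtain ⟨ω₂, hω₂m, hω₂⟩ := Finset.exists_ne_zero_of_sum_ne_zero hpos2
  have h2 := hbig ω₂ hω₂
  have h3 := Finset.single_le_sum (f := fun ω : Quotient (MulAction.orbitRel L (G ⧸ H)) =>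
    Fintype.card L - (MulAction.stabilizer L ω.out).index) (fun i _ => Nat.zero_le _) hω₂m
  omega

/-- a subgroup whose order divides the order of a Frobenius complement `H` lies in a conjugate
of `H` -/
theorem frob_subgroup_conj {G : Type*} [Group G] [Finite G] (H : Subgroup G)
    (hH : Cfsg.IsFrobeniusComplement H) (L : Subgroup G) (hL : Nat.card L ∣ Nat.card H) :
    ∃ x : G, L ≤ MulAut.conj x • H := by
  by_cases hL1 : L = ⊥
  · exact ⟨1, by rw [hL1]; exact bot_le⟩
  obtain ⟨K, hK, hKn, hKc⟩ := frobenius_kernel_subgroup H hH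
  obtain ⟨q, hq⟩ := frob_index_mod H hH
  have hKcard : Nat.card K = 1 + Nat.card H * q := by
    rw [← hq]
    have h1 := hKc.card_mul_card
    have h2 := Subgroup.card_mul_index H
    rw [← h2, mul_comm] at h1
    exact Nat.eq_of_mul_eq_mul_left Nat.card_pos h1
  have hex : ∀ x ∈ L, x ≠ 1 → ∃ g : G, g⁻¹ * x * g ∈ H := by
    intro x hx hx1
    have hxK : x ∉ K := by
      intro hxK
      have h1 : orderOf x ∣ Nat.card H := by
        have h0 := orderOf_dvd_natCard (⟨x, hx⟩ : L)
        rw [← Subgroup.orderOf_coe] at h0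
        exact h0.trans hL
      have h2 : orderOf x ∣ Nat.card K := by
        have h0 := orderOf_dvd_natCard (⟨x, hxK⟩ : K)
        rw [← Subgroup.orderOf_coe] at h0
        exact h0
      have h3 : orderOf x ∣ 1 := by
        rw [hKcard] at h2
        exact (Nat.dvd_add_left (h1.mul_right q)).1 h2
      exact hx1 (orderOf_eq_one_iff.1 (Nat.dvd_one.1 h3))
    have hxk : x ∉ Cfsg.frobeniusKernel H := by rw [← hK]; exact hxK
    rw [frob_mem_kernel_iff] at hxk
    push Not at hxk
    exact hxk.2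
  obtain ⟨g, hg⟩ := frob_conj_of_forall_mem H L hH hL1 hex
  refine ⟨g⁻¹, ?_⟩
  intro x hx
  rw [frob_mem_conj_smul, inv_inv]
  apply hg
  rw [frob_mem_conj_smul]
  have e : g⁻¹ * (g * x * g⁻¹) * g = x := by group
  rw [e]; exact hx

end Cfsg.Agent.Lib.Lead
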