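import Mathlib
import Cfsg.Prelude.Def_Classical

namespace Cfsg.Agent.Lib.Lead

open Finset

variable {F : Type*} [Field F] [Fintype F] {q : ℕ}

theorem herm_two_le (hF : Fintype.card F = q ^ 2) : 2 ≤ q := by
  have h1 : 1 < Fintype.card F := Fintype.one_lt_card
  rw [hF] at h1
  by_contra h
  push Not at h
  interval_cases q <;> simp at h1

theorem herm_char_pow (hF : Fintype.card F = q ^ 2) :
    ∃ p k : ℕ, CharP F p ∧ p.Prime ∧ q = p ^ k := by
  obtain ⟨p, hc, n, hp, hn⟩ := FiniteField.card' F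
  refine ⟨p, ?_⟩
  have hq : q ∣ p ^ (n : ℕ) := by rw [← hn, hF]; exact dvd_pow_self q two_ne_zero
  obtain ⟨k, -, hk⟩ := (Nat.dvd_prime_pow hp).1 hq
  exact ⟨k, hc, hp, hk⟩

theorem herm_pow_add (hF : Fintype.card F = q ^ 2) (x y : F) :
    (x + y) ^ q = x ^ q + y ^ q := by
  obtain ⟨p, k, hc, hp, rfl⟩ := herm_char_pow hF
  haveI := hc
  haveI : Fact p.Prime := ⟨hp⟩
  exact add_pow_char_pow x y p k

theorem herm_pow_neg (hF : Fintype.card F = q ^ 2) (x : F) : (-x) ^ q = -x ^ q := by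
  have h := herm_pow_add hF x (-x)
  have h2 := herm_two_le hF
  rw [add_neg_cancel, zero_pow (by omega)] at h
  linear_combination -h

theorem herm_pow_sq (hF : Fintype.card F = q ^ 2) (x : F) : (x ^ q) ^ q = x := by
  rw [← pow_mul, ← pow_two, ← hF]; exact FiniteField.pow_card x

theorem herm_norm_fixed (hF : Fintype.card F = q ^ 2) (x : F) :
    (x * x ^ q) ^ q = x * x ^ q := by
  rw [mul_pow, herm_pow_sq hF, mul_comm]

theorem herm_card_units (hF : Fintype.card F = q ^ 2) : Nat.card Fˣ = (q - 1) * (q + 1) := by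
  classical
  rw [Nat.card_eq_fintype_card, Fintype.card_units, hF]
  have := herm_two_le hF
  obtain ⟨k, rfl⟩ : ∃ k, q = k + 2 := ⟨q - 2, by omega⟩
  have h : (k + 2) ^ 2 = (k + 1) * (k + 3) + 1 := by ring
  rw [h]; rfl

theorem herm_card_norm_one (hF : Fintype.card F = q ^ 2) :
    Nat.card {x : F // x * x ^ q = 1} = q + 1 := by
  have h1 : Nat.card (powMonoidHom (q + 1) : Fˣ →* Fˣ).ker = q + 1 := by
    rw [IsCyclic.card_powMonoidHom_ker, herm_card_units hF]
    exact Nat.gcd_eq_right (Dvd.intro_left _ rfl)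
  rw [← h1]
  apply Nat.card_congr
  refine ⟨fun x => ⟨Units.mk0 x.1 (by rintro h; have := x.2; rw [h] at this; simp at this), ?_⟩,
    fun u => ⟨(u.1 : F), ?_⟩, ?_, ?_⟩
  · rw [MonoidHom.mem_ker, powMonoidHom_apply]
    apply Units.ext
    rw [Units.val_pow_eq_pow_val, Units.val_mk0, Units.val_one, pow_succ']
    exact x.2
  · have h := u.2
    rw [MonoidHom.mem_ker, powMonoidHom_apply] at h
    have h' := congrArg Units.val h
    rw [Units.val_pow_eq_pow_val, Units.val_one, pow_succ'] at h'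
    exact h'
  · intro x; rfl
  · intro u; apply Subtype.ext; apply Units.ext; rfl

theorem herm_norm_surj (hF : Fintype.card F = q ^ 2) (c : F) (hc : c ≠ 0) (hcq : c ^ q = c) :
    ∃ l : F, l * l ^ q = c := by
  have h2 := herm_two_le hF
  have hle : (powMonoidHom (q + 1) : Fˣ →* Fˣ).range ≤ (powMonoidHom (q - 1) : Fˣ →* Fˣ).ker := by
    rintro _ ⟨u, rfl⟩
    rw [MonoidHom.mem_ker, powMonoidHom_apply, powMonoidHom_apply, ← pow_mul, mul_comm,
      ← herm_card_units hF]
    exact pow_card_eq_one'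
  have hcard : Nat.card (powMonoidHom (q + 1) : Fˣ →* Fˣ).range =
      Nat.card (powMonoidHom (q - 1) : Fˣ →* Fˣ).ker := by
    rw [IsCyclic.card_powMonoidHom_range, IsCyclic.card_powMonoidHom_ker, herm_card_units hF,
      Nat.gcd_eq_right (Dvd.intro_left _ rfl), Nat.gcd_eq_right (Dvd.intro _ rfl)]
    exact Nat.mul_div_cancel _ (Nat.succ_pos q)
  have heq := Subgroup.eq_of_le_of_card_ge hle hcard.ge
  have hmem : Units.mk0 c hc ∈ (powMonoidHom (q - 1) : Fˣ →* Fˣ).ker := by
    rw [MonoidHom.mem_ker, powMonoidHom_apply]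
    apply Units.ext
    rw [Units.val_pow_eq_pow_val, Units.val_mk0, Units.val_one]
    have h : c ^ (q - 1) * c = 1 * c := by
      rw [← pow_succ, Nat.sub_add_cancel (by omega), hcq, one_mul]
    exact mul_right_cancel₀ hc h
  rw [← heq] at hmem
  obtain ⟨u, hu⟩ := hmem
  refine ⟨(u : F), ?_⟩
  rw [← pow_succ']
  have h := congrArg Units.val hu
  rwa [powMonoidHom_apply, Units.val_pow_eq_pow_val, Units.val_mk0] at h

/-- number of vectors of hermitian norm `c` -/
noncomputable def hermCnt (F : Type*) [Field F] (q n : ℕ) (c : F) : ℕ :=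
  Nat.card {v : Fin n → F // Cfsg.hermForm n F q v v = c}

theorem hermCnt_scale (hF : Fintype.card F = q ^ 2) (n : ℕ) (c : F) (hc : c ≠ 0)
    (hcq : c ^ q = c) : hermCnt F q n c = hermCnt F q n 1 := by
  obtain ⟨l, hl⟩ := herm_norm_surj hF c hc hcq
  have hl0 : l ≠ 0 := by rintro rfl; rw [zero_mul] at hl; exact hc hl.symm
  unfold hermCnt
  symm
  apply Nat.card_congr
  let e : (Fin n → F) ≃ (Fin n → F) :=
    ⟨fun v i => l * v i, fun v i => l⁻¹ * v i,
      fun v => by funext i; simp [hl0], fun v => by funext i; simp [hl0]⟩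
  refine Equiv.subtypeEquiv e ?_
  intro v
  have hval : Cfsg.hermForm n F q (e v) (e v) = c * Cfsg.hermForm n F q v v := by
    unfold Cfsg.hermForm
    rw [Finset.mul_sum]
    apply Finset.sum_congr rfl
    intro i _
    show l * v i * (l * v i) ^ q = c * (v i * v i ^ q)
    rw [← hl]; ring
  rw [hval]
  constructor
  · intro h; rw [h, mul_one]
  · intro h
    have h' : c * Cfsg.hermForm n F q v v = c * 1 := by rw [h, mul_one]
    exact mul_left_cancel₀ hc h'

theorem hermCnt_succ (n : ℕ) (c : F) :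
    hermCnt F q (n + 1) c = ∑ x : F, hermCnt F q n (c - x * x ^ q) := by
  classical
  unfold hermCnt
  have hsplit : ∀ w : Fin (n + 1) → F, Cfsg.hermForm (n + 1) F q w w =
      w 0 * w 0 ^ q + Cfsg.hermForm n F q (Fin.tail w) (Fin.tail w) := by
    intro w
    unfold Cfsg.hermForm
    rw [Fin.sum_univ_succ]
    rfl
  have key : ∀ x : F, Nat.card {w : {w : Fin (n + 1) → F //
      Cfsg.hermForm (n + 1) F q w w = c} // w.1 0 = x} =
      Nat.card {v : Fin n → F // Cfsg.hermForm n F q v v = c - x * x ^ q} := by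
    intro x
    apply Nat.card_congr
    refine ⟨fun w => ⟨Fin.tail w.1.1, ?_⟩, fun v => ⟨⟨Fin.cons x v.1, ?_⟩, ?_⟩, ?_, ?_⟩
    · have h1 := w.1.2
      have h2 : w.1.1 0 = x := w.2
      rw [hsplit, h2] at h1
      exact eq_sub_of_add_eq' h1
    · rw [hsplit, Fin.cons_zero, Fin.tail_cons, v.2]; ring
    · show (Fin.cons x v.1 : Fin (n + 1) → F) 0 = x
      exact Fin.cons_zero _ _
    · rintro ⟨⟨w, hw⟩, hx⟩
      apply Subtype.ext; apply Subtype.ext
      show Fin.cons x (Fin.tail w) = w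
      have hx' : w 0 = x := hx
      subst hx'
      exact Fin.cons_self_tail w
    · rintro ⟨v, hv⟩
      apply Subtype.ext
      show Fin.tail (Fin.cons x v : Fin (n + 1) → F) = v
      exact Fin.tail_cons _ _
  rw [Nat.card_congr (Equiv.sigmaFiberEquiv (fun w : {w : Fin (n + 1) → F //
    Cfsg.hermForm (n + 1) F q w w = c} => w.1 0)).symm, Nat.card_sigma]
  exact Finset.sum_congr rfl (fun x _ => key x)

theorem hermCnt_zero_succ (hF : Fintype.card F = q ^ 2) (n : ℕ) :
    hermCnt F q (n + 1) 0 = hermCnt F q n 0 + (q ^ 2 - 1) * hermCnt F q n 1 := by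
  classical
  have h2 := herm_two_le hF
  rw [hermCnt_succ, ← Finset.add_sum_erase _ _ (Finset.mem_univ (0 : F))]
  congr 1
  · rw [zero_mul, sub_zero]
  · rw [Finset.sum_congr rfl (g := fun _ => hermCnt F q n 1)]
    · rw [Finset.sum_const, Finset.card_erase_of_mem (mem_univ _), Finset.card_univ, hF,
        smul_eq_mul]
    · intro x hx
      have hx0 : x ≠ 0 := Finset.ne_of_mem_erase hx
      apply hermCnt_scale hF
      · rw [zero_sub, neg_ne_zero]; exact mul_ne_zero hx0 (pow_ne_zero _ hx0)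
      · rw [zero_sub, herm_pow_neg hF, herm_norm_fixed hF]

theorem herm_filter_card (hF : Fintype.card F = q ^ 2) [DecidableEq F] :
    (univ.filter (fun x : F => x * x ^ q = 1)).card = q + 1 := by
  rw [← herm_card_norm_one hF, Nat.card_eq_fintype_card, Fintype.card_subtype]

theorem hermCnt_one_succ (hF : Fintype.card F = q ^ 2) (n : ℕ) :
    hermCnt F q (n + 1) 1 =
      (q + 1) * hermCnt F q n 0 + (q ^ 2 - q - 1) * hermCnt F q n 1 := by
  classical
  have h2 := herm_two_le hF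
  rw [hermCnt_succ, ← Finset.sum_filter_add_sum_filter_not univ (fun x : F => x * x ^ q = 1)]
  congr 1
  · rw [Finset.sum_congr rfl (g := fun _ => hermCnt F q n 0)]
    · rw [sum_const, smul_eq_mul, herm_filter_card hF]
    · intro x hx; rw [(Finset.mem_filter.1 hx).2, sub_self]
  · rw [Finset.sum_congr rfl (g := fun _ => hermCnt F q n 1)]
    · rw [sum_const, smul_eq_mul]; congr 1
      have h1 := Finset.card_filter_add_card_filter_not (s := (univ : Finset F))
        (fun x : F => x * x ^ q = 1)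
      rw [herm_filter_card hF, Finset.card_univ, hF] at h1
      omega
    · intro x hx
      have hne := (Finset.mem_filter.1 hx).2
      apply hermCnt_scale hF
      · rw [sub_ne_zero]; exact fun h => hne h.symm
      · rw [sub_eq_add_neg, herm_pow_add hF, herm_pow_neg hF, one_pow, herm_norm_fixed hF]

theorem hermCnt_base_zero : hermCnt F q 0 0 = 1 := by
  unfold hermCnt
  rw [Nat.card_eq_one_iff_unique]
  refine ⟨⟨fun a b => Subtype.ext (funext fun i => i.elim0)⟩, ⟨⟨fun i => i.elim0, ?_⟩⟩⟩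
  unfold Cfsg.hermForm; simp

theorem hermCnt_base_one : hermCnt F q 0 1 = 0 := by
  unfold hermCnt
  rw [Nat.card_eq_zero]
  left
  refine ⟨fun v => ?_⟩
  have h := v.2
  unfold Cfsg.hermForm at h
  simp at h

theorem hermCnt_closed (hF : Fintype.card F = q ^ 2) (m : ℕ) :
    (hermCnt F q (m + 1) 0 : ℤ) =
        ((q : ℤ) ^ (m + 1) - (-1) ^ (m + 1)) * ((q : ℤ) ^ m + (-1) ^ (m + 1)) + 1 ∧
      (hermCnt F q (m + 1) 1 : ℤ) = (q : ℤ) ^ m * ((q : ℤ) ^ (m + 1) - (-1) ^ (m + 1)) := by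
  have h2 := herm_two_le hF
  induction m with
  | zero =>
    rw [hermCnt_zero_succ hF, hermCnt_one_succ hF, hermCnt_base_zero, hermCnt_base_one]
    constructor <;> simp
  | succ m ih =>
    obtain ⟨ih0, ih1⟩ := ih
    have hc1 : ((q ^ 2 - 1 : ℕ) : ℤ) = (q : ℤ) ^ 2 - 1 := by
      rw [Nat.cast_sub (Nat.one_le_pow _ _ (by omega))]; push_cast; ring
    have hc2 : ((q ^ 2 - q - 1 : ℕ) : ℤ) = (q : ℤ) ^ 2 - q - 1 := by
      have : q + 1 ≤ q ^ 2 := by nlinarith
      rw [Nat.sub_sub, Nat.cast_sub this]; push_cast; ring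
    have he : ((-1 : ℤ) ^ m) ^ 2 = 1 := by rw [← pow_mul, mul_comm, pow_mul]; norm_num
    constructor
    · rw [hermCnt_zero_succ hF]; push_cast; rw [hc1, ih0, ih1]
      ring
    · rw [hermCnt_one_succ hF]; push_cast; rw [hc2, ih0, ih1]
      linear_combination (-((q : ℤ) + 1)) * he

theorem hermCnt_one_eq (hF : Fintype.card F = q ^ 2) (n : ℕ) :
    hermCnt F q n 1 =
      (if Even n then q ^ (n - 1) * (q ^ n - 1) else q ^ (n - 1) * (q ^ n + 1)) := by
  have h2 := herm_two_le hF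
  rcases n with _ | m
  · rw [hermCnt_base_one]; simp
  · have h := (hermCnt_closed hF m).2
    have hq1 : 1 ≤ q ^ (m + 1) := Nat.one_le_pow _ _ (by omega)
    rw [Nat.add_sub_cancel]
    split_ifs with hev
    · rw [hev.neg_one_pow] at h
      have : ((q ^ m * (q ^ (m + 1) - 1) : ℕ) : ℤ) = (q : ℤ) ^ m * ((q : ℤ) ^ (m + 1) - 1) := by
        rw [Nat.cast_mul, Nat.cast_sub hq1]; push_cast; ring
      exact_mod_cast h.trans this.symm
    · rw [(Nat.not_even_iff_odd.1 hev).neg_one_pow] at h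
      have : ((q ^ m * (q ^ (m + 1) + 1) : ℕ) : ℤ) = (q : ℤ) ^ m * ((q : ℤ) ^ (m + 1) - -1) := by
        push_cast; ring
      exact_mod_cast h.trans this.symm

theorem hermCnt_zero_eq (hF : Fintype.card F = q ^ 2) (n : ℕ) :
    hermCnt F q n 0 =
      (if Even n then (q ^ n - 1) * (q ^ (n - 1) + 1) else (q ^ n + 1) * (q ^ (n - 1) - 1)) + 1 := by
  have h2 := herm_two_le hF
  rcases n with _ | m
  · rw [hermCnt_base_zero]; simp
  · have h := (hermCnt_closed hF m).1
    have hq1 : 1 ≤ q ^ (m + 1) := Nat.one_le_pow _ _ (by omega)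
    have hq0 : 1 ≤ q ^ m := Nat.one_le_pow _ _ (by omega)
    rw [Nat.add_sub_cancel]
    split_ifs with hev
    · rw [hev.neg_one_pow] at h
      have : (((q ^ (m + 1) - 1) * (q ^ m + 1) + 1 : ℕ) : ℤ) =
          ((q : ℤ) ^ (m + 1) - 1) * ((q : ℤ) ^ m + 1) + 1 := by
        rw [Nat.cast_add, Nat.cast_mul, Nat.cast_sub hq1]; push_cast; ring
      exact_mod_cast h.trans this.symm
    · rw [(Nat.not_even_iff_odd.1 hev).neg_one_pow] at h
      have : (((q ^ (m + 1) + 1) * (q ^ m - 1) + 1 : ℕ) : ℤ) =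
          ((q : ℤ) ^ (m + 1) - -1) * ((q : ℤ) ^ m + -1) + 1 := by
        rw [Nat.cast_add, Nat.cast_mul, Nat.cast_sub hq0]; push_cast; ring
      exact_mod_cast h.trans this.symm

end Cfsg.Agent.Lib.Lead
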