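import Mathlib
import Cfsg.Agent.Lib.Lead.Basic
import Cfsg.Agent.Lib.Lead.Coprime

set_option autoImplicit false
open Pointwise

namespace Cfsg.Agent.Lib.Lead

open scoped commutatorElement

variable {G : Type*} [Group G]

/-- Itô: the basic commutation between commutators `[a,b]` in a product of two abelian subgroups -/
theorem ito_comm (A B : Subgroup G) (hA : ∀ x ∈ A, ∀ y ∈ A, x * y = y * x)
    (hB : ∀ x ∈ B, ∀ y ∈ B, x * y = y * x) (hAB : ∀ g : G, ∃ a ∈ A, ∃ b ∈ B, g = a * b)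
    (a b a₁ b₁ : G) (ha : a ∈ A) (hb : b ∈ B) (ha₁ : a₁ ∈ A) (hb₁ : b₁ ∈ B) :
    ⁅a, b⁆ * ⁅b₁⁻¹, a₁⁻¹⁆ = ⁅b₁⁻¹, a₁⁻¹⁆ * ⁅a, b⁆ := by
  -- a₁ b a₁⁻¹ = b₂ a₂
  obtain ⟨a', ha', b', hb', h1⟩ := hAB (a₁ * b * a₁⁻¹)⁻¹
  have h1' : a₁ * b * a₁⁻¹ = b'⁻¹ * a'⁻¹ := by
    have := congrArg Inv.inv h1
    rw [inv_inv] at this
    rw [this]; group
  -- b₁ a b₁⁻¹ = a₃ b₃
  obtain ⟨a₃, ha₃, b₃, hb₃, h2⟩ := hAB (b₁ * a * b₁⁻¹)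
  have L1 : ∀ x ∈ A, ∀ y ∈ A, ∀ z : G, ⁅x, z * y⁆ = ⁅x, z⁆ := by
    intro x hx y hy z
    simp only [commutatorElement_def]
    have hc : y * x⁻¹ = x⁻¹ * y := (hA x⁻¹ (A.inv_mem hx) y hy).symm
    calc x * (z * y) * x⁻¹ * (z * y)⁻¹ = x * z * (y * x⁻¹) * y⁻¹ * z⁻¹ := by group
      _ = x * z * (x⁻¹ * y) * y⁻¹ * z⁻¹ := by rw [hc]
      _ = x * z * x⁻¹ * z⁻¹ := by group
  have L2 : ∀ x ∈ B, ∀ y ∈ B, ∀ z : G, ⁅z * x, y⁆ = ⁅z, y⁆ := by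
    intro x hx y hy z
    simp only [commutatorElement_def]
    have hc : x * y = y * x := hB x hx y hy
    calc z * x * y * (z * x)⁻¹ * y⁻¹ = z * (x * y) * x⁻¹ * z⁻¹ * y⁻¹ := by group
      _ = z * (y * x) * x⁻¹ * z⁻¹ * y⁻¹ := by rw [hc]
      _ = z * y * z⁻¹ * y⁻¹ := by group
  have conj : ∀ g x y : G, g * ⁅x, y⁆ * g⁻¹ = ⁅g * x * g⁻¹, g * y * g⁻¹⁆ := by
    intro g x y; simp only [commutatorElement_def]; group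
  have cA : ∀ x ∈ A, ∀ y ∈ A, x * y * x⁻¹ = y := by
    intro x hx y hy; rw [hA x hx y hy]; group
  have cB : ∀ x ∈ B, ∀ y ∈ B, x * y * x⁻¹ = y := by
    intro x hx y hy; rw [hB x hx y hy]; group
  have hb'i : b'⁻¹ ∈ B := B.inv_mem hb'
  have ha'i : a'⁻¹ ∈ A := A.inv_mem ha'
  have e1 : b₁ * (a₁ * ⁅a, b⁆ * a₁⁻¹) * b₁⁻¹ = ⁅a₃, b'⁻¹⁆ := by
    rw [conj a₁, cA a₁ ha₁ a ha, h1', L1 a ha a'⁻¹ ha'i, conj b₁, h2, cB b₁ hb₁ _ hb'i, L2 b₃ hb₃ _ hb'i]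
  have e2 : a₁ * (b₁ * ⁅a, b⁆ * b₁⁻¹) * a₁⁻¹ = ⁅a₃, b'⁻¹⁆ := by
    rw [conj b₁, h2, cB b₁ hb₁ b hb, L2 b₃ hb₃ b hb, conj a₁, cA a₁ ha₁ a₃ ha₃, h1', L1 a₃ ha₃ a'⁻¹ ha'i]
  have e3 : b₁ * (a₁ * ⁅a, b⁆ * a₁⁻¹) * b₁⁻¹ = a₁ * (b₁ * ⁅a, b⁆ * b₁⁻¹) * a₁⁻¹ := e1.trans e2.symm
  have key : ∀ c : G, b₁ * (a₁ * c * a₁⁻¹) * b₁⁻¹ = a₁ * (b₁ * c * b₁⁻¹) * a₁⁻¹ →
      c * (b₁⁻¹ * a₁⁻¹ * b₁ * a₁) = (b₁⁻¹ * a₁⁻¹ * b₁ * a₁) * c := by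
    intro c h
    have h4 : (b₁⁻¹ * a₁⁻¹ * b₁ * a₁) * c = b₁⁻¹ * a₁⁻¹ * (b₁ * (a₁ * c * a₁⁻¹) * b₁⁻¹) * b₁ * a₁ := by group
    rw [h4, h]; group
  have e4 := key _ e3
  have e5 : ⁅b₁⁻¹, a₁⁻¹⁆ = b₁⁻¹ * a₁⁻¹ * b₁ * a₁ := by
    simp only [commutatorElement_def]; group
  rw [e5]; exact e4

/-- **Itô's theorem**: a product of two abelian subgroups is metabelian, hence solvable. -/
theorem ito_solvable (A B : Subgroup G) (hA : ∀ x ∈ A, ∀ y ∈ A, x * y = y * x)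
    (hB : ∀ x ∈ B, ∀ y ∈ B, x * y = y * x) (hAB : ∀ g : G, ∃ a ∈ A, ∃ b ∈ B, g = a * b) :
    Group.IsSolvable G := by
  -- N = [A,B] is abelian
  have hNN : ⁅A, B⁆ ≤ Subgroup.centralizer ((⁅A, B⁆ : Subgroup G) : Set G) := by
    have h1 : ∀ a ∈ A, ∀ b ∈ B, ⁅a, b⁆ ∈ Subgroup.centralizer ((⁅A, B⁆ : Subgroup G) : Set G) := by
      intro a ha b hb
      have h2 : ⁅A, B⁆ ≤ Subgroup.centralizer ({⁅a, b⁆} : Set G) := by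
        rw [Subgroup.commutator_le]
        intro a₁ ha₁ b₁ hb₁
        rw [Subgroup.mem_centralizer_iff]
        intro x hx
        rw [Set.mem_singleton_iff] at hx
        subst hx
        have h3 := ito_comm A B hA hB hAB a b a₁⁻¹ b₁⁻¹ ha hb (A.inv_mem ha₁) (B.inv_mem hb₁)
        rw [inv_inv, inv_inv] at h3
        have h4 : ⁅a₁, b₁⁆ = ⁅b₁, a₁⁆⁻¹ := by simp only [commutatorElement_def]; group
        rw [h4]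
        have h5 : ⁅b₁, a₁⁆⁻¹ * ⁅a, b⁆ = ⁅b₁, a₁⁆⁻¹ * (⁅a, b⁆ * ⁅b₁, a₁⁆) * ⁅b₁, a₁⁆⁻¹ := by group
        rw [h5, h3]; group
      rw [Subgroup.mem_centralizer_iff]
      intro x hx
      exact ((Subgroup.mem_centralizer_iff.mp (h2 hx)) _ rfl).symm
    rw [Subgroup.commutator_le]
    exact h1
  have hNab : ⁅⁅A, B⁆, ⁅A, B⁆⁆ = ⊥ := Subgroup.commutator_eq_bot_iff_le_centralizer.mpr hNN
  -- N is normal
  have hNn : (⁅A, B⁆ : Subgroup G).Normal := by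
    rw [← Subgroup.normalizer_eq_top_iff, eq_top_iff]
    intro g _
    obtain ⟨a, ha, b, hb, rfl⟩ := hAB g
    exact Subgroup.mul_mem _ (le_normalizer_commutator A B ha) (le_normalizer_commutator_right A B hb)
  -- G / N is abelian
  have hGN : ⁅(⊤ : Subgroup G), (⊤ : Subgroup G)⁆ ≤ ⁅A, B⁆ := by
    rw [Subgroup.commutator_le]
    intro g₁ _ g₂ _
    obtain ⟨a, ha, b, hb, rfl⟩ := hAB g₁
    obtain ⟨a', ha', b', hb', rfl⟩ := hAB g₂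
    rw [← QuotientGroup.eq_one_iff, commutatorElement_def]
    have hcomm : ∀ x ∈ A, ∀ y ∈ B, ((x : G) : G ⧸ ⁅A, B⁆) * (y : G) = (y : G) * (x : G) := by
      intro x hx y hy
      have h1 : ⁅x, y⁆ ∈ ⁅A, B⁆ := Subgroup.commutator_mem_commutator hx hy
      rw [← QuotientGroup.eq_one_iff, commutatorElement_def] at h1
      have h2 : ((x * y * x⁻¹ * y⁻¹ : G) : G ⧸ ⁅A, B⁆) = (x : G ⧸ ⁅A, B⁆) * y * (x : G ⧸ ⁅A, B⁆)⁻¹ * (y : G ⧸ ⁅A, B⁆)⁻¹ := rfl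
      rw [h2] at h1
      have h3 : (x : G ⧸ ⁅A, B⁆) * y = ((x : G ⧸ ⁅A, B⁆) * y * (x : G ⧸ ⁅A, B⁆)⁻¹ * (y : G ⧸ ⁅A, B⁆)⁻¹) * (y * x) := by group
      rw [h3, h1, one_mul]
    have hAA : ((a : G) : G ⧸ ⁅A, B⁆) * (a' : G) = (a' : G) * (a : G) := by
      rw [← QuotientGroup.mk_mul, hA a ha a' ha', QuotientGroup.mk_mul]
    have hBB : ((b : G) : G ⧸ ⁅A, B⁆) * (b' : G) = (b' : G) * (b : G) := by
      rw [← QuotientGroup.mk_mul, hB b hb b' hb', QuotientGroup.mk_mul]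
    have h1 := hcomm a ha b' hb'
    have h2 := hcomm a' ha' b hb
    show ((a * b * (a' * b') * (a * b)⁻¹ * (a' * b')⁻¹ : G) : G ⧸ ⁅A, B⁆) = 1
    have h6 : ((a * b * (a' * b') * (a * b)⁻¹ * (a' * b')⁻¹ : G) : G ⧸ ⁅A, B⁆) =
        (a : G ⧸ ⁅A, B⁆) * b * (a' * b') * ((a : G ⧸ ⁅A, B⁆) * b)⁻¹ * ((a' : G ⧸ ⁅A, B⁆) * b')⁻¹ := rfl
    rw [h6]
    have h7 : (a : G ⧸ ⁅A, B⁆) * b * (a' * b') = (a' : G ⧸ ⁅A, B⁆) * b' * (a * b) := by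
      calc (a : G ⧸ ⁅A, B⁆) * b * (a' * b') = a * (b * a') * b' := by group
        _ = a * (a' * b) * b' := by rw [h2]
        _ = (a * a') * (b * b') := by group
        _ = (a' * a) * (b' * b) := by rw [hAA, hBB]
        _ = a' * (a * b') * b := by group
        _ = a' * (b' * a) * b := by rw [h1]
        _ = (a' : G ⧸ ⁅A, B⁆) * b' * (a * b) := by group
    rw [h7]; group
  rw [Group.isSolvable_def]
  refine ⟨2, ?_⟩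
  rw [derivedSeries_succ, derivedSeries_succ, derivedSeries_zero, eq_bot_iff, ← hNab]
  exact Subgroup.commutator_mono hGN hGN

end Cfsg.Agent.Lib.Lead
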