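import Mathlib

namespace Cfsg.Agent.Lib.Lead

open MulAction SubMulAction

theorem jordan_multiply_transitive {G α : Type*} [Group G] [MulAction G α]
    (hG : IsPreprimitive G α) {s : Set α} {n : ℕ}
    (hsn : s.ncard = n + 1) (hsn' : n + 2 < Nat.card α)
    (h2 : IsMultiplyPretransitive (fixingSubgroup G s) (ofFixingSubgroup G s) 2) :
    IsMultiplyPretransitive G α (n + 3) := by
  have hα : Finite α := Or.resolve_right (finite_or_infinite α) (fun _ ↦ by
    simp [Nat.card_eq_zero_of_infinite] at hsn')
  induction n generalizing α hα G with
  | zero =>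
    obtain ⟨a, rfl⟩ := Set.ncard_eq_one.1 hsn
    haveI : IsPretransitive G α := hG.toIsPretransitive
    refine (ofStabilizer.isMultiplyPretransitive (G := G) (α := α) (n := 2) (a := a)).2 ?_
    exact IsPretransitive.of_embedding (f := ofFixingSubgroup_of_singleton G a)
      ofFixingSubgroup_of_singleton_bijective.surjective
  | succ n hrec =>
    have hprim : IsPreprimitive (fixingSubgroup G s) (ofFixingSubgroup G s) :=
      isPreprimitive_of_is_two_pretransitive h2
    obtain ⟨a, t, _, hst⟩ : ∃ (a : α) (t : Set (SubMulAction.ofStabilizer G a)),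
        a ∈ s ∧ s = insert a (Subtype.val '' t) := by
      have hne : s.Nonempty := by rw [← Set.ncard_pos, hsn]; apply Nat.succ_pos
      obtain ⟨a, ha⟩ := hne
      use a, Subtype.val ⁻¹' s, ha
      ext x
      by_cases hx : x = a <;> simp [hx, mem_ofStabilizer_iff, ha]
    have ha' : a ∉ Subtype.val '' t := by
      intro h; rw [Set.mem_image] at h; obtain ⟨x, hx⟩ := h
      apply x.prop; rw [hx.right]; exact Set.mem_singleton a
    have ht_prim : IsPreprimitive (stabilizer G a) (SubMulAction.ofStabilizer G a) := by
      rw [← is_one_preprimitive_iff]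
      rw [← isMultiplyPreprimitive_succ_iff_ofStabilizer]
      · apply MulAction.IsPreprimitive.is_two_preprimitive hG hsn hsn' hprim
      · norm_num
    have h2a : IsMultiplyPretransitive ↥(fixingSubgroup G (insert a (Subtype.val '' t)))
        (ofFixingSubgroup G (insert a (Subtype.val '' t))) 2 :=
      IsPretransitive.of_embedding (ofFixingSubgroup_of_eq_bijective (hst := hst)).surjective
    have h2b : IsMultiplyPretransitive (fixingSubgroup (stabilizer G a) t)
        (ofFixingSubgroup (stabilizer G a) t) 2 :=
      IsPretransitive.of_embedding ofFixingSubgroup_insert_map_bijective.surjective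
    haveI : IsPretransitive G α := hG.toIsPretransitive
    refine (ofStabilizer.isMultiplyPretransitive (G := G) (α := α) (n := n + 3) (a := a)).2 ?_
    refine hrec ht_prim ?_ ?_ h2b Subtype.finite
    · rw [← Set.ncard_image_of_injective t Subtype.val_injective]
      apply Nat.add_right_cancel
      rw [← Set.ncard_insert_of_notMem ha', ← hst, hsn]
    · rw [← Nat.add_lt_add_iff_right, nat_card_ofStabilizer_add_one_eq]
      exact hsn'

end Cfsg.Agent.Lib.Lead
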