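import Mathlib

set_option autoImplicit false

namespace Cfsg.Agent.Lib.Lead

open MulAction Equiv

/-- `j`-transitivity in finset form -/
theorem multi_trans_finset {G α : Type*} [Group G] [MulAction G α] [Finite α] {j : ℕ}
    (h : IsMultiplyPretransitive G α j) (hj : j ≤ Nat.card α) (S : Finset α) (hS : S.card ≤ j)
    (f : α → α) (hf : Set.InjOn f S) :
    ∃ g : G, ∀ z ∈ S, g • z = f z := by
  classical
  haveI := h
  have h' : IsMultiplyPretransitive G α S.card :=
    isMultiplyPretransitive_of_le (n := j) (m := S.card) hS hj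
  let e : Fin S.card ≃ S := S.equivFin.symm
  let e₁ : Fin S.card ↪ α := ⟨fun i => (e i).1, fun i i' hii => e.injective (Subtype.ext hii)⟩
  let e₂ : Fin S.card ↪ α := ⟨fun i => f (e i).1, fun i i' hii =>
    e.injective (Subtype.ext (hf (e i).2 (e i').2 hii))⟩
  obtain ⟨g, hg⟩ := h'.exists_smul_eq e₁ e₂
  refine ⟨g, fun z hz => ?_⟩
  have h1 := DFunLike.congr_fun hg (e.symm ⟨z, hz⟩)
  have h2 : g • (e (e.symm ⟨z, hz⟩)).1 = f (e (e.symm ⟨z, hz⟩)).1 := h1
  rwa [Equiv.apply_symm_apply] at h2

/-- a subset of the support of given size with at most one point mapped outside -/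
theorem exists_chain_set {α : Type*} [Fintype α] [DecidableEq α] (g : Perm α) :
    ∀ i : ℕ, i ≤ g.support.card → ∃ F : Finset α, F ⊆ g.support ∧ F.card = i ∧
      ∀ z₁ ∈ F, ∀ z₂ ∈ F, g z₁ ∉ F → g z₂ ∉ F → z₁ = z₂ := by
  intro i
  induction i with
  | zero => intro _; exact ⟨∅, Finset.empty_subset _, rfl, by simp⟩
  | succ i ih =>
    intro hi
    obtain ⟨F, hF, hFc, hFb⟩ := ih (by omega)
    by_cases hb : ∃ s ∈ F, g s ∉ F
    · obtain ⟨s, hs, hgs⟩ := hb
      refine ⟨insert (g s) F, ?_, ?_, ?_⟩
      · intro z hz
        rcases Finset.mem_insert.1 hz with h | h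
        · rw [h]; exact Perm.apply_mem_support.2 (hF hs)
        · exact hF h
      · rw [Finset.card_insert_of_notMem hgs, hFc]
      · have key : ∀ z ∈ insert (g s) F, g z ∉ insert (g s) F → z = g s := by
          intro z hz hgz
          rcases Finset.mem_insert.1 hz with h | h
          · exact h
          · exfalso
            have h1 : g z ∉ F := fun h' => hgz (Finset.mem_insert_of_mem h')
            have h2 := hFb z h s hs h1 hgs
            rw [h2] at hgz
            exact hgz (Finset.mem_insert_self _ _)
        intro z₁ hz₁ z₂ hz₂ h1 h2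
        rw [key z₁ hz₁ h1, key z₂ hz₂ h2]
    · push Not at hb
      obtain ⟨z, hz, hzF⟩ : ∃ z ∈ g.support, z ∉ F := by
        by_contra hh
        push Not at hh
        have : g.support ⊆ F := hh
        have := Finset.card_le_card this
        omega
      refine ⟨insert z F, ?_, ?_, ?_⟩
      · intro w hw
        rcases Finset.mem_insert.1 hw with h | h
        · rw [h]; exact hz
        · exact hF h
      · rw [Finset.card_insert_of_notMem hzF, hFc]
      · have key : ∀ w ∈ insert z F, g w ∉ insert z F → w = z := by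
          intro w hw hgw
          rcases Finset.mem_insert.1 hw with h | h
          · exact h
          · exact absurd (Finset.mem_insert_of_mem (hb w h)) hgw
        intro z₁ hz₁ z₂ hz₂ h1 h2
        rw [key z₁ hz₁ h1, key z₂ hz₂ h2]

/-- support bound for a commutator with an element fixing part of the support -/
theorem comm_support_le {α : Type*} [Fintype α] [DecidableEq α] (g x : Perm α) (F : Finset α)
    (hFx : ∀ z ∈ F, x z = z) :
    (x * g * x⁻¹ * g⁻¹).support.card ≤
      (g.support \ F.filter (fun z => g z ∈ F)).card + (g.support.image x \ g.support).card := by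
  classical
  rw [← Finset.card_union_of_disjoint]
  · have hsub : (x * g * x⁻¹ * g⁻¹).support ⊆
        ((g.support \ F.filter (fun z => g z ∈ F)) ∪ (g.support.image x \ g.support)).image g := by
      intro y hy
      rw [Perm.mem_support] at hy
      rw [Finset.mem_image]
      refine ⟨g⁻¹ y, ?_, by simp⟩
      by_contra hD
      rw [Finset.mem_union, not_or] at hD
      obtain ⟨hD1, hD2⟩ := hD
      apply hy
      set z := g⁻¹ y with hz
      have hy' : y = g z := by simp [hz]
      show x (g (x⁻¹ (g⁻¹ y))) = y
      rw [← hz, hy']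
      by_cases hzs : z ∈ g.support
      · -- z ∈ F'
        have hzF' : z ∈ F.filter (fun z => g z ∈ F) := by
          by_contra h
          exact hD1 (Finset.mem_sdiff.2 ⟨hzs, h⟩)
        obtain ⟨hzF, hgzF⟩ := Finset.mem_filter.1 hzF'
        have h1 : x⁻¹ z = z := by
          rw [Perm.inv_eq_iff_eq, hFx z hzF]
        rw [h1, hFx _ hgzF]
      · -- z ∉ Δ, z ∉ xΔ
        have hgz : g z = z := Perm.notMem_support.1 hzs
        have hxz : x⁻¹ z ∉ g.support := by
          intro h
          apply hD2
          rw [Finset.mem_sdiff]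
          refine ⟨Finset.mem_image.2 ⟨x⁻¹ z, h, by simp⟩, hzs⟩
        have h1 : g (x⁻¹ z) = x⁻¹ z := Perm.notMem_support.1 hxz
        rw [h1, hgz]
        simp
    calc (x * g * x⁻¹ * g⁻¹).support.card ≤ _ := Finset.card_le_card hsub
      _ ≤ _ := Finset.card_image_le
  · rw [Finset.disjoint_left]
    intro z hz1 hz2
    exact (Finset.mem_sdiff.1 hz2).2 (Finset.mem_sdiff.1 hz1).1

end Cfsg.Agent.Lib.Lead
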