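import Mathlib
import Cfsg.Agent.Lib.Lead.SmallSupp
import Cfsg.Agent.Lib.Lead.Frob2

set_option autoImplicit false

namespace Cfsg.Agent.Lib.Lead

open MulAction Equiv
open scoped Pointwise

theorem conj_into_zpowers {K : Type*} [Group K] [Finite K] (p : ℕ) [hp : Fact p.Prime]
    (hK : ¬ p ^ 2 ∣ Nat.card K) (g g' : K) (hg : orderOf g = p) (hg' : orderOf g' = p) :
    ∃ y : K, y * g' * y⁻¹ ∈ Subgroup.zpowers g := by
  have key : ∀ z : K, orderOf z = p → ∃ Q : Sylow p K, (Q : Subgroup K) = Subgroup.zpowers z := by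
    intro z hz
    have hpg : IsPGroup p (Subgroup.zpowers z) :=
      IsPGroup.of_card (n := 1) (by rw [Nat.card_zpowers, hz, pow_one])
    obtain ⟨Q, hQ⟩ := hpg.exists_le_sylow
    refine ⟨Q, ?_⟩
    obtain ⟨e, he⟩ := IsPGroup.iff_card.1 Q.isPGroup'
    have hdvd : Nat.card Q ∣ Nat.card K := Subgroup.card_subgroup_dvd_card _
    have he1 : e ≤ 1 := by
      by_contra h
      apply hK
      rw [he] at hdvd
      exact (pow_dvd_pow p (by omega)).trans hdvd
    symm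
    apply Subgroup.eq_of_le_of_card_ge hQ
    rw [he, Nat.card_zpowers, hz]
    calc p ^ e ≤ p ^ 1 := Nat.pow_le_pow_right hp.out.pos he1
      _ = p := pow_one p
  obtain ⟨Q, hQ⟩ := key g hg
  obtain ⟨Q', hQ'⟩ := key g' hg'
  obtain ⟨y, hy⟩ := MulAction.exists_smul_eq K Q' Q
  refine ⟨y, ?_⟩
  rw [← hQ, ← hy, Sylow.coe_subgroup_smul, frob_mem_conj_smul]
  have h1 : g' ∈ (Q' : Subgroup K) := by rw [hQ']; exact Subgroup.mem_zpowers g'
  have h2 : y⁻¹ * (y * g' * y⁻¹) * y = g' := by group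
  rw [h2]; exact h1

set_option maxHeartbeats 1000000 in
theorem jordan_prime_three_cycle {α : Type*} [Fintype α] [DecidableEq α] (G : Subgroup (Perm α))
    (hG : IsPreprimitive G α) {p : ℕ} (hp : p.Prime) (hpn : p + 3 ≤ Fintype.card α)
    {g : Perm α} (hgc : g.IsCycle) (hgp : g.support.card = p) (hg : g ∈ G) :
    ∃ d ∈ G, d.IsThreeCycle := by
  classical
  haveI : Fact p.Prime := ⟨hp⟩
  have hn : Nat.card α = Fintype.card α := Nat.card_eq_fintype_card
  obtain ⟨n, hn'⟩ : ∃ n, Fintype.card α = p + (n + 1) := ⟨Fintype.card α - p - 1, by omega⟩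
  have hn2 : 2 ≤ n := by omega
  have hsc : Set.ncard ((g.support : Set α)ᶜ) = n + 1 := by
    apply Nat.add_left_cancel (n := p)
    rw [← hgp, ← Set.ncard_coe_finset g.support, Set.ncard_add_ncard_compl, hn,
      Set.ncard_coe_finset, hgp, hn']
  have hprim : IsPreprimitive (fixingSubgroup G ((g.support : Set α)ᶜ))
      (SubMulAction.ofFixingSubgroup G ((g.support : Set α)ᶜ)) := by
    haveI := Perm.isPretransitive_of_isCycle_mem hgc hg
    apply IsPreprimitive.of_prime_card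
    show Nat.Prime (Nat.card ↥(((g.support : Set α)ᶜ)ᶜ : Set α))
    rw [Nat.card_coe_set_eq, compl_compl, Set.ncard_coe_finset, hgp]
    exact hp
  have hmp : IsMultiplyPreprimitive G α (n + 2) :=
    hG.isMultiplyPreprimitive hsc (by rw [hn, hn']; have := hp.two_le; omega) hprim
  have hmt : IsMultiplyPretransitive G α (n + 2) :=
    IsMultiplyPreprimitive.isMultiplyPretransitive G α (n + 2)
  -- Γ
  obtain ⟨Γ, hΓdef⟩ : ∃ Γ : Finset α, Γ = Finset.univ \ g.support := ⟨_, rfl⟩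
  have hΓmem : ∀ z, z ∈ Γ ↔ g z = z := by
    intro z
    rw [hΓdef, Finset.mem_sdiff, Perm.mem_support]
    simp
  have hΓmem' : ∀ z, z ∈ Γ ↔ z ∉ g.support := by
    intro z
    rw [hΓdef, Finset.mem_sdiff]
    simp
  have hΓc : Γ.card = n + 1 := by
    rw [hΓdef, Finset.card_sdiff_of_subset (Finset.subset_univ _), Finset.card_univ, hgp, hn']
    omega
  have hgo : orderOf g = p := by rw [hgc.orderOf, hgp]
  -- Witt
  have witt : ∀ π : Perm α, (∀ z ∈ Γ, π z ∈ Γ) → ∃ x ∈ G, (∃ i : ℤ, x * g * x⁻¹ = g ^ i) ∧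
      ∀ z ∈ Γ, x z = π z := by
    intro π hπ
    obtain ⟨x, hx⟩ := multi_trans_finset hmt (by rw [hn, hn']; have := hp.two_le; omega) Γ
      (by rw [hΓc]; omega) (fun z => π z) π.injective.injOn
    have hx' : ∀ z ∈ Γ, (x : Perm α) z = π z := hx
    have hximg : ∀ z ∈ Γ, (x : Perm α)⁻¹ z ∈ Γ := by
      have h1 : Γ.image (x : Perm α) ⊆ Γ := by
        intro z hz
        obtain ⟨w, hw, rfl⟩ := Finset.mem_image.1 hz
        rw [hx' w hw]; exact hπ w hw
      have h2 : Γ.image (x : Perm α) = Γ :=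
        Finset.eq_of_subset_of_card_le h1
          (by rw [Finset.card_image_of_injective _ (x : Perm α).injective])
      intro z hz
      rw [← h2] at hz
      obtain ⟨w, hw, rfl⟩ := Finset.mem_image.1 hz
      simpa using hw
    let K : Subgroup (Perm α) :=
      { carrier := {y | y ∈ G ∧ ∀ z ∈ Γ, y z = z}
        mul_mem' := fun {y y'} hy hy' => ⟨G.mul_mem hy.1 hy'.1, fun z hz => by
          rw [Perm.mul_apply, hy'.2 z hz, hy.2 z hz]⟩
        one_mem' := ⟨G.one_mem, fun z _ => rfl⟩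
        inv_mem' := fun {y} hy => ⟨G.inv_mem hy.1, fun z hz => by
          rw [Perm.inv_eq_iff_eq, hy.2 z hz]⟩ }
    have hKmem : ∀ y, y ∈ K ↔ y ∈ G ∧ ∀ z ∈ Γ, y z = z := fun y => Iff.rfl
    have hgK : g ∈ K := ⟨hg, fun z hz => (hΓmem z).1 hz⟩
    have hg'K : (x : Perm α) * g * (x : Perm α)⁻¹ ∈ K := by
      refine ⟨G.mul_mem (G.mul_mem x.2 hg) (G.inv_mem x.2), fun z hz => ?_⟩
      have h1 := hximg z hz
      rw [Perm.mul_apply, Perm.mul_apply, (hΓmem _).1 h1]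
      simp
    have hKsupp : ∀ y : K, ∀ z, (y : Perm α) z ∈ g.support ↔ z ∈ g.support := by
      intro y z
      constructor
      · intro h1
        by_contra h2
        have h3 : z ∈ Γ := (hΓmem' z).2 h2
        rw [y.2.2 z h3] at h1
        exact h2 h1
      · intro h1
        by_contra h2
        have h3 : (y : Perm α) z ∈ Γ := (hΓmem' _).2 h2
        have h4 := y.2.2 _ h3
        have h5 : (y : Perm α) z = z := (y : Perm α).injective h4
        rw [h5] at h2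
        exact h2 h1
    let φ : K →* Perm {z // z ∈ g.support} := MonoidHom.mk'
      (fun y => Perm.subtypePerm (y : Perm α) (hKsupp y)) (by
        intro y y'
        ext z
        rfl)
    have hφ : Function.Injective φ := by
      intro y y' hyy
      apply Subtype.ext
      ext z
      by_cases hz : z ∈ g.support
      · have h1 := Perm.congr_fun hyy ⟨z, hz⟩
        exact congrArg Subtype.val h1
      · have h3 : z ∈ Γ := (hΓmem' z).2 hz
        rw [y.2.2 z h3, y'.2.2 z h3]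
    have hKcard : ¬ p ^ 2 ∣ Nat.card K := by
      intro h1
      have h2 := Subgroup.card_dvd_of_injective φ hφ
      rw [Nat.card_perm] at h2
      have h6 : Nat.card {z // z ∈ g.support} = p := by
        rw [Nat.card_eq_fintype_card, Fintype.card_coe, hgp]
      rw [h6] at h2
      have h3 : p ^ 2 ∣ p.factorial := h1.trans h2
      obtain ⟨q, hq⟩ : ∃ q, p = q + 1 := ⟨p - 1, by have := hp.two_le; omega⟩
      rw [hq, Nat.factorial_succ, pow_two] at h3
      have h4 : q + 1 ∣ q.factorial := Nat.dvd_of_mul_dvd_mul_left (by omega) h3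
      rw [← hq] at h4
      have h5 := (hp.dvd_factorial).1 h4
      omega
    obtain ⟨y, hy⟩ := conj_into_zpowers p hKcard (⟨g, hgK⟩ : K)
      ⟨(x : Perm α) * g * (x : Perm α)⁻¹, hg'K⟩
      (by rw [Subgroup.orderOf_mk]; exact hgo)
      (by rw [Subgroup.orderOf_mk, (hgc.conj).orderOf, Perm.card_support_conj, hgp])
    obtain ⟨i, hi⟩ := Subgroup.mem_zpowers_iff.1 hy
    have hi' : g ^ i = (y : Perm α) * ((x : Perm α) * g * (x : Perm α)⁻¹) * (y : Perm α)⁻¹ := by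
      have := congrArg Subtype.val hi
      simpa using this
    refine ⟨(y : Perm α) * (x : Perm α), G.mul_mem y.2.1 x.2, ⟨i, ?_⟩, ?_⟩
    · rw [hi']; group
    · intro z hz
      rw [Perm.mul_apply, hx' z hz]
      exact y.2.2 _ (hπ z hz)
  -- three points
  obtain ⟨a, ha, b, hb, c, hc, hab, hac, hbc⟩ := Finset.two_lt_card.1 (by rw [hΓc]; omega : 2 < Γ.card)
  have hswap : ∀ u v : α, u ∈ Γ → v ∈ Γ → ∀ z ∈ Γ, swap u v z ∈ Γ := by
    intro u v hu hv z hz
    by_cases h1 : z = u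
    · rw [h1, swap_apply_left]; exact hv
    · by_cases h2 : z = v
      · rw [h2, swap_apply_right]; exact hu
      · rw [swap_apply_of_ne_of_ne h1 h2]; exact hz
  obtain ⟨n₁, hn₁G, ⟨i₁, hi₁⟩, hn₁⟩ := witt (swap a b) (hswap a b ha hb)
  obtain ⟨n₂, hn₂G, ⟨i₂, hi₂⟩, hn₂⟩ := witt (swap a c) (hswap a c ha hc)
  have h12 : n₁ * n₂ * g * n₂⁻¹ * n₁⁻¹ = g ^ (i₁ * i₂) := by
    calc n₁ * n₂ * g * n₂⁻¹ * n₁⁻¹ = n₁ * (n₂ * g * n₂⁻¹) * n₁⁻¹ := by group
      _ = n₁ * g ^ i₂ * n₁⁻¹ := by rw [hi₂]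
      _ = (n₁ * g * n₁⁻¹) ^ i₂ := conj_zpow.symm
      _ = g ^ (i₁ * i₂) := by rw [hi₁, zpow_mul]
  have h21 : n₂ * n₁ * g * n₁⁻¹ * n₂⁻¹ = g ^ (i₁ * i₂) := by
    calc n₂ * n₁ * g * n₁⁻¹ * n₂⁻¹ = n₂ * (n₁ * g * n₁⁻¹) * n₂⁻¹ := by group
      _ = n₂ * g ^ i₁ * n₂⁻¹ := by rw [hi₁]
      _ = (n₂ * g * n₂⁻¹) ^ i₁ := conj_zpow.symm
      _ = g ^ (i₁ * i₂) := by rw [hi₂, mul_comm i₁ i₂, zpow_mul]
  obtain ⟨c₀, hc₀⟩ : ∃ c₀, c₀ = n₁⁻¹ * n₂⁻¹ * n₁ * n₂ := ⟨_, rfl⟩
  have hc₀G : c₀ ∈ G := by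
    rw [hc₀]
    exact G.mul_mem (G.mul_mem (G.mul_mem (G.inv_mem hn₁G) (G.inv_mem hn₂G)) hn₁G) hn₂G
  have hcomm : Commute c₀ g := by
    show c₀ * g = g * c₀
    calc c₀ * g = n₁⁻¹ * n₂⁻¹ * (n₁ * n₂ * g * n₂⁻¹ * n₁⁻¹) * (n₁ * n₂) := by rw [hc₀]; group
      _ = n₁⁻¹ * n₂⁻¹ * (n₂ * n₁ * g * n₁⁻¹ * n₂⁻¹) * (n₁ * n₂) := by rw [h12, h21]
      _ = g * c₀ := by rw [hc₀]; group
  obtain ⟨hc', i, hi⟩ := (hgc.commute_iff).1 hcomm
  have hi2 : ∀ z ∈ g.support, (g ^ i) z = c₀ z := by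
    intro z hz
    have h1 : (g ^ i) z = (Perm.ofSubtype (Perm.subtypePerm c₀ hc')) z := by
      have := congrArg (fun f : Perm α => f z) hi
      exact this
    rw [h1, Perm.ofSubtype_subtypePerm_of_mem hc' hz]
  have hinv : ∀ (x : Perm α) (π : Perm α), (∀ z ∈ Γ, π z ∈ Γ) → (∀ z, π (π z) = z) →
      (∀ z ∈ Γ, x z = π z) → ∀ z ∈ Γ, x⁻¹ z = π z := by
    intro x π hπ hπ2 hx z hz
    rw [Perm.inv_eq_iff_eq, hx _ (hπ z hz), hπ2]
  refine ⟨c₀ * (g ^ i)⁻¹, G.mul_mem hc₀G (G.inv_mem (G.zpow_mem hg i)), ?_⟩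
  have hd : c₀ * (g ^ i)⁻¹ = (swap a b * swap a c) * (swap a b * swap a c) := by
    ext z
    by_cases hz : z ∈ g.support
    · have hzΓ : z ∉ Γ := fun h => (hΓmem' z).1 h hz
      have hza : z ≠ a := fun h => hzΓ (h ▸ ha)
      have hzb : z ≠ b := fun h => hzΓ (h ▸ hb)
      have hzc : z ≠ c := fun h => hzΓ (h ▸ hc)
      have h1 : ((g ^ i)⁻¹ z) ∈ g.support := by
        rw [← zpow_neg]; exact Perm.zpow_apply_mem_support.2 hz
      have h7 : (g ^ i) ((g ^ i)⁻¹ z) = z := (g ^ i).apply_symm_apply z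
      rw [Perm.mul_apply, ← hi2 _ h1, h7]
      simp only [Perm.mul_apply]
      rw [swap_apply_of_ne_of_ne hza hzc, swap_apply_of_ne_of_ne hza hzb,
        swap_apply_of_ne_of_ne hza hzc, swap_apply_of_ne_of_ne hza hzb]
    · have hzΓ : z ∈ Γ := (hΓmem' z).2 hz
      have hgz : g z = z := (hΓmem z).1 hzΓ
      have h1 : (g ^ i)⁻¹ z = z := by
        rw [Perm.inv_eq_iff_eq, Perm.zpow_apply_eq_self_of_apply_eq_self hgz]
      rw [Perm.mul_apply, h1, hc₀]
      simp only [Perm.mul_apply]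
      have s1 := hswap a c ha hc z hzΓ
      have s2 := hswap a b ha hb _ s1
      have s3 := hswap a c ha hc _ s2
      rw [hn₂ z hzΓ, hn₁ _ s1,
        hinv n₂ (swap a c) (hswap a c ha hc) (fun z => swap_apply_self a c z) hn₂ _ s2,
        hinv n₁ (swap a b) (hswap a b ha hb) (fun z => swap_apply_self a b z) hn₁ _ s3]
  rw [hd]
  exact (Perm.isThreeCycle_swap_mul_swap_same hab hac hbc).isThreeCycle_sq

end Cfsg.Agent.Lib.Lead
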