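import Mathlib
import Cfsg.Agent.Lib.Helper6.CycSylow

set_option autoImplicit false

namespace Cfsg.Agent.Lib.Lead

section Klein
variable {G : Type*} [Group G] [Finite G]

/-- An involution is conjugate into any Sylow 2-subgroup. -/
theorem klein_conj_into (P : Sylow 2 G) (t : G) (ht : orderOf t = 2) :
    ∃ x ∈ (P : Subgroup G), IsConj t x := by
  haveI : Fact (Nat.Prime 2) := ⟨Nat.prime_two⟩
  have hpg : IsPGroup 2 (Subgroup.zpowers t) :=
    IsPGroup.of_card (n := 1) (by rw [Nat.card_zpowers, ht, pow_one])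
  obtain ⟨Q, hQ⟩ := hpg.exists_le_sylow
  obtain ⟨g, hg⟩ := MulAction.exists_smul_eq G Q P
  refine ⟨g * t * g⁻¹, ?_, isConj_iff.mpr ⟨g, rfl⟩⟩
  rw [← hg]
  have h1 : t ∈ (Q : Subgroup G) := hQ (Subgroup.mem_zpowers t)
  rw [Sylow.coe_subgroup_smul]
  have h2 := Subgroup.smul_mem_pointwise_smul t (MulAut.conj g) (Q : Subgroup G) h1
  simpa [MulAut.smul_def] using h2

theorem klein_elts (P : Subgroup G) (hP : IsKleinFour P) :
    ∃ a b : G, a ∈ P ∧ b ∈ P ∧ a ≠ 1 ∧ b ≠ 1 ∧ a ≠ b ∧ a * a = 1 ∧ b * b = 1 ∧ a * b = b * a ∧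
      (∀ u ∈ P, ∀ v ∈ P, u * v = v * u) ∧
      ∀ x ∈ P, x = 1 ∨ x = a ∨ x = b ∨ x = a * b := by
  classical
  haveI := hP
  haveI : Fintype P := Fintype.ofFinite P
  have hcard : Fintype.card P = 4 := by rw [← Nat.card_eq_fintype_card]; exact hP.card_four
  obtain ⟨x, hx⟩ : ∃ x : P, x ≠ 1 := by
    by_contra hcon
    push Not at hcon
    have : Fintype.card P ≤ 1 := Fintype.card_le_one_iff.mpr (fun u v => by rw [hcon u, hcon v])
    omega
  obtain ⟨y, hy1, hyx⟩ : ∃ y : P, y ≠ 1 ∧ y ≠ x := by
    by_contra hcon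
    push Not at hcon
    have hsub : (Finset.univ : Finset P) ⊆ {1, x} := by
      intro u _
      by_cases hu : u = 1
      · simp [hu]
      · simp [hcon u hu]
    have h1 := Finset.card_le_card hsub
    have h2 : ({1, x} : Finset P).card ≤ 2 := Finset.card_le_two
    rw [Finset.card_univ] at h1
    omega
  have huniv := IsKleinFour.eq_finset_univ hx hy1 (Ne.symm hyx)
  have hcomm : ∀ u v : P, u * v = v * u :=
    fun u v => (IsKleinFour.isMulCommutative (G := P)).is_comm.comm u v
  refine ⟨x, y, x.2, y.2, ?_, ?_, ?_, ?_, ?_, ?_, ?_, ?_⟩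
  · intro h; exact hx (Subtype.ext h)
  · intro h; exact hy1 (Subtype.ext h)
  · intro h; exact hyx (Subtype.ext h).symm
  · exact congrArg Subtype.val (IsKleinFour.mul_self x)
  · exact congrArg Subtype.val (IsKleinFour.mul_self y)
  · exact congrArg Subtype.val (hcomm x y)
  · intro u hu v hv
    exact congrArg Subtype.val (hcomm ⟨u, hu⟩ ⟨v, hv⟩)
  · intro z hz
    have hmem : (⟨z, hz⟩ : P) ∈ (Finset.univ : Finset P) := Finset.mem_univ _
    rw [← huniv] at hmem
    simp only [Finset.mem_insert, Finset.mem_singleton] at hmem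
    rcases hmem with h | h | h | h
    · right; right; right; exact congrArg Subtype.val h
    · right; left; exact congrArg Subtype.val h
    · right; right; left; exact congrArg Subtype.val h
    · left; exact congrArg Subtype.val h

/-- Fusion in a Klein four Sylow 2-subgroup: if two of the involutions are conjugate, all are. -/
theorem klein_fusion (P : Sylow 2 G)
    (hab : ∀ u ∈ (P : Subgroup G), ∀ v ∈ (P : Subgroup G), u * v = v * u)
    (x y z : G) (hx : x ∈ (P : Subgroup G)) (hy : y ∈ (P : Subgroup G)) (hxy : x ≠ y)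
    (hyy : y * y = 1) (hy1 : y ≠ 1) (hz : z = x * y)
    (hall : ∀ u ∈ (P : Subgroup G), u = 1 ∨ u = x ∨ u = y ∨ u = z)
    (hc : IsConj x y) : IsConj x z := by
  haveI : Fact (Nat.Prime 2) := ⟨Nat.prime_two⟩
  haveI : IsMulCommutative (P : Subgroup G) := ⟨⟨fun u v => Subtype.ext (hab u u.2 v v.2)⟩⟩
  obtain ⟨g, hg⟩ := isConj_iff.mp hc
  have hy' : g⁻¹⁻¹ * x * g⁻¹ ∈ (P : Subgroup G) := by rw [inv_inv, hg]; exact hy
  obtain ⟨n, hn, hnx⟩ := P.conj_eq_normalizer_conj_of_mem x g⁻¹ hx hy'
  rw [inv_inv, hg] at hnx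
  have hzP : n⁻¹ * z * n ∈ (P : Subgroup G) := by
    have h1 := (Subgroup.mem_normalizer_iff.mp (Subgroup.inv_mem _ hn) z).mp
      (by rw [hz]; exact Subgroup.mul_mem _ hx hy)
    simpa using h1
  have hconjz : n⁻¹ * z * n = y * (n⁻¹ * y * n) := by
    rw [hz, hnx]; group
  rcases hall _ hzP with h | h | h | h
  · exfalso
    have h1 : z = 1 := by
      have h2 := congrArg (fun u => n * u * n⁻¹) h
      simpa [mul_assoc] using h2
    apply hxy
    calc x = x * (y * y) := by rw [hyy, mul_one]
      _ = (x * y) * y := by rw [mul_assoc]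
      _ = y := by rw [← hz, h1, one_mul]
  · exact (isConj_iff.mpr ⟨n⁻¹, by rw [inv_inv]; exact h⟩).symm
  · exfalso
    rw [hconjz] at h
    have h1 : n⁻¹ * y * n = 1 := by
      have h2 : y * (n⁻¹ * y * n) = y * 1 := by rw [mul_one]; exact h
      exact mul_left_cancel h2
    apply hy1
    have h2 := congrArg (fun u => n * u * n⁻¹) h1
    simpa [mul_assoc] using h2
  · exfalso
    rw [hconjz, hz] at h
    have hny : n⁻¹ * y * n = x := by
      have h2 : y * (n⁻¹ * y * n) = y * x := by rw [h]; exact hab x hx y hy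
      exact mul_left_cancel h2
    have hc2 : Commute (n ^ 2) x := by
      have h1 : n⁻¹ * (n⁻¹ * x * n) * n = x := by rw [← hnx]; exact hny
      have h2 : x * (n * n) = (n * n) * x := by
        calc x * (n * n) = (n * n) * (n⁻¹ * (n⁻¹ * x * n) * n) := by group
          _ = (n * n) * x := by rw [h1]
      show n ^ 2 * x = x * n ^ 2
      rw [sq]; exact h2.symm
    have hn0 : orderOf n ≠ 0 := (orderOf_pos n).ne'
    obtain ⟨k, m, hm, hkm⟩ := Nat.exists_eq_two_pow_mul_odd hn0
    obtain ⟨j, hj⟩ := hm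
    have hord : orderOf (n ^ m) = 2 ^ k := by
      have hm0 : m ≠ 0 := by omega
      rw [orderOf_pow' n hm0, hkm, Nat.gcd_eq_right (Dvd.intro_left _ rfl)]
      exact Nat.mul_div_cancel _ (Nat.pos_of_ne_zero hm0)
    have hmem : n ^ m ∈ (P : Subgroup G) :=
      Cfsg.Agent.Lib.Helper6.mem_sylow_of_mem_normalizer P hord (Subgroup.pow_mem _ hn m)
    have hcm := hab _ hmem x hx
    have hnm : n ^ m = (n ^ 2) ^ j * n := by rw [hj, pow_succ, pow_mul]
    rw [hnm] at hcm
    have h3 : (n ^ 2) ^ j * (n * x) = (n ^ 2) ^ j * (x * n) := by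
      calc (n ^ 2) ^ j * (n * x) = (n ^ 2) ^ j * n * x := by rw [mul_assoc]
        _ = x * ((n ^ 2) ^ j * n) := hcm
        _ = (x * (n ^ 2) ^ j) * n := by rw [mul_assoc]
        _ = ((n ^ 2) ^ j * x) * n := by rw [(hc2.pow_left j).eq]
        _ = (n ^ 2) ^ j * (x * n) := by rw [mul_assoc]
    have h4 : n * x = x * n := mul_left_cancel h3
    apply hxy
    rw [hnx, mul_assoc, ← h4, inv_mul_cancel_left]

omit [Finite G] in
theorem klein_orderOf_two (a : G) (ha : a ≠ 1) (haa : a * a = 1) : orderOf a = 2 := by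
  haveI : Fact (Nat.Prime 2) := ⟨Nat.prime_two⟩
  exact orderOf_eq_prime (by rw [sq]; exact haa) ha

/-- Counting involution classes with Klein four Sylow 2-subgroups. -/
theorem klein_count (P : Sylow 2 G) (a b : G) (ha : a ∈ (P : Subgroup G))
    (hb : b ∈ (P : Subgroup G)) (ha1 : a ≠ 1) (hb1 : b ≠ 1) (hne : a ≠ b) (haa : a * a = 1)
    (hbb : b * b = 1) (hcomm : ∀ u ∈ (P : Subgroup G), ∀ v ∈ (P : Subgroup G), u * v = v * u)
    (hall : ∀ x ∈ (P : Subgroup G), x = 1 ∨ x = a ∨ x = b ∨ x = a * b) :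
    ((¬ IsConj a b ∧ ¬ IsConj a (a * b) ∧ ¬ IsConj b (a * b)) →
      Nat.card {C : ConjClasses G // ∃ t : G, orderOf t = 2 ∧ ConjClasses.mk t = C} = 3) ∧
    ((IsConj a b ∨ IsConj a (a * b) ∨ IsConj b (a * b)) →
      Nat.card {C : ConjClasses G // ∃ t : G, orderOf t = 2 ∧ ConjClasses.mk t = C} = 1) := by
  classical
  have hab : a * b = b * a := hcomm a ha b hb
  have hc1 : a * b ≠ 1 := by
    intro h
    apply hne
    calc a = a * (b * b) := by rw [hbb, mul_one]
      _ = (a * b) * b := by rw [mul_assoc]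
      _ = b := by rw [h, one_mul]
  have hcc : (a * b) * (a * b) = 1 := by
    calc (a * b) * (a * b) = (a * b) * (b * a) := by rw [← hab]
      _ = a * (b * b) * a := by group
      _ = 1 := by rw [hbb, mul_one, haa]
  have hoa := klein_orderOf_two a ha1 haa
  have hob := klein_orderOf_two b hb1 hbb
  have hoc := klein_orderOf_two (a * b) hc1 hcc
  have hcP : a * b ∈ (P : Subgroup G) := Subgroup.mul_mem _ ha hb
  have haab : a * (a * b) = b := by rw [← mul_assoc, haa, one_mul]
  have hbab : b * (a * b) = a := by rw [hab, ← mul_assoc, hbb, one_mul]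
  have hacne : a ≠ a * b := by
    intro h
    apply hb1
    have h2 : a * 1 = a * b := by rw [mul_one]; exact h
    exact (mul_left_cancel h2).symm
  have hbcne : b ≠ a * b := by
    intro h
    apply ha1
    have h2 : 1 * b = a * b := by rw [one_mul]; exact h
    exact (mul_right_cancel h2).symm
  -- the three classes
  let cA : {C : ConjClasses G // ∃ t : G, orderOf t = 2 ∧ ConjClasses.mk t = C} :=
    ⟨ConjClasses.mk a, a, hoa, rfl⟩
  let cB : {C : ConjClasses G // ∃ t : G, orderOf t = 2 ∧ ConjClasses.mk t = C} :=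
    ⟨ConjClasses.mk b, b, hob, rfl⟩
  let cC : {C : ConjClasses G // ∃ t : G, orderOf t = 2 ∧ ConjClasses.mk t = C} :=
    ⟨ConjClasses.mk (a * b), a * b, hoc, rfl⟩
  have hT : ∀ C : {C : ConjClasses G // ∃ t : G, orderOf t = 2 ∧ ConjClasses.mk t = C},
      C = cA ∨ C = cB ∨ C = cC := by
    rintro ⟨C, t, ht, rfl⟩
    obtain ⟨x, hx, hcx⟩ := klein_conj_into P t ht
    have hmk : ConjClasses.mk t = ConjClasses.mk x := ConjClasses.mk_eq_mk_iff_isConj.mpr hcx
    rcases hall x hx with h | h | h | h
    · exfalso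
      rw [h] at hcx
      have h1 : t = 1 := isConj_one_left.mp hcx
      rw [h1, orderOf_one] at ht
      omega
    · left; exact Subtype.ext (by show ConjClasses.mk t = ConjClasses.mk a; rw [hmk, h])
    · right; left; exact Subtype.ext (by show ConjClasses.mk t = ConjClasses.mk b; rw [hmk, h])
    · right; right
      exact Subtype.ext (by show ConjClasses.mk t = ConjClasses.mk (a * b); rw [hmk, h])
  have hAB : cA = cB ↔ IsConj a b := by
    constructor
    · intro h; exact ConjClasses.mk_eq_mk_iff_isConj.mp (congrArg Subtype.val h)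
    · intro h; exact Subtype.ext (ConjClasses.mk_eq_mk_iff_isConj.mpr h)
  have hAC : cA = cC ↔ IsConj a (a * b) := by
    constructor
    · intro h; exact ConjClasses.mk_eq_mk_iff_isConj.mp (congrArg Subtype.val h)
    · intro h; exact Subtype.ext (ConjClasses.mk_eq_mk_iff_isConj.mpr h)
  have hBC : cB = cC ↔ IsConj b (a * b) := by
    constructor
    · intro h; exact ConjClasses.mk_eq_mk_iff_isConj.mp (congrArg Subtype.val h)
    · intro h; exact Subtype.ext (ConjClasses.mk_eq_mk_iff_isConj.mpr h)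
  haveI : Fintype {C : ConjClasses G // ∃ t : G, orderOf t = 2 ∧ ConjClasses.mk t = C} :=
    Fintype.ofFinite _
  constructor
  · rintro ⟨h1, h2, h3⟩
    rw [Nat.card_eq_fintype_card, ← Finset.card_univ, Finset.card_eq_three]
    refine ⟨cA, cB, cC, fun h => h1 (hAB.mp h), fun h => h2 (hAC.mp h), fun h => h3 (hBC.mp h), ?_⟩
    ext C
    simp only [Finset.mem_univ, Finset.mem_insert, Finset.mem_singleton, true_iff]
    exact hT C
  · intro h
    have f1 : IsConj a b → IsConj a (a * b) := fun hc =>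
      klein_fusion P hcomm a b (a * b) ha hb hne hbb hb1 rfl hall hc
    have f2 : IsConj a (a * b) → IsConj a b := fun hc =>
      klein_fusion P hcomm a (a * b) b ha hcP hacne hcc hc1 haab.symm
        (fun u hu => by
          rcases hall u hu with h | h | h | h
          · left; exact h
          · right; left; exact h
          · right; right; right; exact h
          · right; right; left; exact h) hc
    have f3 : IsConj b (a * b) → IsConj b a := fun hc =>
      klein_fusion P hcomm b (a * b) a hb hcP hbcne hcc hc1 hbab.symm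
        (fun u hu => by
          rcases hall u hu with h | h | h | h
          · left; exact h
          · right; right; right; exact h
          · right; left; exact h
          · right; right; left; exact h) hc
    have hall3 : IsConj a b ∧ IsConj a (a * b) := by
      rcases h with h | h | h
      · exact ⟨h, f1 h⟩
      · exact ⟨f2 h, h⟩
      · have h5 : IsConj a b := (f3 h).symm
        exact ⟨h5, f1 h5⟩
    have e1 : cA = cB := hAB.mpr hall3.1
    have e2 : cA = cC := hAC.mpr hall3.2
    rw [Nat.card_eq_one_iff_unique]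
    refine ⟨⟨fun C D => ?_⟩, ⟨cA⟩⟩
    have hC : C = cA := by
      rcases hT C with h | h | h
      · exact h
      · rw [h, e1]
      · rw [h, e2]
    have hD : D = cA := by
      rcases hT D with h | h | h
      · exact h
      · rw [h, e1]
      · rw [h, e2]
    rw [hC, hD]

end Klein

end Cfsg.Agent.Lib.Lead
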