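import Mathlib
import Cfsg.Agent.Lib.Helper9.LeechIdx

namespace Cfsg.Agent.Lib.Lead

open Cfsg.Agent.Lib.Helper9.LeechIdx

/-- differences to the coordinate at the extra point, modulo 4 -/
def leechPhi : (Cfsg.GolayPt → ℤ) →+ (ZMod 23 → ZMod 4) where
  toFun v := fun j => ((v (some j) - v none : ℤ) : ZMod 4)
  map_zero' := by funext j; simp
  map_add' v w := by funext j; simp only [Pi.add_apply]; push_cast; ring

theorem leechPhi_surj : Function.Surjective leechPhi := by
  intro w
  refine ⟨fun p => match p with | none => 0 | some j => ((w j).val : ℤ), ?_⟩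
  funext j
  show ((((w j).val : ℤ) - 0 : ℤ) : ZMod 4) = w j
  simp

theorem index_ker_leechPhi : leechPhi.ker.index = 4 ^ 23 := by
  rw [AddSubgroup.index_ker, AddMonoidHom.range_eq_top_of_surjective _ leechPhi_surj,
    AddSubgroup.card_top, Nat.card_eq_fintype_card, Fintype.card_fun]
  simp [ZMod.card]

/-- parity of the coordinate at the extra point, and the sum of the differences modulo 8 -/
def leechPsi : (Cfsg.GolayPt → ℤ) →+ ZMod 2 × ZMod 8 where
  toFun v := ((v none : ZMod 2), ((∑ i, (v i - v none) : ℤ) : ZMod 8))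
  map_zero' := by simp
  map_add' v w := by
    ext
    · simp
    · simp only [Pi.add_apply, Prod.snd_add]
      rw [← Int.cast_add, ← Finset.sum_add_distrib]
      congr 1
      apply Finset.sum_congr rfl
      intro i _
      ring

theorem mem_ker_leechPhi (v : Cfsg.GolayPt → ℤ) :
    v ∈ leechPhi.ker ↔ ∀ j : ZMod 23, (4 : ℤ) ∣ v (some j) - v none := by
  rw [AddMonoidHom.mem_ker]
  constructor
  · intro h j
    have := congrFun h j
    exact (ZMod.intCast_zmod_eq_zero_iff_dvd _ 4).mp this
  · intro h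
    funext j
    exact (ZMod.intCast_zmod_eq_zero_iff_dvd _ 4).mpr (h j)

theorem mem_ker_leechPsi (v : Cfsg.GolayPt → ℤ) :
    v ∈ leechPsi.ker ↔ (2 : ℤ) ∣ v none ∧ (8 : ℤ) ∣ ∑ i, (v i - v none) := by
  rw [AddMonoidHom.mem_ker]
  constructor
  · intro h
    exact ⟨(ZMod.intCast_zmod_eq_zero_iff_dvd _ 2).mp (congrArg Prod.fst h),
      (ZMod.intCast_zmod_eq_zero_iff_dvd _ 8).mp (congrArg Prod.snd h)⟩
  · rintro ⟨h1, h2⟩
    exact Prod.ext ((ZMod.intCast_zmod_eq_zero_iff_dvd _ 2).mpr h1)
      ((ZMod.intCast_zmod_eq_zero_iff_dvd _ 8).mpr h2)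

theorem sum_sub_none (v : Cfsg.GolayPt → ℤ) :
    ∑ i, (v i - v none) = ∑ i, v i - 24 * v none := by
  rw [Finset.sum_sub_distrib, Finset.sum_const, Finset.card_univ]
  have : Fintype.card Cfsg.GolayPt = 24 := rfl
  rw [this]
  simp

theorem A_eq_inf : A = leechPhi.ker ⊓ leechPsi.ker := by
  ext v
  rw [AddSubgroup.mem_inf, mem_ker_leechPhi, mem_ker_leechPsi, sum_sub_none, mem_A]
  constructor
  · rintro ⟨m, h1, h2⟩
    refine ⟨fun j => ?_, ?_, ?_⟩
    · have := h1 (some j)
      have := h1 none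
      omega
    · have := h1 none
      omega
    · omega
  · rintro ⟨h1, h2, h3⟩
    refine ⟨v none / 2, fun i => ?_, ?_⟩
    · have e : 2 * (v none / 2) = v none := by omega
      rw [e]
      cases i with
      | none => rfl
      | some j =>
        have := h1 j
        omega
    · omega

theorem map_leechPsi :
    ((leechPhi.ker.map leechPsi : AddSubgroup (ZMod 2 × ZMod 8)) : Set (ZMod 2 × ZMod 8)) =
      ↑(Finset.univ.filter (fun p : ZMod 2 × ZMod 8 => p.2 = 0 ∨ p.2 = 4)) := by
  ext p
  simp only [AddSubgroup.coe_map, Set.mem_image, SetLike.mem_coe, Finset.coe_filter,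
    Finset.mem_univ, true_and, Set.mem_setOf_eq]
  constructor
  · rintro ⟨v, hv, rfl⟩
    rw [mem_ker_leechPhi] at hv
    have h4 : (4 : ℤ) ∣ ∑ i, (v i - v none) := by
      apply Finset.dvd_sum
      intro i _
      cases i with
      | none => simp
      | some j => exact hv j
    show ((∑ i, (v i - v none) : ℤ) : ZMod 8) = 0 ∨ ((∑ i, (v i - v none) : ℤ) : ZMod 8) = 4
    obtain ⟨k, hk⟩ := h4
    rw [hk]
    rcases Int.emod_two_eq_zero_or_one k with h | h
    · left
      rw [ZMod.intCast_zmod_eq_zero_iff_dvd]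
      exact ⟨k / 2, by push_cast; omega⟩
    · right
      have : (4 : ZMod 8) = ((4 : ℤ) : ZMod 8) := by norm_num
      rw [this, ZMod.intCast_eq_intCast_iff_dvd_sub]
      exact ⟨-(k / 2), by push_cast; omega⟩
  · intro hp
    obtain ⟨a, c⟩ := p
    simp only at hp
    refine ⟨fun i => match i with | none => (a.val : ℤ) | some j => (a.val : ℤ) +
      (if j = 0 then (c.val : ℤ) else 0), ?_, ?_⟩
    · rw [mem_ker_leechPhi]
      intro j
      show (4 : ℤ) ∣ (a.val : ℤ) + (if j = 0 then (c.val : ℤ) else 0) - (a.val : ℤ)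
      split_ifs
      · rcases hp with rfl | rfl
        · simp
        · exact ⟨1, by simp; rfl⟩
      · simp
    · apply Prod.ext
      · show (((a.val : ℤ) : ℤ) : ZMod 2) = a
        simp
      · show ((∑ i : Cfsg.GolayPt, ((match i with | none => (a.val : ℤ) | some j => (a.val : ℤ) +
          (if j = 0 then (c.val : ℤ) else 0)) - (a.val : ℤ)) : ℤ) : ZMod 8) = c
        rw [Fintype.sum_option]
        simp

theorem relIndex_A_ker : A.relIndex leechPhi.ker = 4 := by
  rw [A_eq_inf, inf_comm, AddSubgroup.inf_relIndex_right, AddSubgroup.relIndex_ker]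
  have h : Nat.card ↥(AddSubgroup.map leechPsi leechPhi.ker) =
      Set.ncard ((leechPhi.ker.map leechPsi : AddSubgroup (ZMod 2 × ZMod 8)) :
        Set (ZMod 2 × ZMod 8)) := rfl
  rw [h, map_leechPsi, Set.ncard_coe_finset]
  decide

theorem index_A_top : A.index = 2 ^ 48 := by
  have hle : A ≤ leechPhi.ker := by rw [A_eq_inf]; exact inf_le_left
  rw [← AddSubgroup.relIndex_mul_index hle, relIndex_A_ker, index_ker_leechPhi]
  norm_num

theorem leech_index_eq : Cfsg.leechLattice.index = 2 ^ 36 := by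
  have h1 := AddSubgroup.relIndex_mul_index A_le
  have h2 : A.relIndex Cfsg.leechLattice = 2 ^ 12 := index_A
  rw [h2, index_A_top] at h1
  have h3 : (2 : ℕ) ^ 48 = 2 ^ 12 * 2 ^ 36 := by norm_num
  rw [h3] at h1
  exact Nat.eq_of_mul_eq_mul_left (by norm_num) h1

end Cfsg.Agent.Lib.Lead
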