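import Mathlib

set_option autoImplicit false

namespace Cfsg.Agent.Lib.Lead

/-- transfer of a hom evaluated at an element all of whose power-conjugates are controlled -/
theorem transfer_of_invariant_elt {G : Type*} [Group G] (H : Subgroup G) [H.FiniteIndex]
    {A : Type*} [CommGroup A] (ϕ : H →* A) (x : H)
    (hinv : ∀ (g : G) (k : ℕ) (h : g⁻¹ * (x : G) ^ k * g ∈ H), ϕ ⟨g⁻¹ * (x : G) ^ k * g, h⟩ = ϕ x ^ k) :
    MonoidHom.transfer ϕ (x : G) = ϕ x ^ H.index := by
  classical
  haveI : Fintype (G ⧸ H) := H.fintypeQuotientOfFiniteIndex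
  haveI : Fintype (Quotient (MulAction.orbitRel (Subgroup.zpowers (x : G)) (G ⧸ H))) :=
    Fintype.ofFinite _
  rw [MonoidHom.transfer_eq_prod_quotient_orbitRel_zpowers_quot,
    Subgroup.index_eq_sum_minimalPeriod H (x : G), ← Finset.prod_pow_eq_pow_sum]
  refine Finset.prod_congr rfl (fun q _ => ?_)
  exact hinv q.out.out (Function.minimalPeriod ((x : G) • ·) q.out)
    (QuotientGroup.out_conj_pow_minimalPeriod_mem H (x : G) q.out)

end Cfsg.Agent.Lib.Lead
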