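import Mathlib
import Cfsg.Prelude.Def_OddOrderLocal
import Cfsg.Prelude.Def_PLocal
import Cfsg.Agent.Lib.Lead.NormalEA
import Cfsg.Agent.Lib.Lead.Coprime

namespace Cfsg.Agent.Lib.Lead

universe u

/-- in a group of order `p ^ 3`, commutators are central -/
theorem comm_central_of_card_cube {H : Type*} [Group H] [Finite H] {p : ℕ} [Fact p.Prime]
    (hcard : Nat.card H = p ^ 3) (a b : H) : (a * b)⁻¹ * (b * a) ∈ Subgroup.center H := by
  have hp : p.Prime := Fact.out
  have hH : IsPGroup p H := IsPGroup.of_card hcard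
  haveI : Nontrivial H := by
    rw [← Finite.one_lt_card_iff_nontrivial, hcard]
    exact Nat.one_lt_pow (by norm_num) hp.one_lt
  haveI := hH.center_nontrivial
  obtain ⟨k, hk⟩ := IsPGroup.iff_card.1 (hH.to_subgroup (Subgroup.center H))
  have hk1 : 1 ≤ k := by
    by_contra h
    have hk0 : k = 0 := by omega
    rw [hk0, pow_zero] at hk
    have := Finite.one_lt_card (α := Subgroup.center H)
    omega
  have hq : Nat.card (H ⧸ Subgroup.center H) * p ^ k = p ^ 3 := by
    rw [← hk, ← hcard]; exact (Subgroup.card_eq_card_quotient_mul_card_subgroup _).symm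
  have hk3 : k ≤ 3 := by
    by_contra h
    push Not at h
    have h0 : p ^ 3 < p ^ k := Nat.pow_lt_pow_right hp.one_lt h
    have h1 : p ^ k ≤ p ^ 3 := by rw [← hq]; exact Nat.le_mul_of_pos_left _ Nat.card_pos
    omega
  have hqc : Nat.card (H ⧸ Subgroup.center H) = p ^ (3 - k) := by
    have h2 : p ^ (3 - k) * p ^ k = p ^ 3 := by rw [← pow_add]; congr 1; omega
    rw [← h2] at hq
    exact Nat.eq_of_mul_eq_mul_right (pow_pos hp.pos k) hq
  have hcommQ : ∀ x y : H ⧸ Subgroup.center H, x * y = y * x := by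
    interval_cases k
    · exact IsPGroup.commutative_of_card_eq_prime_sq hqc
    · haveI : IsCyclic (H ⧸ Subgroup.center H) :=
        isCyclic_of_prime_card (p := p) (by simpa using hqc)
      intro x y
      exact (IsCyclic.commGroup (α := H ⧸ Subgroup.center H)).mul_comm x y
    · haveI : Subsingleton (H ⧸ Subgroup.center H) := by
        rw [← Finite.card_le_one_iff_subsingleton]
        simpa using hqc.le
      intro x y
      exact Subsingleton.elim _ _
  have h3 := hcommQ (QuotientGroup.mk a) (QuotientGroup.mk b)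
  have h4 : (QuotientGroup.mk (a * b) : H ⧸ Subgroup.center H) = QuotientGroup.mk (b * a) := h3
  exact QuotientGroup.eq.1 h4

theorem pow_p_eq_one_of_sup {R : Type*} [Group R] [Finite R] {p : ℕ} [Fact p.Prime] (hp2 : p ≠ 2)
    (E : Subgroup R) [hEn : E.Normal] (hEexp : ∀ e ∈ E, e ^ p = 1) (x : R) (hx : x ^ p = 1)
    (hcard : Nat.card ↥(E ⊔ Subgroup.zpowers x) = p ^ 3) :
    ∀ y ∈ E ⊔ Subgroup.zpowers x, y ^ p = 1 := by
  have hp : p.Prime := Fact.out
  intro y hy
  have hN : Subgroup.zpowers x ≤ Subgroup.normalizer (E : Set R) := by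
    rw [Subgroup.normalizer_eq_top]; exact le_top
  obtain ⟨e, he, h, hh, rfl⟩ := mem_sup_of_le_normalizer hN hy
  have hhp : h ^ p = 1 := by
    obtain ⟨i, hi⟩ := hh
    have hi' : x ^ i = h := hi
    rw [← hi', ← zpow_natCast, ← zpow_mul, mul_comm, zpow_mul, zpow_natCast, hx, one_zpow]
  have hcE : (e * h)⁻¹ * (h * e) ∈ E := by
    have h1 : h⁻¹ * e⁻¹ * h⁻¹⁻¹ ∈ E := hEn.conj_mem _ (E.inv_mem he) h⁻¹
    rw [inv_inv] at h1
    have e1 : (e * h)⁻¹ * (h * e) = (h⁻¹ * e⁻¹ * h) * e := by group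
    rw [e1]; exact E.mul_mem h1 he
  have hcp : ((e * h)⁻¹ * (h * e)) ^ p = 1 := hEexp _ hcE
  have heH : e ∈ E ⊔ Subgroup.zpowers x := (le_sup_left : E ≤ _) he
  have hhH : h ∈ E ⊔ Subgroup.zpowers x := (le_sup_right : Subgroup.zpowers x ≤ _) hh
  have hcen := comm_central_of_card_cube hcard (⟨e, heH⟩ : ↥(E ⊔ Subgroup.zpowers x)) ⟨h, hhH⟩
  have hce : Commute ((e * h)⁻¹ * (h * e)) e := by
    have h1 := Subgroup.mem_center_iff.1 hcen ⟨e, heH⟩
    exact (congrArg Subtype.val h1).symm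
  have hch : Commute ((e * h)⁻¹ * (h * e)) h := by
    have h1 := Subgroup.mem_center_iff.1 hcen ⟨h, hhH⟩
    exact (congrArg Subtype.val h1).symm
  have hform := Helper6.mul_pow_of_central_comm e h ((e * h)⁻¹ * (h * e)) (by group) hce hch p
  rw [hform, hEexp e he, hhp, one_mul, one_mul]
  have hdvd : p ∣ p.choose 2 :=
    hp.dvd_choose_self (by norm_num) (lt_of_le_of_ne hp.two_le (Ne.symm hp2))
  obtain ⟨t, ht⟩ := hdvd
  rw [ht, pow_mul, hcp, one_pow]

/-- for odd `p`, in a non-cyclic metacyclic `p`-group the elements of order dividing `p` form an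
elementary abelian subgroup of order `p ^ 2` -/
theorem metacyclic_omega {R : Type u} [Group R] [Finite R] {p : ℕ} [Fact p.Prime] (hp2 : p ≠ 2)
    (hR : IsPGroup p R) (hm : Cfsg.IsMetacyclic R) (hnc : ¬ IsCyclic R) :
    ∃ E : Subgroup R, Cfsg.IsElementaryAbelian p E ∧ Nat.card E = p ^ 2 ∧
      ∀ x : R, x ^ p = 1 ↔ x ∈ E := by
  have hp : p.Prime := Fact.out
  obtain ⟨E, hEn, hEe, hEc⟩ := exists_normal_elemAb_sq p hp2 _ R rfl hR hnc
  haveI := hEn
  refine ⟨E, hEe, hEc, fun x => ⟨fun hx => ?_, fun hx => hEe.2 x hx⟩⟩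
  by_contra hxE
  have hx1 : x ≠ 1 := fun h => hxE (h ▸ E.one_mem)
  have hxo : orderOf x = p := orderOf_eq_prime hx hx1
  have hdisj : E ⊓ Subgroup.zpowers x = ⊥ := by
    by_contra hne
    have h1 : Nat.card ↥(E ⊓ Subgroup.zpowers x) ∣ p := by
      have := Subgroup.card_dvd_of_le (inf_le_right : E ⊓ Subgroup.zpowers x ≤ _)
      rwa [Nat.card_zpowers, hxo] at this
    have h2 : Nat.card ↥(E ⊓ Subgroup.zpowers x) ≠ 1 :=
      fun h => hne (Subgroup.eq_bot_of_card_eq _ h)
    have h3 := ((Nat.dvd_prime hp).1 h1).resolve_left h2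
    have h4 : E ⊓ Subgroup.zpowers x = Subgroup.zpowers x :=
      Subgroup.eq_of_le_of_card_ge inf_le_right (by rw [h3, Nat.card_zpowers, hxo])
    have h5 : x ∈ E ⊓ Subgroup.zpowers x := by rw [h4]; exact Subgroup.mem_zpowers x
    exact hxE h5.1
  have hN : Subgroup.zpowers x ≤ Subgroup.normalizer (E : Set R) := by
    rw [Subgroup.normalizer_eq_top]; exact le_top
  have hcard : Nat.card ↥(E ⊔ Subgroup.zpowers x) = p ^ 3 := by
    rw [card_sup_of_le_normalizer hN hdisj, hEc, Nat.card_zpowers, hxo]; ring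
  have hexp := pow_p_eq_one_of_sup hp2 E hEe.2 x hx hcard
  obtain ⟨N, hNn, hNc, hQc⟩ := hm
  haveI := hNn
  haveI := hNc
  haveI := hQc
  let f : ↥(E ⊔ Subgroup.zpowers x) →* R ⧸ N :=
    (QuotientGroup.mk' N).comp (E ⊔ Subgroup.zpowers x).subtype
  have hker : Nat.card f.ker ≤ p := by
    haveI : IsCyclic f.ker := by
      let j : f.ker →* N :=
        { toFun := fun y => ⟨((y : ↥(E ⊔ Subgroup.zpowers x)) : R),
            (QuotientGroup.eq_one_iff _).1 y.2⟩
          map_one' := rfl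
          map_mul' := fun _ _ => rfl }
      refine isCyclic_of_injective j (fun a b hab => Subtype.ext (Subtype.ext ?_))
      have h8 : ((j a : N) : R) = ((j b : N) : R) := congrArg Subtype.val hab
      exact h8
    obtain ⟨g, hg⟩ := IsCyclic.exists_generator (α := f.ker)
    have hgp : g ^ p = 1 := Subtype.ext (Subtype.ext (hexp _ (g : ↥(E ⊔ Subgroup.zpowers x)).2))
    rw [← orderOf_eq_card_of_forall_mem_zpowers hg]
    exact Nat.le_of_dvd hp.pos (orderOf_dvd_of_pow_eq_one hgp)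
  have hrange : Nat.card f.range ≤ p := by
    haveI : IsCyclic f.range := Subgroup.isCyclic _
    obtain ⟨g, hg⟩ := IsCyclic.exists_generator (α := f.range)
    have hgp : g ^ p = 1 := by
      obtain ⟨y, hy⟩ := g.2
      apply Subtype.ext
      show (g : R ⧸ N) ^ p = 1
      rw [← hy, ← map_pow]
      have h1 : y ^ p = 1 := Subtype.ext (hexp _ y.2)
      rw [h1, map_one]
    rw [← orderOf_eq_card_of_forall_mem_zpowers hg]
    exact Nat.le_of_dvd hp.pos (orderOf_dvd_of_pow_eq_one hgp)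
  have hmul := Subgroup.card_mul_index f.ker
  rw [Subgroup.index_ker, hcard] at hmul
  have h6 : p ^ 3 ≤ p * p := by rw [← hmul]; exact Nat.mul_le_mul hker hrange
  have hp2' := hp.two_le
  have h7 : p ^ 3 = p * p * p := by ring
  nlinarith [Nat.mul_pos hp.pos hp.pos]

theorem metacyclic_omegaOne {R : Type u} [Group R] [Finite R] {p : ℕ} [Fact p.Prime] (hp2 : p ≠ 2)
    (hR : IsPGroup p R) (hm : Cfsg.IsMetacyclic R) (hnc : ¬ IsCyclic R) :
    Cfsg.IsElementaryAbelian p (Cfsg.omegaOne p (⊤ : Subgroup R)) ∧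
      Nat.card ↥(Cfsg.omegaOne p (⊤ : Subgroup R)) = p ^ 2 := by
  obtain ⟨E, hEe, hEc, hE⟩ := metacyclic_omega hp2 hR hm hnc
  have h1 : Cfsg.omegaOne p (⊤ : Subgroup R) = E := by
    unfold Cfsg.omegaOne
    apply le_antisymm
    · rw [Subgroup.closure_le]; intro x hx; exact (hE x).1 hx.2
    · intro x hx; exact Subgroup.subset_closure ⟨Subgroup.mem_top x, (hE x).2 hx⟩
  rw [h1]; exact ⟨hEe, hEc⟩

theorem cyclic_index_p_omega {R : Type u} [Group R] [Finite R] {p : ℕ} [Fact p.Prime] (hp2 : p ≠ 2)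
    (hR : IsPGroup p R) (hnc : ¬ IsCyclic R) (C : Subgroup R) (hC : IsCyclic C)
    (hCi : C.index = p) :
    Cfsg.IsElementaryAbelian p (Subgroup.closure {x : R | x ^ p = 1}) ∧
      Nat.card (Subgroup.closure {x : R | x ^ p = 1}) = p ^ 2 := by
  have hp : p.Prime := Fact.out
  haveI hCn : C.Normal := by
    apply Subgroup.normal_of_index_eq_minFac_card
    rw [hCi]
    obtain ⟨k, hk⟩ := IsPGroup.iff_card.1 hR
    have hk0 : k ≠ 0 := by
      rintro rfl
      rw [pow_zero] at hk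
      haveI : Subsingleton R := (Nat.card_eq_one_iff_unique.1 hk).1
      exact hnc inferInstance
    rw [hk, Nat.pow_minFac hk0, Nat.Prime.minFac_eq hp]
  have hm : Cfsg.IsMetacyclic R :=
    ⟨C, hCn, hC, isCyclic_of_prime_card (p := p) (by show Nat.card (R ⧸ C) = p; exact hCi)⟩
  obtain ⟨E, hEe, hEc, hE⟩ := metacyclic_omega hp2 hR hm hnc
  have h1 : Subgroup.closure {x : R | x ^ p = 1} = E := by
    apply le_antisymm
    · rw [Subgroup.closure_le]; intro x hx; exact (hE x).1 hx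
    · intro x hx; exact Subgroup.subset_closure ((hE x).2 hx)
  rw [h1]; exact ⟨hEe, hEc⟩

end Cfsg.Agent.Lib.Lead
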