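import Mathlib
import Cfsg.Agent.Lib.Lead.NormalEA

namespace Cfsg.Agent.Lib.Lead

universe u

theorem exists_exp_p_of_quot_le {R : Type u} [Group R] [Finite R] {p : ℕ} [Fact p.Prime]
    (hp2 : p ≠ 2) (Z : Subgroup R) [Z.Normal] (hZc : Z ≤ Subgroup.center R)
    (hZcard : Nat.card Z = p) (Ab : Subgroup (R ⧸ Z)) [Ab.Normal]
    (hAb : Cfsg.IsElementaryAbelian p Ab) (hAbcard : Nat.card Ab = p ^ 2) :
    ∃ W : Subgroup R, W.Normal ∧ (∀ x ∈ W, x ^ p = 1) ∧ p ^ 2 ≤ Nat.card W ∧
      W ≤ Ab.comap (QuotientGroup.mk' Z) := by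
  have hp := (Fact.out : p.Prime)
  have hEcard : Nat.card (Ab.comap (QuotientGroup.mk' Z)) = p ^ 3 := by
    rw [card_comap_mk, hZcard, hAbcard]; ring
  have hZpow : ∀ c ∈ Z, c ^ p = 1 := by
    intro c hc
    have := pow_card_eq_one' (G := Z) (x := ⟨c, hc⟩)
    rw [hZcard] at this
    exact congrArg Subtype.val this
  have hEpow : ∀ x ∈ Ab.comap (QuotientGroup.mk' Z), x ^ p ∈ Z := by
    intro x hx
    have h1 : (QuotientGroup.mk' Z x) ^ p = 1 := hAb.2 _ hx
    rw [← map_pow] at h1
    exact (QuotientGroup.eq_one_iff _).mp h1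
  have hEcomm : ∀ x ∈ Ab.comap (QuotientGroup.mk' Z), ∀ y ∈ Ab.comap (QuotientGroup.mk' Z),
      (x * y)⁻¹ * (y * x) ∈ Z := by
    intro x hx y hy
    haveI := hAb.1
    have hc : (⟨_, hx⟩ : Ab) * ⟨_, hy⟩ = ⟨_, hy⟩ * ⟨_, hx⟩ := mul_comm' _ _
    have h1 : QuotientGroup.mk' Z (x * y) = QuotientGroup.mk' Z (y * x) := by
      rw [map_mul, map_mul]; exact congrArg Subtype.val hc
    exact QuotientGroup.eq.mp h1
  have hmul : ∀ x ∈ Ab.comap (QuotientGroup.mk' Z), ∀ y ∈ Ab.comap (QuotientGroup.mk' Z),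
      (x * y) ^ p = x ^ p * y ^ p := by
    intro x hx y hy
    have hcZ : (x * y)⁻¹ * (y * x) ∈ Z := hEcomm x hx y hy
    have hcen := Subgroup.mem_center_iff.mp (hZc hcZ)
    have h : y * x = x * y * ((x * y)⁻¹ * (y * x)) := by group
    have := Helper6.mul_pow_of_central_comm x y _ h (hcen x).symm (hcen y).symm p
    rw [this]
    have hdvd : p ∣ p.choose 2 :=
      hp.dvd_choose_self (by norm_num) (lt_of_le_of_ne hp.two_le (Ne.symm hp2))
    obtain ⟨t, ht⟩ := hdvd
    rw [ht, pow_mul, hZpow _ hcZ, one_pow, mul_one]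
  let θ : (Ab.comap (QuotientGroup.mk' Z)) →* (Ab.comap (QuotientGroup.mk' Z)) :=
    { toFun := fun x => x ^ p
      map_one' := one_pow p
      map_mul' := fun x y => Subtype.ext (hmul x x.2 y y.2) }
  have hrange : θ.range ≤ Z.subgroupOf (Ab.comap (QuotientGroup.mk' Z)) := by
    rintro _ ⟨x, rfl⟩
    rw [Subgroup.mem_subgroupOf]
    exact hEpow x x.2
  have hZE : Z ≤ Ab.comap (QuotientGroup.mk' Z) := by
    intro c hc
    show QuotientGroup.mk' Z c ∈ Ab
    have h1 : QuotientGroup.mk' Z c = 1 := (QuotientGroup.eq_one_iff c).mpr hc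
    rw [h1]
    exact Ab.one_mem
  have hcardZ' : Nat.card (Z.subgroupOf (Ab.comap (QuotientGroup.mk' Z))) = p := by
    rw [Nat.card_congr (Subgroup.subgroupOfEquivOfLe hZE).toEquiv, hZcard]
  have h3 := Subgroup.card_mul_index θ.ker
  rw [Subgroup.index_ker] at h3
  have hker : p ^ 2 ≤ Nat.card θ.ker := by
    have hle : Nat.card θ.range ≤ p := (Subgroup.card_le_of_le hrange).trans hcardZ'.le
    by_contra hlt
    push Not at hlt
    have : Nat.card θ.ker * Nat.card θ.range < p ^ 2 * p := by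
      calc _ ≤ Nat.card θ.ker * p := Nat.mul_le_mul_left _ hle
        _ < p ^ 2 * p := Nat.mul_lt_mul_of_pos_right hlt hp.pos
    rw [h3, hEcard] at this
    exact absurd this (by rw [pow_succ]; exact lt_irrefl _)
  refine ⟨θ.ker.map (Ab.comap (QuotientGroup.mk' Z)).subtype, ?_, ?_, ?_, ?_⟩
  · constructor
    intro x hx g
    obtain ⟨⟨y, hyE⟩, hyk, rfl⟩ := hx
    have hgE : g * y * g⁻¹ ∈ Ab.comap (QuotientGroup.mk' Z) :=
      (inferInstance : (Ab.comap (QuotientGroup.mk' Z)).Normal).conj_mem y hyE g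
    refine ⟨⟨g * y * g⁻¹, hgE⟩, ?_, rfl⟩
    rw [SetLike.mem_coe, MonoidHom.mem_ker] at hyk ⊢
    apply Subtype.ext
    have hy1 : y ^ p = 1 := congrArg Subtype.val hyk
    show (g * y * g⁻¹) ^ p = 1
    rw [conj_pow, hy1, mul_one, mul_inv_cancel]
  · rintro _ ⟨⟨y, hyE⟩, hyk, rfl⟩
    exact congrArg Subtype.val (MonoidHom.mem_ker.mp hyk)
  · rw [Subgroup.card_map_of_injective (Subgroup.subtype_injective _)]; exact hker
  · rintro _ ⟨⟨y, hyE⟩, -, rfl⟩
    exact hyE


/-- for odd `p`, a non-cyclic normal subgroup `S` of a `p`-group `R` contains a normal subgroup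
of `R` of exponent `p` and order at least `p ^ 2` -/
theorem exists_normal_exp_p_in (p : ℕ) [Fact p.Prime] (hp2 : p ≠ 2) :
    ∀ (n : ℕ) (R : Type u) [Group R] [Finite R], IsPGroup p R → ∀ S : Subgroup R, S.Normal →
    Nat.card S = n → ¬ IsCyclic S →
    ∃ W : Subgroup R, W.Normal ∧ (∀ x ∈ W, x ^ p = 1) ∧ p ^ 2 ≤ Nat.card W ∧ W ≤ S := by
  intro n
  induction n using Nat.strong_induction_on with
  | _ n ih =>
    intro R _ _ hR S hSn hn hnc
    classical
    have hp := (Fact.out : p.Prime)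
    haveI := hSn
    by_cases hcomm : ∀ a b : S, a * b = b * a
    · letI : CommGroup S := { (inferInstance : Group S) with mul_comm := hcomm }
      refine ⟨(powMonoidHom p : S →* S).ker.map S.subtype, ?_, ?_, ?_, ?_⟩
      · constructor
        intro x hx g
        obtain ⟨⟨y, hyS⟩, hyk, rfl⟩ := hx
        have hgS : g * y * g⁻¹ ∈ S := hSn.conj_mem y hyS g
        refine ⟨⟨g * y * g⁻¹, hgS⟩, ?_, rfl⟩
        rw [SetLike.mem_coe, MonoidHom.mem_ker] at hyk ⊢
        apply Subtype.ext
        have hy1 : y ^ p = 1 := congrArg Subtype.val hyk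
        show (g * y * g⁻¹) ^ p = 1
        rw [conj_pow, hy1, mul_one, mul_inv_cancel]
      · rintro _ ⟨⟨y, hyS⟩, hyk, rfl⟩
        exact congrArg Subtype.val (MonoidHom.mem_ker.mp hyk)
      · rw [Subgroup.card_map_of_injective (Subgroup.subtype_injective _)]
        by_contra hlt
        push Not at hlt
        apply hnc
        have h1 : Nat.card (powMonoidHom p : S →* S).ker ≤ p := by
          obtain ⟨j, hj⟩ := IsPGroup.iff_card.mp
            ((hR.to_subgroup S).to_subgroup (powMonoidHom p : S →* S).ker)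
          rw [hj] at hlt ⊢
          have : j < 2 := (Nat.pow_lt_pow_iff_right hp.one_lt).mp hlt
          calc p ^ j ≤ p ^ 1 := Nat.pow_le_pow_right hp.pos (by omega)
            _ = p := pow_one p
        exact isCyclic_of_small_omega (hR.to_subgroup S) h1
      · rintro _ ⟨y, -, rfl⟩
        exact y.2
    · have hSbot : S ≠ ⊥ := by
        rintro rfl
        exact hnc inferInstance
      obtain ⟨z, hzS, hzc, hzo⟩ := exists_central_order_p hR S hSbot
      have hZc : Subgroup.zpowers z ≤ Subgroup.center R := Subgroup.zpowers_le.mpr hzc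
      haveI : (Subgroup.zpowers z).Normal := normal_of_le_center' hZc
      have hZcard : Nat.card (Subgroup.zpowers z) = p := by rw [Nat.card_zpowers, hzo]
      have hZS : Subgroup.zpowers z ≤ S := Subgroup.zpowers_le.mpr hzS
      haveI hS'n : (S.map (QuotientGroup.mk' (Subgroup.zpowers z))).Normal :=
        Subgroup.Normal.map inferInstance _ (QuotientGroup.mk'_surjective _)
      have hcm : (S.map (QuotientGroup.mk' (Subgroup.zpowers z))).comap
          (QuotientGroup.mk' (Subgroup.zpowers z)) = S := by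
        rw [Subgroup.comap_map_eq, QuotientGroup.ker_mk', sup_eq_left.2 hZS]
      have hcardS : Nat.card S = p * Nat.card (S.map (QuotientGroup.mk' (Subgroup.zpowers z))) := by
        have h1 := card_comap_mk (Subgroup.zpowers z)
          (S.map (QuotientGroup.mk' (Subgroup.zpowers z)))
        rw [hcm, hZcard] at h1
        exact h1
      have hlt : Nat.card (S.map (QuotientGroup.mk' (Subgroup.zpowers z))) < n := by
        rw [← hn, hcardS]
        have hpos : 0 < Nat.card (S.map (QuotientGroup.mk' (Subgroup.zpowers z))) := Nat.card_pos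
        nlinarith [hp.two_le]
      have hS'nc : ¬ IsCyclic (S.map (QuotientGroup.mk' (Subgroup.zpowers z))) := by
        intro hcyc
        apply hcomm
        refine commutative_of_cyclic_center_quotient
          ((QuotientGroup.mk' (Subgroup.zpowers z)).subgroupMap S) ?_
        intro x hx
        rw [MonoidHom.mem_ker] at hx
        have h1 : QuotientGroup.mk' (Subgroup.zpowers z) (x : R) = 1 := congrArg Subtype.val hx
        have h2 : (x : R) ∈ Subgroup.zpowers z := (QuotientGroup.eq_one_iff _).mp h1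
        rw [Subgroup.mem_center_iff]
        intro y
        apply Subtype.ext
        exact Subgroup.mem_center_iff.mp (hZc h2) y
      obtain ⟨W', hW'n, hW'exp, hW'card, hW'S⟩ := ih _ hlt (R ⧸ Subgroup.zpowers z)
        (hR.to_quotient _) (S.map (QuotientGroup.mk' (Subgroup.zpowers z))) hS'n rfl hS'nc
      haveI := hW'n
      obtain ⟨Ab, hAbn, hAbW, hAbc⟩ := exists_normal_card_sq (hR.to_quotient _) W' hW'card
      haveI := hAbn
      have hAbe : Cfsg.IsElementaryAbelian p Ab :=
        ⟨⟨⟨IsPGroup.commutative_of_card_eq_prime_sq hAbc⟩⟩, fun a ha => hW'exp a (hAbW ha)⟩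
      obtain ⟨W, hWn, hWexp, hWcard, hWle⟩ :=
        exists_exp_p_of_quot_le hp2 (Subgroup.zpowers z) hZc hZcard Ab hAbe hAbc
      refine ⟨W, hWn, hWexp, hWcard, ?_⟩
      rw [← hcm]
      exact hWle.trans (Subgroup.comap_mono (hAbW.trans hW'S))

/-- for odd `p`, a non-cyclic normal subgroup of a `p`-group `R` contains a normal elementary
abelian subgroup of `R` of order `p ^ 2` -/
theorem exists_normal_elemAb_sq_in {R : Type u} [Group R] [Finite R] {p : ℕ} [Fact p.Prime]
    (hp2 : p ≠ 2) (hR : IsPGroup p R) (S : Subgroup R) [hSn : S.Normal] (hS : ¬ IsCyclic S) :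
    ∃ A : Subgroup R, A ≤ S ∧ A.Normal ∧ Cfsg.IsElementaryAbelian p A ∧ Nat.card A = p ^ 2 := by
  obtain ⟨W, hWn, hWexp, hWcard, hWS⟩ := exists_normal_exp_p_in p hp2 _ R hR S hSn rfl hS
  haveI := hWn
  obtain ⟨A, hAn, hAW, hAcard⟩ := exists_normal_card_sq hR W hWcard
  exact ⟨A, hAW.trans hWS, hAn,
    ⟨⟨⟨IsPGroup.commutative_of_card_eq_prime_sq hAcard⟩⟩, fun a ha => hWexp a (hAW ha)⟩, hAcard⟩

end Cfsg.Agent.Lib.Lead
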