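import Mathlib
import Cfsg.Prelude.Def_Classical
import Cfsg.Agent.Lib.Lead.DihLift

namespace Cfsg.Agent.Lib.Lead

open Matrix

variable {F : Type*} [Field F]

/-- a `2 × 2` matrix indexed by `Fin 1 ⊕ Fin 1` -/
def mat11 (p q r s : F) : Matrix (Fin 1 ⊕ Fin 1) (Fin 1 ⊕ Fin 1) F :=
  Matrix.of fun i j => Sum.elim (fun _ => Sum.elim (fun _ => p) (fun _ => q) j)
    (fun _ => Sum.elim (fun _ => r) (fun _ => s) j) i

theorem mat11_mul (p q r s p' q' r' s' : F) :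
    mat11 p q r s * mat11 p' q' r' s' =
      mat11 (p * p' + q * r') (p * q' + q * s') (r * p' + s * r') (r * q' + s * s') := by
  ext i j
  rcases i with i | i <;> rcases j with j | j <;>
    simp [mat11, Matrix.mul_apply, Fintype.sum_sum_type]

theorem mat11_one : mat11 (1 : F) 0 0 1 = 1 := by
  ext i j
  rcases i with i | i <;> rcases j with j | j <;>
    simp [mat11, Matrix.one_apply, Subsingleton.elim i j]

theorem mat11_eta (M : Matrix (Fin 1 ⊕ Fin 1) (Fin 1 ⊕ Fin 1) F) :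
    M = mat11 (M (.inl 0) (.inl 0)) (M (.inl 0) (.inr 0)) (M (.inr 0) (.inl 0))
      (M (.inr 0) (.inr 0)) := by
  ext i j
  rcases i with i | i <;> rcases j with j | j <;>
    simp [mat11, Subsingleton.elim i 0, Subsingleton.elim j 0]

theorem mat11_quad (p q r s : F) (v : Fin 1 ⊕ Fin 1 → F) :
    Cfsg.quadFormPlus 1 F (mat11 p q r s *ᵥ v) =
      (p * v (.inl 0) + q * v (.inr 0)) * (r * v (.inl 0) + s * v (.inr 0)) := by
  simp [Cfsg.quadFormPlus, mat11, Matrix.mulVec, dotProduct, Fintype.sum_sum_type]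

theorem quad11 (v : Fin 1 ⊕ Fin 1 → F) :
    Cfsg.quadFormPlus 1 F v = v (.inl 0) * v (.inr 0) := by
  simp [Cfsg.quadFormPlus]

theorem mem_iso11 (g : GL (Fin 1 ⊕ Fin 1) F) :
    g ∈ Cfsg.isometryGroup F (Cfsg.quadFormPlus 1 F) ↔
      ∃ p q r s : F, (g : Matrix (Fin 1 ⊕ Fin 1) (Fin 1 ⊕ Fin 1) F) = mat11 p q r s ∧
        ((q = 0 ∧ r = 0 ∧ p * s = 1) ∨ (p = 0 ∧ s = 0 ∧ q * r = 1)) := by
  constructor
  · intro h
    have h' : ∀ u, Cfsg.quadFormPlus 1 F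
        ((g : Matrix (Fin 1 ⊕ Fin 1) (Fin 1 ⊕ Fin 1) F) *ᵥ u) = Cfsg.quadFormPlus 1 F u :=
      fun u => h u u
    refine ⟨_, _, _, _, mat11_eta _, ?_⟩
    rw [mat11_eta (g : Matrix (Fin 1 ⊕ Fin 1) (Fin 1 ⊕ Fin 1) F)] at h'
    generalize (g : Matrix (Fin 1 ⊕ Fin 1) (Fin 1 ⊕ Fin 1) F) (.inl 0) (.inl 0) = p at h' ⊢
    generalize (g : Matrix (Fin 1 ⊕ Fin 1) (Fin 1 ⊕ Fin 1) F) (.inl 0) (.inr 0) = q at h' ⊢
    generalize (g : Matrix (Fin 1 ⊕ Fin 1) (Fin 1 ⊕ Fin 1) F) (.inr 0) (.inl 0) = r at h' ⊢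
    generalize (g : Matrix (Fin 1 ⊕ Fin 1) (Fin 1 ⊕ Fin 1) F) (.inr 0) (.inr 0) = s at h' ⊢
    have e1 := h' (Sum.elim (fun _ => 1) (fun _ => 0))
    have e2 := h' (Sum.elim (fun _ => 0) (fun _ => 1))
    have e3 := h' (Sum.elim (fun _ => 1) (fun _ => 1))
    rw [mat11_quad, quad11] at e1 e2 e3
    simp only [Sum.elim_inl, Sum.elim_inr, mul_one, mul_zero, add_zero, zero_add] at e1 e2 e3
    rcases mul_eq_zero.1 e1 with hp | hr
    · right
      have hqr : q * r = 1 := by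
        rw [hp, zero_add] at e3
        linear_combination e3 - e2
      have hq0 : q ≠ 0 := left_ne_zero_of_mul_eq_one hqr
      exact ⟨hp, (mul_eq_zero.1 e2).resolve_left hq0, hqr⟩
    · left
      have hps : p * s = 1 := by
        rw [hr, zero_add] at e3
        linear_combination e3 - e2
      have hs0 : s ≠ 0 := right_ne_zero_of_mul_eq_one hps
      exact ⟨(mul_eq_zero.1 e2).resolve_right hs0, hr, hps⟩
  · rintro ⟨p, q, r, s, hg, h⟩ u v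
    show Cfsg.quadFormPlus 1 F ((g : Matrix (Fin 1 ⊕ Fin 1) (Fin 1 ⊕ Fin 1) F) *ᵥ u) =
      Cfsg.quadFormPlus 1 F u
    rw [hg, mat11_quad, quad11]
    rcases h with ⟨rfl, rfl, h⟩ | ⟨rfl, rfl, h⟩
    · linear_combination (u (.inl 0) * u (.inr 0)) * h
    · linear_combination (u (.inl 0) * u (.inr 0)) * h

/-- the diagonal isometries -/
def xGL (u : Fˣ) : GL (Fin 1 ⊕ Fin 1) F :=
  ⟨mat11 u 0 0 (u⁻¹ : Fˣ), mat11 (u⁻¹ : Fˣ) 0 0 u,
    by rw [mat11_mul]; simp [mat11_one], by rw [mat11_mul]; simp [mat11_one]⟩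

/-- the swap -/
def yGL : GL (Fin 1 ⊕ Fin 1) F :=
  ⟨mat11 0 1 1 0, mat11 0 1 1 0,
    by rw [mat11_mul]; simp [mat11_one], by rw [mat11_mul]; simp [mat11_one]⟩

/-- `xGL` as a homomorphism -/
def xHom : Fˣ →* GL (Fin 1 ⊕ Fin 1) F where
  toFun := xGL
  map_one' := by
    apply Units.ext
    show mat11 ((1 : Fˣ) : F) 0 0 ((1⁻¹ : Fˣ) : F) = 1
    simp [mat11_one]
  map_mul' u v := by
    apply Units.ext
    show mat11 ((u * v : Fˣ) : F) 0 0 (((u * v)⁻¹ : Fˣ) : F) =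
      mat11 (u : F) 0 0 ((u⁻¹ : Fˣ) : F) * mat11 (v : F) 0 0 ((v⁻¹ : Fˣ) : F)
    rw [mat11_mul]
    simp [mul_comm]

theorem xHom_injective : Function.Injective (xHom : Fˣ →* GL (Fin 1 ⊕ Fin 1) F) := by
  intro u v h
  have h1 : (xGL u).1 (.inl 0) (.inl 0) = (xGL v).1 (.inl 0) (.inl 0) := by
    have h' : xGL u = xGL v := h
    rw [h']
  exact Units.ext h1

theorem iso11_dihedral [Fintype F] {q : ℕ} (hF : Fintype.card F = q) :
    Nonempty (Cfsg.isometryGroup F (Cfsg.quadFormPlus 1 F) ≃* DihedralGroup (q - 1)) := by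
  classical
  have hq : 2 ≤ q := hF ▸ Fintype.one_lt_card
  haveI : NeZero (q - 1) := ⟨by omega⟩
  obtain ⟨ζ, hζ⟩ := IsCyclic.exists_generator (α := Fˣ)
  have hζord : orderOf ζ = q - 1 := by
    rw [orderOf_eq_card_of_forall_mem_zpowers hζ, Nat.card_eq_fintype_card, Fintype.card_units, hF]
  have hxmem : ∀ u : Fˣ, xGL u ∈ Cfsg.isometryGroup F (Cfsg.quadFormPlus 1 F) := fun u =>
    (mem_iso11 _).2 ⟨u, 0, 0, (u⁻¹ : Fˣ), rfl, Or.inl ⟨rfl, rfl, by simp⟩⟩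
  have hymem : (yGL : GL (Fin 1 ⊕ Fin 1) F) ∈ Cfsg.isometryGroup F (Cfsg.quadFormPlus 1 F) :=
    (mem_iso11 _).2 ⟨0, 1, 1, 0, rfl, Or.inr ⟨rfl, rfl, by simp⟩⟩
  let x : Cfsg.isometryGroup F (Cfsg.quadFormPlus 1 F) := ⟨xGL ζ, hxmem ζ⟩
  let y : Cfsg.isometryGroup F (Cfsg.quadFormPlus 1 F) := ⟨yGL, hymem⟩
  have hx : x ^ (q - 1) = 1 := by
    apply Subtype.ext
    show (xHom ζ) ^ (q - 1) = 1
    rw [← map_pow, ← hζord, pow_orderOf_eq_one, map_one]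
  have hy : y * y = 1 := by
    apply Subtype.ext
    apply Units.ext
    show mat11 (0 : F) 1 1 0 * mat11 0 1 1 0 = 1
    rw [mat11_mul]; simp [mat11_one]
  have hxy : x * y * x = y := by
    apply Subtype.ext
    apply Units.ext
    show mat11 (ζ : F) 0 0 (ζ⁻¹ : Fˣ) * mat11 0 1 1 0 * mat11 (ζ : F) 0 0 (ζ⁻¹ : Fˣ) = mat11 0 1 1 0
    rw [mat11_mul, mat11_mul]; simp
  have hord : orderOf x = q - 1 := by
    rw [← hζord]
    have h1 : orderOf (xHom ζ) = orderOf ζ := orderOf_injective xHom xHom_injective ζ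
    rw [← h1]
    exact (Subgroup.orderOf_coe x).symm
  have hzp : ∀ g ∈ Subgroup.zpowers x,
      ((g : Cfsg.isometryGroup F (Cfsg.quadFormPlus 1 F)) : GL (Fin 1 ⊕ Fin 1) F).1
        (.inl 0) (.inr 0) = 0 := by
    rintro _ ⟨k, rfl⟩
    have h1 : ((x ^ k : Cfsg.isometryGroup F (Cfsg.quadFormPlus 1 F)) : GL (Fin 1 ⊕ Fin 1) F) =
        xGL (ζ ^ k) := by
      rw [Subgroup.coe_zpow]
      exact (map_zpow xHom ζ k).symm
    show ((x ^ k : Cfsg.isometryGroup F (Cfsg.quadFormPlus 1 F)) : GL (Fin 1 ⊕ Fin 1) F).1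
        (.inl 0) (.inr 0) = 0
    rw [h1]
    rfl
  have hy' : y ∉ Subgroup.zpowers x := by
    intro h
    have h1 := hzp y h
    have h2 : (mat11 (0 : F) 1 1 0) (.inl 0) (.inr 0) = 0 := h1
    simp [mat11] at h2
  have hsurj : ∀ g : Cfsg.isometryGroup F (Cfsg.quadFormPlus 1 F),
      g ∈ Subgroup.zpowers x ∨ ∃ h ∈ Subgroup.zpowers x, g = y * h := by
    intro g
    obtain ⟨p, q', r, s, hg, h | h⟩ := (mem_iso11 g.1).1 g.2
    · left
      obtain ⟨rfl, rfl, hps⟩ := h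
      have hp0 : p ≠ 0 := left_ne_zero_of_mul_eq_one hps
      obtain ⟨k, hk⟩ := hζ (Units.mk0 p hp0)
      have hk : ζ ^ k = Units.mk0 p hp0 := hk
      refine ⟨k, ?_⟩
      apply Subtype.ext
      show ((x ^ k : Cfsg.isometryGroup F (Cfsg.quadFormPlus 1 F)) : GL (Fin 1 ⊕ Fin 1) F) = g.1
      rw [Subgroup.coe_zpow]
      show xHom ζ ^ k = g.1
      rw [← map_zpow, hk]
      apply Units.ext
      rw [hg]
      show mat11 p 0 0 (((Units.mk0 p hp0)⁻¹ : Fˣ) : F) = mat11 p 0 0 s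
      rw [Units.val_inv_eq_inv_val, Units.val_mk0, inv_eq_of_mul_eq_one_right hps]
    · right
      obtain ⟨rfl, rfl, hqr⟩ := h
      have hr0 : r ≠ 0 := right_ne_zero_of_mul_eq_one hqr
      obtain ⟨k, hk⟩ := hζ (Units.mk0 r hr0)
      have hk : ζ ^ k = Units.mk0 r hr0 := hk
      refine ⟨x ^ k, ⟨k, rfl⟩, ?_⟩
      apply Subtype.ext
      show g.1 = y.1 * ((x ^ k : Cfsg.isometryGroup F (Cfsg.quadFormPlus 1 F)) :
        GL (Fin 1 ⊕ Fin 1) F)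
      rw [Subgroup.coe_zpow]
      show g.1 = yGL * xHom ζ ^ k
      rw [← map_zpow, hk]
      apply Units.ext
      rw [hg]
      show mat11 0 q' r 0 = mat11 0 1 1 0 * mat11 r 0 0 (((Units.mk0 r hr0)⁻¹ : Fˣ) : F)
      rw [mat11_mul, Units.val_inv_eq_inv_val, Units.val_mk0,
        ← eq_inv_of_mul_eq_one_left hqr]
      simp
  exact ⟨(MulEquiv.ofBijective _ (dihHom_bijective (q - 1) x y hx hy hxy hord hy' hsurj)).symm⟩

end Cfsg.Agent.Lib.Lead
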