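import Mathlib

set_option autoImplicit false

namespace Cfsg.Agent.Lib.Lead

open scoped Kronecker

open scoped IsMulCommutative in
theorem isIntegral_mul_of_commute {A : Type*} [Ring A] {x y : A} (hx : IsIntegral ℤ x)
    (hy : IsIntegral ℤ y) (hxy : x * y = y * x) : IsIntegral ℤ (x * y) := by
  have hcomm : ∀ a ∈ ({x, y} : Set A), ∀ b ∈ ({x, y} : Set A), a * b = b * a := by
    intro a ha b hb
    rcases ha with rfl | rfl <;> rcases hb with rfl | rfl
    · rfl
    · exact hxy
    · exact hxy.symm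
    · rfl
  have := Algebra.isMulCommutative_adjoin ℤ hcomm
  have hxm : x ∈ Algebra.adjoin ℤ ({x, y} : Set A) := Algebra.subset_adjoin (by simp)
  have hym : y ∈ Algebra.adjoin ℤ ({x, y} : Set A) := Algebra.subset_adjoin (by simp)
  have hx' : IsIntegral ℤ (⟨x, hxm⟩ : Algebra.adjoin ℤ ({x, y} : Set A)) :=
    (isIntegral_algHom_iff (Algebra.adjoin ℤ ({x, y} : Set A)).val Subtype.val_injective).mp hx
  have hy' : IsIntegral ℤ (⟨y, hym⟩ : Algebra.adjoin ℤ ({x, y} : Set A)) :=
    (isIntegral_algHom_iff (Algebra.adjoin ℤ ({x, y} : Set A)).val Subtype.val_injective).mp hy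
  have h := (hx'.mul hy').map (Algebra.adjoin ℤ ({x, y} : Set A)).val
  exact h

theorem trace_isIntegral_of_isIntegral {n : Type*} [Fintype n] [DecidableEq n]
    (M : Matrix n n ℂ) (hM : IsIntegral ℤ M) : IsIntegral ℤ M.trace := by
  rw [Matrix.trace_eq_sum_roots_charpoly]
  apply (integralClosure ℤ ℂ).multiset_sum_mem
  intro μ hμ
  have hroot : M.charpoly.IsRoot μ := (Polynomial.mem_roots'.mp hμ).2
  have hspec : μ ∈ spectrum ℂ M := Matrix.mem_spectrum_iff_isRoot_charpoly.mpr hroot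
  obtain ⟨p, hp, hpM⟩ := hM
  have h1 := spectrum.subset_polynomial_aeval M (p.map (algebraMap ℤ ℂ)) ⟨μ, hspec, rfl⟩
  have h2 : (Polynomial.aeval M) (p.map (algebraMap ℤ ℂ)) = 0 := by
    rw [Polynomial.aeval_map_algebraMap]
    exact hpM
  rw [h2] at h1
  have h3 : Polynomial.eval μ (p.map (algebraMap ℤ ℂ)) = 0 := by
    by_contra hne
    rw [spectrum.mem_iff, sub_zero] at h1
    exact h1 ((isUnit_iff_ne_zero.mpr hne).map (algebraMap ℂ (Matrix n n ℂ)))
  refine ⟨p, hp, ?_⟩
  rw [← Polynomial.eval_map]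
  exact h3

theorem idem_trace_zero {n : Type*} [Fintype n] [DecidableEq n] (M : Matrix n n ℂ)
    (hM : M * M = M) (htr : M.trace = 0) : M = 0 := by
  have h1 : IsIdempotentElem (Matrix.toLin' M) := by
    show Matrix.toLin' M * Matrix.toLin' M = Matrix.toLin' M
    rw [Module.End.mul_eq_comp, ← Matrix.toLin'_mul, hM]
  have h2 : LinearMap.trace ℂ _ (Matrix.toLin' M) = 0 := by
    rw [Matrix.trace_toLin'_eq, htr]
  have h3 := LinearMap.IsIdempotentElem.eq_zero_of_trace_eq_zero h1 h2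
  have h4 : Matrix.toLin' M = Matrix.toLin' (0 : Matrix n n ℂ) := by
    rw [h3, map_zero]
  exact Matrix.toLin'.injective h4

/-- `X ↦ X ⊗ 1` as a ring homomorphism -/
def kronOne (n m : Type*) [Fintype n] [DecidableEq n] [Fintype m] [DecidableEq m] :
    Matrix n n ℂ →+* Matrix (n × m) (n × m) ℂ where
  toFun X := X ⊗ₖ (1 : Matrix m m ℂ)
  map_one' := Matrix.one_kronecker_one
  map_mul' X Y := by rw [← Matrix.mul_kronecker_mul, one_mul]
  map_zero' := Matrix.zero_kronecker _
  map_add' X Y := Matrix.add_kronecker _ _ _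

/-- the key integrality statement for intertwining integer matrices -/
theorem trace_avg_isIntegral {G : Type*} [Group G] [Fintype G] {n m : Type*} [Fintype n]
    [DecidableEq n] [Fintype m] [DecidableEq m] (P : G → Matrix n n ℂ) (M : G → Matrix m m ℂ)
    (hPm : ∀ g h, P (g * h) = P g * P h)
    (hMm : ∀ g h, M (g * h) = M g * M h)
    (A : Matrix n n ℤ)
    (hA : ∀ g, A.map (Int.castRingHom ℂ) * P g = P g * A.map (Int.castRingHom ℂ)) :
    IsIntegral ℤ ((Fintype.card G : ℂ)⁻¹ *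
        ∑ g, (A.map (Int.castRingHom ℂ) * P g).trace * (M g).trace) ∧
      ((Fintype.card G : ℂ)⁻¹ * ∑ g, (P g).trace * (M g).trace = 0 →
        (Fintype.card G : ℂ)⁻¹ *
          ∑ g, (A.map (Int.castRingHom ℂ) * P g).trace * (M g).trace = 0) := by
  classical
  set AC : Matrix n n ℂ := A.map (Int.castRingHom ℂ) with hAC
  set Q : G → Matrix (n × m) (n × m) ℂ := fun g => P g ⊗ₖ M g with hQ
  have hQm : ∀ g h, Q (g * h) = Q g * Q h := by
    intro g h
    show P (g * h) ⊗ₖ M (g * h) = (P g ⊗ₖ M g) * (P h ⊗ₖ M h)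
    rw [hPm, hMm, Matrix.mul_kronecker_mul]
  have hcard : (Fintype.card G : ℂ) ≠ 0 := by
    exact_mod_cast Fintype.card_ne_zero
  set Pi : Matrix (n × m) (n × m) ℂ := (Fintype.card G : ℂ)⁻¹ • ∑ g, Q g with hPi
  have hPiPi : Pi * Pi = Pi := by
    have h1 : (∑ g, Q g) * (∑ h, Q h) = (Fintype.card G : ℂ) • ∑ x, Q x := by
      rw [Finset.sum_mul]
      have h2 : ∀ g : G, Q g * ∑ h, Q h = ∑ x, Q x := by
        intro g
        rw [Finset.mul_sum]
        have h3 : ∀ h : G, Q g * Q h = Q (g * h) := fun h => (hQm g h).symm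
        rw [Finset.sum_congr rfl (fun h _ => h3 h)]
        exact Fintype.sum_equiv (Equiv.mulLeft g) _ _ (fun h => rfl)
      rw [Finset.sum_congr rfl (fun g _ => h2 g), Finset.sum_const, Finset.card_univ,
        ← Nat.cast_smul_eq_nsmul ℂ]
    rw [hPi, Matrix.smul_mul, Matrix.mul_smul, h1, smul_smul, smul_smul, mul_assoc,
      inv_mul_cancel₀ hcard, mul_one]
  set AA : Matrix (n × m) (n × m) ℂ := kronOne n m AC with hAA
  have hAAQ : ∀ g, AA * Q g = Q g * AA := by
    intro g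
    show (AC ⊗ₖ (1 : Matrix m m ℂ)) * (P g ⊗ₖ M g) = (P g ⊗ₖ M g) * (AC ⊗ₖ (1 : Matrix m m ℂ))
    rw [← Matrix.mul_kronecker_mul, ← Matrix.mul_kronecker_mul, hA g, one_mul, mul_one]
  have hAAPi : AA * Pi = Pi * AA := by
    rw [hPi, Matrix.mul_smul, Matrix.smul_mul, Finset.mul_sum, Finset.sum_mul]
    congr 1
    exact Finset.sum_congr rfl (fun g _ => hAAQ g)
  have htr : (AA * Pi).trace = (Fintype.card G : ℂ)⁻¹ *
      ∑ g, (AC * P g).trace * (M g).trace := by
    rw [hPi, Matrix.mul_smul, Matrix.trace_smul, smul_eq_mul, Finset.mul_sum, Matrix.trace_sum]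
    congr 1
    refine Finset.sum_congr rfl (fun g _ => ?_)
    show ((AC ⊗ₖ (1 : Matrix m m ℂ)) * (P g ⊗ₖ M g)).trace = _
    rw [← Matrix.mul_kronecker_mul, one_mul, Matrix.trace_kronecker]
  have htrPi : Pi.trace = (Fintype.card G : ℂ)⁻¹ * ∑ g, (P g).trace * (M g).trace := by
    rw [hPi, Matrix.trace_smul, smul_eq_mul, Matrix.trace_sum]
    congr 1
    refine Finset.sum_congr rfl (fun g _ => ?_)
    show (P g ⊗ₖ M g).trace = _
    rw [Matrix.trace_kronecker]
  constructor
  · rw [← htr]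
    apply trace_isIntegral_of_isIntegral
    apply isIntegral_mul_of_commute _ _ hAAPi
    · have h1 : IsIntegral ℤ A := Matrix.isIntegral A
      have h2 : IsIntegral ℤ ((Int.castRingHom ℂ).mapMatrix A) :=
        map_isIntegral_int (Int.castRingHom ℂ).mapMatrix h1
      exact map_isIntegral_int (kronOne n m) h2
    · refine ⟨Polynomial.X ^ 2 - Polynomial.X, ?_, ?_⟩
      · apply Polynomial.monic_X_pow_sub
        rw [Polynomial.degree_X]
        norm_num
      · rw [Polynomial.eval₂_sub, Polynomial.eval₂_X_pow, Polynomial.eval₂_X, sq, hPiPi, sub_self]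
  · intro h0
    rw [← htr]
    rw [← htrPi] at h0
    rw [idem_trace_zero Pi hPiPi h0, mul_zero, Matrix.trace_zero]

end Cfsg.Agent.Lib.Lead
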