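import Mathlib
import Cfsg.Prelude.Def_Characters
import Cfsg.Agent.Lib.Lead.Orb1
import Cfsg.Agent.Lib.Lead.Char4
import Cfsg.Agent.Lib.Lead.Char7
import Cfsg.Agent.Lib.Lead.Char8
import Cfsg.Agent.Lib.Lead.Char9
import Cfsg.Agent.Lib.Lead.Char14

set_option autoImplicit false

namespace Cfsg.Agent.Lib.Lead

section perm

variable {G : Type*} [Group G] {Ω : Type*} [MulAction G Ω]

open Classical in
/-- permutation matrices -/
noncomputable def permMat (g : G) : Matrix Ω Ω ℂ := fun c d => if g • d = c then 1 else 0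

open Classical in
/-- the orbital matrix of the pair `(a, b)` -/
noncomputable def orbMat (G : Type*) [Group G] {Ω : Type*} [MulAction G Ω] (a b : Ω) :
    Matrix Ω Ω ℤ := fun c d => if ∃ x : G, x • a = c ∧ x • b = d then 1 else 0

theorem permMat_mul [Fintype Ω] (g h : G) :
    permMat (Ω := Ω) (g * h) = permMat g * permMat h := by
  classical
  ext c d
  rw [Matrix.mul_apply, Finset.sum_eq_single (h • d)]
  · simp [permMat, mul_smul]
  · intro e _ hne
    simp [permMat, Ne.symm hne]
  · intro h'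
    exact absurd (Finset.mem_univ _) h'

theorem permMat_trace [Fintype Ω] (g : G) :
    (permMat (Ω := Ω) g).trace = (Nat.card (MulAction.fixedBy Ω g) : ℂ) := by
  classical
  rw [Matrix.trace]
  simp only [Matrix.diag_apply, permMat]
  rw [Finset.sum_boole]
  congr 1
  symm
  apply Nat.subtype_card
  intro x
  simp [MulAction.mem_fixedBy]

theorem orb_rel_smul (a b c d : Ω) (g : G) :
    (∃ x : G, x • a = g • c ∧ x • b = g • d) ↔ ∃ x : G, x • a = c ∧ x • b = d := by
  constructor
  · rintro ⟨x, h1, h2⟩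
    refine ⟨g⁻¹ * x, ?_, ?_⟩
    · rw [mul_smul, h1, inv_smul_smul]
    · rw [mul_smul, h2, inv_smul_smul]
  · rintro ⟨x, h1, h2⟩
    refine ⟨g * x, ?_, ?_⟩
    · rw [mul_smul, h1]
    · rw [mul_smul, h2]

theorem orbMat_smul (a b c d : Ω) (g : G) : orbMat G a b (g • c) (g • d) = orbMat G a b c d := by
  classical
  unfold orbMat
  by_cases h : ∃ x : G, x • a = c ∧ x • b = d
  · rw [if_pos h, if_pos ((orb_rel_smul a b c d g).mpr h)]
  · rw [if_neg h, if_neg (fun h' => h ((orb_rel_smul a b c d g).mp h'))]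

theorem orbMat_mul_permMat_apply [Fintype Ω] (a b : Ω) (g : G) (c d : Ω) :
    ((orbMat G a b).map (Int.castRingHom ℂ) * permMat g : Matrix Ω Ω ℂ) c d =
      ((orbMat G a b c (g • d) : ℤ) : ℂ) := by
  classical
  rw [Matrix.mul_apply, Finset.sum_eq_single (g • d)]
  · simp [permMat]
  · intro e _ hne
    simp [permMat, Ne.symm hne]
  · intro h'
    exact absurd (Finset.mem_univ _) h'

theorem permMat_mul_orbMat_apply [Fintype Ω] (a b : Ω) (g : G) (c d : Ω) :
    (permMat g * (orbMat G a b).map (Int.castRingHom ℂ) : Matrix Ω Ω ℂ) c d =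
      ((orbMat G a b (g⁻¹ • c) d : ℤ) : ℂ) := by
  classical
  rw [Matrix.mul_apply, Finset.sum_eq_single (g⁻¹ • c)]
  · simp [permMat]
  · intro e _ hne
    have h1 : g • e ≠ c := by
      intro h
      apply hne
      rw [← h, inv_smul_smul]
    simp [permMat, h1]
  · intro h'
    exact absurd (Finset.mem_univ _) h'

theorem orbMat_comm [Fintype Ω] (a b : Ω) (g : G) :
    (orbMat G a b).map (Int.castRingHom ℂ) * permMat g =
      permMat g * (orbMat G a b).map (Int.castRingHom ℂ) := by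
  ext c d
  rw [orbMat_mul_permMat_apply, permMat_mul_orbMat_apply]
  congr 1
  have := orbMat_smul a b (g⁻¹ • c) d g
  rw [smul_inv_smul] at this
  exact this

/-- the orbital class function -/
noncomputable def orbChar [Fintype Ω] (a b : Ω) (g : G) : ℂ :=
  ∑ c : Ω, ((orbMat G a b c (g • c) : ℤ) : ℂ)

theorem orbChar_eq_trace [Fintype Ω] (a b : Ω) (g : G) :
    ((orbMat G a b).map (Int.castRingHom ℂ) * permMat g).trace = orbChar a b g := by
  rw [Matrix.trace]
  unfold orbChar
  refine Finset.sum_congr rfl (fun c _ => ?_)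
  rw [Matrix.diag_apply, orbMat_mul_permMat_apply]

theorem orbChar_classFun [Fintype Ω] (a b : Ω) : Cfsg.IsClassFunction G (orbChar (G := G) a b) := by
  intro g h
  unfold orbChar
  symm
  apply Fintype.sum_equiv (MulAction.toPerm h)
  intro c
  have h1 : (h * g * h⁻¹) • (MulAction.toPerm h c) = h • (g • c) := by
    show (h * g * h⁻¹) • (h • c) = h • (g • c)
    rw [mul_smul, inv_smul_smul, mul_smul]
  rw [h1]
  show _ = ((orbMat G a b (h • c) (h • (g • c)) : ℤ) : ℂ)
  rw [orbMat_smul]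

theorem orbChar_one [Fintype Ω] (a b : Ω) (hab : b ≠ a) : orbChar (G := G) a b 1 = 0 := by
  classical
  unfold orbChar
  apply Finset.sum_eq_zero
  intro c _
  rw [one_smul]
  have : orbMat G a b c c = 0 := by
    unfold orbMat
    rw [if_neg]
    rintro ⟨x, h1, h2⟩
    apply hab
    have := h2.trans h1.symm
    exact smul_left_cancel x this
  rw [this, Int.cast_zero]

theorem orbChar_conj [Fintype Ω] (a b : Ω) (g : G) :
    (starRingEnd ℂ) (orbChar a b g) = orbChar a b g := by
  unfold orbChar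
  rw [map_sum]
  exact Finset.sum_congr rfl (fun c _ => map_intCast (starRingEnd ℂ) _)

/-- averaging over a transitive action -/
theorem transitive_sum [Fintype G] [Fintype Ω] [MulAction.IsPretransitive G Ω] (F : Ω → ℂ)
    (c : Ω) : (Fintype.card Ω : ℂ) * ∑ g : G, F (g • c) = (Fintype.card G : ℂ) * ∑ d, F d := by
  have h1 : ∀ c' : Ω, ∑ g : G, F (g • c') = ∑ g : G, F (g • c) := by
    intro c'
    obtain ⟨y, rfl⟩ := MulAction.exists_smul_eq G c c'
    apply Fintype.sum_equiv (Equiv.mulRight y)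
    intro g
    show F (g • y • c) = F ((g * y) • c)
    rw [mul_smul]
  have h2 : ∑ c' : Ω, ∑ g : G, F (g • c') = (Fintype.card Ω : ℂ) * ∑ g : G, F (g • c) := by
    rw [Finset.sum_congr rfl (fun c' _ => h1 c'), Finset.sum_const, Finset.card_univ,
      nsmul_eq_mul]
  rw [← h2, Finset.sum_comm]
  have h3 : ∀ g : G, ∑ c' : Ω, F (g • c') = ∑ d, F d := by
    intro g
    exact Fintype.sum_equiv (MulAction.toPerm g) _ _ (fun c' => rfl)
  rw [Finset.sum_congr rfl (fun g _ => h3 g), Finset.sum_const, Finset.card_univ, nsmul_eq_mul]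

theorem orbMat_row_sum [Fintype Ω] [MulAction.IsPretransitive G Ω] (a b c : Ω) :
    ∑ d, ((orbMat G a b c d : ℤ) : ℂ) =
      (Nat.card (MulAction.orbit (MulAction.stabilizer G a) b) : ℂ) := by
  classical
  obtain ⟨y, rfl⟩ := MulAction.exists_smul_eq G a c
  have h1 : ∑ d, ((orbMat G a b (y • a) d : ℤ) : ℂ) = ∑ d, ((orbMat G a b a d : ℤ) : ℂ) := by
    symm
    apply Fintype.sum_equiv (MulAction.toPerm y)
    intro d
    show _ = ((orbMat G a b (y • a) (y • d) : ℤ) : ℂ)
    rw [orbMat_smul]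
  rw [h1]
  unfold orbMat
  simp only [Int.cast_ite, Int.cast_one, Int.cast_zero]
  rw [Finset.sum_boole]
  congr 1
  symm
  apply Nat.subtype_card
  intro d
  rw [Finset.mem_filter]
  constructor
  · rintro ⟨-, x, hx1, hx2⟩
    exact ⟨⟨x, hx1⟩, hx2⟩
  · rintro ⟨⟨x, hx1⟩, hx2⟩
    exact ⟨Finset.mem_univ _, x, hx1, hx2⟩

theorem orbChar_sum [Fintype G] [Fintype Ω] [MulAction.IsPretransitive G Ω] (a b : Ω) :
    ∑ g : G, orbChar a b g =
      (Fintype.card G : ℂ) * (Nat.card (MulAction.orbit (MulAction.stabilizer G a) b) : ℂ) := by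
  unfold orbChar
  rw [Finset.sum_comm]
  have hΩ : (Fintype.card Ω : ℂ) ≠ 0 := by
    haveI : Nonempty Ω := ⟨a⟩
    exact_mod_cast Fintype.card_ne_zero
  have h1 : ∀ c : Ω, (Fintype.card Ω : ℂ) * ∑ g : G, ((orbMat G a b c (g • c) : ℤ) : ℂ) =
      (Fintype.card G : ℂ) * (Nat.card (MulAction.orbit (MulAction.stabilizer G a) b) : ℂ) := by
    intro c
    rw [transitive_sum (fun d => ((orbMat G a b c d : ℤ) : ℂ)) c, orbMat_row_sum]
  apply mul_left_cancel₀ hΩ
  rw [Finset.mul_sum, Finset.sum_congr rfl (fun c _ => h1 c), Finset.sum_const, Finset.card_univ,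
    nsmul_eq_mul]

end perm

end Cfsg.Agent.Lib.Lead
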