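import Mathlib
import Cfsg.Prelude.Def_Characters
import Cfsg.Agent.Lib.Lead.Orb2

set_option autoImplicit false

namespace Cfsg.Agent.Lib.Lead

/-- inner products of the orbital class function with irreducible characters -/
theorem orbChar_inner {G : Type*} [Group G] [Fintype G] {Ω : Type*} [Fintype Ω] [MulAction G Ω]
    (a b : Ω) (χ : G → ℂ) (hχ : Cfsg.IsIrrCharacter G χ) :
    IsIntegral ℤ (Cfsg.classInner (orbChar (G := G) a b) χ) ∧
      (Cfsg.classInner (fun g : G => (Nat.card (MulAction.fixedBy Ω g) : ℂ)) χ = 0 →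
        Cfsg.classInner (orbChar (G := G) a b) χ = 0) := by
  classical
  obtain ⟨n, ρ, hρ, rfl⟩ := hχ
  obtain ⟨M, hM⟩ : ∃ M : G → Matrix (Fin n) (Fin n) ℂ, M = fun g => LinearMap.toMatrix' (ρ g) :=
    ⟨_, rfl⟩
  have hMm : ∀ g h, M (g * h) = M g * M h := by
    intro g h
    rw [hM]
    show LinearMap.toMatrix' (ρ (g * h)) = _
    rw [map_mul, LinearMap.toMatrix'_mul]
  have hMtr : ∀ g, (M g).trace = ρ.character g := by
    intro g
    rw [hM]
    show (LinearMap.toMatrix' (ρ g)).trace = LinearMap.trace ℂ _ (ρ g)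
    rw [LinearMap.trace_eq_matrix_trace ℂ (Pi.basisFun ℂ (Fin n)),
      LinearMap.toMatrix_eq_toMatrix']
  obtain ⟨h1, h2⟩ := trace_avg_isIntegral (G := G) (permMat (Ω := Ω)) M permMat_mul hMm
    (orbMat G a b) (orbMat_comm a b)
  simp only [orbChar_eq_trace, hMtr, permMat_trace] at h1 h2
  have e1 : Cfsg.classInner (orbChar (G := G) a b) ρ.character =
      (starRingEnd ℂ) ((Fintype.card G : ℂ)⁻¹ * ∑ g, orbChar a b g * ρ.character g) := by
    unfold Cfsg.classInner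
    rw [map_mul, map_inv₀, map_natCast, map_sum, Nat.card_eq_fintype_card]
    congr 1
    refine Finset.sum_congr rfl (fun g _ => ?_)
    rw [map_mul, orbChar_conj]
  have e2 : Cfsg.classInner (fun g : G => (Nat.card (MulAction.fixedBy Ω g) : ℂ)) ρ.character =
      (starRingEnd ℂ) ((Fintype.card G : ℂ)⁻¹ *
        ∑ g, (Nat.card (MulAction.fixedBy Ω g) : ℂ) * ρ.character g) := by
    unfold Cfsg.classInner
    rw [map_mul, map_inv₀, map_natCast, map_sum, Nat.card_eq_fintype_card]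
    congr 1
    refine Finset.sum_congr rfl (fun g _ => ?_)
    rw [map_mul, map_natCast]
  constructor
  · rw [e1]
    exact map_isIntegral_int (starRingEnd ℂ) h1
  · intro h0
    rw [e2] at h0
    have h3 := (map_eq_zero (starRingEnd ℂ)).mp h0
    rw [e1, h2 h3, map_zero]

theorem orbChar_inner_one {G : Type*} [Group G] [Fintype G] {Ω : Type*} [Fintype Ω]
    [MulAction G Ω] [MulAction.IsPretransitive G Ω] (a b : Ω) :
    Cfsg.classInner (orbChar (G := G) a b) (fun _ => 1) =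
      (Nat.card (MulAction.orbit (MulAction.stabilizer G a) b) : ℂ) := by
  unfold Cfsg.classInner
  simp only [map_one, mul_one]
  rw [orbChar_sum, Nat.card_eq_fintype_card, ← mul_assoc, inv_mul_cancel₀, one_mul]
  exact_mod_cast Fintype.card_ne_zero

/-- common divisors of the degrees of the nonprincipal constituents divide the subdegrees -/
theorem common_divisor_dvd_subdegree {G : Type*} [Group G] [Fintype G] {Ω : Type*} [Fintype Ω]
    [MulAction G Ω] [MulAction.IsPretransitive G Ω] (f : ℕ)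
    (hf : ∀ χ : G → ℂ, Cfsg.IsIrrCharacter G χ → χ ≠ (fun _ => 1) →
      Cfsg.classInner (fun g : G => (Nat.card (MulAction.fixedBy Ω g) : ℂ)) χ ≠ 0 →
      ∃ m : ℕ, χ 1 = (f : ℂ) * m) (a b : Ω) (hab : b ≠ a) :
    f ∣ Nat.card (MulAction.orbit (MulAction.stabilizer G a) b) := by
  classical
  haveI : Fintype (Cfsg.IrrCharacter G) := Fintype.ofFinite _
  obtain ⟨θ, hθ⟩ : ∃ θ : G → ℂ, θ = orbChar a b := ⟨_, rfl⟩
  obtain ⟨k, hk⟩ : ∃ k : ℕ, k = Nat.card (MulAction.orbit (MulAction.stabilizer G a) b) :=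
    ⟨_, rfl⟩
  rw [← hk]
  have hcf : Cfsg.IsClassFunction G θ := by
    rw [hθ]
    exact orbChar_classFun a b
  have hexp := class_fn_expand' θ hcf
  have h1 : θ 1 = ∑ χ : Cfsg.IrrCharacter G, Cfsg.classInner θ χ.1 * χ.1 1 := by
    conv_lhs => rw [hexp]
    simp [Finset.sum_apply]
  have hθ1 : θ 1 = 0 := by
    rw [hθ]
    exact orbChar_one a b hab
  rw [hθ1] at h1
  obtain ⟨χ₀, hχ₀⟩ : ∃ χ₀ : Cfsg.IrrCharacter G, χ₀ = ⟨fun _ => 1, isIrrCharacter_one⟩ :=
    ⟨_, rfl⟩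
  have ht0 : Cfsg.classInner θ χ₀.1 = (k : ℂ) := by
    rw [hχ₀, hθ, hk]
    exact orbChar_inner_one a b
  have hw : ∀ χ : Cfsg.IrrCharacter G, ∃ w : ℂ, IsIntegral ℤ w ∧
      (χ ≠ χ₀ → Cfsg.classInner θ χ.1 * χ.1 1 = (f : ℂ) * w) := by
    intro χ
    by_cases hχ0 : χ = χ₀
    · exact ⟨0, isIntegral_zero, fun h => absurd hχ0 h⟩
    · by_cases hm : Cfsg.classInner (fun g : G => (Nat.card (MulAction.fixedBy Ω g) : ℂ)) χ.1 = 0
      · refine ⟨0, isIntegral_zero, fun _ => ?_⟩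
        rw [hθ, (orbChar_inner a b χ.1 χ.2).2 hm, zero_mul, mul_zero]
      · obtain ⟨m, hm'⟩ := hf χ.1 χ.2 (fun h => hχ0 (by rw [hχ₀]; exact Subtype.ext h)) hm
        refine ⟨Cfsg.classInner θ χ.1 * (m : ℂ), ?_, fun _ => ?_⟩
        · apply IsIntegral.mul
          · rw [hθ]
            exact (orbChar_inner a b χ.1 χ.2).1
          · exact isIntegral_algebraMap (R := ℤ) (A := ℂ) (x := (m : ℤ))
        · rw [hm']
          ring
  choose w hw1 hw2 using hw
  rw [← Finset.add_sum_erase Finset.univ _ (Finset.mem_univ χ₀), ht0] at h1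
  have hχ₀1 : χ₀.1 1 = 1 := by rw [hχ₀]
  rw [hχ₀1, mul_one] at h1
  have h2 : ∑ χ ∈ Finset.univ.erase χ₀, Cfsg.classInner θ χ.1 * χ.1 1 =
      (f : ℂ) * ∑ χ ∈ Finset.univ.erase χ₀, w χ := by
    rw [Finset.mul_sum]
    refine Finset.sum_congr rfl (fun χ hχ => ?_)
    exact hw2 χ (Finset.ne_of_mem_erase hχ)
  rw [h2] at h1
  have hW : IsIntegral ℤ (∑ χ ∈ Finset.univ.erase χ₀, w χ) :=
    IsIntegral.sum _ (fun χ _ => hw1 χ)
  by_cases hf0 : f = 0
  · rw [hf0, Nat.cast_zero, zero_mul, add_zero] at h1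
    have : k = 0 := by exact_mod_cast h1.symm
    rw [hf0, this]
  · apply dvd_of_isIntegral_div (Nat.pos_of_ne_zero hf0)
    have hfne : (f : ℂ) ≠ 0 := by exact_mod_cast hf0
    have h3 : (k : ℂ) / (f : ℂ) = -∑ χ ∈ Finset.univ.erase χ₀, w χ := by
      field_simp
      linear_combination h1.symm
    rw [h3]
    exact hW.neg

end Cfsg.Agent.Lib.Lead
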