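import Mathlib
import Cfsg.Prelude.Def_Characters
import Cfsg.Agent.Lib.Lead.Gram

set_option autoImplicit false

namespace Cfsg.Agent.Lib.Lead

open Module Representation

theorem orbit_mk_eq_iff {G X : Type*} [Group G] [MulAction G X] (x y : X) :
    (Quotient.mk (MulAction.orbitRel G X) x = Quotient.mk (MulAction.orbitRel G X) y)
      ↔ ∃ g : G, g • y = x := by
  rw [Quotient.eq]
  exact MulAction.orbitRel_apply.trans MulAction.mem_orbit_iff

/-- Burnside's lemma, complex form -/
theorem burnside_orbits {G : Type*} [Group G] [Fintype G] (X : Type*) [MulAction G X] [Finite X] :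
    ∑ g : G, (Nat.card (MulAction.fixedBy X g) : ℂ)
      = (Nat.card (Quotient (MulAction.orbitRel G X)) : ℂ) * (Nat.card G : ℂ) := by
  classical
  haveI : Fintype (Quotient (MulAction.orbitRel G X)) := Fintype.ofFinite _
  haveI : ∀ g : G, Fintype (MulAction.fixedBy X g) := fun g => Fintype.ofFinite _
  have h := MulAction.sum_card_fixedBy_eq_card_orbits_mul_card_group G X
  simp only [Nat.card_eq_fintype_card]
  exact_mod_cast h

theorem card_fixedBy_prod {G : Type*} [Group G] (X : Type*) [MulAction G X] (g : G) :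
    Nat.card (MulAction.fixedBy (X × X) g) = Nat.card (MulAction.fixedBy X g) ^ 2 := by
  rw [sq, ← Nat.card_prod]
  apply Nat.card_congr
  exact
    { toFun := fun p => (⟨p.1.1, congrArg Prod.fst p.2⟩, ⟨p.1.2, congrArg Prod.snd p.2⟩)
      invFun := fun p => ⟨(p.1.1, p.2.1), Prod.ext p.1.2 p.2.2⟩
      left_inv := fun p => rfl
      right_inv := fun p => rfl }

/-- a transitive action on at least two points is 2-transitive iff the permutation character
minus 1 is irreducible -/
theorem two_trans_iff {G : Type*} [Group G] [Finite G] (X : Type*) [MulAction G X] [Finite X]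
    [MulAction.IsPretransitive G X] (hX : 2 ≤ Nat.card X) :
    Cfsg.IsIrrCharacter G (fun g => (Nat.card (MulAction.fixedBy X g) : ℂ) - 1)
      ↔ MulAction.IsMultiplyPretransitive G X 2 := by
  classical
  haveI : Fintype G := Fintype.ofFinite G
  set π : G → ℂ := fun g => (Nat.card (MulAction.fixedBy X g) : ℂ) with hπ
  have hXnt : Nontrivial X := (Finite.one_lt_card_iff_nontrivial).mp (by omega)
  obtain ⟨a, b, hab⟩ := exists_pair_ne X
  have hπchar : Cfsg.IsCharacter G π := by
    rw [hπ, perm_char_eq_ind X a]; exact isCharacter_indFun _ _ isCharacter_one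
  have hone : Cfsg.IsCharacter G (fun _ : G => (1 : ℂ)) := isCharacter_one
  have hfun : (fun g => (Nat.card (MulAction.fixedBy X g) : ℂ) - 1) = π - (fun _ => (1 : ℂ)) := rfl
  rw [hfun]
  have hconjπ : ∀ g, (starRingEnd ℂ) (π g) = π g := fun g => Complex.conj_natCast _
  have hcardG : (Nat.card G : ℂ) ≠ 0 := by exact_mod_cast Nat.card_pos.ne'
  have h1 : Cfsg.classInner π (fun _ => (1 : ℂ)) = 1 := by
    unfold Cfsg.classInner
    simp only [map_one, mul_one]
    rw [burnside_orbits X]
    have hc : Nat.card (Quotient (MulAction.orbitRel G X)) = 1 := by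
      rw [Nat.card_eq_one_iff_unique]
      refine ⟨⟨?_⟩, ⟨Quotient.mk _ a⟩⟩
      intro q₁ q₂
      induction q₁ using Quotient.inductionOn with
      | _ x =>
        induction q₂ using Quotient.inductionOn with
        | _ y =>
          rw [orbit_mk_eq_iff]
          exact MulAction.exists_smul_eq G y x
    rw [hc, Nat.cast_one, one_mul, inv_mul_cancel₀ hcardG]
  have h1' : Cfsg.classInner (fun _ => (1 : ℂ)) π = 1 := by
    rw [← classInner_conj_symm, h1, map_one]
  have h11 : Cfsg.classInner (fun _ : G => (1 : ℂ)) (fun _ => (1 : ℂ)) = 1 :=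
    irr_inner_self (irrOne G)
  have hππ : Cfsg.classInner π π
      = (Nat.card (Quotient (MulAction.orbitRel G (X × X))) : ℂ) := by
    unfold Cfsg.classInner
    have hsq : ∀ g : G, π g * (starRingEnd ℂ) (π g)
        = (Nat.card (MulAction.fixedBy (X × X) g) : ℂ) := by
      intro g
      rw [hconjπ, card_fixedBy_prod]
      push_cast
      ring
    rw [Finset.sum_congr rfl (fun g _ => hsq g), burnside_orbits (X × X), mul_comm, mul_assoc,
      mul_inv_cancel₀ hcardG, mul_one]
  have hnorm : Cfsg.classInner (π - fun _ => (1 : ℂ)) (π - fun _ => (1 : ℂ))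
      = (Nat.card (Quotient (MulAction.orbitRel G (X × X))) : ℂ) - 1 := by
    rw [classInner_sub_left, classInner_sub_right, classInner_sub_right, hππ, h1, h1', h11]; ring
  have hchar : Cfsg.IsCharacter G (π - fun _ => (1 : ℂ)) := by
    apply isCharacter_of_inner_nat _
      (isClassFunction_sub (isClassFunction_of_char hπchar) (isClassFunction_of_char hone))
    intro χ
    rw [classInner_sub_left]
    by_cases hχ : χ = irrOne G
    · rw [hχ]
      refine ⟨0, ?_⟩
      show Cfsg.classInner π (fun _ => 1) - Cfsg.classInner (fun _ => 1) (fun _ => 1) = _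
      rw [h1, h11]; simp
    · obtain ⟨n, hn⟩ := classInner_char_nat hπchar (isCharacter_of_irr χ.2)
      refine ⟨n, ?_⟩
      rw [hn]
      have h0 : Cfsg.classInner (fun _ : G => (1 : ℂ)) χ.1 = 0 :=
        irr_inner_ne (χ := irrOne G) (Ne.symm hχ)
      rw [h0, sub_zero]
  have horb : Nat.card (Quotient (MulAction.orbitRel G (X × X))) = 2
      ↔ MulAction.IsMultiplyPretransitive G X 2 := by
    have hdiag : ∀ c : X, Quotient.mk (MulAction.orbitRel G (X × X)) (c, c)
        = Quotient.mk (MulAction.orbitRel G (X × X)) (a, a) := by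
      intro c
      rw [orbit_mk_eq_iff]
      obtain ⟨g, hg⟩ := MulAction.exists_smul_eq G a c
      exact ⟨g, by rw [Prod.smul_mk, hg]⟩
    have hoff : ∀ c d : X, c ≠ d → Quotient.mk (MulAction.orbitRel G (X × X)) (c, d)
        ≠ Quotient.mk (MulAction.orbitRel G (X × X)) (a, a) := by
      intro c d hcd h
      rw [orbit_mk_eq_iff] at h
      obtain ⟨g, hg⟩ := h
      have e1 : g • a = c := congrArg Prod.fst hg
      have e2 : g • a = d := congrArg Prod.snd hg
      exact hcd (e1.symm.trans e2)
    rw [MulAction.is_two_pretransitive_iff]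
    constructor
    · intro hcard c d e f hcd hef
      obtain ⟨y, hy1, hy2⟩ := (Nat.card_eq_two_iff'
        (Quotient.mk (MulAction.orbitRel G (X × X)) (a, a))).mp hcard
      have e1 := hy2 _ (hoff c d hcd)
      have e2 := hy2 _ (hoff e f hef)
      have e3 : Quotient.mk (MulAction.orbitRel G (X × X)) (e, f)
          = Quotient.mk (MulAction.orbitRel G (X × X)) (c, d) := e2.trans e1.symm
      rw [orbit_mk_eq_iff] at e3
      obtain ⟨g, hg⟩ := e3
      exact ⟨g, congrArg Prod.fst hg, congrArg Prod.snd hg⟩
    · intro h2t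
      rw [Nat.card_eq_two_iff' (Quotient.mk (MulAction.orbitRel G (X × X)) (a, a))]
      refine ⟨Quotient.mk (MulAction.orbitRel G (X × X)) (a, b), hoff a b hab, ?_⟩
      intro q hq
      induction q using Quotient.inductionOn with
      | _ p =>
        obtain ⟨c, d⟩ := p
        by_cases hcd : c = d
        · exfalso; apply hq; rw [hcd]; exact hdiag d
        · obtain ⟨g, hg1, hg2⟩ := h2t hab hcd
          rw [orbit_mk_eq_iff]
          exact ⟨g, by rw [Prod.smul_mk, hg1, hg2]⟩
  rw [← horb]
  constructor
  · intro hirr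
    have h2 := irr_inner_self (⟨_, hirr⟩ : Cfsg.IrrCharacter G)
    rw [hnorm] at h2
    have h3 : (Nat.card (Quotient (MulAction.orbitRel G (X × X))) : ℂ) = 2 := by
      linear_combination h2
    exact_mod_cast h3
  · intro h2
    apply isIrrCharacter_of_norm_one hchar
    rw [hnorm, h2]; norm_num

end Cfsg.Agent.Lib.Lead
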