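import Mathlib
import Cfsg.Prelude.Def_Characters
import Cfsg.Agent.Lib.Lead.Orb3
import Cfsg.Agent.Lib.Lead.Char12
import Cfsg.Agent.Lib.Lead.TwoTrans

set_option autoImplicit false

namespace Cfsg.Agent.Lib.Lead

theorem perm_inner_one {G : Type*} [Group G] [Fintype G] {Ω : Type*} [Fintype Ω] [MulAction G Ω]
    [MulAction.IsPretransitive G Ω] (a : Ω) :
    Cfsg.classInner (fun g : G => (Nat.card (MulAction.fixedBy Ω g) : ℂ)) (fun _ => 1) = 1 := by
  have hcardG : (Nat.card G : ℂ) ≠ 0 := by exact_mod_cast Nat.card_pos.ne'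
  unfold Cfsg.classInner
  simp only [map_one, mul_one]
  rw [burnside_orbits Ω]
  have hc : Nat.card (Quotient (MulAction.orbitRel G Ω)) = 1 := by
    rw [Nat.card_eq_one_iff_unique]
    refine ⟨⟨?_⟩, ⟨Quotient.mk _ a⟩⟩
    intro q₁ q₂
    induction q₁ using Quotient.inductionOn with
    | _ x =>
      induction q₂ using Quotient.inductionOn with
      | _ y =>
        rw [orbit_mk_eq_iff]
        exact MulAction.exists_smul_eq G y x
  rw [hc, Nat.cast_one, one_mul, inv_mul_cancel₀ hcardG]

theorem perm_inner_self {G : Type*} [Group G] [Fintype G] {Ω : Type*} [Fintype Ω]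
    [MulAction G Ω] [MulAction.IsPretransitive G Ω] (a : Ω) :
    Cfsg.classInner (fun g : G => (Nat.card (MulAction.fixedBy Ω g) : ℂ))
        (fun g : G => (Nat.card (MulAction.fixedBy Ω g) : ℂ)) =
      (Nat.card (MulAction.orbitRel.Quotient (MulAction.stabilizer G a) Ω) : ℂ) := by
  classical
  haveI : Fintype (MulAction.stabilizer G a) := Fintype.ofFinite _
  have hπ : Cfsg.IsCharacter G (fun g : G => (Nat.card (MulAction.fixedBy Ω g) : ℂ)) := by
    rw [perm_char_eq_ind Ω a]
    exact isCharacter_indFun _ _ isCharacter_one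
  have e : Cfsg.classInner (fun g : G => (Nat.card (MulAction.fixedBy Ω g) : ℂ))
        (fun g : G => (Nat.card (MulAction.fixedBy Ω g) : ℂ)) =
      Cfsg.classInner (Cfsg.indFun (MulAction.stabilizer G a) (fun _ => 1))
        (fun g : G => (Nat.card (MulAction.fixedBy Ω g) : ℂ)) :=
    congrArg (fun x => Cfsg.classInner x (fun g : G => (Nat.card (MulAction.fixedBy Ω g) : ℂ)))
      (perm_char_eq_ind Ω a)
  rw [e, frobenius_reciprocity (MulAction.stabilizer G a) (fun _ => 1) _
    (isClassFunction_of_char hπ)]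
  unfold Cfsg.classInner
  have h1 : ∀ h : MulAction.stabilizer G a,
      (1 : ℂ) * (starRingEnd ℂ) ((Nat.card (MulAction.fixedBy Ω (h : G)) : ℂ)) =
        (Nat.card (MulAction.fixedBy Ω h) : ℂ) := by
    intro h
    rw [one_mul, Complex.conj_natCast]
    rfl
  have hcardH : (Nat.card (MulAction.stabilizer G a) : ℂ) ≠ 0 := by
    exact_mod_cast Nat.card_pos.ne'
  rw [Finset.sum_congr rfl (fun h _ => h1 h), burnside_orbits (G := MulAction.stabilizer G a) Ω,
    mul_comm, mul_assoc, mul_inv_cancel₀ hcardH, mul_one]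

theorem sum_inv_orbit_card {H Ω : Type*} [Group H] [MulAction H Ω] [Fintype Ω] :
    ∑ b : Ω, ((Nat.card (MulAction.orbit H b) : ℚ))⁻¹ =
      (Nat.card (MulAction.orbitRel.Quotient H Ω) : ℚ) := by
  classical
  haveI : Fintype (MulAction.orbitRel.Quotient H Ω) := Fintype.ofFinite _
  rw [← Finset.sum_fiberwise Finset.univ
    (fun x => (Quotient.mk'' x : MulAction.orbitRel.Quotient H Ω))
    (fun b => ((Nat.card (MulAction.orbit H b) : ℚ))⁻¹)]
  have h : ∀ q : MulAction.orbitRel.Quotient H Ω,
      ∑ b ∈ Finset.univ.filter (fun x =>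
        (Quotient.mk'' x : MulAction.orbitRel.Quotient H Ω) = q),
        ((Nat.card (MulAction.orbit H b) : ℚ))⁻¹ = 1 := by
    intro q
    induction q using Quotient.inductionOn' with
    | h x0 =>
      have h1 : ∀ x ∈ Finset.univ.filter (fun x =>
          (Quotient.mk'' x : MulAction.orbitRel.Quotient H Ω) = Quotient.mk'' x0),
          ((Nat.card (MulAction.orbit H x) : ℚ))⁻¹ =
            ((Nat.card (MulAction.orbit H x0) : ℚ))⁻¹ := by
        intro x hx
        rw [Finset.mem_filter] at hx
        have h2 := Quotient.eq''.mp hx.2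
        rw [MulAction.orbitRel_apply] at h2
        rw [MulAction.orbit_eq_iff.mpr h2]
      rw [Finset.sum_congr rfl h1, Finset.sum_const, nsmul_eq_mul]
      have h3 : Nat.card (MulAction.orbit H x0) = (Finset.univ.filter (fun x =>
          (Quotient.mk'' x : MulAction.orbitRel.Quotient H Ω) = Quotient.mk'' x0)).card := by
        apply Nat.subtype_card
        intro x
        rw [Finset.mem_filter]
        constructor
        · rintro ⟨-, hx⟩
          have h2 := Quotient.eq''.mp hx
          rw [MulAction.orbitRel_apply] at h2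
          exact h2
        · intro hx
          refine ⟨Finset.mem_univ _, Quotient.eq''.mpr ?_⟩
          rw [MulAction.orbitRel_apply]
          exact hx
      rw [← h3]
      haveI : Nonempty (MulAction.orbit H x0) := ⟨⟨x0, MulAction.mem_orbit_self x0⟩⟩
      have hpos : (Nat.card (MulAction.orbit H x0) : ℚ) ≠ 0 := by
        exact_mod_cast Nat.card_pos.ne'
      exact mul_inv_cancel₀ hpos
  rw [Finset.sum_congr rfl (fun q _ => h q), Finset.sum_const, Finset.card_univ, nsmul_eq_mul,
    mul_one, Nat.card_eq_fintype_card]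

end Cfsg.Agent.Lib.Lead
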