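import Mathlib
import Cfsg.Prelude.Def_Characters
import Cfsg.Agent.Lib.Lead.Orb4

set_option autoImplicit false

namespace Cfsg.Agent.Lib.Lead

theorem rank_mult_free_aux {G : Type*} [Group G] [Fintype G] {Ω : Type*} [Fintype Ω]
    [MulAction G Ω] [MulAction.IsPretransitive G Ω] (π : G → ℂ)
    (hπdef : π = fun g : G => (Nat.card (MulAction.fixedBy Ω g) : ℂ)) (a : Ω) :
    ((f : ℕ) → (∀ χ : G → ℂ, Cfsg.IsIrrCharacter G χ → χ ≠ (fun _ => 1) →
        Cfsg.classInner π χ ≠ 0 → χ 1 = f) →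
      (∀ χ : G → ℂ, Cfsg.IsIrrCharacter G χ →
        Cfsg.classInner π χ = 0 ∨ Cfsg.classInner π χ = 1) ∧
      ∀ b : Ω, b ≠ a → Nat.card (MulAction.orbit (MulAction.stabilizer G a) b) = f) ∧
    (Nat.card (MulAction.orbitRel.Quotient (MulAction.stabilizer G a) Ω) ≤ 5 →
      ∀ χ : G → ℂ, Cfsg.IsIrrCharacter G χ →
        Cfsg.classInner π χ = 0 ∨ Cfsg.classInner π χ = 1) := by
  classical
  haveI : Fintype (Cfsg.IrrCharacter G) := Fintype.ofFinite _
  have hπc : Cfsg.IsCharacter G π := by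
    rw [hπdef, perm_char_eq_ind Ω a]
    exact isCharacter_indFun _ _ isCharacter_one
  obtain ⟨m, hm⟩ := isCharacter_decomp hπc
  have hmχ : ∀ χ : Cfsg.IrrCharacter G, Cfsg.classInner π χ.1 = (m χ : ℂ) := by
    intro χ
    conv_lhs => rw [hm]
    exact classInner_nat_comb (fun χ => (m χ : ℂ)) χ
  obtain ⟨χ₀, hχ₀⟩ : ∃ χ₀ : Cfsg.IrrCharacter G, χ₀ = ⟨fun _ => 1, isIrrCharacter_one⟩ :=
    ⟨_, rfl⟩
  have hm0 : m χ₀ = 1 := by
    have h1 : (m χ₀ : ℂ) = 1 := by
      rw [← hmχ, hχ₀, hπdef]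
      exact perm_inner_one a
    exact_mod_cast h1
  obtain ⟨r, hrdef⟩ : ∃ r : ℕ,
      r = Nat.card (MulAction.orbitRel.Quotient (MulAction.stabilizer G a) Ω) := ⟨_, rfl⟩
  rw [← hrdef]
  have hrN : r = ∑ χ, m χ * m χ := by
    have h1 : (r : ℂ) = ((∑ χ, m χ * m χ : ℕ) : ℂ) := by
      have h2 : Cfsg.classInner π π = (r : ℂ) := by
        rw [hrdef, hπdef]
        exact perm_inner_self a
      rw [← h2, Nat.cast_sum]
      have h3 : Cfsg.classInner π π =
          Cfsg.classInner π (∑ ψ : Cfsg.IrrCharacter G, (m ψ : ℂ) • ψ.1) :=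
        congrArg (fun x => Cfsg.classInner π x) hm
      rw [h3, classInner_sum_right]
      refine Finset.sum_congr rfl (fun χ _ => ?_)
      rw [classInner_smul_right, hmχ, Complex.conj_natCast, Nat.cast_mul]
    exact_mod_cast h1
  have hd : ∀ χ : Cfsg.IrrCharacter G, ∃ d : ℕ, 0 < d ∧ χ.1 1 = (d : ℂ) := irr_one_eq_nat
  choose d hdpos hd using hd
  have hdeg : Fintype.card Ω = ∑ χ, m χ * d χ := by
    have h1 : (Fintype.card Ω : ℂ) = ((∑ χ, m χ * d χ : ℕ) : ℂ) := by
      have h2 : π 1 = (Fintype.card Ω : ℂ) := by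
        rw [hπdef]
        show (Nat.card (MulAction.fixedBy Ω (1 : G)) : ℂ) = _
        congr 1
        rw [← Finset.card_univ]
        apply Nat.subtype_card
        intro x
        simp
      rw [← h2, Nat.cast_sum]
      conv_lhs => rw [hm]
      rw [Finset.sum_apply]
      refine Finset.sum_congr rfl (fun χ _ => ?_)
      rw [Pi.smul_apply, smul_eq_mul, hd χ, Nat.cast_mul]
    exact_mod_cast h1
  obtain ⟨k, hkdef⟩ : ∃ k : Ω → ℕ,
      k = fun b => Nat.card (MulAction.orbit (MulAction.stabilizer G a) b) := ⟨_, rfl⟩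
  have hkb : ∀ b, Nat.card (MulAction.orbit (MulAction.stabilizer G a) b) = k b := by
    intro b
    rw [hkdef]
  have hk : ∀ b, 0 < k b := by
    intro b
    rw [← hkb]
    haveI : Nonempty (MulAction.orbit (MulAction.stabilizer G a) b) :=
      ⟨⟨b, MulAction.mem_orbit_self b⟩⟩
    exact Nat.card_pos
  have hka : k a = 1 := by
    rw [← hkb]
    have h1 : MulAction.orbit (MulAction.stabilizer G a) a = {a} := by
      ext x
      constructor
      · rintro ⟨h, rfl⟩
        exact MulAction.mem_stabilizer_iff.mp h.2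
      · rintro rfl
        exact MulAction.mem_orbit_self _
    rw [h1, Nat.card_coe_set_eq, Set.ncard_singleton]
  have hsum : ∑ b : Ω, ((k b : ℚ))⁻¹ = (r : ℚ) := by
    rw [hrdef, hkdef]
    exact sum_inv_orbit_card
  have hmterm : ∀ χ : Cfsg.IrrCharacter G, (m χ : ℚ) ≤ (m χ : ℚ) ^ 2 := by
    intro χ
    rcases Nat.eq_zero_or_pos (m χ) with h0 | hpos
    · rw [h0]
      simp
    · have : (1 : ℚ) ≤ m χ := by exact_mod_cast hpos
      nlinarith
  have hB : ∑ χ ∈ Finset.univ.erase χ₀, (m χ : ℚ) ^ 2 = (r : ℚ) - 1 := by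
    have h1 : (r : ℚ) = ∑ χ, (m χ : ℚ) ^ 2 := by
      rw [hrN]
      push_cast
      exact Finset.sum_congr rfl (fun χ _ => (sq _).symm)
    rw [h1, ← Finset.add_sum_erase Finset.univ _ (Finset.mem_univ χ₀), hm0]
    simp
  have hA : ∑ b ∈ Finset.univ.erase a, ((k b : ℚ))⁻¹ = (r : ℚ) - 1 := by
    rw [← hsum, ← Finset.add_sum_erase Finset.univ _ (Finset.mem_univ a), hka]
    simp
  have part2 : ∀ f : ℕ, (∀ χ : G → ℂ, Cfsg.IsIrrCharacter G χ → χ ≠ (fun _ => 1) →
        Cfsg.classInner π χ ≠ 0 → χ 1 = f) →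
      (∀ χ : Cfsg.IrrCharacter G, m χ = 0 ∨ m χ = 1) ∧ ∀ b : Ω, b ≠ a → k b = f := by
    intro f hdegf
    have hdvd : ∀ b, b ≠ a → f ∣ k b := by
      intro b hb
      rw [← hkb]
      apply common_divisor_dvd_subdegree f _ a b hb
      rw [← hπdef]
      intro χ hχ hne hcon
      exact ⟨1, by rw [hdegf χ hχ hne hcon]; simp⟩
    have hC : (f : ℚ) * ∑ χ ∈ Finset.univ.erase χ₀, (m χ : ℚ) = (Fintype.card Ω : ℚ) - 1 := by
      have h1 : ∀ χ ∈ Finset.univ.erase χ₀, m χ * d χ = f * m χ := by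
        intro χ hχ
        have hne := Finset.ne_of_mem_erase hχ
        rcases Nat.eq_zero_or_pos (m χ) with h0 | hpos
        · rw [h0]
          simp
        · have h2 : χ.1 1 = (f : ℂ) := by
            apply hdegf χ.1 χ.2
            · intro h
              apply hne
              rw [hχ₀]
              exact Subtype.ext h
            · rw [hmχ]
              exact_mod_cast hpos.ne'
          rw [hd χ] at h2
          have h3 : d χ = f := by exact_mod_cast h2
          rw [h3, mul_comm]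
      have h2 : Fintype.card Ω = 1 + f * ∑ χ ∈ Finset.univ.erase χ₀, m χ := by
        rw [hdeg, ← Finset.add_sum_erase Finset.univ _ (Finset.mem_univ χ₀), hm0,
          Finset.sum_congr rfl h1, Finset.mul_sum]
        have h3 : d χ₀ = 1 := by
          have h4 := hd χ₀
          rw [hχ₀] at h4
          have h5 : (1 : ℂ) = (d ⟨fun _ => 1, isIrrCharacter_one⟩ : ℂ) := h4
          rw [hχ₀]
          exact_mod_cast h5.symm
        rw [h3]
      rw [h2]
      push_cast
      ring
    by_cases hf0 : f = 0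
    · have hnob : ∀ b, b = a := by
        intro b
        by_contra hb
        have h1 := hdvd b hb
        rw [hf0] at h1
        have h2 := Nat.eq_zero_of_zero_dvd h1
        have h3 := hk b
        omega
      have hr1 : (r : ℚ) - 1 = 0 := by
        rw [← hA]
        apply Finset.sum_eq_zero
        intro b hb
        exact absurd (hnob b) (Finset.ne_of_mem_erase hb)
      rw [hr1] at hB
      have hB' := (Finset.sum_eq_zero_iff_of_nonneg (fun χ _ => sq_nonneg (m χ : ℚ))).mp hB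
      refine ⟨fun χ => ?_, fun b hb => absurd (hnob b) hb⟩
      by_cases hχ : χ = χ₀
      · right
        rw [hχ, hm0]
      · left
        have h1 := hB' χ (Finset.mem_erase.mpr ⟨hχ, Finset.mem_univ _⟩)
        have h2 : (m χ : ℚ) = 0 := by
          exact pow_eq_zero_iff (two_ne_zero) |>.mp h1
        exact_mod_cast h2
    · have hfpos : (0 : ℚ) < f := by exact_mod_cast Nat.pos_of_ne_zero hf0
      have hterm : ∀ b ∈ Finset.univ.erase a, ((k b : ℚ))⁻¹ ≤ (f : ℚ)⁻¹ := by
        intro b hb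
        have hb' := Finset.ne_of_mem_erase hb
        have h1 : f ≤ k b := Nat.le_of_dvd (hk b) (hdvd b hb')
        have h2 : (f : ℚ) ≤ k b := by exact_mod_cast h1
        exact inv_anti₀ hfpos h2
      have hA_le : ∑ b ∈ Finset.univ.erase a, ((k b : ℚ))⁻¹ ≤
          ∑ b ∈ Finset.univ.erase a, (f : ℚ)⁻¹ := Finset.sum_le_sum hterm
      have hcount : ∑ b ∈ Finset.univ.erase a, (f : ℚ)⁻¹ =
          ((Fintype.card Ω : ℚ) - 1) * (f : ℚ)⁻¹ := by
        rw [Finset.sum_const, Finset.card_erase_of_mem (Finset.mem_univ a), Finset.card_univ,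
          nsmul_eq_mul]
        have hpos : 1 ≤ Fintype.card Ω := Fintype.card_pos_iff.mpr ⟨a⟩
        rw [Nat.cast_sub hpos, Nat.cast_one]
      have hC_le : ∑ χ ∈ Finset.univ.erase χ₀, (m χ : ℚ) ≤
          ∑ χ ∈ Finset.univ.erase χ₀, (m χ : ℚ) ^ 2 :=
        Finset.sum_le_sum (fun χ _ => hmterm χ)
      have hCeq : ∑ χ ∈ Finset.univ.erase χ₀, (m χ : ℚ) =
          ((Fintype.card Ω : ℚ) - 1) * (f : ℚ)⁻¹ := by
        rw [← hC]
        field_simp
      have hAC : ∑ b ∈ Finset.univ.erase a, ((k b : ℚ))⁻¹ ≤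
          ∑ χ ∈ Finset.univ.erase χ₀, (m χ : ℚ) := by
        rw [hCeq, ← hcount]
        exact hA_le
      have hCB : ∑ χ ∈ Finset.univ.erase χ₀, (m χ : ℚ) =
          ∑ χ ∈ Finset.univ.erase χ₀, (m χ : ℚ) ^ 2 := by
        apply le_antisymm hC_le
        rw [hB, ← hA]
        exact hAC
      have hAeq : ∑ b ∈ Finset.univ.erase a, ((k b : ℚ))⁻¹ =
          ∑ b ∈ Finset.univ.erase a, (f : ℚ)⁻¹ := by
        apply le_antisymm hA_le
        rw [hcount, ← hCeq, hCB, hB, ← hA]
      constructor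
      · intro χ
        by_cases hχ : χ = χ₀
        · right
          rw [hχ, hm0]
        · have h0 : ∑ χ ∈ Finset.univ.erase χ₀, ((m χ : ℚ) ^ 2 - (m χ : ℚ)) = 0 := by
            rw [Finset.sum_sub_distrib, hCB, sub_self]
          have h1 := (Finset.sum_eq_zero_iff_of_nonneg
            (fun χ _ => sub_nonneg.mpr (hmterm χ))).mp h0 χ
            (Finset.mem_erase.mpr ⟨hχ, Finset.mem_univ _⟩)
          have h2 : (m χ : ℚ) * ((m χ : ℚ) - 1) = 0 := by linear_combination h1
          rcases mul_eq_zero.mp h2 with h | h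
          · left
            exact_mod_cast h
          · right
            have h3 : (m χ : ℚ) = 1 := by linarith
            exact_mod_cast h3
      · intro b hb
        have h0 : ∑ b ∈ Finset.univ.erase a, ((f : ℚ)⁻¹ - ((k b : ℚ))⁻¹) = 0 := by
          rw [Finset.sum_sub_distrib, hAeq, sub_self]
        have h1 := (Finset.sum_eq_zero_iff_of_nonneg
          (fun b hb => sub_nonneg.mpr (hterm b hb))).mp h0 b
          (Finset.mem_erase.mpr ⟨hb, Finset.mem_univ _⟩)
        have h2 : ((k b : ℚ))⁻¹ = (f : ℚ)⁻¹ := by linarith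
        have h3 : (k b : ℚ) = f := inv_injective h2
        exact_mod_cast h3
  have conv : (∀ χ : Cfsg.IrrCharacter G, m χ = 0 ∨ m χ = 1) →
      ∀ χ : G → ℂ, Cfsg.IsIrrCharacter G χ →
        Cfsg.classInner π χ = 0 ∨ Cfsg.classInner π χ = 1 := by
    intro h χ hχ
    rcases h ⟨χ, hχ⟩ with h1 | h1
    · left
      rw [hmχ ⟨χ, hχ⟩, h1, Nat.cast_zero]
    · right
      rw [hmχ ⟨χ, hχ⟩, h1, Nat.cast_one]
  constructor
  · intro f hdegf
    obtain ⟨h1, h2⟩ := part2 f hdegf
    refine ⟨conv h1, fun b hb => ?_⟩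
    rw [hkb]
    exact h2 b hb
  · intro hr5
    apply conv
    intro χ₁
    by_contra hcon
    push Not at hcon
    have hm1 : 2 ≤ m χ₁ := by
      rcases hcon with ⟨h1, h2⟩
      omega
    have hχ₁ : χ₁ ≠ χ₀ := by
      intro h
      rw [h, hm0] at hm1
      omega
    have hothers : ∀ χ' : Cfsg.IrrCharacter G, χ' ≠ χ₀ → χ' ≠ χ₁ → m χ' = 0 := by
      intro χ' h0 h1
      by_contra hne
      have hsub : ({χ₀, χ₁, χ'} : Finset (Cfsg.IrrCharacter G)) ⊆ Finset.univ :=
        Finset.subset_univ _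
      have h2 := Finset.sum_le_sum_of_subset (f := fun χ => m χ * m χ) hsub
      rw [Finset.sum_insert (by
        rw [Finset.mem_insert, Finset.mem_singleton]
        rintro (h | h)
        · exact hχ₁ h.symm
        · exact h0 h.symm), Finset.sum_insert (by
        rw [Finset.mem_singleton]
        exact fun h => h1 h.symm), Finset.sum_singleton, ← hrN, hm0] at h2
      have h4 : 4 ≤ m χ₁ * m χ₁ := by nlinarith
      have h5 : 1 ≤ m χ' * m χ' := by
        have := Nat.pos_of_ne_zero hne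
        nlinarith
      omega
    have h3 := (part2 (d χ₁) (by
      intro χ' hχ' hne hcon'
      have h1 : (⟨χ', hχ'⟩ : Cfsg.IrrCharacter G) ≠ χ₀ := by
        intro h
        apply hne
        rw [hχ₀] at h
        exact congrArg Subtype.val h
      have h2 : m ⟨χ', hχ'⟩ ≠ 0 := by
        intro h
        apply hcon'
        rw [hmχ ⟨χ', hχ'⟩, h, Nat.cast_zero]
      have h3 : (⟨χ', hχ'⟩ : Cfsg.IrrCharacter G) = χ₁ := by
        by_contra h
        exact h2 (hothers _ h1 h)
      have h4 : χ' = χ₁.1 := congrArg Subtype.val h3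
      rw [h4]
      exact hd χ₁)).1 χ₁
    omega

end Cfsg.Agent.Lib.Lead
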