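import Mathlib
import Cfsg.Agent.S0014

set_option autoImplicit false

namespace Cfsg.Agent.Lib.Lead

/-- A group of order `p ^ k` can be generated by `k` elements. -/
theorem rank_le_of_card_eq_pow {G : Type*} [Group G] [Finite G] (p k : ℕ) [Fact p.Prime]
    (hG : Nat.card G = p ^ k) : Group.rank G ≤ k := by
  classical
  have hp : p.Prime := Fact.out
  have hPG : IsPGroup p G := IsPGroup.of_card hG
  have hdvd : (frattini G).index ∣ p ^ k := hG ▸ Subgroup.index_dvd_card (frattini G)
  obtain ⟨n, hnk, hn⟩ := (Nat.dvd_prime_pow hp).mp hdvd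
  obtain ⟨h1, -⟩ := Cfsg.Agent.S0014.result p n hPG hn
  haveI : Fintype G := Fintype.ofFinite G
  obtain ⟨T, -, hTcard, hT⟩ := h1 Finset.univ (by simp)
  have h2 := Group.rank_le hT
  omega

end Cfsg.Agent.Lib.Lead
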