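import Mathlib

namespace Cfsg.Agent.Lib.Lead

theorem mulEquiv_perm_of_injective {G X : Type*} [Group G] [Finite X]
    (f : G →* Equiv.Perm X) (hf : Function.Injective f) (n : ℕ) (hX : Nat.card X = n)
    (hG : Nat.card G = n.factorial) : Nonempty (G ≃* Equiv.Perm (Fin n)) := by
  classical
  let e : X ≃ Fin n := (Finite.equivFin X).trans (finCongr hX)
  let ψ : G →* Equiv.Perm (Fin n) := (e.permCongrHom).toMonoidHom.comp f
  have hψinj : Function.Injective ψ := by
    intro a b hab
    apply hf
    exact e.permCongrHom.injective hab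
  have hRcard : Nat.card ψ.range = Nat.card G :=
    (Nat.card_congr (MonoidHom.ofInjective hψinj).toEquiv).symm
  have hperm : Nat.card (Equiv.Perm (Fin n)) = n.factorial := by
    rw [Nat.card_perm, Nat.card_fin]
  have hR : ψ.range = ⊤ := Subgroup.eq_top_of_card_eq _ (by rw [hRcard, hperm, hG])
  exact ⟨(MonoidHom.ofInjective hψinj).trans ((MulEquiv.subgroupCongr hR).trans Subgroup.topEquiv)⟩

theorem mulEquiv_alt_of_injective {G X : Type*} [Group G] [Finite X]
    (f : G →* Equiv.Perm X) (hf : Function.Injective f) (n : ℕ) (hX : Nat.card X = n)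
    (hG : 2 * Nat.card G = n.factorial) : Nonempty (G ≃* alternatingGroup (Fin n)) := by
  classical
  let e : X ≃ Fin n := (Finite.equivFin X).trans (finCongr hX)
  let ψ : G →* Equiv.Perm (Fin n) := (e.permCongrHom).toMonoidHom.comp f
  have hψinj : Function.Injective ψ := by
    intro a b hab
    apply hf
    exact e.permCongrHom.injective hab
  have hRcard : Nat.card ψ.range = Nat.card G :=
    (Nat.card_congr (MonoidHom.ofInjective hψinj).toEquiv).symm
  have hperm : Nat.card (Equiv.Perm (Fin n)) = n.factorial := by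
    rw [Nat.card_perm, Nat.card_fin]
  have hpos : 0 < Nat.card G := by
    rcases Nat.eq_zero_or_pos (Nat.card G) with h | h
    · rw [h] at hG
      exact absurd hG.symm (Nat.factorial_ne_zero n)
    · exact h
  have hRidx : ψ.range.index = 2 := by
    have h1 := Subgroup.card_mul_index ψ.range
    rw [hRcard, hperm, ← hG, mul_comm] at h1
    exact Nat.eq_of_mul_eq_mul_right hpos h1
  have hR : ψ.range = alternatingGroup (Fin n) :=
    Equiv.Perm.eq_alternatingGroup_of_index_eq_two hRidx
  exact ⟨(MonoidHom.ofInjective hψinj).trans (MulEquiv.subgroupCongr hR)⟩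

end Cfsg.Agent.Lib.Lead
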