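import Mathlib

namespace Cfsg.Agent.Lib.Lead

abbrev T4 (p : ℕ) : Type := ZMod p × ZMod p × ZMod p × ZMod p

def t4mat {p : ℕ} (t : T4 p) : Matrix (Fin 2) (Fin 2) (ZMod p) :=
  !![t.1, t.2.1; t.2.2.1, t.2.2.2]

def t4mul {p : ℕ} (s t : T4 p) : T4 p :=
  (s.1 * t.1 + s.2.1 * t.2.2.1, s.1 * t.2.1 + s.2.1 * t.2.2.2,
   s.2.2.1 * t.1 + s.2.2.2 * t.2.2.1, s.2.2.1 * t.2.1 + s.2.2.2 * t.2.2.2)

def t4one (p : ℕ) : T4 p := (1, 0, 0, 1)

def t4act {p : ℕ} (t : T4 p) (v : ZMod p × ZMod p) : ZMod p × ZMod p :=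
  (t.1 * v.1 + t.2.1 * v.2, t.2.2.1 * v.1 + t.2.2.2 * v.2)

def t4step {p : ℕ} (gens : List (T4 p)) (S : List (ZMod p × ZMod p)) :
    List (ZMod p × ZMod p) :=
  (S ++ gens.flatMap (fun g => S.map (t4act g))).dedup

theorem t4mat_mul {p : ℕ} (s t : T4 p) : t4mat s * t4mat t = t4mat (t4mul s t) := by
  ext i j
  fin_cases i <;> fin_cases j <;> simp [t4mat, t4mul, Matrix.mul_apply, Fin.sum_univ_two]

theorem t4mat_one (p : ℕ) : t4mat (t4one p) = 1 := by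
  ext i j
  fin_cases i <;> fin_cases j <;> simp [t4mat, t4one]

theorem t4mat_mulVec {p : ℕ} (t : T4 p) (u : ZMod p × ZMod p) :
    Matrix.mulVec (t4mat t) ![u.1, u.2] = ![(t4act t u).1, (t4act t u).2] := by
  ext i
  fin_cases i <;> simp [t4mat, t4act, Matrix.mulVec, dotProduct, Fin.sum_univ_two]

theorem regmat_core {p : ℕ} [Fact p.Prime]
    (S : Set (Matrix.GeneralLinearGroup (Fin 2) (ZMod p))) (L : List (T4 p))
    (hK : ∀ h ∈ Subgroup.closure S, ∃ t ∈ L,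
      (h : Matrix (Fin 2) (Fin 2) (ZMod p)) = t4mat t)
    (hL : ∀ t ∈ L, ∃ h ∈ Subgroup.closure S,
      (h : Matrix (Fin 2) (Fin 2) (ZMod p)) = t4mat t)
    (hsemi : ∀ t ∈ L, t ≠ t4one p → (t.1 - 1) * (t.2.2.2 - 1) - t.2.1 * t.2.2.1 ≠ 0)
    (htr : ∀ w : ZMod p × ZMod p, w ≠ 0 → ∃ t ∈ L, t4act t (1, 0) = w) :
    Nat.card (Subgroup.closure S) = p ^ 2 - 1 ∧
    ∀ v w : Fin 2 → ZMod p, v ≠ 0 → w ≠ 0 → ∃! h : Subgroup.closure S,
      Matrix.mulVec ((h : Matrix.GeneralLinearGroup (Fin 2) (ZMod p)) :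
        Matrix (Fin 2) (Fin 2) (ZMod p)) v = w := by
  classical
  haveI : NeZero p := ⟨(Fact.out : p.Prime).ne_zero⟩
  have hsr : ∀ h ∈ Subgroup.closure S, ∀ v : Fin 2 → ZMod p, v ≠ 0 →
      Matrix.mulVec (h : Matrix (Fin 2) (Fin 2) (ZMod p)) v = v → h = 1 := by
    intro h hh v hv hfix
    obtain ⟨t, ht, e⟩ := hK h hh
    by_cases hte : t = t4one p
    · apply Units.ext
      rw [e, hte, t4mat_one]; rfl
    · exfalso
      have hdet : (t4mat t - 1).det ≠ 0 := by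
        have : (t4mat t - 1).det = (t.1 - 1) * (t.2.2.2 - 1) - t.2.1 * t.2.2.1 := by
          rw [Matrix.det_fin_two]
          simp [t4mat]
        rw [this]; exact hsemi t ht hte
      apply hv
      apply Matrix.eq_zero_of_mulVec_eq_zero hdet
      rw [Matrix.sub_mulVec, Matrix.one_mulVec, ← e, hfix, sub_self]
  have hvec : ∀ v : Fin 2 → ZMod p, v = ![v 0, v 1] := by
    intro v; ext i; fin_cases i <;> rfl
  have hv₀' : (![1, 0] : Fin 2 → ZMod p) ≠ 0 := by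
    intro h
    have h0 : (1 : ZMod p) = 0 := by simpa using congrFun h 0
    exact one_ne_zero h0
  have hne : ∀ h : Matrix.GeneralLinearGroup (Fin 2) (ZMod p),
      Matrix.mulVec (h : Matrix (Fin 2) (Fin 2) (ZMod p)) ![1, 0] ≠ 0 := by
    intro h h0
    apply hv₀'
    have : Matrix.mulVec ((h⁻¹ : Matrix.GeneralLinearGroup (Fin 2) (ZMod p)) :
        Matrix (Fin 2) (Fin 2) (ZMod p))
        (Matrix.mulVec (h : Matrix (Fin 2) (Fin 2) (ZMod p)) ![1, 0]) = ![1, 0] := by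
      rw [Matrix.mulVec_mulVec, ← Units.val_mul, inv_mul_cancel, Units.val_one,
        Matrix.one_mulVec]
    rw [← this, h0, Matrix.mulVec_zero]
  have htr0 : ∀ w : Fin 2 → ZMod p, w ≠ 0 → ∃ h ∈ Subgroup.closure S,
      Matrix.mulVec (h : Matrix (Fin 2) (Fin 2) (ZMod p)) ![1, 0] = w := by
    intro w hw
    have hw' : ((w 0, w 1) : ZMod p × ZMod p) ≠ 0 := by
      intro h
      apply hw
      rw [hvec w]
      have h0 : w 0 = 0 := congrArg Prod.fst h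
      have h1' : w 1 = 0 := congrArg Prod.snd h
      rw [h0, h1']
      ext i; fin_cases i <;> rfl
    obtain ⟨t, ht, e⟩ := htr _ hw'
    obtain ⟨h, hh, eh⟩ := hL t ht
    refine ⟨h, hh, ?_⟩
    have e2 := t4mat_mulVec t ((1, 0) : ZMod p × ZMod p)
    rw [e] at e2
    rw [eh]
    exact e2.trans (hvec w).symm
  have hEU : ∀ v w : Fin 2 → ZMod p, v ≠ 0 → w ≠ 0 → ∃! h : Subgroup.closure S,
      Matrix.mulVec ((h : Matrix.GeneralLinearGroup (Fin 2) (ZMod p)) :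
        Matrix (Fin 2) (Fin 2) (ZMod p)) v = w := by
    intro v w hv hw
    obtain ⟨h₁, hh₁, e₁⟩ := htr0 v hv
    obtain ⟨h₂, hh₂, e₂⟩ := htr0 w hw
    have e3 : Matrix.mulVec ((h₂ * h₁⁻¹ : Matrix.GeneralLinearGroup (Fin 2) (ZMod p)) :
        Matrix (Fin 2) (Fin 2) (ZMod p)) v = w := by
      rw [← e₁, Matrix.mulVec_mulVec, ← Units.val_mul, inv_mul_cancel_right, e₂]
    refine ⟨⟨h₂ * h₁⁻¹, Subgroup.mul_mem _ hh₂ (Subgroup.inv_mem _ hh₁)⟩, e3, ?_⟩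
    rintro ⟨h', hh'⟩ e'
    have e'' : Matrix.mulVec (h' : Matrix (Fin 2) (Fin 2) (ZMod p)) v = w := e'
    apply Subtype.ext
    show h' = h₂ * h₁⁻¹
    have hfix : Matrix.mulVec (((h₂ * h₁⁻¹)⁻¹ * h' : Matrix.GeneralLinearGroup (Fin 2) (ZMod p)) :
        Matrix (Fin 2) (Fin 2) (ZMod p)) v = v := by
      rw [Units.val_mul, ← Matrix.mulVec_mulVec, e'', ← e3, Matrix.mulVec_mulVec,
        ← Units.val_mul, inv_mul_cancel, Units.val_one, Matrix.one_mulVec]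
    have := hsr _ (Subgroup.mul_mem _ (Subgroup.inv_mem _
      (Subgroup.mul_mem _ hh₂ (Subgroup.inv_mem _ hh₁))) hh') v hv hfix
    exact (inv_mul_eq_one.1 this).symm
  refine ⟨?_, hEU⟩
  let f : Subgroup.closure S → {w : Fin 2 → ZMod p // w ≠ 0} := fun h => ⟨_, hne h⟩
  have hbij : Function.Bijective f := by
    rw [Function.bijective_iff_existsUnique]
    rintro ⟨w, hw⟩
    obtain ⟨h, hh, huniq⟩ := hEU _ w hv₀' hw
    exact ⟨h, Subtype.ext hh, fun h' hh' => huniq h' (congrArg Subtype.val hh')⟩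
  rw [Nat.card_congr (Equiv.ofBijective f hbij), Nat.card_eq_fintype_card, Fintype.card_subtype,
    Finset.filter_ne', Finset.card_erase_of_mem (Finset.mem_univ _), Finset.card_univ,
    Fintype.card_fun, ZMod.card, Fintype.card_fin]

abbrev N4 : Type := ℕ × ℕ × ℕ × ℕ

def n4c (p : ℕ) (t : N4) : T4 p :=
  ((t.1 : ZMod p), (t.2.1 : ZMod p), (t.2.2.1 : ZMod p), (t.2.2.2 : ZMod p))

def n4mul (p : ℕ) (s t : N4) : N4 :=
  ((s.1 * t.1 + s.2.1 * t.2.2.1) % p, (s.1 * t.2.1 + s.2.1 * t.2.2.2) % p,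
   (s.2.2.1 * t.1 + s.2.2.2 * t.2.2.1) % p, (s.2.2.1 * t.2.1 + s.2.2.2 * t.2.2.2) % p)

def n4chk (p : ℕ) (gens : List N4) : List N4 → List N4 → Bool
  | _, [] => true
  | acc, t :: rest =>
    (decide (t = (1, 0, 0, 1)) || gens.any (fun g => acc.any (fun s => decide (t = n4mul p g s))))
      && n4chk p gens (t :: acc) rest

theorem n4c_mul (p : ℕ) (s t : N4) : n4c p (n4mul p s t) = t4mul (n4c p s) (n4c p t) := by
  simp [n4c, n4mul, t4mul, ZMod.natCast_mod]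

theorem n4c_one (p : ℕ) : n4c p (1, 0, 0, 1) = t4one p := by
  simp [n4c, t4one]

theorem n4chk_spec (p : ℕ) (gens : List N4) (P : N4 → Prop) (h1 : P (1, 0, 0, 1))
    (hstep : ∀ g ∈ gens, ∀ s, P s → P (n4mul p g s)) :
    ∀ (rest acc : List N4), n4chk p gens acc rest = true → (∀ s ∈ acc, P s) →
      ∀ t ∈ rest, P t := by
  intro rest
  induction rest with
  | nil => intro acc _ _ t ht; simp at ht
  | cons t rest ih =>
    intro acc hchk hacc u hu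
    unfold n4chk at hchk
    rw [Bool.and_eq_true, Bool.or_eq_true] at hchk
    obtain ⟨h0, hrest⟩ := hchk
    have hPt : P t := by
      rcases h0 with h0 | h0
      · rw [decide_eq_true_eq] at h0
        rw [h0]; exact h1
      · rw [List.any_eq_true] at h0
        obtain ⟨g, hg, h0⟩ := h0
        rw [List.any_eq_true] at h0
        obtain ⟨s, hs, h0⟩ := h0
        rw [decide_eq_true_eq] at h0
        rw [h0]
        exact hstep g hg s (hacc s hs)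
    rcases List.mem_cons.1 hu with hut | hu
    · rw [hut]; exact hPt
    · refine ih (t :: acc) hrest ?_ u hu
      intro s hs
      rcases List.mem_cons.1 hs with hst | hs
      · rw [hst]; exact hPt
      · exact hacc s hs

theorem regmat_nat {p : ℕ} [Fact p.Prime]
    (S : Set (Matrix.GeneralLinearGroup (Fin 2) (ZMod p)))
    (gens ginv L : List N4)
    (hS : ∀ g ∈ S, ∃ t ∈ gens, (g : Matrix (Fin 2) (Fin 2) (ZMod p)) = t4mat (n4c p t))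
    (hS' : ∀ t ∈ gens, ∃ g ∈ S, (g : Matrix (Fin 2) (Fin 2) (ZMod p)) = t4mat (n4c p t))
    (hinv : ∀ t ∈ gens, ∃ t' ∈ ginv, n4mul p t t' = (1, 0, 0, 1))
    (h1 : (1, 0, 0, 1) ∈ L)
    (hgen : ∀ g ∈ gens, ∀ t ∈ L, n4mul p g t ∈ L)
    (hginv : ∀ g ∈ ginv, ∀ t ∈ L, n4mul p g t ∈ L)
    (hsemi : ∀ t ∈ L, t ≠ (1, 0, 0, 1) →
      (t.1 * t.2.2.2 + 1) % p ≠ (t.1 + t.2.2.2 + t.2.1 * t.2.2.1) % p)
    (hchk : n4chk p gens [] L = true)
    (htr : ∀ x < p, ∀ y < p, (x, y) ≠ (0, 0) → ∃ t ∈ L, (t.1 % p, t.2.2.1 % p) = (x, y)) :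
    Nat.card (Subgroup.closure S) = p ^ 2 - 1 ∧
    ∀ v w : Fin 2 → ZMod p, v ≠ 0 → w ≠ 0 → ∃! h : Subgroup.closure S,
      Matrix.mulVec ((h : Matrix.GeneralLinearGroup (Fin 2) (ZMod p)) :
        Matrix (Fin 2) (Fin 2) (ZMod p)) v = w := by
  classical
  haveI : NeZero p := ⟨(Fact.out : p.Prime).ne_zero⟩
  apply regmat_core S (L.map (n4c p))
  · -- hK
    intro h hh
    suffices hs : ∃ t ∈ L, (h : Matrix (Fin 2) (Fin 2) (ZMod p)) = t4mat (n4c p t) by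
      obtain ⟨t, ht, e⟩ := hs
      exact ⟨n4c p t, List.mem_map.2 ⟨t, ht, rfl⟩, e⟩
    induction hh using Subgroup.closure_induction_left with
    | one => exact ⟨(1, 0, 0, 1), h1, by rw [n4c_one, t4mat_one]; rfl⟩
    | mul_left x hx y hy ih =>
      obtain ⟨tx, htx, ex⟩ := hS x hx
      obtain ⟨ty, hty, ey⟩ := ih
      exact ⟨n4mul p tx ty, hgen tx htx ty hty, by
        rw [n4c_mul, ← t4mat_mul, ← ex, ← ey]; rfl⟩
    | inv_mul_cancel x hx y hy ih =>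
      obtain ⟨tx, htx, ex⟩ := hS x hx
      obtain ⟨tx', htx', e1⟩ := hinv tx htx
      obtain ⟨ty, hty, ey⟩ := ih
      have hxi : ((x⁻¹ : Matrix.GeneralLinearGroup (Fin 2) (ZMod p)) :
          Matrix (Fin 2) (Fin 2) (ZMod p)) = t4mat (n4c p tx') := by
        have h2 : (x : Matrix (Fin 2) (Fin 2) (ZMod p)) * t4mat (n4c p tx') = 1 := by
          rw [ex, t4mat_mul, ← n4c_mul, e1, n4c_one, t4mat_one]
        have h3 : ((x⁻¹ : Matrix.GeneralLinearGroup (Fin 2) (ZMod p)) :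
            Matrix (Fin 2) (Fin 2) (ZMod p)) * (x : Matrix (Fin 2) (Fin 2) (ZMod p)) = 1 := by
          rw [← Units.val_mul, inv_mul_cancel]; rfl
        calc ((x⁻¹ : Matrix.GeneralLinearGroup (Fin 2) (ZMod p)) :
              Matrix (Fin 2) (Fin 2) (ZMod p))
            = ((x⁻¹ : Matrix.GeneralLinearGroup (Fin 2) (ZMod p)) :
              Matrix (Fin 2) (Fin 2) (ZMod p)) *
                ((x : Matrix (Fin 2) (Fin 2) (ZMod p)) * t4mat (n4c p tx')) := by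
                  rw [h2, mul_one]
          _ = t4mat (n4c p tx') := by rw [← mul_assoc, h3, one_mul]
      exact ⟨n4mul p tx' ty, hginv tx' htx' ty hty, by
        rw [n4c_mul, ← t4mat_mul, ← hxi, ← ey]; rfl⟩
  · -- hL
    intro t ht
    obtain ⟨s, hs, rfl⟩ := List.mem_map.1 ht
    refine n4chk_spec p gens
      (fun s => ∃ h ∈ Subgroup.closure S,
        (h : Matrix (Fin 2) (Fin 2) (ZMod p)) = t4mat (n4c p s)) ?_ ?_ L [] hchk ?_ s hs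
    · exact ⟨1, Subgroup.one_mem _, by rw [n4c_one, t4mat_one]; rfl⟩
    · rintro g hg s ⟨h, hh, e⟩
      obtain ⟨x, hx, ex⟩ := hS' g hg
      exact ⟨x * h, Subgroup.mul_mem _ (Subgroup.subset_closure hx) hh, by
        rw [n4c_mul, ← t4mat_mul, ← ex, ← e]; rfl⟩
    · intro s hs; simp at hs
  · -- hsemi
    intro t ht hne
    obtain ⟨s, hs, rfl⟩ := List.mem_map.1 ht
    have hs1 : s ≠ (1, 0, 0, 1) := by
      intro e; apply hne; rw [e, n4c_one]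
    have h6 := hsemi s hs hs1
    intro h0
    apply h6
    rw [← ZMod.natCast_eq_natCast_iff']
    push_cast
    simp only [n4c] at h0
    linear_combination h0
  · -- htr
    rintro ⟨x, y⟩ hw
    have hxy : (x.val, y.val) ≠ (0, 0) := by
      intro h
      apply hw
      have hx : x.val = 0 := congrArg Prod.fst h
      have hy : y.val = 0 := congrArg Prod.snd h
      rw [ZMod.val_eq_zero] at hx hy
      rw [hx, hy]; rfl
    obtain ⟨t, ht, e⟩ := htr x.val (ZMod.val_lt x) y.val (ZMod.val_lt y) hxy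
    refine ⟨n4c p t, List.mem_map.2 ⟨t, ht, rfl⟩, ?_⟩
    have ex : ((t.1 : ℕ) : ZMod p) = x := by
      have := congrArg Prod.fst e
      simp only at this
      rw [← ZMod.natCast_mod, this, ZMod.natCast_zmod_val]
    have ey : ((t.2.2.1 : ℕ) : ZMod p) = y := by
      have := congrArg Prod.snd e
      simp only at this
      rw [← ZMod.natCast_mod, this, ZMod.natCast_zmod_val]
    simp only [t4act, n4c, mul_one, mul_zero, add_zero]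
    rw [ex, ey]


def nfL5 : List N4 := [(1, 0, 0, 1), (2, 0, 0, 3), (0, 4, 1, 0), (1, 2, 1, 3), (4, 0, 0, 4), (0, 2, 2, 0), (2, 1, 2, 4), (0, 3, 3, 0), (2, 4, 3, 4), (4, 2, 1, 2), (3, 3, 4, 1), (3, 0, 0, 2), (0, 1, 4, 0), (4, 3, 4, 2), (3, 1, 2, 1), (1, 4, 3, 3), (1, 3, 4, 3), (3, 2, 1, 1), (3, 4, 3, 1), (1, 1, 2, 3), (2, 2, 1, 4), (2, 3, 4, 4), (4, 4, 3, 2), (4, 1, 2, 2)]

def nfL11 : List N4 := [(1, 0, 0, 1), (0, 10, 1, 0), (2, 4, 1, 8), (10, 0, 0, 10), (4, 9, 8, 10), (10, 3, 2, 4), (8, 7, 10, 2), (0, 1, 10, 0), (9, 7, 10, 3), (3, 1, 4, 9), (7, 3, 2, 1), (6, 0, 4, 2), (1, 9, 8, 7), (7, 2, 3, 1), (1, 8, 9, 7), (3, 4, 1, 9), (0, 5, 2, 7), (9, 10, 7, 3), (7, 9, 6, 0), (6, 8, 5, 5), (1, 2, 10, 10), (8, 10, 7, 2), (4, 8, 9, 10), (5, 0, 7, 9), (10, 2, 3, 4), (9, 4, 0, 5), (8, 5, 5, 6), (2, 10, 10, 1), (5, 7, 0, 9), (6, 6, 6, 8), (1, 1, 1, 2), (9, 0, 4, 5), (0, 6,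 9, 4), (2, 1, 4, 8), (4, 2, 5, 0), (5, 3, 6, 6), (10, 9, 1, 1), (7, 6, 9, 0), (6, 5, 8, 5), (1, 10, 2, 10), (0, 2, 5, 7), (10, 6, 5, 2), (3, 0, 10, 4), (6, 10, 9, 6), (2, 7, 0, 6), (3, 6, 6, 5), (9, 1, 1, 10), (6, 4, 0, 2), (5, 5, 5, 3), (10, 10, 10, 9), (2, 0, 7, 6), (6, 1, 2, 6), (0, 8, 4, 1), (10, 5, 6, 2), (6, 9, 10, 6), (1, 7, 3, 0), (2, 5, 6, 10), (4, 0, 1, 3), (4, 5, 2, 0), (5, 6, 3, 6), (10, 1, 9, 1), (0, 9, 6, 4), (1, 5, 6, 9), (8, 0, 1, 7), (5, 1, 2, 5), (9, 5, 6, 1), (7, 10, 0, 8), (5, 9, 10, 5), (0, 7, 3, 10), (8, 9, 9, 2), (3, 3, 3, 7), (10, 8, 4, 0), (5, 10, 9, 5), (0, 3, 7, 10), (1, 6, 5, 9), (5, 2, 1, 5), (10, 4, 8, 0), (9, 6, 5, 1), (7, 0, 10, 8), (9, 3, 2, 2), (3, 8, 7, 8), (8, 1, 0, 7), (2, 9, 8, 9), (8, 4, 3, 3), (7, 1, 5, 4), (3, 5, 9, 8), (2, 6, 5, 10), (4, 1, 0, 3), (6, 2, 1, 6), (0, 4, 8, 1), (3, 2, 2, 9), (8, 8, 8, 4), (1, 3, 7, 0), (9,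 9, 9, 3), (4, 3, 3, 8), (1, 4, 4, 6), (5, 8, 8, 2), (3, 10, 0, 4), (6, 7, 7, 1), (2, 3, 3, 5), (2, 8, 9, 9), (8, 3, 4, 3), (9, 2, 3, 2), (3, 7, 8, 8), (4, 10, 6, 7), (8, 6, 2, 3), (7, 5, 1, 4), (3, 9, 5, 8), (6, 3, 3, 9), (7, 7, 7, 4), (5, 4, 4, 10), (2, 2, 2, 8), (7, 8, 8, 3), (10, 7, 7, 5), (9, 8, 8, 6), (7, 4, 4, 4), (4, 6, 10, 7), (8, 2, 6, 3), (4, 7, 7, 7), (4, 4, 4, 7)]

theorem nf5_hinv : ∀ t ∈ ([(2, 0, 0, 3), (0, 4, 1, 0), (1, 2, 1, 3)] : List N4),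
    ∃ t' ∈ ([(3, 0, 0, 2), (0, 1, 4, 0), (3, 3, 4, 1)] : List N4),
      n4mul 5 t t' = (1, 0, 0, 1) := by decide +kernel
theorem nf5_h1 : (1, 0, 0, 1) ∈ nfL5 := by decide +kernel
theorem nf5_hgen : ∀ g ∈ ([(2, 0, 0, 3), (0, 4, 1, 0), (1, 2, 1, 3)] : List N4),
    ∀ t ∈ nfL5, n4mul 5 g t ∈ nfL5 := by decide +kernel
theorem nf5_hginv : ∀ g ∈ ([(3, 0, 0, 2), (0, 1, 4, 0), (3, 3, 4, 1)] : List N4),
    ∀ t ∈ nfL5, n4mul 5 g t ∈ nfL5 := by decide +kernel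
theorem nf5_hsemi : ∀ t ∈ nfL5, t ≠ (1, 0, 0, 1) →
    (t.1 * t.2.2.2 + 1) % 5 ≠ (t.1 + t.2.2.2 + t.2.1 * t.2.2.1) % 5 := by decide +kernel
theorem nf5_hchk : n4chk 5 [(2, 0, 0, 3), (0, 4, 1, 0), (1, 2, 1, 3)] [] nfL5 = true := by
  decide +kernel
theorem nf5_htr : ∀ x < 5, ∀ y < 5, (x, y) ≠ (0, 0) →
    ∃ t ∈ nfL5, (t.1 % 5, t.2.2.1 % 5) = (x, y) := by decide +kernel

theorem nf11_hinv : ∀ t ∈ ([(0, 10, 1, 0), (2, 4, 1, 8)] : List N4),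
    ∃ t' ∈ ([(0, 1, 10, 0), (8, 7, 10, 2)] : List N4), n4mul 11 t t' = (1, 0, 0, 1) := by
  decide +kernel
theorem nf11_h1 : (1, 0, 0, 1) ∈ nfL11 := by decide +kernel
theorem nf11_hgen : ∀ g ∈ ([(0, 10, 1, 0), (2, 4, 1, 8)] : List N4),
    ∀ t ∈ nfL11, n4mul 11 g t ∈ nfL11 := by decide +kernel
theorem nf11_hginv : ∀ g ∈ ([(0, 1, 10, 0), (8, 7, 10, 2)] : List N4),
    ∀ t ∈ nfL11, n4mul 11 g t ∈ nfL11 := by decide +kernel
theorem nf11_hsemi : ∀ t ∈ nfL11, t ≠ (1, 0, 0, 1) →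
    (t.1 * t.2.2.2 + 1) % 11 ≠ (t.1 + t.2.2.2 + t.2.1 * t.2.2.1) % 11 := by decide +kernel
theorem nf11_hchk : n4chk 11 [(0, 10, 1, 0), (2, 4, 1, 8)] [] nfL11 = true := by decide +kernel
theorem nf11_htr : ∀ x < 11, ∀ y < 11, (x, y) ≠ (0, 0) →
    ∃ t ∈ nfL11, (t.1 % 11, t.2.2.1 % 11) = (x, y) := by decide +kernel

end Cfsg.Agent.Lib.Lead
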