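import Mathlib
import Cfsg.Agent.Lib.Lead.RegMat

set_option autoImplicit false

namespace Cfsg.Agent.Lib.Lead

theorem regmat_core2 {p : ℕ} [Fact p.Prime]
    (S : Set (Matrix.GeneralLinearGroup (Fin 2) (ZMod p))) (P : T4 p → Prop)
    (hK : ∀ h ∈ Subgroup.closure S, ∃ t, P t ∧
      (h : Matrix (Fin 2) (Fin 2) (ZMod p)) = t4mat t)
    (hsemi : ∀ t, P t → t ≠ t4one p → (t.1 - 1) * (t.2.2.2 - 1) - t.2.1 * t.2.2.1 ≠ 0)
    (hcard : p ^ 2 - 1 ≤ Nat.card (Subgroup.closure S)) :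
    Nat.card (Subgroup.closure S) = p ^ 2 - 1 ∧
    ∀ v w : Fin 2 → ZMod p, v ≠ 0 → w ≠ 0 → ∃! h : Subgroup.closure S,
      Matrix.mulVec ((h : Matrix.GeneralLinearGroup (Fin 2) (ZMod p)) :
        Matrix (Fin 2) (Fin 2) (ZMod p)) v = w := by
  classical
  haveI : NeZero p := ⟨(Fact.out : p.Prime).ne_zero⟩
  have hsr : ∀ h ∈ Subgroup.closure S, ∀ v : Fin 2 → ZMod p, v ≠ 0 →
      Matrix.mulVec (h : Matrix (Fin 2) (Fin 2) (ZMod p)) v = v → h = 1 := by
    intro h hh v hv hfix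
    obtain ⟨t, ht, e⟩ := hK h hh
    by_cases hte : t = t4one p
    · apply Units.ext
      rw [e, hte, t4mat_one]; rfl
    · exfalso
      have hdet : (t4mat t - 1).det ≠ 0 := by
        have : (t4mat t - 1).det = (t.1 - 1) * (t.2.2.2 - 1) - t.2.1 * t.2.2.1 := by
          rw [Matrix.det_fin_two]
          simp [t4mat]
        rw [this]; exact hsemi t ht hte
      apply hv
      apply Matrix.eq_zero_of_mulVec_eq_zero hdet
      rw [Matrix.sub_mulVec, Matrix.one_mulVec, ← e, hfix, sub_self]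
  have hne : ∀ (h : Matrix.GeneralLinearGroup (Fin 2) (ZMod p)) (v : Fin 2 → ZMod p), v ≠ 0 →
      Matrix.mulVec (h : Matrix (Fin 2) (Fin 2) (ZMod p)) v ≠ 0 := by
    intro h v hv h0
    apply hv
    have : Matrix.mulVec ((h⁻¹ : Matrix.GeneralLinearGroup (Fin 2) (ZMod p)) :
        Matrix (Fin 2) (Fin 2) (ZMod p))
        (Matrix.mulVec (h : Matrix (Fin 2) (Fin 2) (ZMod p)) v) = v := by
      rw [Matrix.mulVec_mulVec, ← Units.val_mul, inv_mul_cancel, Units.val_one,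
        Matrix.one_mulVec]
    rw [← this, h0, Matrix.mulVec_zero]
  have hcardW : Nat.card {w : Fin 2 → ZMod p // w ≠ 0} = p ^ 2 - 1 := by
    rw [Nat.card_eq_fintype_card, Fintype.card_subtype,
      Finset.filter_ne', Finset.card_erase_of_mem (Finset.mem_univ _), Finset.card_univ,
      Fintype.card_fun, ZMod.card, Fintype.card_fin]
  have hinj : ∀ v : Fin 2 → ZMod p, ∀ hv : v ≠ 0, Function.Injective
      (fun h : Subgroup.closure S => (⟨_, hne h v hv⟩ : {w : Fin 2 → ZMod p // w ≠ 0})) := by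
    intro v hv h₁ h₂ e
    have e' : Matrix.mulVec ((h₁ : Matrix.GeneralLinearGroup (Fin 2) (ZMod p)) :
        Matrix (Fin 2) (Fin 2) (ZMod p)) v
        = Matrix.mulVec ((h₂ : Matrix.GeneralLinearGroup (Fin 2) (ZMod p)) :
        Matrix (Fin 2) (Fin 2) (ZMod p)) v := congrArg Subtype.val e
    have hfix : Matrix.mulVec (((h₂ : Matrix.GeneralLinearGroup (Fin 2) (ZMod p))⁻¹ * h₁ :
        Matrix.GeneralLinearGroup (Fin 2) (ZMod p)) : Matrix (Fin 2) (Fin 2) (ZMod p)) v = v := by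
      rw [Units.val_mul, ← Matrix.mulVec_mulVec, e', Matrix.mulVec_mulVec,
        ← Units.val_mul, inv_mul_cancel, Units.val_one, Matrix.one_mulVec]
    have := hsr _ (Subgroup.mul_mem _ (Subgroup.inv_mem _ h₂.2) h₁.2) v hv hfix
    apply Subtype.ext
    exact (inv_mul_eq_one.1 this).symm
  have hv₀' : (![1, 0] : Fin 2 → ZMod p) ≠ 0 := by
    intro h
    have h0 : (1 : ZMod p) = 0 := by simpa using congrFun h 0
    exact one_ne_zero h0
  haveI : Finite (Subgroup.closure S) := inferInstance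
  have hle : Nat.card (Subgroup.closure S) ≤ p ^ 2 - 1 := by
    rw [← hcardW]
    exact Nat.card_le_card_of_injective _ (hinj _ hv₀')
  have hceq : Nat.card (Subgroup.closure S) = p ^ 2 - 1 := le_antisymm hle hcard
  refine ⟨hceq, ?_⟩
  intro v w hv hw
  have hbij := (hinj v hv).bijective_of_nat_card_le (by rw [hcardW, hceq])
  obtain ⟨h, hh⟩ := hbij.2 ⟨w, hw⟩
  refine ⟨h, congrArg Subtype.val hh, ?_⟩
  intro h' hh'
  apply hinj v hv
  apply Subtype.ext
  exact hh'.trans (congrArg Subtype.val hh).symm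

theorem regmat_closure {p : ℕ} [Fact p.Prime]
    (S : Set (Matrix.GeneralLinearGroup (Fin 2) (ZMod p)))
    (gens ginv L : List N4)
    (hS : ∀ g ∈ S, ∃ t ∈ gens, (g : Matrix (Fin 2) (Fin 2) (ZMod p)) = t4mat (n4c p t))
    (hS' : ∀ t ∈ gens, ∃ g ∈ S, (g : Matrix (Fin 2) (Fin 2) (ZMod p)) = t4mat (n4c p t))
    (hinv : ∀ t ∈ gens, ∃ t' ∈ ginv, n4mul p t t' = (1, 0, 0, 1))
    (h1 : (1, 0, 0, 1) ∈ L)
    (hgen : ∀ g ∈ gens, ∀ t ∈ L, n4mul p g t ∈ L)
    (hginv : ∀ g ∈ ginv, ∀ t ∈ L, n4mul p g t ∈ L)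
    (hchk : n4chk p gens [] L = true) :
    (∀ h ∈ Subgroup.closure S, ∃ t ∈ L,
      (h : Matrix (Fin 2) (Fin 2) (ZMod p)) = t4mat (n4c p t)) ∧
    (∀ t ∈ L, ∃ h ∈ Subgroup.closure S,
      (h : Matrix (Fin 2) (Fin 2) (ZMod p)) = t4mat (n4c p t)) := by
  classical
  haveI : NeZero p := ⟨(Fact.out : p.Prime).ne_zero⟩
  constructor
  · intro h hh
    induction hh using Subgroup.closure_induction_left with
    | one => exact ⟨(1, 0, 0, 1), h1, by rw [n4c_one, t4mat_one]; rfl⟩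
    | mul_left x hx y hy ih =>
      obtain ⟨tx, htx, ex⟩ := hS x hx
      obtain ⟨ty, hty, ey⟩ := ih
      exact ⟨n4mul p tx ty, hgen tx htx ty hty, by
        rw [n4c_mul, ← t4mat_mul, ← ex, ← ey]; rfl⟩
    | inv_mul_cancel x hx y hy ih =>
      obtain ⟨tx, htx, ex⟩ := hS x hx
      obtain ⟨tx', htx', e1⟩ := hinv tx htx
      obtain ⟨ty, hty, ey⟩ := ih
      have hxi : ((x⁻¹ : Matrix.GeneralLinearGroup (Fin 2) (ZMod p)) :
          Matrix (Fin 2) (Fin 2) (ZMod p)) = t4mat (n4c p tx') := by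
        have h2 : (x : Matrix (Fin 2) (Fin 2) (ZMod p)) * t4mat (n4c p tx') = 1 := by
          rw [ex, t4mat_mul, ← n4c_mul, e1, n4c_one, t4mat_one]
        have h3 : ((x⁻¹ : Matrix.GeneralLinearGroup (Fin 2) (ZMod p)) :
            Matrix (Fin 2) (Fin 2) (ZMod p)) * (x : Matrix (Fin 2) (Fin 2) (ZMod p)) = 1 := by
          rw [← Units.val_mul, inv_mul_cancel]; rfl
        calc ((x⁻¹ : Matrix.GeneralLinearGroup (Fin 2) (ZMod p)) :
              Matrix (Fin 2) (Fin 2) (ZMod p))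
            = ((x⁻¹ : Matrix.GeneralLinearGroup (Fin 2) (ZMod p)) :
              Matrix (Fin 2) (Fin 2) (ZMod p)) *
                ((x : Matrix (Fin 2) (Fin 2) (ZMod p)) * t4mat (n4c p tx')) := by
                  rw [h2, mul_one]
          _ = t4mat (n4c p tx') := by rw [← mul_assoc, h3, one_mul]
      exact ⟨n4mul p tx' ty, hginv tx' htx' ty hty, by
        rw [n4c_mul, ← t4mat_mul, ← hxi, ← ey]; rfl⟩
  · intro s hs
    refine n4chk_spec p gens
      (fun s => ∃ h ∈ Subgroup.closure S,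
        (h : Matrix (Fin 2) (Fin 2) (ZMod p)) = t4mat (n4c p s)) ?_ ?_ L [] hchk ?_ s hs
    · exact ⟨1, Subgroup.one_mem _, by rw [n4c_one, t4mat_one]; rfl⟩
    · rintro g hg s ⟨h, hh, e⟩
      obtain ⟨x, hx, ex⟩ := hS' g hg
      exact ⟨x * h, Subgroup.mul_mem _ (Subgroup.subset_closure hx) hh, by
        rw [n4c_mul, ← t4mat_mul, ← ex, ← e]; rfl⟩
    · intro s hs; simp at hs

theorem t4mat_n4c_inj {p : ℕ} [NeZero p] (s t : N4)
    (hs : s.1 < p ∧ s.2.1 < p ∧ s.2.2.1 < p ∧ s.2.2.2 < p)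
    (ht : t.1 < p ∧ t.2.1 < p ∧ t.2.2.1 < p ∧ t.2.2.2 < p)
    (h : t4mat (n4c p s) = t4mat (n4c p t)) : s = t := by
  have key : ∀ a b : ℕ, a < p → b < p → ((a : ℕ) : ZMod p) = ((b : ℕ) : ZMod p) → a = b := by
    intro a b ha hb hab
    rw [ZMod.natCast_eq_natCast_iff'] at hab
    rwa [Nat.mod_eq_of_lt ha, Nat.mod_eq_of_lt hb] at hab
  have h00 := congrFun (congrFun h 0) 0
  have h01 := congrFun (congrFun h 0) 1
  have h10 := congrFun (congrFun h 1) 0
  have h11 := congrFun (congrFun h 1) 1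
  simp [t4mat, n4c] at h00 h01 h10 h11
  obtain ⟨s1, s2, s3, s4⟩ := s
  obtain ⟨t1, t2, t3, t4⟩ := t
  simp only at hs ht h00 h01 h10 h11
  rw [key _ _ hs.1 ht.1 h00, key _ _ hs.2.1 ht.2.1 h01, key _ _ hs.2.2.1 ht.2.2.1 h10,
    key _ _ hs.2.2.2 ht.2.2.2 h11]

theorem card_closure_of_list {p : ℕ} [Fact p.Prime]
    (S : Set (Matrix.GeneralLinearGroup (Fin 2) (ZMod p))) (L : List N4)
    (hK : ∀ h ∈ Subgroup.closure S, ∃ t ∈ L,
      (h : Matrix (Fin 2) (Fin 2) (ZMod p)) = t4mat (n4c p t))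
    (hL : ∀ t ∈ L, ∃ h ∈ Subgroup.closure S,
      (h : Matrix (Fin 2) (Fin 2) (ZMod p)) = t4mat (n4c p t))
    (hnd : L.Nodup) (hlt : ∀ t ∈ L, t.1 < p ∧ t.2.1 < p ∧ t.2.2.1 < p ∧ t.2.2.2 < p) :
    Nat.card (Subgroup.closure S) = L.length := by
  classical
  haveI : NeZero p := ⟨(Fact.out : p.Prime).ne_zero⟩
  choose f hf using (fun h : Subgroup.closure S => hK h.1 h.2)
  have hfinj : Function.Injective (fun h : Subgroup.closure S =>
      (⟨f h, (hf h).1⟩ : {t : N4 // t ∈ L})) := by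
    intro h₁ h₂ e
    have e' : f h₁ = f h₂ := congrArg Subtype.val e
    apply Subtype.ext
    apply Units.ext
    rw [(hf h₁).2, (hf h₂).2, e']
  have hfsurj : Function.Surjective (fun h : Subgroup.closure S =>
      (⟨f h, (hf h).1⟩ : {t : N4 // t ∈ L})) := by
    rintro ⟨t, ht⟩
    obtain ⟨h, hh, e⟩ := hL t ht
    refine ⟨⟨h, hh⟩, ?_⟩
    apply Subtype.ext
    show f ⟨h, hh⟩ = t
    apply t4mat_n4c_inj _ _ (hlt _ (hf ⟨h, hh⟩).1) (hlt t ht)
    rw [← (hf ⟨h, hh⟩).2, ← e]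
  rw [Nat.card_congr (Equiv.ofBijective _ ⟨hfinj, hfsurj⟩)]
  rw [Nat.subtype_card L.toFinset (by simp), List.toFinset_card_of_nodup hnd]

def n4sc (p c k : ℕ) (t : N4) : N4 :=
  ((c ^ k % p) * t.1 % p, (c ^ k % p) * t.2.1 % p, (c ^ k % p) * t.2.2.1 % p,
    (c ^ k % p) * t.2.2.2 % p)

theorem regmat_scalar {p : ℕ} [Fact p.Prime]
    (S S₀ : Set (Matrix.GeneralLinearGroup (Fin 2) (ZMod p)))
    (C : Matrix.GeneralLinearGroup (Fin 2) (ZMod p)) (c m : ℕ)
    (hSdef : S = S₀ ∪ {C})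
    (gens ginv L : List N4)
    (hS : ∀ g ∈ S₀, ∃ t ∈ gens, (g : Matrix (Fin 2) (Fin 2) (ZMod p)) = t4mat (n4c p t))
    (hS' : ∀ t ∈ gens, ∃ g ∈ S₀, (g : Matrix (Fin 2) (Fin 2) (ZMod p)) = t4mat (n4c p t))
    (hinv : ∀ t ∈ gens, ∃ t' ∈ ginv, n4mul p t t' = (1, 0, 0, 1))
    (h1 : (1, 0, 0, 1) ∈ L)
    (hgen : ∀ g ∈ gens, ∀ t ∈ L, n4mul p g t ∈ L)
    (hginv : ∀ g ∈ ginv, ∀ t ∈ L, n4mul p g t ∈ L)
    (hchk : n4chk p gens [] L = true)
    (hC : (C : Matrix (Fin 2) (Fin 2) (ZMod p)) = t4mat (n4c p (c, 0, 0, c)))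
    (hm : m.Prime) (hcm : c ^ m % p = 1) (hc1 : c % p ≠ 1)
    (hnd : L.Nodup) (hlt : ∀ t ∈ L, t.1 < p ∧ t.2.1 < p ∧ t.2.2.1 < p ∧ t.2.2.2 < p)
    (hcop : Nat.Coprime L.length m) (hprod : L.length * m = p ^ 2 - 1)
    (hsemi : ∀ k < m, ∀ t ∈ L, n4sc p c k t ≠ (1, 0, 0, 1) →
      ((n4sc p c k t).1 * (n4sc p c k t).2.2.2 + 1) % p ≠
        ((n4sc p c k t).1 + (n4sc p c k t).2.2.2 + (n4sc p c k t).2.1 * (n4sc p c k t).2.2.1) % p) :
    Nat.card (Subgroup.closure S) = p ^ 2 - 1 ∧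
    ∀ v w : Fin 2 → ZMod p, v ≠ 0 → w ≠ 0 → ∃! h : Subgroup.closure S,
      Matrix.mulVec ((h : Matrix.GeneralLinearGroup (Fin 2) (ZMod p)) :
        Matrix (Fin 2) (Fin 2) (ZMod p)) v = w := by
  classical
  haveI : NeZero p := ⟨(Fact.out : p.Prime).ne_zero⟩
  have hp1 : 1 < p := (Fact.out : p.Prime).one_lt
  obtain ⟨hK₀, hL₀⟩ := regmat_closure S₀ gens ginv L hS hS' hinv h1 hgen hginv hchk
  have hCval : (C : Matrix (Fin 2) (Fin 2) (ZMod p)) = (c : ZMod p) • (1 : Matrix (Fin 2) (Fin 2) (ZMod p)) := by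
    rw [hC]
    ext i j
    fin_cases i <;> fin_cases j <;> simp [t4mat, n4c]
  have hCpow : ∀ k : ℕ, ((C ^ k : Matrix.GeneralLinearGroup (Fin 2) (ZMod p)) :
      Matrix (Fin 2) (Fin 2) (ZMod p)) = ((c : ZMod p) ^ k) • (1 : Matrix (Fin 2) (Fin 2) (ZMod p)) := by
    intro k
    rw [Units.val_pow_eq_pow_val, hCval, smul_pow, one_pow]
  have hcomm : ∀ g : Matrix.GeneralLinearGroup (Fin 2) (ZMod p), Commute C g := by
    intro g
    apply Units.ext
    rw [Units.val_mul, Units.val_mul, hCval, Matrix.smul_mul, Matrix.mul_smul, one_mul, mul_one]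
  have hcmZ : ((c : ZMod p)) ^ m = 1 := by
    have : ((c ^ m : ℕ) : ZMod p) = ((1 : ℕ) : ZMod p) := by
      rw [ZMod.natCast_eq_natCast_iff', hcm, Nat.mod_eq_of_lt hp1]
    simpa using this
  have hCm : C ^ m = 1 := by
    apply Units.ext
    rw [hCpow, hcmZ, one_smul]; rfl
  have hC1 : C ≠ 1 := by
    intro h
    have h2 : (C : Matrix (Fin 2) (Fin 2) (ZMod p)) 0 0 = 1 := by rw [h]; rfl
    rw [hCval] at h2
    simp at h2
    apply hc1
    have : ((c : ℕ) : ZMod p) = ((1 : ℕ) : ZMod p) := by simpa using h2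
    rw [ZMod.natCast_eq_natCast_iff', Nat.mod_eq_of_lt hp1] at this
    exact this
  haveI : Fact m.Prime := ⟨hm⟩
  have hord : orderOf C = m := orderOf_eq_prime hCm hC1
  -- decomposition
  have hdec : ∀ g ∈ Subgroup.closure S, ∃ k : ℕ, ∃ h ∈ Subgroup.closure S₀, g = C ^ k * h := by
    intro g hg
    induction hg using Subgroup.closure_induction with
    | mem x hx =>
      rw [hSdef] at hx
      rcases hx with hx | hx
      · exact ⟨0, x, Subgroup.subset_closure hx, by rw [pow_zero, one_mul]⟩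
      · rw [Set.mem_singleton_iff] at hx
        exact ⟨1, 1, Subgroup.one_mem _, by rw [hx, pow_one, mul_one]⟩
    | one => exact ⟨0, 1, Subgroup.one_mem _, by rw [pow_zero, one_mul]⟩
    | mul x y _ _ ihx ihy =>
      obtain ⟨k, h, hh, rfl⟩ := ihx
      obtain ⟨l, h', hh', rfl⟩ := ihy
      refine ⟨k + l, h * h', Subgroup.mul_mem _ hh hh', ?_⟩
      have := ((hcomm h).pow_left l).eq
      rw [pow_add]
      calc C ^ k * h * (C ^ l * h') = C ^ k * (h * C ^ l) * h' := by group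
        _ = C ^ k * (C ^ l * h) * h' := by rw [this]
        _ = C ^ k * C ^ l * (h * h') := by group
    | inv x _ ih =>
      obtain ⟨k, h, hh, rfl⟩ := ih
      refine ⟨k * (m - 1), h⁻¹, Subgroup.inv_mem _ hh, ?_⟩
      have h2 : C ^ k * C ^ (k * (m - 1)) = 1 := by
        rw [← pow_add, show k + k * (m - 1) = m * k by
          have := hm.pos
          obtain ⟨m', rfl⟩ : ∃ m', m = m' + 1 := ⟨m - 1, by omega⟩
          simp; ring, pow_mul, hCm, one_pow]
      have h3 : (C ^ k)⁻¹ = C ^ (k * (m - 1)) := inv_eq_of_mul_eq_one_right h2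
      have := ((hcomm h⁻¹).pow_left (k * (m - 1))).eq
      rw [mul_inv_rev, h3, this]
  -- cardinality
  have hcardH : Nat.card (Subgroup.closure S₀) = L.length :=
    card_closure_of_list S₀ L hK₀ hL₀ hnd hlt
  have hcardZ : Nat.card (Subgroup.zpowers C) = m := by rw [Nat.card_zpowers, hord]
  have hH₀le : Subgroup.closure S₀ ≤ Subgroup.closure S := by
    apply Subgroup.closure_mono
    rw [hSdef]; exact Set.subset_union_left
  have hZle : Subgroup.zpowers C ≤ Subgroup.closure S := by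
    rw [Subgroup.zpowers_le]
    apply Subgroup.subset_closure
    rw [hSdef]; exact Set.mem_union_right _ rfl
  have hcard : p ^ 2 - 1 ≤ Nat.card (Subgroup.closure S) := by
    have d1 : L.length ∣ Nat.card (Subgroup.closure S) := by
      rw [← hcardH]; exact Subgroup.card_dvd_of_le hH₀le
    have d2 : m ∣ Nat.card (Subgroup.closure S) := by
      rw [← hcardZ]; exact Subgroup.card_dvd_of_le hZle
    have d3 := hcop.mul_dvd_of_dvd_of_dvd d1 d2
    rw [hprod] at d3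
    exact Nat.le_of_dvd Nat.card_pos d3
  apply regmat_core2 S (fun t => ∃ k < m, ∃ s ∈ L, t = n4c p (n4sc p c k s)) ?_ ?_ hcard
  · intro g hg
    obtain ⟨k, h, hh, rfl⟩ := hdec g hg
    obtain ⟨s, hs, es⟩ := hK₀ h hh
    refine ⟨_, ⟨k % m, Nat.mod_lt _ hm.pos, s, hs, rfl⟩, ?_⟩
    have hk : C ^ k = C ^ (k % m) := by rw [← hord, pow_mod_orderOf]
    rw [hk, Units.val_mul, hCpow, es, Matrix.smul_mul, one_mul]
    ext i j
    fin_cases i <;> fin_cases j <;>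
      simp [t4mat, n4c, n4sc, ZMod.natCast_mod]
  · rintro t ⟨k, hk, s, hs, rfl⟩ hne
    have hs1 : n4sc p c k s ≠ (1, 0, 0, 1) := by
      intro e; apply hne; rw [e, n4c_one]
    have h6 := hsemi k hk s hs hs1
    intro h0
    apply h6
    rw [← ZMod.natCast_eq_natCast_iff']
    push_cast
    simp only [n4c] at h0
    linear_combination h0

end Cfsg.Agent.Lib.Lead
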