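import Mathlib
import Cfsg.Agent.S0854
import Cfsg.Agent.S0857
import Cfsg.Agent.Lib.Helper6.SemiFix
import Cfsg.Agent.Lib.Helper7.Clifford
import Cfsg.Agent.Lib.Lead.MGroup

set_option autoImplicit false

namespace Cfsg.Agent.Lib.Lead

open scoped commutatorElement

/-- the chief-factor hypothesis of the relative M-group theorem -/
def NonSqChief {G : Type*} [Group G] (N : Subgroup G) : Prop :=
  ∀ (H K L : Subgroup G), N ≤ L → L < K → K ≤ H → (∀ h ∈ H, ∀ k ∈ K, h * k * h⁻¹ ∈ K) →
    (∀ h ∈ H, ∀ l ∈ L, h * l * h⁻¹ ∈ L) →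
    (∀ M : Subgroup G, L ≤ M → M ≤ K → (∀ h ∈ H, ∀ m ∈ M, h * m * h⁻¹ ∈ M) → M = L ∨ M = K) →
    ¬ IsSquare (L.relIndex K)

theorem nonSqChief_subgroup {G : Type*} [Group G] (N T : Subgroup G) (hNT : N ≤ T)
    (h : NonSqChief N) : NonSqChief (N.subgroupOf T) := by
  intro H' K' L' h1 h2 h3 h4 h5 h6
  have hinj := T.subtype_injective
  have key := h (H'.map T.subtype) (K'.map T.subtype) (L'.map T.subtype) ?_ ?_ ?_ ?_ ?_ ?_
  · rwa [Subgroup.relIndex_map_map_of_injective _ _ hinj] at key
  · intro n hn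
    exact Subgroup.mem_map.mpr ⟨⟨n, hNT hn⟩, h1 (Subgroup.mem_subgroupOf.mpr hn), rfl⟩
  · exact (Subgroup.map_lt_map_iff_of_injective hinj).mpr h2
  · exact Subgroup.map_mono h3
  · rintro _ ⟨h, hh, rfl⟩ _ ⟨k, hk, rfl⟩
    exact Subgroup.mem_map.mpr ⟨h * k * h⁻¹, h4 h hh k hk, by simp⟩
  · rintro _ ⟨h, hh, rfl⟩ _ ⟨l, hl, rfl⟩
    exact Subgroup.mem_map.mpr ⟨h * l * h⁻¹, h5 h hh l hl, by simp⟩
  · intro M hLM hMK hMinv
    have h7 := h6 (M.comap T.subtype) ?_ ?_ ?_
    · have h8 : M = (M.comap T.subtype).map T.subtype := by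
        rw [Subgroup.map_comap_eq_self]
        exact hMK.trans (Subgroup.map_le_range _ _)
      rcases h7 with h7 | h7
      · left; rw [h8, h7]
      · right; rw [h8, h7]
    · intro l hl
      exact hLM (Subgroup.mem_map_of_mem _ hl)
    · intro m hm
      obtain ⟨k, hk, hkm⟩ := Subgroup.mem_map.mp (hMK (Subgroup.mem_comap.mp hm))
      rw [← hinj hkm]; exact hk
    · intro h hh m hm
      rw [Subgroup.mem_comap] at hm ⊢
      have h9 := hMinv (T.subtype h) (Subgroup.mem_map_of_mem _ hh) (T.subtype m) hm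
      simpa using h9

theorem solvable_subgroupOf_quot {G : Type*} [Group G] (N T : Subgroup G) [N.Normal]
    (h : Group.IsSolvable (G ⧸ N)) : Group.IsSolvable (T ⧸ N.subgroupOf T) := by
  haveI := h
  let f : T ⧸ N.subgroupOf T →* G ⧸ N :=
    QuotientGroup.map (N.subgroupOf T) N T.subtype (fun x hx => hx)
  apply solvable_of_solvable_injective (f := f)
  rw [injective_iff_map_eq_one]
  intro q hq
  obtain ⟨t, rfl⟩ := QuotientGroup.mk_surjective q
  have h1 : ((t : G) : G ⧸ N) = 1 := hq
  rw [QuotientGroup.eq_one_iff] at h1 ⊢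
  exact Subgroup.mem_subgroupOf.mpr h1

theorem indFun_top_restrict {G : Type*} [Group G] [Fintype G] (χ : G → ℂ)
    (hχ : Cfsg.IsClassFunction G χ) :
    Cfsg.indFun (⊤ : Subgroup G) (fun h : (⊤ : Subgroup G) => χ h) = χ := by
  funext g
  rw [indFun_apply]
  have h1 : ∀ x : G, Cfsg.extendByZero (⊤ : Subgroup G) (fun h : (⊤ : Subgroup G) => χ h)
      (x⁻¹ * g * x) = χ g := by
    intro x
    rw [extendByZero_mem' _ _ (Subgroup.mem_top _)]
    have h2 := hχ g x⁻¹
    rw [inv_inv] at h2
    exact h2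
  rw [Finset.sum_congr rfl (fun x _ => h1 x), Finset.sum_const, Finset.card_univ, nsmul_eq_mul,
    ← mul_assoc, Subgroup.card_top, Nat.card_eq_fintype_card, inv_mul_cancel₀, one_mul]
  exact_mod_cast Fintype.card_ne_zero

theorem relM_aux.{u} : ∀ (n : ℕ) (G : Type u) [Group G] [Fintype G], Nat.card G = n →
    ∀ (N : Subgroup G) [N.Normal], Group.IsSolvable (G ⧸ N) → NonSqChief N →
    ∀ χ : G → ℂ, Cfsg.IsIrrCharacter G χ →
      ∃ (H : Subgroup G) (hNH : N ≤ H) (ψ : H → ℂ), Cfsg.IsIrrCharacter H ψ ∧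
        Cfsg.indFun H ψ = χ ∧ Cfsg.IsIrrCharacter N (fun n : N => ψ ⟨(n : G), hNH n.2⟩) := by
  intro n
  induction n using Nat.strong_induction_on with
  | _ n ih =>
    intro G _ _ hGn N _ hsolv hchief χ hχ
    classical
    have hχclass := isClassFunction_of_char (isCharacter_of_irr hχ)
    have htop : Cfsg.IsIrrCharacter (⊤ : Subgroup G) (fun k : (⊤ : Subgroup G) => χ k) :=
      isIrrCharacter_comp_surj (Subgroup.topEquiv : (⊤ : Subgroup G) ≃* G).toMonoidHom
        Subgroup.topEquiv.surjective hχ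
    obtain ⟨K, hKmin⟩ := (Set.toFinite {K : Subgroup G | K.Normal ∧ N ≤ K ∧
      Cfsg.IsIrrCharacter K (fun k : K => χ k)}).exists_minimal ⟨⊤, inferInstance, le_top, htop⟩
    obtain ⟨⟨hKn, hNK, hKirr⟩, hKmin'⟩ := hKmin
    haveI := hKn
    by_cases hKN : K = N
    · subst hKN
      exact ⟨⊤, le_top, fun h => χ h, htop, indFun_top_restrict χ hχclass, hKirr⟩
    · have hNK' : N < K := lt_of_le_of_ne hNK (Ne.symm hKN)
      obtain ⟨L, hNL, hLmax⟩ := (Set.toFinite {L : Subgroup G | L.Normal ∧ N ≤ L ∧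
        L < K}).exists_le_maximal
        (show N ∈ {L : Subgroup G | L.Normal ∧ N ≤ L ∧ L < K} from ⟨inferInstance, le_rfl, hNK'⟩)
      obtain ⟨⟨hLn, -, hLK⟩, hLmax'⟩ := hLmax
      haveI := hLn
      have hchief' : ∀ M : Subgroup G, M.Normal → L ≤ M → M ≤ K → M = L ∨ M = K := by
        intro M hMn hLM hMK
        by_cases hMK' : M = K
        · right; exact hMK'
        · left
          exact le_antisymm (hLmax' (show M ∈ {L : Subgroup G | L.Normal ∧ N ≤ L ∧ L < K} from
            ⟨hMn, hNL.trans hLM, lt_of_le_of_ne hMK hMK'⟩) hLM) hLM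
      have hab : ⁅K, K⁆ ≤ L := by
        rcases hchief' (L ⊔ ⁅K, K⁆) inferInstance le_sup_left
          (sup_le hLK.le (Subgroup.commutator_le_right K K)) with h1 | h1
        · rw [← h1]; exact le_sup_right
        · exfalso
          haveI : Group.IsSolvable (G ⧸ L) := by
            haveI := hsolv
            exact solvable_of_surjective (f := QuotientGroup.map N L (MonoidHom.id G) hNL) (by
              intro q
              obtain ⟨g, rfl⟩ := QuotientGroup.mk_surjective q
              exact ⟨QuotientGroup.mk g, rfl⟩)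
          have h2 : ⁅K.map (QuotientGroup.mk' L), K.map (QuotientGroup.mk' L)⁆
              = K.map (QuotientGroup.mk' L) := by
            rw [← Subgroup.map_commutator]
            conv_rhs => rw [← h1]
            rw [Subgroup.map_sup, QuotientGroup.map_mk'_self, bot_sup_eq]
          by_cases h3 : K.map (QuotientGroup.mk' L) = ⊥
          · rw [Subgroup.map_eq_bot_iff, QuotientGroup.ker_mk'] at h3
            exact (not_le_of_gt hLK) h3
          · have h4 := Group.IsSolvable.commutator_lt_of_ne_bot h3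
            rw [h2] at h4
            exact lt_irrefl _ h4
      have hinv : ∀ (g : G) (k : K), (fun k : K => χ k) ⟨g * k * g⁻¹, hKn.conj_mem (k : G) k.2 g⟩
          = (fun k : K => χ k) k := by
        intro g k
        exact hχclass (k : G) g
      rcases Cfsg.Agent.S0857.result K L hLK hchief' hab (fun k : K => χ k) hKirr hinv with
        hcase | ⟨φ, e, hφ, hφe, he⟩ | ⟨F, hF, hFcard, hFsum⟩
      · exfalso
        have h5 := hKmin' (show L ∈ {K : Subgroup G | K.Normal ∧ N ≤ K ∧
          Cfsg.IsIrrCharacter K (fun k : K => χ k)} from ⟨hLn, hNL, hcase⟩) hLK.le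
        exact (not_le_of_gt hLK) h5
      · exfalso
        refine hchief ⊤ K L hNL hLK le_top (fun h _ k hk => hKn.conj_mem k hk h)
          (fun h _ l hl => hLn.conj_mem l hl h) ?_ ⟨e, by rw [← he, sq]⟩
        intro M hLM hMK hMinv
        exact hchief' M ⟨fun m hm g => hMinv g (Subgroup.mem_top g) m hm⟩ hLM hMK
      · have hrel : 1 < F.card := by
          rw [hFcard]
          have h1 : L.relIndex K ≠ 1 := fun h => (not_le_of_gt hLK) (Subgroup.relIndex_eq_one.mp h)
          have h0 : L.relIndex K ≠ 0 := Subgroup.index_ne_zero_of_finite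
          omega
        obtain ⟨φ₁, hφ₁F, φ₂, hφ₂F, hne⟩ := Finset.one_lt_card.mp hrel
        haveI : Fintype L := Fintype.ofFinite L
        have hinner : ∀ φ ∈ F, Cfsg.classInner (fun n : L => χ n) φ = 1 := by
          intro φ hφ
          have h6 : (fun n : L => χ n) = ∑ φ' ∈ F, φ' := hFsum
          rw [h6, classInner_sum_left, Finset.sum_eq_single φ]
          · exact irr_inner_self ⟨φ, hF φ hφ⟩
          · intro φ' hφ' hne'
            exact irr_inner_ne (χ := ⟨φ', hF φ' hφ'⟩) (ψ := ⟨φ, hF φ hφ⟩)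
              (fun h => hne' (congrArg Subtype.val h))
          · intro h; exact absurd hφ h
        obtain ⟨T, hTdef⟩ : ∃ T : Subgroup G, T = Cfsg.Agent.Lib.Helper6.inertiaSub L φ₁ := ⟨_, rfl⟩
        have hT : ∀ g : G, g ∈ T ↔
            ∀ n : L, φ₁ ⟨g * n * g⁻¹, hLn.conj_mem (n : G) n.2 g⟩ = φ₁ n := by
          intro g
          rw [hTdef]
          exact Iff.rfl
        have hLT : L ≤ T := by
          intro l hl
          rw [hT]
          intro n
          exact isClassFunction_of_char (isCharacter_of_irr (hF φ₁ hφ₁F)) n ⟨l, hl⟩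
        haveI : Fintype T := Fintype.ofFinite T
        have hcon : Cfsg.classInner (fun n : L => χ n) φ₁ ≠ 0 := by
          rw [hinner φ₁ hφ₁F]; exact one_ne_zero
        obtain ⟨ψ, hψ, hψind, -⟩ :=
          Cfsg.Agent.S0854.result L φ₁ (hF φ₁ hφ₁F) T hT hLT χ hχ hcon
        have hTne : T ≠ ⊤ := by
          intro hTtop
          obtain ⟨x, hx⟩ := Cfsg.Agent.Lib.Helper7.Cliff.exists_conj_of_constituents (N := L)
            ⟨χ, hχ⟩ ⟨φ₁, hF φ₁ hφ₁F⟩ ⟨φ₂, hF φ₂ hφ₂F⟩ hcon
            (by rw [hinner φ₂ hφ₂F]; exact one_ne_zero)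
          have hxT : x ∈ T := by rw [hTtop]; trivial
          apply hne
          have h7 : conjFun L φ₁ x = φ₁ := by
            funext n
            exact (hT x).mp hxT n
          rw [show φ₂ = conjFun L φ₁ x from hx, h7]
        have hTcard : Nat.card T < n := by
          rw [← hGn]
          exact lt_of_le_of_ne (Subgroup.card_le_card_group T)
            (fun h => hTne ((Subgroup.card_eq_iff_eq_top T).mp h))
        have hNT : N ≤ T := hNL.trans hLT
        obtain ⟨H', hNH', η, hη, hηind, hηN⟩ := ih (Nat.card T) hTcard T rfl (N.subgroupOf T)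
          (solvable_subgroupOf_quot N T hsolv) (nonSqChief_subgroup N T hNT hchief) ψ hψ
        obtain ⟨em, hem⟩ : ∃ em : H' ≃* H'.map T.subtype,
            em = Subgroup.equivMapOfInjective H' T.subtype T.subtype_injective := ⟨_, rfl⟩
        have hNH : N ≤ H'.map T.subtype := by
          intro x hx
          exact Subgroup.mem_map.mpr ⟨⟨x, hNT hx⟩, hNH' (Subgroup.mem_subgroupOf.mpr hx), rfl⟩
        refine ⟨H'.map T.subtype, hNH, fun h => η (em.symm h),
          isIrrCharacter_comp_surj em.symm.toMonoidHom em.symm.surjective hη, ?_, ?_⟩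
        · rw [← hψind, ← hηind, hem]
          exact (ind_map T H' η).symm
        · obtain ⟨eN, heN⟩ : ∃ eN : N ≃* N.subgroupOf T,
              eN = (Subgroup.subgroupOfEquivOfLe hNT).symm := ⟨_, rfl⟩
          have h9 : (fun n : N => η (em.symm ⟨(n : G), hNH n.2⟩))
              = fun n : N => (fun n' : N.subgroupOf T => η ⟨(n' : T), hNH' n'.2⟩) (eN n) := by
            funext n
            show η (em.symm ⟨(n : G), hNH n.2⟩) = η ⟨(eN n : T), hNH' (eN n).2⟩
            congr 1
            apply em.injective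
            rw [MulEquiv.apply_symm_apply]
            apply Subtype.ext
            rw [hem, heN]
            rfl
          rw [h9]
          exact isIrrCharacter_comp_surj eN.toMonoidHom eN.surjective hηN

end Cfsg.Agent.Lib.Lead
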