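import Mathlib
import Cfsg.Prelude.Def_Blocks

set_option autoImplicit false

namespace Cfsg.Agent.Lib.Lead

theorem roots_mod_max (p : ℕ) [Fact p.Prime] (M : Ideal Cfsg.AlgInt) (hM : Cfsg.IsPModular p M) :
    (∀ ε₁ ε₂ : Cfsg.AlgInt, (∃ m : ℕ, ¬ p ∣ m ∧ (ε₁ : ℂ) ^ m = 1) →
        (∃ m : ℕ, ¬ p ∣ m ∧ (ε₂ : ℂ) ^ m = 1) → ε₁ - ε₂ ∈ M → ε₁ = ε₂) ∧
      (∀ a : Cfsg.AlgInt, a ∉ M →
        ∃ ε : Cfsg.AlgInt, (∃ m : ℕ, ¬ p ∣ m ∧ (ε : ℂ) ^ m = 1) ∧ a - ε ∈ M) := by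
  obtain ⟨hp, hmax, hpM⟩ := hM
  haveI := hmax
  have hprime : M.IsPrime := hmax.isPrime
  have hne_top : M ≠ ⊤ := hmax.ne_top
  constructor
  · rintro ε₁ ε₂ ⟨m₁, hm₁, h1⟩ ⟨m₂, hm₂, h2⟩ hmem
    by_contra hne
    have hm : ¬ p ∣ m₁ * m₂ := by
      intro h
      rcases (Nat.Prime.dvd_mul hp).mp h with h | h
      · exact hm₁ h
      · exact hm₂ h
    obtain ⟨m, hmdef⟩ : ∃ m : ℕ, m = m₁ * m₂ := ⟨_, rfl⟩
    rw [← hmdef] at hm
    have hmpos : 0 < m := Nat.pos_of_ne_zero (by rintro rfl; exact hm (dvd_zero p))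
    have e1 : (ε₁ : ℂ) ^ m = 1 := by rw [hmdef, pow_mul, h1, one_pow]
    have e2 : (ε₂ : ℂ) ^ m = 1 := by rw [hmdef, mul_comm, pow_mul, h2, one_pow]
    obtain ⟨ω, hω⟩ : ∃ ω : Cfsg.AlgInt, ω = ε₁ * ε₂ ^ (m - 1) := ⟨_, rfl⟩
    have hωC : (ω : ℂ) = (ε₁ : ℂ) * (ε₂ : ℂ) ^ (m - 1) := by
      rw [hω]
      rfl
    have hε2 : (ε₂ : ℂ) ^ (m - 1) * (ε₂ : ℂ) = 1 := by
      rw [← pow_succ, Nat.sub_add_cancel hmpos, e2]
    have hωm : (ω : ℂ) ^ m = 1 := by
      rw [hωC, mul_pow, e1, one_mul, ← pow_mul, mul_comm, pow_mul, e2, one_pow]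
    have hω1 : (ω : ℂ) ≠ 1 := by
      intro h
      apply hne
      apply Subtype.ext
      have h3 : (ε₁ : ℂ) * (ε₂ : ℂ) ^ (m - 1) * ε₂ = ε₂ := by rw [← hωC, h, one_mul]
      rw [mul_assoc, hε2, mul_one] at h3
      exact h3
    have hωM : ω - 1 ∈ M := by
      have h3 : ω - 1 = ε₂ ^ (m - 1) * (ε₁ - ε₂) := by
        apply Subtype.ext
        show (ω : ℂ) - 1 = (ε₂ : ℂ) ^ (m - 1) * ((ε₁ : ℂ) - (ε₂ : ℂ))
        rw [hωC, mul_sub, hε2]
        ring
      rw [h3]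
      exact M.mul_mem_left _ hmem
    have hsum : ∑ j ∈ Finset.range m, (ω : ℂ) ^ j = 0 := by
      have h3 := mul_geom_sum (ω : ℂ) m
      rw [hωm, sub_self] at h3
      rcases mul_eq_zero.mp h3 with h | h
      · exact absurd (sub_eq_zero.mp h) hω1
      · exact h
    have hsumA : ∑ j ∈ Finset.range m, ω ^ j = 0 := by
      apply Subtype.ext
      rw [AddSubmonoidClass.coe_finset_sum]
      exact hsum
    have hpowM : ∀ j : ℕ, ω ^ j - 1 ∈ M := by
      intro j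
      induction j with
      | zero => simp
      | succ j ih =>
        have h3 : ω ^ (j + 1) - 1 = ω ^ j * (ω - 1) + (ω ^ j - 1) := by ring
        rw [h3]
        exact M.add_mem (M.mul_mem_left _ hωM) ih
    have hmM : (m : Cfsg.AlgInt) ∈ M := by
      have h3 : (m : Cfsg.AlgInt) = - ∑ j ∈ Finset.range m, (ω ^ j - 1) := by
        rw [Finset.sum_sub_distrib, hsumA, Finset.sum_const, Finset.card_range, nsmul_eq_mul,
          mul_one]
        ring
      rw [h3]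
      exact M.neg_mem (M.sum_mem (fun j _ => hpowM j))
    have hcop : Nat.Coprime p m := (Nat.Prime.coprime_iff_not_dvd hp).mpr hm
    have h1M : (1 : Cfsg.AlgInt) ∈ M := by
      have h3 := Int.gcd_eq_gcd_ab (p : ℤ) (m : ℤ)
      have h4 : (((p : ℤ).gcd (m : ℤ) : ℕ) : ℤ) = 1 := by
        rw [Int.gcd_natCast_natCast]
        exact_mod_cast hcop
      rw [h4] at h3
      have h5 : (1 : Cfsg.AlgInt) = (p : Cfsg.AlgInt) * ((Int.gcdA p m : ℤ) : Cfsg.AlgInt)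
          + (m : Cfsg.AlgInt) * ((Int.gcdB p m : ℤ) : Cfsg.AlgInt) := by
        have h6 := congrArg (fun z : ℤ => (z : Cfsg.AlgInt)) h3
        simp only [Int.cast_one, Int.cast_add, Int.cast_mul, Int.cast_natCast] at h6
        exact h6
      rw [h5]
      exact M.add_mem (M.mul_mem_right _ hpM) (M.mul_mem_right _ hmM)
    exact hne_top ((Ideal.eq_top_iff_one M).mpr h1M)
  · intro a ha
    letI : Field (Cfsg.AlgInt ⧸ M) := Ideal.Quotient.field M
    haveI hchar : CharP (Cfsg.AlgInt ⧸ M) p := by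
      have h0 : ((p : ℕ) : Cfsg.AlgInt ⧸ M) = 0 := by
        have h3 : Ideal.Quotient.mk M (p : Cfsg.AlgInt) = 0 :=
          Ideal.Quotient.eq_zero_iff_mem.mpr hpM
        rw [map_natCast] at h3
        exact h3
      obtain ⟨c, hc⟩ := CharP.exists (Cfsg.AlgInt ⧸ M)
      have hdvd : c ∣ p := (CharP.cast_eq_zero_iff _ c p).mp h0
      rcases (Nat.dvd_prime hp).mp hdvd with h | h
      · exfalso
        subst h
        exact CharP.char_ne_one (Cfsg.AlgInt ⧸ M) 1 rfl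
      · subst h
        exact hc
    letI : Algebra (ZMod p) (Cfsg.AlgInt ⧸ M) := ZMod.algebra _ p
    obtain ⟨ā, hā⟩ : ∃ ā : Cfsg.AlgInt ⧸ M, ā = Ideal.Quotient.mk M a := ⟨_, rfl⟩
    have hā0 : ā ≠ 0 := by
      rw [hā]
      intro h
      exact ha (Ideal.Quotient.eq_zero_iff_mem.mp h)
    have hintZ : IsIntegral ℤ ā := by
      rw [hā]
      exact (integralClosure.isIntegral a).map (Ideal.Quotient.mkₐ ℤ M)
    have hint : IsIntegral (ZMod p) ā := hintZ.tower_top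
    haveI : FiniteDimensional (ZMod p) (IntermediateField.adjoin (ZMod p) {ā}) :=
      IntermediateField.adjoin.finiteDimensional hint
    haveI : Finite (IntermediateField.adjoin (ZMod p) {ā}) := Module.finite_of_finite (ZMod p)
    haveI : Fintype (IntermediateField.adjoin (ZMod p) {ā}) := Fintype.ofFinite _
    obtain ⟨x, hx⟩ : ∃ x : IntermediateField.adjoin (ZMod p) {ā}, (x : Cfsg.AlgInt ⧸ M) = ā :=
      ⟨⟨ā, IntermediateField.mem_adjoin_simple_self _ _⟩, rfl⟩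
    have hx0 : x ≠ 0 := by
      intro h
      apply hā0
      rw [← hx, h]
      rfl
    have hpow := FiniteField.pow_card_sub_one_eq_one x hx0
    obtain ⟨N, hN⟩ : ∃ N : ℕ, N = Fintype.card (IntermediateField.adjoin (ZMod p) {ā}) - 1 :=
      ⟨_, rfl⟩
    rw [← hN] at hpow
    have hāN : ā ^ N = 1 := by
      have h3 := congrArg (fun y : IntermediateField.adjoin (ZMod p) {ā} =>
        (y : Cfsg.AlgInt ⧸ M)) hpow
      rw [← hx]
      exact h3
    have hN0 : N ≠ 0 := by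
      have h3 : 1 < Fintype.card (IntermediateField.adjoin (ZMod p) {ā}) := Fintype.one_lt_card
      omega
    obtain ⟨e, n', hn', hNe⟩ := Nat.exists_eq_pow_mul_and_not_dvd hN0 p hp.ne_one
    have hān' : ā ^ n' = 1 := by
      have h3 : (ā ^ n') ^ (p ^ e) = 1 := by
        rw [← pow_mul, mul_comm, ← hNe]
        exact hāN
      have h4 : (ā ^ n' - 1) ^ (p ^ e) = 0 := by
        rw [sub_pow_char_pow, h3, one_pow, sub_self]
      exact sub_eq_zero.mp ((pow_eq_zero_iff (pow_ne_zero e hp.ne_zero)).mp h4)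
    have hn'pos : 0 < n' := Nat.pos_of_ne_zero (by rintro rfl; exact hn' (dvd_zero p))
    have hmem : a ^ n' - 1 ∈ M := by
      rw [← Ideal.Quotient.eq_zero_iff_mem, map_sub, map_pow, map_one, ← hā, hān', sub_self]
    have hprim := Complex.isPrimitiveRoot_exp n' hn'pos.ne'
    have hfac := Polynomial.X_pow_sub_one_eq_prod hn'pos hprim
    have hev : (a : ℂ) ^ n' - 1 = ∏ ζ ∈ Polynomial.nthRootsFinset n' (1 : ℂ), ((a : ℂ) - ζ) := by
      have h3 := congrArg (Polynomial.eval (a : ℂ)) hfac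
      simp only [Polynomial.eval_sub, Polynomial.eval_pow, Polynomial.eval_X, Polynomial.eval_one,
        Polynomial.eval_prod, Polynomial.eval_C] at h3
      exact h3
    have hroot : ∀ ζ ∈ Polynomial.nthRootsFinset n' (1 : ℂ), ζ ∈ Cfsg.AlgInt := by
      intro ζ hζ
      rw [Polynomial.mem_nthRootsFinset hn'pos] at hζ
      show IsIntegral ℤ ζ
      apply IsIntegral.of_pow hn'pos
      rw [hζ]
      exact isIntegral_one
    have hprod : a ^ n' - 1 = ∏ ζ ∈ (Polynomial.nthRootsFinset n' (1 : ℂ)).attach,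
        (a - ⟨ζ.1, hroot ζ.1 ζ.2⟩) := by
      apply Subtype.ext
      rw [SubmonoidClass.coe_finset_prod]
      show (a : ℂ) ^ n' - 1 = ∏ ζ ∈ (Polynomial.nthRootsFinset n' (1 : ℂ)).attach,
        ((a : ℂ) - (ζ : ℂ))
      rw [hev, ← Finset.prod_attach]
    rw [hprod] at hmem
    obtain ⟨ζ, -, hζM⟩ := (Ideal.IsPrime.prod_mem_iff (hp := hprime)).mp hmem
    refine ⟨⟨ζ.1, hroot ζ.1 ζ.2⟩, ⟨n', hn', ?_⟩, hζM⟩
    exact (Polynomial.mem_nthRootsFinset hn'pos _).mp ζ.2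

end Cfsg.Agent.Lib.Lead
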