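import Mathlib

set_option autoImplicit false

namespace Cfsg.Agent.Lib.Lead

open Classical in
/-- number of group elements interchanging `a` and `b` -/
noncomputable def spPairT (G : Type*) [Group G] [Fintype G] {Ω : Type*} [MulAction G Ω] (a b : Ω) : ℕ :=
  (Finset.univ.filter (fun g : G => g • a = b ∧ g • b = a)).card

open Classical in
/-- number of group elements fixing `a` and `b` -/
noncomputable def spPairS (G : Type*) [Group G] [Fintype G] {Ω : Type*} [MulAction G Ω] (a b : Ω) : ℕ :=
  (Finset.univ.filter (fun g : G => g • a = a ∧ g • b = b)).card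

theorem spPairT_le {G : Type*} [Group G] [Fintype G] {Ω : Type*} [MulAction G Ω] (a b : Ω) :
    spPairT G a b ≤ spPairS G a b ∧ (spPairT G a b = spPairS G a b ↔ ∃ g : G, g • a = b ∧ g • b = a) := by
  classical
  by_cases h : ∃ g : G, g • a = b ∧ g • b = a
  · obtain ⟨g₀, h1, h2⟩ := h
    have e : spPairS G a b = spPairT G a b := by
      unfold spPairS spPairT
      apply Finset.card_bij (fun g _ => g₀ * g)
      · intro g hg
        rw [Finset.mem_filter] at hg ⊢
        refine ⟨Finset.mem_univ _, ?_, ?_⟩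
        · rw [mul_smul, hg.2.1, h1]
        · rw [mul_smul, hg.2.2, h2]
      · intro g _ g' _ hgg
        exact mul_left_cancel hgg
      · intro k hk
        rw [Finset.mem_filter] at hk
        refine ⟨g₀⁻¹ * k, ?_, by group⟩
        rw [Finset.mem_filter]
        refine ⟨Finset.mem_univ _, ?_, ?_⟩
        · rw [mul_smul, hk.2.1, inv_smul_eq_iff, h1]
        · rw [mul_smul, hk.2.2, inv_smul_eq_iff, h2]
    exact ⟨e.symm.le, ⟨fun _ => ⟨g₀, h1, h2⟩, fun _ => e.symm⟩⟩
  · have e : spPairT G a b = 0 := by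
      unfold spPairT
      rw [Finset.card_eq_zero, Finset.filter_eq_empty_iff]
      intro g _ hg
      exact h ⟨g, hg⟩
    have e2 : 0 < spPairS G a b := by
      unfold spPairS
      rw [Finset.card_pos]
      exact ⟨1, by rw [Finset.mem_filter]; exact ⟨Finset.mem_univ _, one_smul _ _, one_smul _ _⟩⟩
    refine ⟨by omega, ⟨fun h' => by omega, fun h' => absurd h' h⟩⟩

theorem sp_sum_sq {G : Type*} [Group G] [Fintype G] {Ω : Type*} [Fintype Ω] [MulAction G Ω] :
    ∑ g : G, (Nat.card (MulAction.fixedBy Ω g)) ^ 2 = ∑ a : Ω, ∑ b : Ω, spPairS G a b := by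
  classical
  have h1 : ∀ g : G, (Nat.card (MulAction.fixedBy Ω g)) ^ 2
      = ∑ a : Ω, ∑ b : Ω, (if g • a = a ∧ g • b = b then 1 else 0) := by
    intro g
    have h2 : Nat.card (MulAction.fixedBy Ω g) = ∑ a : Ω, (if g • a = a then 1 else 0) := by
      rw [Nat.card_eq_fintype_card, Fintype.card_subtype, Finset.card_filter]
      rfl
    rw [h2, sq, Finset.sum_mul_sum]
    apply Finset.sum_congr rfl
    intro a _
    apply Finset.sum_congr rfl
    intro b _
    by_cases ha : g • a = a <;> by_cases hb : g • b = b <;> simp [ha, hb]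
  rw [Finset.sum_congr rfl (fun g _ => h1 g), Finset.sum_comm]
  apply Finset.sum_congr rfl
  intro a _
  rw [Finset.sum_comm]
  apply Finset.sum_congr rfl
  intro b _
  unfold spPairS
  rw [Finset.card_filter]

theorem sp_sum_mul {G : Type*} [Group G] [Fintype G] {Ω : Type*} [Fintype Ω] [MulAction G Ω] :
    ∑ g : G, (Nat.card (MulAction.fixedBy Ω (g * g))) = ∑ a : Ω, ∑ b : Ω, spPairT G a b := by
  classical
  have h1 : ∀ g : G, (Nat.card (MulAction.fixedBy Ω (g * g)))
      = ∑ a : Ω, ∑ b : Ω, (if g • a = b ∧ g • b = a then 1 else 0) := by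
    intro g
    have h2 : Nat.card (MulAction.fixedBy Ω (g * g))
        = ∑ a : Ω, (if (g * g) • a = a then 1 else 0) := by
      rw [Nat.card_eq_fintype_card, Fintype.card_subtype, Finset.card_filter]
      rfl
    rw [h2]
    apply Finset.sum_congr rfl
    intro a _
    rw [Finset.sum_eq_single (g • a)]
    · rw [mul_smul]
      by_cases ha : g • g • a = a <;> simp [ha]
    · intro b _ hb
      rw [if_neg]
      intro h
      exact hb h.1.symm
    · intro h
      exact absurd (Finset.mem_univ _) h
  rw [Finset.sum_congr rfl (fun g _ => h1 g), Finset.sum_comm]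
  apply Finset.sum_congr rfl
  intro a _
  rw [Finset.sum_comm]
  apply Finset.sum_congr rfl
  intro b _
  unfold spPairT
  rw [Finset.card_filter]

/-- all pairs are interchanged iff `∑ π(g)² = ∑ π(g²)` -/
theorem sp_count {G : Type*} [Group G] [Fintype G] {Ω : Type*} [Fintype Ω] [MulAction G Ω] :
    (∀ a b : Ω, ∃ g : G, g • a = b ∧ g • b = a) ↔
      ∑ g : G, (Nat.card (MulAction.fixedBy Ω g) : ℂ) ^ 2
        = ∑ g : G, (Nat.card (MulAction.fixedBy Ω (g * g)) : ℂ) := by
  have hcast : (∑ g : G, (Nat.card (MulAction.fixedBy Ω g) : ℂ) ^ 2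
        = ∑ g : G, (Nat.card (MulAction.fixedBy Ω (g * g)) : ℂ)) ↔
      ∑ g : G, (Nat.card (MulAction.fixedBy Ω g)) ^ 2
        = ∑ g : G, (Nat.card (MulAction.fixedBy Ω (g * g))) := by
    constructor
    · intro h
      exact_mod_cast h
    · intro h
      exact_mod_cast h
  rw [hcast, sp_sum_sq, sp_sum_mul]
  constructor
  · intro h
    apply Finset.sum_congr rfl
    intro a _
    apply Finset.sum_congr rfl
    intro b _
    exact ((spPairT_le a b).2.mpr (h a b)).symm
  · intro h a b
    have h1 : ∀ a ∈ (Finset.univ : Finset Ω), ∑ b : Ω, spPairT G a b ≤ ∑ b : Ω, spPairS G a b :=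
      fun a _ => Finset.sum_le_sum (fun b _ => (spPairT_le a b).1)
    have h2 := (Finset.sum_eq_sum_iff_of_le h1).mp h.symm a (Finset.mem_univ _)
    have h3 := (Finset.sum_eq_sum_iff_of_le (fun b _ => (spPairT_le (G := G) a b).1)).mp h2 b
      (Finset.mem_univ _)
    exact (spPairT_le a b).2.mp h3

end Cfsg.Agent.Lib.Lead
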