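import Mathlib
import Cfsg.Prelude.Def_Characters
import Cfsg.Agent.Lib.Helper7.FS
import Cfsg.Agent.Lib.Lead.Char2

set_option autoImplicit false

namespace Cfsg.Agent.Lib.Lead

open Matrix Cfsg.Agent.Lib.Helper7.FS

/-- a real-valued irreducible character whose restriction to a subgroup contains the trivial
character exactly once has Frobenius–Schur indicator `1` -/
theorem fs_eq_one_of_mult_one {G : Type*} [Group G] [Fintype G] (χ : Cfsg.IrrCharacter G)
    (H : Subgroup G) [Fintype H]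
    (hreal : ∀ g : G, ((χ : G → ℂ) g).im = 0)
    (hH : (Nat.card H : ℂ)⁻¹ * ∑ h : H, (χ : G → ℂ) (h : G) = 1) :
    (Nat.card G : ℂ)⁻¹ * ∑ s : G, (χ : G → ℂ) (s * s) = 1 := by
  classical
  obtain ⟨n, ρ, hρ, hρχ⟩ := χ.2
  obtain ⟨a, b, h1, h2, h3, h4, h5, h6⟩ := fs_irr ρ hρ
  have hχ : (χ : G → ℂ) = ρ.character := hρχ.symm
  rw [hχ] at hreal hH ⊢
  have hab := h2 hreal
  rw [← h1]
  by_cases ha : a = 0
  swap
  · have : a = 1 ∧ b = 0 := by omega
    rw [this.1, this.2]; norm_num
  exfalso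
  obtain ⟨M, hM0, hM⟩ := h6 (by omega)
  have hMt : Mᵀ = -M := h5 ha M hM
  have hMX : ∀ g : G, M * X ρ g = (X ρ g⁻¹)ᵀ * M := by
    intro g
    calc M * X ρ g = ((X ρ g⁻¹)ᵀ * (X ρ g)ᵀ) * M * X ρ g := by
          rw [← Matrix.transpose_mul, X_mul_inv, Matrix.transpose_one, one_mul]
      _ = (X ρ g⁻¹)ᵀ * ((X ρ g)ᵀ * M * X ρ g) := by simp only [mul_assoc]
      _ = (X ρ g⁻¹)ᵀ * M := by rw [hM g]
  obtain ⟨P, hP⟩ : ∃ P : Mat n, P = (Nat.card H : ℂ)⁻¹ • ∑ h : H, X ρ (h : G) := ⟨_, rfl⟩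
  have hcardH : (Nat.card H : ℂ) ≠ 0 := by exact_mod_cast Nat.card_pos.ne'
  have hXP : ∀ k : H, X ρ (k : G) * P = P := by
    intro k
    rw [hP, Matrix.mul_smul, Finset.mul_sum]
    congr 1
    apply Fintype.sum_equiv (Equiv.mulLeft k)
    intro h
    rw [← X_mul]
    rfl
  have hPP : P * P = P := by
    calc P * P = ((Nat.card H : ℂ)⁻¹ • ∑ h : H, X ρ (h : G)) * P := by rw [← hP]
      _ = (Nat.card H : ℂ)⁻¹ • ∑ h : H, X ρ (h : G) * P := by
          rw [Matrix.smul_mul, Finset.sum_mul]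
      _ = (Nat.card H : ℂ)⁻¹ • ∑ h : H, P := by simp only [hXP]
      _ = P := by
          rw [Finset.sum_const, Finset.card_univ, ← Nat.card_eq_fintype_card,
            ← Nat.cast_smul_eq_nsmul ℂ, smul_smul, inv_mul_cancel₀ hcardH, one_smul]
  have hPtr : P.trace = 1 := by
    rw [hP, Matrix.trace_smul, Matrix.trace_sum]
    simp only [X_trace, smul_eq_mul]
    exact hH
  have hPMP : Pᵀ * M * P = M * P := by
    calc Pᵀ * M * P = ((Nat.card H : ℂ)⁻¹ • ∑ h : H, X ρ (h : G))ᵀ * M * P := by rw [← hP]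
      _ = (Nat.card H : ℂ)⁻¹ • ∑ h : H, (X ρ (h : G))ᵀ * M * P := by
          rw [Matrix.transpose_smul, Matrix.transpose_sum, Matrix.smul_mul, Matrix.smul_mul,
            Finset.sum_mul, Finset.sum_mul]
      _ = (Nat.card H : ℂ)⁻¹ • ∑ h : H, M * P := by
          congr 1
          apply Finset.sum_congr rfl
          intro h _
          have e1 := hMX (h : G)⁻¹
          rw [inv_inv] at e1
          rw [← e1, mul_assoc]
          have e2 := hXP h⁻¹
          rw [show ((h⁻¹ : H) : G) = (h : G)⁻¹ from rfl] at e2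
          rw [e2]
      _ = M * P := by
          rw [Finset.sum_const, Finset.card_univ, ← Nat.card_eq_fintype_card,
            ← Nat.cast_smul_eq_nsmul ℂ, smul_smul, inv_mul_cancel₀ hcardH, one_smul]
  have hzero : Pᵀ * M * P = 0 := by
    obtain ⟨Φ, hΦ⟩ : ∃ Φ : Module.End ℂ (Mat n), Φ = sand Pᵀ P := ⟨_, rfl⟩
    have hΦΦ : Φ * Φ = Φ := by
      rw [hΦ, sand_mul, ← Matrix.transpose_mul, hPP]
    have hΦtr : Φ * tr = tr * Φ := by
      apply LinearMap.ext
      intro Y
      rw [hΦ]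
      simp [sand_apply, tr_apply, Matrix.transpose_mul, mul_assoc]
    have hcomm : Commute Φ (Q (-1)) := by
      unfold Q
      apply Commute.smul_right
      apply Commute.add_right (Commute.one_right _)
      apply Commute.smul_right
      exact hΦtr
    have hidem : IsIdempotentElem (Φ * Q (-1)) := by
      unfold IsIdempotentElem
      rw [hcomm.symm.mul_mul_mul_comm, hΦΦ, Q_Q (-1) (by norm_num)]
    have htrace : LinearMap.trace ℂ _ (Φ * Q (-1)) = 0 := by
      unfold Q
      rw [mul_smul_comm, mul_add, mul_one, mul_smul_comm, map_smul, map_add, map_smul, hΦ,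
        trace_sand, trace_sand_tr, Matrix.trace_transpose,
        ← Matrix.transpose_mul, Matrix.trace_transpose, hPP, hPtr]
      norm_num
    have hΨ0 : Φ * Q (-1) = 0 := LinearMap.IsIdempotentElem.eq_zero_of_trace_eq_zero hidem htrace
    have h7 := congrArg (fun f : Module.End ℂ (Mat n) => f M) hΨ0
    simp only [Module.End.mul_apply, LinearMap.zero_apply] at h7
    have h8 : (Q (-1) : Module.End ℂ (Mat n)) M = M := by
      unfold Q
      simp only [LinearMap.smul_apply, LinearMap.add_apply, Module.End.one_apply, tr_apply, hMt]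
      module
    rw [h8, hΦ, sand_apply] at h7
    exact h7
  have hMP : M * P = 0 := by rw [← hPMP, hzero]
  let U : Submodule ℂ (Fin n → ℂ) := LinearMap.ker (Matrix.toLin' M)
  have hU : ∀ g : G, ∀ v ∈ U, ρ g v ∈ U := by
    intro g v hv
    rw [LinearMap.mem_ker] at hv ⊢
    have h2 : ρ g v = Matrix.toLin' (X ρ g) v := by unfold X; rw [Matrix.toLin'_toMatrix']
    rw [h2, ← LinearMap.comp_apply, ← Matrix.toLin'_mul, hMX g, Matrix.toLin'_mul,
      LinearMap.comp_apply, hv, map_zero]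
  rcases ((irr_iff ρ).mp hρ).2 U hU with h | h
  · have hinj : Function.Injective (Matrix.toLin' M) := LinearMap.ker_eq_bot.mp h
    have h9 : Matrix.toLin' P = 0 := by
      apply LinearMap.ext
      intro v
      apply hinj
      rw [← LinearMap.comp_apply, ← Matrix.toLin'_mul, hMP]
      simp
    have h10 := congrArg LinearMap.toMatrix' h9
    rw [LinearMap.toMatrix'_toLin'] at h10
    rw [h10] at hPtr
    simp at hPtr
  · apply hM0
    have h2 : Matrix.toLin' M = 0 := LinearMap.ker_eq_top.mp h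
    have h3 := congrArg LinearMap.toMatrix' h2
    rw [LinearMap.toMatrix'_toLin'] at h3
    rw [h3]; simp

end Cfsg.Agent.Lib.Lead
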