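import Mathlib
import Cfsg.Prelude.Def_Characters
import Cfsg.Agent.Lib.Lead.SP1
import Cfsg.Agent.Lib.Lead.SP2
import Cfsg.Agent.Lib.Lead.Orb4

set_option autoImplicit false

namespace Cfsg.Agent.Lib.Lead

open Cfsg.Agent.Lib.Helper7.FS

theorem self_paired_iff {G : Type*} [Group G] [Fintype G] {Ω : Type*} [Fintype Ω] [MulAction G Ω]
    [MulAction.IsPretransitive G Ω] :
    (∀ a b : Ω, ∃ g : G, g • a = b ∧ g • b = a) ↔
      ∀ χ : G → ℂ, Cfsg.IsIrrCharacter G χ →
        Cfsg.classInner (fun g : G => (Nat.card (MulAction.fixedBy Ω g) : ℂ)) χ ≠ 0 →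
        Cfsg.classInner (fun g : G => (Nat.card (MulAction.fixedBy Ω g) : ℂ)) χ = 1 ∧
          ∀ g : G, (starRingEnd ℂ) (χ g) = χ g := by
  classical
  haveI : Fintype (Cfsg.IrrCharacter G) := Fintype.ofFinite _
  rcases isEmpty_or_nonempty Ω with hΩ | ⟨⟨a₀⟩⟩
  · constructor
    · intro _ χ hχ hne
      exfalso
      apply hne
      unfold Cfsg.classInner
      have h0 : ∀ g : G, (Nat.card (MulAction.fixedBy Ω g) : ℂ) = 0 := by
        intro g
        simp
      simp [h0]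
    · intro _ a
      exact isEmptyElim a
  obtain ⟨π, hπdef⟩ : ∃ π : G → ℂ, π = fun g : G => (Nat.card (MulAction.fixedBy Ω g) : ℂ) :=
    ⟨_, rfl⟩
  rw [← hπdef]
  have hπg : ∀ g : G, π g = (Nat.card (MulAction.fixedBy Ω g) : ℂ) := fun g => by rw [hπdef]
  haveI : Fintype (MulAction.stabilizer G a₀) := Fintype.ofFinite _
  have hπind : π = Cfsg.indFun (MulAction.stabilizer G a₀) (fun _ => 1) := by
    rw [hπdef]
    exact perm_char_eq_ind Ω a₀
  have hπ : Cfsg.IsCharacter G π := by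
    rw [hπind]
    exact isCharacter_indFun _ _ isCharacter_one
  obtain ⟨m, hm⟩ := isCharacter_decomp hπ
  have hmψ : ∀ ψ : Cfsg.IrrCharacter G, Cfsg.classInner π ψ.1 = (m ψ : ℂ) := by
    intro ψ
    have e := congrArg (fun x => Cfsg.classInner x ψ.1) hm
    exact e.trans (classInner_nat_comb (fun χ => (m χ : ℂ)) ψ)
  have hfrob : ∀ ψ : Cfsg.IrrCharacter G, Cfsg.classInner π ψ.1 =
      (Nat.card (MulAction.stabilizer G a₀) : ℂ)⁻¹ *
        ∑ h : MulAction.stabilizer G a₀, (starRingEnd ℂ) (ψ.1 (h : G)) := by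
    intro ψ
    rw [hπind, frobenius_reciprocity _ (fun _ => 1) ψ.1
      (isClassFunction_of_char (isCharacter_of_irr ψ.2))]
    unfold Cfsg.classInner
    simp only [one_mul]
  have hν : ∀ ψ : Cfsg.IrrCharacter G, ∃ k : ℤ,
      (Nat.card G : ℂ)⁻¹ * ∑ s : G, ψ.1 (s * s) = (k : ℂ) ∧ k ≤ 1 ∧
      (k ≠ 0 → ∀ g, (ψ.1 g).im = 0) ∧
      ((∀ g, (ψ.1 g).im = 0) → Cfsg.classInner π ψ.1 = 1 → k = 1) := by
    intro ψ
    obtain ⟨c1, c2⟩ := fs_cases ψ
    by_cases hr : ∀ g, (ψ.1 g).im = 0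
    · rcases c1 hr with h | h
      · exact ⟨1, by rw [h]; norm_num, le_refl _, fun _ => hr, fun _ _ => rfl⟩
      · refine ⟨-1, by rw [h]; norm_num, by norm_num, fun _ => hr, fun _ h1 => ?_⟩
        exfalso
        have h2 : (Nat.card (MulAction.stabilizer G a₀) : ℂ)⁻¹ *
            ∑ h : MulAction.stabilizer G a₀, (ψ : G → ℂ) (h : G) = 1 := by
          rw [← h1, hfrob ψ]
          congr 1
          apply Finset.sum_congr rfl
          intro h _
          exact (Complex.conj_eq_iff_im.mpr (hr h)).symm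
        have h3 := fs_eq_one_of_mult_one ψ (MulAction.stabilizer G a₀) hr h2
        rw [h] at h3
        norm_num at h3
    · exact ⟨0, by rw [c2 hr]; norm_num, by norm_num, fun h => absurd rfl h,
        fun h => absurd h hr⟩
  choose ν hν1 hν2 hν3 hν4 using hν
  have hsq : (Nat.card G : ℂ)⁻¹ * ∑ g : G, π g ^ 2 = ∑ ψ, (m ψ : ℂ) ^ 2 := by
    have h1 : (Nat.card G : ℂ)⁻¹ * ∑ g : G, π g ^ 2 = Cfsg.classInner π π := by
      unfold Cfsg.classInner
      congr 1
      apply Finset.sum_congr rfl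
      intro g _
      rw [hπg, Complex.conj_natCast]
      ring
    have h2 : Cfsg.classInner π π = Cfsg.classInner (∑ ψ, (m ψ : ℂ) • ψ.1) π :=
      congrArg (fun x => Cfsg.classInner x π) hm
    rw [h1, h2, classInner_sum_left]
    apply Finset.sum_congr rfl
    intro ψ _
    rw [classInner_smul_left, ← classInner_conj_symm, hmψ, Complex.conj_natCast]
    ring
  have hmul : (Nat.card G : ℂ)⁻¹ * ∑ g : G, π (g * g) = ∑ ψ, (m ψ : ℂ) * (ν ψ : ℂ) := by
    have h1 : ∀ g : G, π (g * g) = ∑ ψ : Cfsg.IrrCharacter G, (m ψ : ℂ) * ψ.1 (g * g) := by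
      intro g
      have e := congrFun hm (g * g)
      rw [e, Finset.sum_apply]
      rfl
    simp only [h1]
    rw [Finset.sum_comm, Finset.mul_sum]
    apply Finset.sum_congr rfl
    intro ψ _
    rw [← Finset.mul_sum, ← hν1 ψ]
    ring
  have hcG : (Nat.card G : ℂ) ≠ 0 := by exact_mod_cast Nat.card_pos.ne'
  have key : (∀ a b : Ω, ∃ g : G, g • a = b ∧ g • b = a) ↔
      ∀ ψ : Cfsg.IrrCharacter G, m ψ = 0 ∨ (m ψ = 1 ∧ ν ψ = 1) := by
    rw [sp_count]
    simp only [← hπg]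
    have e1 : (∑ g : G, π g ^ 2 = ∑ g : G, π (g * g)) ↔
        ∑ ψ, (m ψ : ℂ) ^ 2 = ∑ ψ, (m ψ : ℂ) * (ν ψ : ℂ) := by
      rw [← hsq, ← hmul]
      constructor
      · intro h
        rw [h]
      · intro h
        exact mul_left_cancel₀ (inv_ne_zero hcG) h
    rw [e1]
    have hnn : ∀ ψ : Cfsg.IrrCharacter G, 0 ≤ (m ψ : ℤ) ^ 2 - (m ψ : ℤ) * ν ψ := by
      intro ψ
      have h1 := hν2 ψ
      rcases Nat.eq_zero_or_pos (m ψ) with h0 | hpos
      · rw [h0]; simp
      · have h2 : (1 : ℤ) ≤ (m ψ : ℤ) := by exact_mod_cast hpos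
        nlinarith
    constructor
    · intro h ψ
      have h1 : ∑ ψ : Cfsg.IrrCharacter G, ((m ψ : ℤ) ^ 2 - (m ψ : ℤ) * ν ψ) = 0 := by
        rw [Finset.sum_sub_distrib, sub_eq_zero]
        exact_mod_cast h
      have h2 := (Finset.sum_eq_zero_iff_of_nonneg (fun ψ _ => hnn ψ)).mp h1 ψ (Finset.mem_univ _)
      have h3 := hν2 ψ
      rcases Nat.eq_zero_or_pos (m ψ) with h0 | hpos
      · left; exact h0
      · right
        have h4 : (1 : ℤ) ≤ (m ψ : ℤ) := by exact_mod_cast hpos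
        have h5 : (m ψ : ℤ) * ((m ψ : ℤ) - ν ψ) = 0 := by rw [← h2]; ring
        rcases mul_eq_zero.mp h5 with h6 | h6
        · omega
        · constructor
          · omega
          · omega
    · intro h
      apply Finset.sum_congr rfl
      intro ψ _
      rcases h ψ with h0 | ⟨h1, h2⟩
      · rw [h0]; simp
      · rw [h1, h2]; simp
  rw [key]
  constructor
  · intro h χ hχ hne
    have h1 : Cfsg.classInner π χ = (m ⟨χ, hχ⟩ : ℂ) := hmψ ⟨χ, hχ⟩
    rcases h ⟨χ, hχ⟩ with h0 | ⟨h1', h2'⟩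
    · exfalso
      apply hne
      rw [h1, h0]
      simp
    · refine ⟨by rw [h1, h1']; simp, fun g => ?_⟩
      have h3 := hν3 ⟨χ, hχ⟩ (by rw [h2']; norm_num) g
      exact Complex.conj_eq_iff_im.mpr h3
  · intro h ψ
    by_cases h0 : m ψ = 0
    · left; exact h0
    · right
      have hne : Cfsg.classInner π ψ.1 ≠ 0 := by
        rw [hmψ]
        exact_mod_cast h0
      obtain ⟨h1, h2⟩ := h ψ.1 ψ.2 hne
      have hr : ∀ g, (ψ.1 g).im = 0 := fun g => Complex.conj_eq_iff_im.mp (h2 g)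
      refine ⟨?_, hν4 ψ hr h1⟩
      rw [hmψ] at h1
      exact_mod_cast h1

end Cfsg.Agent.Lib.Lead
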