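import Mathlib
import Cfsg.Agent.Lib.Lead.Char7
import Cfsg.Agent.Lib.Lead.Frob2
import Cfsg.Agent.Lib.Helper6.RealElt

set_option autoImplicit false

namespace Cfsg.Agent.Lib.Lead

open scoped Pointwise

set_option maxHeartbeats 800000 in
theorem self_centralizing_prime {G : Type*} [Group G] [Finite G] (p : ℕ) [Fact p.Prime] (z : G)
    (hz : orderOf z = p) (hC : Subgroup.centralizer ({z} : Set G) = Subgroup.zpowers z) :
    ∃ n t : ℕ, t = Nat.card {c : ConjClasses G // ∃ g : G, ConjClasses.mk g = c ∧ orderOf g = p} ∧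
      t ∣ p - 1 ∧ Nat.card (Sylow p G) = 1 + n * p ∧
      Nat.card G * t = (p - 1) * p * (1 + n * p) := by
  classical
  haveI : Fintype G := Fintype.ofFinite G
  have hp := (Fact.out : p.Prime)
  have hz1 : z ≠ 1 := by
    intro h; rw [h, orderOf_one] at hz; exact hp.one_lt.ne hz
  have hZcard : Nat.card (Subgroup.zpowers z) = p := by rw [Nat.card_zpowers, hz]
  have hZpg : IsPGroup p (Subgroup.zpowers z) :=
    IsPGroup.of_card (n := 1) (by rw [hZcard, pow_one])
  obtain ⟨S, hS⟩ := hZpg.exists_le_sylow
  have hSZ : (S : Subgroup G) = Subgroup.zpowers z := by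
    apply le_antisymm _ hS
    have hzS : z ∈ (S : Subgroup G) := hS (Subgroup.mem_zpowers z)
    haveI : Nontrivial (S : Subgroup G) :=
      ⟨⟨⟨z, hzS⟩, 1, fun h => hz1 (congrArg Subtype.val h)⟩⟩
    haveI := S.isPGroup'.center_nontrivial
    obtain ⟨c, hc⟩ := exists_ne (1 : Subgroup.center (S : Subgroup G))
    have hc1 : ((c : (S : Subgroup G)) : G) ≠ 1 := fun h => hc (Subtype.ext (Subtype.ext h))
    have hcz : ((c : (S : Subgroup G)) : G) ∈ Subgroup.zpowers z := by
      rw [← hC, Subgroup.mem_centralizer_iff]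
      intro h hh
      rw [Set.mem_singleton_iff.1 hh]
      have := Subgroup.mem_center_iff.1 c.2 ⟨z, hzS⟩
      exact congrArg Subtype.val this
    obtain ⟨k, hk⟩ : ∃ k : ℤ, ((c : (S : Subgroup G)) : G) ^ k = z := by
      have := mem_zpowers_of_prime_card (G := Subgroup.zpowers z) hZcard (g := ⟨_, hcz⟩)
        (g' := ⟨z, Subgroup.mem_zpowers z⟩) (fun e => hc1 (congrArg Subtype.val e))
      obtain ⟨k, hk⟩ := Subgroup.mem_zpowers_iff.1 this
      exact ⟨k, by simpa using congrArg Subtype.val hk⟩
    intro s hs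
    rw [← hC, Subgroup.mem_centralizer_iff]
    intro h hh
    rw [Set.mem_singleton_iff.1 hh]
    have h1 : (⟨s, hs⟩ : (S : Subgroup G)) * (c : (S : Subgroup G))
        = (c : (S : Subgroup G)) * ⟨s, hs⟩ := Subgroup.mem_center_iff.1 c.2 ⟨s, hs⟩
    have h2 : s * ((c : (S : Subgroup G)) : G) = ((c : (S : Subgroup G)) : G) * s :=
      congrArg Subtype.val h1
    rw [← hk]
    exact ((Commute.zpow_right (show Commute s _ from h2) k).eq).symm
  have hScard : Nat.card (S : Subgroup G) = p := by rw [hSZ, hZcard]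
  have hcardS : ∀ S' : Sylow p G, Nat.card (S' : Subgroup G) = p := fun S' => by
    rw [S'.card_eq_multiplicity, ← S.card_eq_multiplicity, hScard]
  have hgen : ∀ (S' : Sylow p G), ∀ c ∈ (S' : Subgroup G), c ≠ 1 →
      ∀ h ∈ (S' : Subgroup G), ∃ k : ℤ, c ^ k = h := by
    intro S' c hc hc1 h hh
    have := mem_zpowers_of_prime_card (G := (S' : Subgroup G)) (hcardS S') (g := ⟨c, hc⟩)
      (g' := ⟨h, hh⟩) (fun e => hc1 (congrArg Subtype.val e))
    obtain ⟨k, hk⟩ := Subgroup.mem_zpowers_iff.1 this
    exact ⟨k, by simpa using congrArg Subtype.val hk⟩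
  have hord : ∀ (S' : Sylow p G), ∀ c ∈ (S' : Subgroup G), c ≠ 1 → orderOf c = p := by
    intro S' c hc hc1
    have h1 : orderOf (⟨c, hc⟩ : (S' : Subgroup G)) ∣ p := by
      have := orderOf_dvd_natCard (⟨c, hc⟩ : (S' : Subgroup G))
      rwa [hcardS S'] at this
    rcases (Nat.dvd_prime hp).1 h1 with h | h
    · exfalso
      rw [orderOf_eq_one_iff] at h
      exact hc1 (congrArg Subtype.val h)
    · rw [← h]; exact (Subgroup.orderOf_mk c hc).symm
  have hsyl_eq : ∀ A B : Sylow p G, (A : Subgroup G) ≤ B → A = B := fun A B h =>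
    Sylow.ext (Subgroup.eq_of_le_of_card_ge h
      (by rw [A.card_eq_multiplicity, B.card_eq_multiplicity]))
  haveI : Fintype (Sylow p G) := Fintype.ofFinite _
  have hfib : ∀ S' : Sylow p G,
      (Finset.univ.filter (fun x : G => x ∈ (S' : Subgroup G) ∧ x ≠ 1)).card = p - 1 := by
    intro S'
    have h1 : (Finset.univ.filter (fun x : G => x ∈ (S' : Subgroup G))).card = p :=
      ((Nat.subtype_card (Finset.univ.filter (fun x : G => x ∈ (S' : Subgroup G)))
        (by simp)).symm).trans (hcardS S')
    have h2 : Finset.univ.filter (fun x : G => x ∈ (S' : Subgroup G) ∧ x ≠ 1)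
        = (Finset.univ.filter (fun x : G => x ∈ (S' : Subgroup G))).erase 1 := by
      ext x
      simp [and_comm]
    rw [h2, Finset.card_erase_of_mem (by simp [Subgroup.one_mem]), h1]
  have hA : (Finset.univ.filter (fun x : G => orderOf x = p)).card
      = Nat.card (Sylow p G) * (p - 1) := by
    have hU : Finset.univ.filter (fun x : G => orderOf x = p)
        = (Finset.univ : Finset (Sylow p G)).biUnion
          (fun S' => Finset.univ.filter (fun x : G => x ∈ (S' : Subgroup G) ∧ x ≠ 1)) := by
      ext x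
      simp only [Finset.mem_filter, Finset.mem_univ, true_and, Finset.mem_biUnion]
      constructor
      · intro hx
        have hx1 : x ≠ 1 := by
          intro h; rw [h, orderOf_one] at hx; exact hp.one_lt.ne hx
        have : IsPGroup p (Subgroup.zpowers x) :=
          IsPGroup.of_card (n := 1) (by rw [Nat.card_zpowers, hx, pow_one])
        obtain ⟨S', hS'⟩ := this.exists_le_sylow
        exact ⟨S', hS' (Subgroup.mem_zpowers x), hx1⟩
      · rintro ⟨S', hx, hx1⟩
        exact hord S' x hx hx1
    rw [hU, Finset.card_biUnion]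
    · rw [Finset.sum_congr rfl (fun S' _ => hfib S'), Finset.sum_const, Finset.card_univ,
        smul_eq_mul, Nat.card_eq_fintype_card]
    · intro S₁ _ S₂ _ hne
      show Disjoint _ _
      rw [Finset.disjoint_left]
      intro x hx1 hx2
      simp only [Finset.mem_filter, Finset.mem_univ, true_and] at hx1 hx2
      apply hne
      apply hsyl_eq
      intro h hh
      obtain ⟨k, rfl⟩ := hgen S₁ x hx1.1 hx1.2 h hh
      exact Subgroup.zpow_mem _ hx2.1 k
  have hcent : ∀ g : G, orderOf g = p → Nat.card (Subgroup.centralizer ({g} : Set G)) = p := by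
    intro g hg
    have hg1 : g ≠ 1 := by
      intro h; rw [h, orderOf_one] at hg; exact hp.one_lt.ne hg
    have : IsPGroup p (Subgroup.zpowers g) :=
      IsPGroup.of_card (n := 1) (by rw [Nat.card_zpowers, hg, pow_one])
    obtain ⟨S', hS'⟩ := this.exists_le_sylow
    obtain ⟨k, hk⟩ := MulAction.exists_smul_eq G S S'
    have hgS' : g ∈ (S' : Subgroup G) := hS' (Subgroup.mem_zpowers g)
    rw [← hk] at hgS'
    have hw : k⁻¹ * g * k ∈ (S : Subgroup G) := (frob_mem_conj_smul _ k g).1 hgS'
    obtain ⟨w, hwdef⟩ : ∃ w : G, w = k⁻¹ * g * k := ⟨_, rfl⟩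
    rw [← hwdef] at hw
    have hg' : g = k * w * k⁻¹ := by rw [hwdef]; group
    have hw1 : w ≠ 1 := by
      intro h; apply hg1; rw [hg', h]; group
    have hcw : Subgroup.centralizer ({w} : Set G) = Subgroup.centralizer ({z} : Set G) := by
      obtain ⟨j, hj⟩ := hgen S w hw hw1 z (hS (Subgroup.mem_zpowers z))
      rw [hSZ] at hw
      obtain ⟨i, hi⟩ := Subgroup.mem_zpowers_iff.1 hw
      ext x
      rw [Subgroup.mem_centralizer_iff, Subgroup.mem_centralizer_iff]
      constructor
      · intro h y hy
        rw [Set.mem_singleton_iff.1 hy, ← hj]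
        have := h w rfl
        exact (Commute.zpow_left (show Commute w x from this) j).eq
      · intro h y hy
        rw [Set.mem_singleton_iff.1 hy, ← hi]
        have := h z rfl
        exact (Commute.zpow_left (show Commute z x from this) i).eq
    have hmap : Subgroup.centralizer ({g} : Set G)
        = (Subgroup.centralizer ({w} : Set G)).map (MulAut.conj k).toMonoidHom := by
      ext x
      rw [Subgroup.mem_map, Subgroup.mem_centralizer_iff]
      constructor
      · intro h
        refine ⟨k⁻¹ * x * k, ?_, ?_⟩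
        · rw [Subgroup.mem_centralizer_iff]
          intro y hy
          rw [Set.mem_singleton_iff.1 hy, hwdef]
          have := h g rfl
          calc k⁻¹ * g * k * (k⁻¹ * x * k) = k⁻¹ * (g * x) * k := by group
            _ = k⁻¹ * (x * g) * k := by rw [this]
            _ = k⁻¹ * x * k * (k⁻¹ * g * k) := by group
        · show k * (k⁻¹ * x * k) * k⁻¹ = x
          group
      · rintro ⟨y, hy, rfl⟩ u hu
        rw [Set.mem_singleton_iff.1 hu]
        have := Subgroup.mem_centralizer_iff.1 hy w rfl
        show g * (k * y * k⁻¹) = k * y * k⁻¹ * g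
        rw [hg']
        calc k * w * k⁻¹ * (k * y * k⁻¹) = k * (w * y) * k⁻¹ := by group
          _ = k * (y * w) * k⁻¹ := by rw [this]
          _ = k * y * k⁻¹ * (k * w * k⁻¹) := by group
    rw [hmap, Subgroup.card_map_of_injective (MulAut.conj k).injective, hcw, hC, hZcard]
  haveI : Fintype (ConjClasses G) := Fintype.ofFinite _
  let F : G → ℂ := fun g => if orderOf g = p then 1 else 0
  have hF : Cfsg.IsClassFunction G F := by
    intro g h
    show (if orderOf (h * g * h⁻¹) = p then (1 : ℂ) else 0) = if orderOf g = p then 1 else 0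
    rw [Cfsg.Agent.Lib.Helper6.orderOf_conj_eq]
  choose rep hrep using (fun C : ConjClasses G => ConjClasses.exists_rep C)
  have hsum := sum_eq_sum_classes F hF rep hrep
  have hL : ∑ g : G, F g = ((Finset.univ.filter (fun x : G => orderOf x = p)).card : ℂ) := by
    simp only [F]
    rw [Finset.sum_boole]
  have hR : (p : ℂ) * ∑ C : ConjClasses G,
      ((Subgroup.centralizer ({rep C} : Set G)).index : ℂ) * F (rep C)
      = ((Finset.univ.filter (fun c : ConjClasses G =>
          ∃ g : G, ConjClasses.mk g = c ∧ orderOf g = p)).card : ℂ) * (Nat.card G : ℂ) := by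
    rw [Finset.mul_sum, Finset.card_filter, Nat.cast_sum, Finset.sum_mul]
    apply Finset.sum_congr rfl
    intro C _
    by_cases hCp : orderOf (rep C) = p
    · have h1 : (∃ g : G, ConjClasses.mk g = C ∧ orderOf g = p) := ⟨rep C, hrep C, hCp⟩
      rw [if_pos h1]
      simp only [F, if_pos hCp, mul_one, Nat.cast_one, one_mul]
      have h2 := Subgroup.card_mul_index (Subgroup.centralizer ({rep C} : Set G))
      rw [hcent _ hCp] at h2
      rw [← h2]; push_cast; ring
    · have h1 : ¬ (∃ g : G, ConjClasses.mk g = C ∧ orderOf g = p) := by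
        rintro ⟨g, hg, hgp⟩
        apply hCp
        rw [← hrep C] at hg
        obtain ⟨c, hc⟩ := isConj_iff.1 (ConjClasses.mk_eq_mk_iff_isConj.1 hg)
        rw [← hc, Cfsg.Agent.Lib.Helper6.orderOf_conj_eq, hgp]
      rw [if_neg h1]
      simp [F, hCp]
  obtain ⟨t, ht⟩ : ∃ t : ℕ, t = (Finset.univ.filter (fun c : ConjClasses G =>
          ∃ g : G, ConjClasses.mk g = c ∧ orderOf g = p)).card := ⟨_, rfl⟩
  have htcard : t = Nat.card {c : ConjClasses G // ∃ g : G, ConjClasses.mk g = c ∧ orderOf g = p} := by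
    rw [ht]
    exact (Nat.subtype_card _ (by simp)).symm
  have hXt : (Finset.univ.filter (fun x : G => orderOf x = p)).card * p = t * Nat.card G := by
    have : (((Finset.univ.filter (fun x : G => orderOf x = p)).card * p : ℕ) : ℂ)
        = ((t * Nat.card G : ℕ) : ℂ) := by
      push_cast
      rw [ht, ← hR, ← hsum, hL]; ring
    exact_mod_cast this
  rw [hA] at hXt
  have hmod := card_sylow_modEq_one p G
  have hpos : 0 < Nat.card (Sylow p G) := Nat.card_pos
  have hdvd : p ∣ Nat.card (Sylow p G) - 1 := (Nat.modEq_iff_dvd' hpos).1 hmod.symm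
  obtain ⟨n, hn⟩ := hdvd
  have hnp : Nat.card (Sylow p G) = 1 + n * p := by rw [mul_comm n p, ← hn]; omega
  refine ⟨n, t, htcard, ?_, hnp, ?_⟩
  · have h1 := S.card_eq_index_normalizer
    have h2 := Subgroup.card_mul_index (Subgroup.normalizer ((S : Subgroup G) : Set G))
    have h3 : Nat.card (S : Subgroup G) ∣ Nat.card (Subgroup.normalizer ((S : Subgroup G) : Set G)) :=
      Subgroup.card_dvd_of_le Subgroup.le_normalizer
    rw [hScard] at h3
    obtain ⟨e, he⟩ := h3
    refine ⟨e, ?_⟩
    have h4 : Nat.card G = p * e * Nat.card (Sylow p G) := by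
      rw [← h2, he, h1]; rfl
    rw [h4] at hXt
    have hp0 : 0 < p := hp.pos
    have h5 : Nat.card (Sylow p G) * p * (p - 1) = Nat.card (Sylow p G) * p * (t * e) := by
      calc Nat.card (Sylow p G) * p * (p - 1) = Nat.card (Sylow p G) * (p - 1) * p := by ring
        _ = t * (p * e * Nat.card (Sylow p G)) := hXt
        _ = Nat.card (Sylow p G) * p * (t * e) := by ring
    exact Nat.eq_of_mul_eq_mul_left (Nat.mul_pos hpos hp0) h5
  · rw [← hnp]
    calc Nat.card G * t = t * Nat.card G := mul_comm _ _
      _ = Nat.card (Sylow p G) * (p - 1) * p := hXt.symm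
      _ = (p - 1) * p * Nat.card (Sylow p G) := by ring

end Cfsg.Agent.Lib.Lead
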