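import Mathlib
import Cfsg.Agent.Lib.Lead.SmallSupp

set_option autoImplicit false

namespace Cfsg.Agent.Lib.Lead

open MulAction Equiv

set_option maxHeartbeats 800000 in
theorem exists_small_support {α : Type*} [Fintype α] [DecidableEq α] (G : Subgroup (Perm α))
    {k : ℕ} (hk : 3 ≤ k) (hkn : k ≤ Fintype.card α) (hG : IsMultiplyPretransitive G α k)
    (g : Perm α) (hg : g ∈ G) (hg1 : g ≠ 1) (hsupp : g.support.card < 2 * k - 2) :
    ∃ h : Perm α, h ∈ G ∧ h ≠ 1 ∧ h.support.card ≤ 3 := by
  classical
  have hex : ∃ m, ∃ h ∈ G, h ≠ 1 ∧ h.support.card = m := ⟨_, g, hg, hg1, rfl⟩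
  obtain ⟨g₀, hg₀, hg₀1, hm⟩ := Nat.find_spec hex
  have hmin : ∀ h ∈ G, h ≠ 1 → Nat.find hex ≤ h.support.card :=
    fun h hh h1 => Nat.find_min' hex ⟨h, hh, h1, rfl⟩
  obtain ⟨m, hmdef⟩ : ∃ m, m = Nat.find hex := ⟨_, rfl⟩
  rw [← hmdef] at hm hmin
  have hmg : m ≤ g.support.card := hmin g hg hg1
  by_contra hcon
  have hm4 : 4 ≤ m := by
    by_contra h
    exact hcon ⟨g₀, hg₀, hg₀1, by omega⟩
  have hn : Nat.card α = Fintype.card α := Nat.card_eq_fintype_card
  have hmn : m < Fintype.card α := by
    obtain ⟨a, b, c, hab, hac, hbc⟩ : ∃ a b c : α, a ≠ b ∧ a ≠ c ∧ b ≠ c :=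
      Fintype.two_lt_card_iff.1 (by omega : 2 < Fintype.card α)
    obtain ⟨x, hx⟩ := multi_trans_finset hG (by rw [hn]; exact hkn) {a, b}
      (le_trans Finset.card_le_two (by omega))
      (fun z => if z = a then a else c) (by
        intro z hz w hw hzw
        simp only [Finset.coe_insert, Finset.coe_singleton, Set.mem_insert_iff,
          Set.mem_singleton_iff] at hz hw
        rcases hz with rfl | rfl <;> rcases hw with rfl | rfl
        · rfl
        · simp only [if_true, if_neg (Ne.symm hab)] at hzw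
          exact absurd hzw hac
        · simp only [if_true, if_neg (Ne.symm hab)] at hzw
          exact absurd hzw.symm hac
        · rfl)
    have hxa : (x : Perm α) a = a := (hx a (by simp)).trans (if_pos rfl)
    have hxb : (x : Perm α) b = c := (hx b (by simp)).trans (if_neg (Ne.symm hab))
    have hx1 : (x : Perm α) ≠ 1 := by
      intro h; rw [h] at hxb; exact hbc hxb
    have h1 := hmin x x.2 hx1
    have h2 : (x : Perm α).support.card < Fintype.card α := by
      apply Finset.card_lt_univ_of_notMem (x := a)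
      rw [Perm.notMem_support]; exact hxa
    omega
  obtain ⟨j, hjdef⟩ : ∃ j, j = min k m := ⟨_, rfl⟩
  have hj3 : 3 ≤ j := by rw [hjdef]; exact le_min hk (by omega)
  have hjm : j ≤ m := by rw [hjdef]; exact min_le_right _ _
  have hjk : j ≤ k := by rw [hjdef]; exact min_le_left _ _
  have hmj : m < 2 * j - 2 := by
    rcases le_total k m with h | h
    · rw [hjdef, min_eq_left h]; omega
    · rw [hjdef, min_eq_right h]; omega
  haveI := hG
  have hGj : IsMultiplyPretransitive G α j :=
    isMultiplyPretransitive_of_le (n := k) (m := j) hjk (by rw [hn]; exact hkn)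
  obtain ⟨F, hFΔ, hFc, hFb⟩ := exists_chain_set g₀ (j - 1) (by omega)
  have step : ∀ (t u : α), t ∉ F → u ∉ F → ∃ x : Perm α, x ∈ G ∧ (∀ z ∈ F, x z = z) ∧ x t = u := by
    intro t u ht hu
    obtain ⟨x, hx⟩ := multi_trans_finset hGj (by rw [hn]; omega) (insert t F)
      (by rw [Finset.card_insert_of_notMem ht, hFc]; omega)
      (fun z => if z = t then u else z) (by
        intro z hz w hw hzw
        simp only [Finset.coe_insert, Set.mem_insert_iff, Finset.mem_coe] at hz hw
        by_cases hzt : z = t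
        · by_cases hwt : w = t
          · rw [hzt, hwt]
          · exfalso
            simp only [if_pos hzt, if_neg hwt] at hzw
            rcases hw with h | h
            · exact hwt h
            · exact hu (hzw ▸ h)
        · by_cases hwt : w = t
          · exfalso
            simp only [if_neg hzt, if_pos hwt] at hzw
            rcases hz with h | h
            · exact hzt h
            · exact hu (hzw ▸ h)
          · simpa only [if_neg hzt, if_neg hwt] using hzw)
    refine ⟨x, x.2, ?_, ?_⟩
    · intro z hz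
      have hzt : z ≠ t := fun h => ht (h ▸ hz)
      exact (hx z (Finset.mem_insert_of_mem hz)).trans (if_neg hzt)
    · exact (hx t (Finset.mem_insert_self _ _)).trans (if_pos rfl)
  have hF'Δ : F.filter (fun z => g₀ z ∈ F) ⊆ g₀.support :=
    (Finset.filter_subset _ _).trans hFΔ
  have bound : ∀ x ∈ G, (∀ z ∈ F, x z = z) → x * g₀ * x⁻¹ * g₀⁻¹ ≠ 1 → ∀ (Y : Finset α),
      Y ⊆ g₀.support → Y ⊆ g₀.support.image x →
      m ≤ (m - (F.filter (fun z => g₀ z ∈ F)).card) + (m - Y.card) := by
    intro x hx hxF hne Y hY1 hY2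
    have h1 := hmin _ (G.mul_mem (G.mul_mem (G.mul_mem hx hg₀) (G.inv_mem hx)) (G.inv_mem hg₀)) hne
    have h2 := comm_support_le g₀ x F hxF
    have h3 : (g₀.support \ F.filter (fun z => g₀ z ∈ F)).card =
        m - (F.filter (fun z => g₀ z ∈ F)).card := by
      rw [Finset.card_sdiff_of_subset hF'Δ, hm]
    have h4 : (g₀.support.image x \ g₀.support).card ≤ m - Y.card := by
      have h5 : g₀.support.image x \ g₀.support ⊆ g₀.support.image x \ Y := by
        intro z hz
        rw [Finset.mem_sdiff] at hz ⊢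
        exact ⟨hz.1, fun h => hz.2 (hY1 h)⟩
      have h6 := Finset.card_le_card h5
      rw [Finset.card_sdiff_of_subset hY2, Finset.card_image_of_injective _ x.injective, hm] at h6
      exact h6
    omega
  have hFimg : ∀ x : Perm α, (∀ z ∈ F, x z = z) → F ⊆ g₀.support.image x := by
    intro x hxF z hz
    exact Finset.mem_image.2 ⟨z, hFΔ hz, hxF z hz⟩
  have hnotΔ : ∃ u, u ∉ g₀.support := by
    by_contra hh
    push Not at hh
    have : g₀.support = Finset.univ := Finset.eq_univ_iff_forall.2 hh
    rw [this, Finset.card_univ] at hm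
    omega
  by_cases hb : ∃ s ∈ F, g₀ s ∉ F
  · obtain ⟨s, hs, hgs⟩ := hb
    have htΔ : g₀ s ∈ g₀.support := Perm.apply_mem_support.2 (hFΔ hs)
    have hF'c : j - 2 ≤ (F.filter (fun z => g₀ z ∈ F)).card := by
      have hsub : F.erase s ⊆ F.filter (fun z => g₀ z ∈ F) := by
        intro z hz
        obtain ⟨hzs, hzF⟩ := Finset.mem_erase.1 hz
        rw [Finset.mem_filter]
        refine ⟨hzF, ?_⟩
        by_contra h
        exact hzs (hFb z hzF s hs h hgs)
      have := Finset.card_le_card hsub
      rw [Finset.card_erase_of_mem hs, hFc] at this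
      omega
    have hne1 : ∀ (x : Perm α) (u : α), (∀ z ∈ F, x z = z) → x (g₀ s) = u → u ≠ g₀ s →
        x * g₀ * x⁻¹ * g₀⁻¹ ≠ 1 := by
      intro x u hxF hxt hut h1
      have h2 : (x * g₀ * x⁻¹ * g₀⁻¹) (g₀ s) = u := by
        have hxs : x⁻¹ s = s := by rw [Perm.inv_eq_iff_eq, hxF s hs]
        show x (g₀ (x⁻¹ (g₀⁻¹ (g₀ s)))) = u
        rw [show g₀⁻¹ (g₀ s) = s from by simp, hxs, hxt]
      rw [h1] at h2
      exact hut h2.symm
    by_cases hjm' : j = m
    · obtain ⟨u, hu⟩ := hnotΔ
      have huF : u ∉ F := fun h => hu (hFΔ h)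
      obtain ⟨x, hxG, hxF, hxt⟩ := step (g₀ s) u hgs huF
      have hne := hne1 x u hxF hxt (fun h => hu (h ▸ htΔ))
      have := bound x hxG hxF hne F hFΔ (hFimg x hxF)
      omega
    · have hne0 : (g₀.support \ insert (g₀ s) F).Nonempty := by
        rw [← Finset.card_pos, Finset.card_sdiff_of_subset, Finset.card_insert_of_notMem hgs,
          hFc, hm]
        · omega
        · intro z hz
          rcases Finset.mem_insert.1 hz with h | h
          · rw [h]; exact htΔ
          · exact hFΔ h
      obtain ⟨u, hu⟩ := hne0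
      obtain ⟨huΔ, hu2⟩ := Finset.mem_sdiff.1 hu
      have hut : u ≠ g₀ s := fun h => hu2 (h ▸ Finset.mem_insert_self _ _)
      have huF : u ∉ F := fun h => hu2 (Finset.mem_insert_of_mem h)
      obtain ⟨x, hxG, hxF, hxt⟩ := step (g₀ s) u hgs huF
      have hne := hne1 x u hxF hxt hut
      have := bound x hxG hxF hne (insert u F) (by
        intro z hz
        rcases Finset.mem_insert.1 hz with h | h
        · rw [h]; exact huΔ
        · exact hFΔ h) (by
        intro z hz
        rcases Finset.mem_insert.1 hz with h | h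
        · rw [h]; exact Finset.mem_image.2 ⟨g₀ s, htΔ, hxt⟩
        · exact hFimg x hxF h)
      rw [Finset.card_insert_of_notMem huF, hFc] at this
      omega
  · push Not at hb
    have hF' : F.filter (fun z => g₀ z ∈ F) = F := Finset.filter_true_of_mem hb
    have hne0 : (g₀.support \ F).Nonempty := by
      rw [← Finset.card_pos, Finset.card_sdiff_of_subset hFΔ, hFc, hm]
      omega
    obtain ⟨t, ht⟩ := hne0
    obtain ⟨htΔ, htF⟩ := Finset.mem_sdiff.1 ht
    obtain ⟨u, hu⟩ := hnotΔ
    have huF : u ∉ F := fun h => hu (hFΔ h)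
    obtain ⟨x, hxG, hxF, hxt⟩ := step t u htF huF
    have hne : x * g₀ * x⁻¹ * g₀⁻¹ ≠ 1 := by
      intro h1
      have h2 : (x * g₀ * x⁻¹ * g₀⁻¹) u = x (g₀ t) := by
        have h3 : g₀⁻¹ u = u := by
          rw [Perm.inv_eq_iff_eq]; exact (Perm.notMem_support.1 hu).symm
        have h4 : x⁻¹ u = t := by rw [Perm.inv_eq_iff_eq, hxt]
        simp only [Perm.mul_apply, h3, h4]
      rw [h1, Perm.one_apply, ← hxt] at h2
      have h5 := x.injective h2
      exact (Perm.mem_support.1 htΔ) h5.symm
    have := bound x hxG hxF hne F hFΔ (hFimg x hxF)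
    rw [hF', hFc] at this
    omega

end Cfsg.Agent.Lib.Lead
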