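import Mathlib
import Cfsg.Agent.Lib.Lead.SpTransv

namespace Cfsg.Agent.Lib.Lead

open Matrix

variable {l : Type*} [DecidableEq l] [Fintype l] {F : Type*} [Field F]

/-- a matrix for which every vector is an eigenvector is scalar -/
theorem scalar_of_eigen {n : Type*} [DecidableEq n] [Fintype n] (g : Matrix n n F)
    (h : ∀ u : n → F, ∃ c : F, g *ᵥ u = c • u) : ∃ c : F, g = c • (1 : Matrix n n F) := by
  rcases isEmpty_or_nonempty n with hn | ⟨⟨i0⟩⟩
  · exact ⟨1, by ext i; exact isEmptyElim i⟩
  choose lam hlam using fun i : n => h (Pi.single i 1)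
  have hcol : ∀ i j, g j i = if j = i then lam i else 0 := by
    intro i j
    have := congrFun (hlam i) j
    rw [mulVec_single_one] at this
    simp only [Matrix.col_apply, Pi.smul_apply, Pi.single_apply, smul_eq_mul, mul_ite, mul_one,
      mul_zero] at this
    exact this
  have hall : ∀ i, lam i = lam i0 := by
    intro i
    by_cases hi : i = i0
    · rw [hi]
    obtain ⟨c, hc⟩ := h (Pi.single i 1 + Pi.single i0 1)
    rw [mulVec_add, hlam, hlam] at hc
    have h1 := congrFun hc i
    have h2 := congrFun hc i0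
    simp [Pi.single_apply, hi, Ne.symm hi] at h1 h2
    rw [h1, h2]
  refine ⟨lam i0, ?_⟩
  ext j i
  rw [hcol, Matrix.smul_apply, Matrix.one_apply, hall i]
  split_ifs <;> simp

theorem sp_center_eigen (g : symplecticGroup l F)
    (hg : g ∈ Subgroup.center (symplecticGroup l F)) (u : l ⊕ l → F) :
    ∃ c : F, (g : Matrix (l ⊕ l) (l ⊕ l) F) *ᵥ u = c • u := by
  by_cases hu : u = 0
  · exact ⟨0, by rw [hu, mulVec_zero, smul_zero]⟩
  obtain ⟨x, hx⟩ := exists_spB_ne u hu
  have hux : spB u x ≠ 0 := by rw [spB_swap]; exact neg_ne_zero.mpr hx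
  have hcomm := Subgroup.mem_center_iff.mp hg ⟨spT u 1, spT_mem u 1⟩
  have hm : spT u 1 * (g : Matrix (l ⊕ l) (l ⊕ l) F) = (g : Matrix (l ⊕ l) (l ⊕ l) F) * spT u 1 :=
    congrArg Subtype.val hcomm
  have h1 := congrArg (fun M => M *ᵥ x) hm
  simp only [← mulVec_mulVec, spT_mulVec, one_mul, mulVec_add, mulVec_smul] at h1
  refine ⟨(spB u x)⁻¹ * spB u ((g : Matrix (l ⊕ l) (l ⊕ l) F) *ᵥ x), ?_⟩
  have h2 : spB u x • ((g : Matrix (l ⊕ l) (l ⊕ l) F) *ᵥ u) =
      spB u ((g : Matrix (l ⊕ l) (l ⊕ l) F) *ᵥ x) • u := (add_left_cancel h1).symm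
  rw [mul_smul, ← h2, smul_smul, inv_mul_cancel₀ hux, one_smul]

theorem sp_center_iff (hl : Nonempty l) (g : symplecticGroup l F) :
    g ∈ Subgroup.center (symplecticGroup l F) ↔
      (g : Matrix (l ⊕ l) (l ⊕ l) F) = 1 ∨ (g : Matrix (l ⊕ l) (l ⊕ l) F) = -1 := by
  constructor
  · intro hg
    obtain ⟨c, hc⟩ := scalar_of_eigen (g : Matrix (l ⊕ l) (l ⊕ l) F) (sp_center_eigen g hg)
    have hmem := SymplecticGroup.mem_iff.mp g.2
    rw [hc, transpose_smul, transpose_one, smul_mul_assoc, one_mul, mul_smul_comm, mul_one,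
      smul_smul] at hmem
    obtain ⟨i⟩ := hl
    have := congrFun (congrFun hmem (Sum.inr i)) (Sum.inl i)
    simp [J] at this
    rcases mul_self_eq_one_iff.mp this with h | h
    · left; rw [hc, h, one_smul]
    · right; rw [hc, h, neg_one_smul]
  · rintro (h | h)
    · have : g = 1 := Subtype.ext h
      rw [this]; exact Subgroup.one_mem _
    · rw [Subgroup.mem_center_iff]
      intro k
      apply Subtype.ext
      show (k : Matrix (l ⊕ l) (l ⊕ l) F) * (g : Matrix (l ⊕ l) (l ⊕ l) F) =
        (g : Matrix (l ⊕ l) (l ⊕ l) F) * (k : Matrix (l ⊕ l) (l ⊕ l) F)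
      rw [h, mul_neg, mul_one, neg_mul, one_mul]

theorem card_center_sp [Fintype F] (hl : Nonempty l) :
    Nat.card (Subgroup.center (symplecticGroup l F)) = Nat.gcd 2 (Fintype.card F - 1) := by
  classical
  obtain ⟨negOne, hnegOne⟩ : ∃ z : symplecticGroup l F, (z : Matrix (l ⊕ l) (l ⊕ l) F) = -1 :=
    ⟨⟨-1, SymplecticGroup.neg_mem (Submonoid.one_mem _)⟩, rfl⟩
  have hset : ((Subgroup.center (symplecticGroup l F) : Subgroup (symplecticGroup l F)) :
      Set (symplecticGroup l F)) = {1, negOne} := by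
    ext g
    simp only [SetLike.mem_coe, Set.mem_insert_iff, Set.mem_singleton_iff]
    rw [sp_center_iff hl]
    constructor
    · rintro (h | h)
      · left; exact Subtype.ext h
      · right; exact Subtype.ext (h.trans hnegOne.symm)
    · rintro (rfl | rfl)
      · left; rfl
      · right; exact hnegOne
  have hcard : Nat.card (Subgroup.center (symplecticGroup l F)) =
      Set.ncard ((Subgroup.center (symplecticGroup l F) : Subgroup (symplecticGroup l F)) :
        Set (symplecticGroup l F)) := rfl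
  rw [hcard, hset]
  have hq : 2 ≤ Fintype.card F := Fintype.one_lt_card
  by_cases h2 : ringChar F = 2
  · have h1 : (1 : symplecticGroup l F) = negOne := by
      apply Subtype.ext
      rw [hnegOne]
      show (1 : Matrix (l ⊕ l) (l ⊕ l) F) = -1
      have h20 : (2 : F) = 0 := by
        have := CharP.cast_eq_zero F (ringChar F)
        rw [h2] at this
        exact_mod_cast this
      have h11 : (-1 : F) = 1 := by linear_combination -h20
      rw [← neg_one_smul F (1 : Matrix (l ⊕ l) (l ⊕ l) F), h11, one_smul]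
    rw [← h1, Set.pair_eq_singleton, Set.ncard_singleton]
    have := FiniteField.even_card_of_char_two h2
    have hnd : ¬ 2 ∣ Fintype.card F - 1 := by omega
    have hcop : Nat.gcd 2 (Fintype.card F - 1) = 1 :=
      (Nat.Prime.coprime_iff_not_dvd Nat.prime_two).mpr hnd
    exact hcop.symm
  · have h1 : (1 : symplecticGroup l F) ≠ negOne := by
      intro h
      have hm : (1 : Matrix (l ⊕ l) (l ⊕ l) F) = -1 := by
        rw [← hnegOne, ← h]; rfl
      obtain ⟨i⟩ := hl
      have := congrFun (congrFun hm (Sum.inl i)) (Sum.inl i)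
      simp at this
      have h20 : ((2 : ℕ) : F) = 0 := by push_cast; linear_combination this
      have := (ringChar.spec F 2).mp h20
      exact h2 ((Nat.prime_dvd_prime_iff_eq (CharP.char_is_prime F (ringChar F))
        Nat.prime_two).mp this)
    rw [Set.ncard_pair h1]
    have := FiniteField.odd_card_of_char_ne_two h2
    have hd : 2 ∣ Fintype.card F - 1 := by omega
    exact (Nat.gcd_eq_left hd).symm

end Cfsg.Agent.Lib.Lead
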