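import Mathlib
import Cfsg.Prelude.Def_Sporadic_a
import Cfsg.Agent.Lib.Helper9.Steiner

namespace Cfsg.Agent.Lib.Lead

open Finset

variable {α : Type*} [Fintype α] [DecidableEq α]

/-- the block set as a finset -/
noncomputable def blocks (B : Set (Finset α)) : Finset (Finset α) := (Set.toFinite B).toFinset

theorem mem_blocks (B : Set (Finset α)) (b : Finset α) : b ∈ blocks B ↔ b ∈ B :=
  Set.Finite.mem_toFinset _

theorem ncard_eq_card_blocks (B : Set (Finset α)) : B.ncard = (blocks B).card :=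
  Set.ncard_eq_toFinset_card B (Set.toFinite B)

theorem steiner_blocks_card {t k : ℕ} {B : Set (Finset α)} (hB : Cfsg.IsSteinerSystem t k B) :
    ∀ b ∈ blocks B, b.card = k := fun b hb => hB.1 b ((mem_blocks B b).mp hb)

theorem steiner_blocks_unique {t k : ℕ} {B : Set (Finset α)} (hB : Cfsg.IsSteinerSystem t k B) :
    ∀ s : Finset α, s.card = t → ∃! b, b ∈ blocks B ∧ s ⊆ b := by
  intro s hs
  obtain ⟨b, hb, huniq⟩ := hB.2 s hs
  exact ⟨b, ⟨(mem_blocks B b).mpr hb.1, hb.2⟩,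
    fun c hc => huniq c ⟨(mem_blocks B c).mp hc.1, hc.2⟩⟩

theorem sum_choose_mul {t k : ℕ} {B : Set (Finset α)} (hB : Cfsg.IsSteinerSystem t k B)
    (Y : Finset α) (j : ℕ) (hj : j ≤ t) :
    (∑ b ∈ blocks B, ((b ∩ Y).card).choose j) * (k - j).choose (t - j) =
      Y.card.choose j * (Fintype.card α - j).choose (t - j) := by
  rw [Helper9.Steiner.sum_choose_inter, Finset.sum_mul]
  have h1 : ∀ Z ∈ Y.powersetCard j,
      ((blocks B).filter (fun b => Z ⊆ b)).card * (k - j).choose (t - j) =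
        (Fintype.card α - j).choose (t - j) := by
    intro Z hZ
    have hZc : Z.card = j := (Finset.mem_powersetCard.mp hZ).2
    have h2 := Helper9.Steiner.steiner_count (blocks B) t k (steiner_blocks_card hB)
      (steiner_blocks_unique hB) Z (by omega)
    rw [hZc] at h2
    exact h2
  rw [Finset.sum_congr rfl h1, Finset.sum_const, Finset.card_powersetCard, smul_eq_mul]

theorem inter_card_lt {t k : ℕ} {B : Set (Finset α)} (hB : Cfsg.IsSteinerSystem t k B)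
    {b c : Finset α} (hb : b ∈ B) (hc : c ∈ B) (hbc : b ≠ c) : (c ∩ b).card < t := by
  by_contra hcon
  push Not at hcon
  obtain ⟨s, hs, hsc⟩ := Finset.exists_subset_card_eq hcon
  obtain ⟨d, -, huniq⟩ := hB.2 s hsc
  have h1 := huniq b ⟨hb, hs.trans Finset.inter_subset_right⟩
  have h2 := huniq c ⟨hc, hs.trans Finset.inter_subset_left⟩
  exact hbc (h1.trans h2.symm)

/-- a test function that is non-negative on possible intersection sizes and sums to zero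
vanishes on every intersection size -/
theorem test_function_zero (s : Finset (Finset α)) (b : Finset α) (hb : b ∈ s) (G : ℕ → ℤ)
    (m : ℕ) (hG : ∀ i < m, 0 ≤ G i) (hi : ∀ c ∈ s, c ≠ b → (c ∩ b).card < m)
    (hsum : ∑ c ∈ s, G (c ∩ b).card = G b.card) :
    ∀ c ∈ s, c ≠ b → G (c ∩ b).card = 0 := by
  rw [← Finset.add_sum_erase s _ hb, Finset.inter_self] at hsum
  have h0 : ∑ c ∈ s.erase b, G (c ∩ b).card = 0 := by linarith
  have hnn : ∀ c ∈ s.erase b, 0 ≤ G (c ∩ b).card := fun c hc =>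
    hG _ (hi c (Finset.mem_of_mem_erase hc) (Finset.ne_of_mem_erase hc))
  intro c hc hcb
  exact (Finset.sum_eq_zero_iff_of_nonneg hnn).mp h0 c (Finset.mem_erase.mpr ⟨hcb, hc⟩)

theorem sum_erase_eq (s : Finset (Finset α)) (b : Finset α) (hb : b ∈ s) (G : ℕ → ℤ) :
    ∑ c ∈ s.erase b, G (c ∩ b).card = ∑ c ∈ s, G (c ∩ b).card - G b.card := by
  rw [← Finset.add_sum_erase s _ hb, Finset.inter_self]
  ring

theorem sum_choose_val {t k : ℕ} {B : Set (Finset α)} (hB : Cfsg.IsSteinerSystem t k B)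
    {b : Finset α} (hb : b ∈ B) (j : ℕ) (hj : j ≤ t) (N : ℕ)
    (hN : N * (k - j).choose (t - j) = k.choose j * (Fintype.card α - j).choose (t - j))
    (hpos : 0 < (k - j).choose (t - j)) :
    ∑ c ∈ blocks B, ((c ∩ b).card).choose j = N :=
  Nat.eq_of_mul_eq_mul_right hpos (by rw [sum_choose_mul hB b j hj, hB.1 b hb, hN])

/-- test function for `S(5,8,24)` -/
def G5 (i : ℕ) : ℤ :=
  -24 * (i.choose 4 : ℤ) + 12 * (i.choose 3 : ℤ) - 6 * (i.choose 2 : ℤ) + 3 * (i.choose 1 : ℤ)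

theorem G5_nonneg : ∀ i < 5, 0 ≤ G5 i := by decide
theorem G5_zero : ∀ i < 5, G5 i = 0 → i = 0 ∨ i = 2 ∨ i = 4 := by decide
theorem G5_eight : G5 8 = -1152 := by decide

theorem sum_G5 (s : Finset (Finset α)) (b : Finset α) :
    ∑ c ∈ s, G5 (c ∩ b).card =
      -24 * ((∑ c ∈ s, ((c ∩ b).card).choose 4 : ℕ) : ℤ) +
        12 * ((∑ c ∈ s, ((c ∩ b).card).choose 3 : ℕ) : ℤ) -
        6 * ((∑ c ∈ s, ((c ∩ b).card).choose 2 : ℕ) : ℤ) +
        3 * ((∑ c ∈ s, ((c ∩ b).card).choose 1 : ℕ) : ℤ) := by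
  simp only [G5, Finset.sum_add_distrib, Finset.sum_sub_distrib, ← Finset.mul_sum, Nat.cast_sum]

/-- second test function for `S(5,8,24)` -/
def H5 (i : ℕ) : ℤ := 2 * (i.choose 2 : ℤ) - 5 * (i.choose 1 : ℤ) + 8 * (i.choose 0 : ℤ)

theorem H5_val : ∀ i < 5, (i = 0 ∨ i = 2 ∨ i = 4) → H5 i = if i = 0 then 8 else 0 := by decide
theorem H5_eight : H5 8 = 24 := by decide

theorem sum_H5 (s : Finset (Finset α)) (b : Finset α) :
    ∑ c ∈ s, H5 (c ∩ b).card =
      2 * ((∑ c ∈ s, ((c ∩ b).card).choose 2 : ℕ) : ℤ) -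
        5 * ((∑ c ∈ s, ((c ∩ b).card).choose 1 : ℕ) : ℤ) +
        8 * ((∑ c ∈ s, ((c ∩ b).card).choose 0 : ℕ) : ℤ) := by
  simp only [H5, Finset.sum_add_distrib, Finset.sum_sub_distrib, ← Finset.mul_sum, Nat.cast_sum]

/-- test function for `S(4,7,23)` -/
def G4 (i : ℕ) : ℤ :=
  -6 * (i.choose 3 : ℤ) + 4 * (i.choose 2 : ℤ) - 3 * (i.choose 1 : ℤ) + 3 * (i.choose 0 : ℤ)

theorem G4_nonneg : ∀ i < 4, 0 ≤ G4 i := by decide
theorem G4_zero : ∀ i < 4, G4 i = 0 → i = 1 ∨ i = 3 := by decide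
theorem G4_seven : G4 7 = -144 := by decide

theorem sum_G4 (s : Finset (Finset α)) (b : Finset α) :
    ∑ c ∈ s, G4 (c ∩ b).card =
      -6 * ((∑ c ∈ s, ((c ∩ b).card).choose 3 : ℕ) : ℤ) +
        4 * ((∑ c ∈ s, ((c ∩ b).card).choose 2 : ℕ) : ℤ) -
        3 * ((∑ c ∈ s, ((c ∩ b).card).choose 1 : ℕ) : ℤ) +
        3 * ((∑ c ∈ s, ((c ∩ b).card).choose 0 : ℕ) : ℤ) := by
  simp only [G4, Finset.sum_add_distrib, Finset.sum_sub_distrib, ← Finset.mul_sum, Nat.cast_sum]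

/-- test function for `S(3,6,22)` -/
def G3 (i : ℕ) : ℤ := (i.choose 1 : ℤ) - 2 * (i.choose 2 : ℤ)

theorem G3_nonneg : ∀ i < 3, 0 ≤ G3 i := by decide
theorem G3_zero : ∀ i < 3, G3 i = 0 → i = 0 ∨ i = 2 := by decide
theorem G3_six : G3 6 = -24 := by decide

theorem sum_G3 (s : Finset (Finset α)) (b : Finset α) :
    ∑ c ∈ s, G3 (c ∩ b).card =
      ((∑ c ∈ s, ((c ∩ b).card).choose 1 : ℕ) : ℤ) -
        2 * ((∑ c ∈ s, ((c ∩ b).card).choose 2 : ℕ) : ℤ) := by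
  simp only [G3, Finset.sum_add_distrib, Finset.sum_sub_distrib, ← Finset.mul_sum, Nat.cast_sum]

/-- test function for `S(5,6,12)` -/
def K5 (i : ℕ) : ℤ :=
  (i.choose 0 : ℤ) - (i.choose 1 : ℤ) + (i.choose 2 : ℤ) - (i.choose 3 : ℤ) + (i.choose 4 : ℤ)

theorem K5_val : ∀ i < 5, K5 i = if i = 0 then 1 else 0 := by decide
theorem K5_six : K5 6 = 5 := by decide

theorem sum_K5 (s : Finset (Finset α)) (b : Finset α) :
    ∑ c ∈ s, K5 (c ∩ b).card =
      ((∑ c ∈ s, ((c ∩ b).card).choose 0 : ℕ) : ℤ) -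
        ((∑ c ∈ s, ((c ∩ b).card).choose 1 : ℕ) : ℤ) +
        ((∑ c ∈ s, ((c ∩ b).card).choose 2 : ℕ) : ℤ) -
        ((∑ c ∈ s, ((c ∩ b).card).choose 3 : ℕ) : ℤ) +
        ((∑ c ∈ s, ((c ∩ b).card).choose 4 : ℕ) : ℤ) := by
  simp only [K5, Finset.sum_add_distrib, Finset.sum_sub_distrib, Nat.cast_sum]

end Cfsg.Agent.Lib.Lead
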