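import Mathlib
import Cfsg.Agent.Lib.Lead.SteinerCount
import Cfsg.Agent.S0352

namespace Cfsg.Agent.Lib.Lead

open Finset

variable {α : Type*} [Fintype α] [DecidableEq α]

theorem s5824_inter_four (hα : Fintype.card α = 24) {B : Set (Finset α)}
    (hB : Cfsg.IsSteinerSystem 5 8 B) {b g : Finset α} (hb : b ∈ B) (hg : g ∈ B) (hne : g ≠ b)
    (h3 : 3 ≤ (g ∩ b).card) : (g ∩ b).card = 4 := by
  rcases Cfsg.Agent.S0352.result hα hB hg hb hne with h | h | h <;> omega

theorem s5824_eq_of_five {B : Set (Finset α)}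
    (hB : Cfsg.IsSteinerSystem 5 8 B) {b g : Finset α} (hb : b ∈ B) (hg : g ∈ B)
    (s : Finset α) (hs : s.card = 5) (hsb : s ⊆ b) (hsg : s ⊆ g) : g = b := by
  obtain ⟨d, -, huniq⟩ := hB.2 s hs
  exact (huniq g ⟨hg, hsg⟩).trans (huniq b ⟨hb, hsb⟩).symm

theorem s5824_count_four (hα : Fintype.card α = 24) {B : Set (Finset α)}
    (hB : Cfsg.IsSteinerSystem 5 8 B) (X : Finset α) (hX : X.card = 4) :
    ((blocks B).filter (fun g => X ⊆ g)).card = 5 := by
  have h := Helper9.Steiner.steiner_count (blocks B) 5 8 (steiner_blocks_card hB)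
    (steiner_blocks_unique hB) X (by omega)
  rw [hX, hα] at h
  norm_num at h
  omega

theorem s5824_odd_inter (hα : Fintype.card α = 24) {B : Set (Finset α)}
    (hB : Cfsg.IsSteinerSystem 5 8 B) {b : Finset α} (hb : b ∈ B) (X U : Finset α)
    (hX : X ⊆ b) (hXc : X.card = 4) (hU : U.card = 4) (hUb : Disjoint U b)
    (hodd : ∀ g ∈ B, g ≠ b → X ⊆ g → 1 ≤ (g ∩ U).card) :
    ∀ g ∈ B, g ≠ b → X ⊆ g → (g ∩ U).card = 1 := by
  classical
  set F := ((blocks B).filter (fun g => X ⊆ g)).erase b with hF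
  have hbF : b ∈ (blocks B).filter (fun g => X ⊆ g) :=
    Finset.mem_filter.mpr ⟨(mem_blocks B b).mpr hb, hX⟩
  have hFc : F.card = 4 := by
    rw [hF, Finset.card_erase_of_mem hbF, s5824_count_four hα hB X hXc]
  have hmemF : ∀ g, g ∈ F ↔ g ∈ B ∧ g ≠ b ∧ X ⊆ g := by
    intro g
    rw [hF, Finset.mem_erase, Finset.mem_filter, mem_blocks]
    tauto
  have hdisj : ∀ g ∈ F, ∀ g' ∈ F, g ≠ g' → Disjoint (g ∩ U) (g' ∩ U) := by
    intro g hg g' hg' hne
    rw [Finset.disjoint_left]
    intro u hu hu'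
    have huU : u ∈ U := (Finset.mem_inter.mp hu).2
    have hub : u ∉ b := Finset.disjoint_left.mp hUb huU
    have huX : u ∉ X := fun h => hub (hX h)
    have h5 : (insert u X).card = 5 := by rw [Finset.card_insert_of_notMem huX, hXc]
    have hgB := (hmemF g).mp hg
    have hgB' := (hmemF g').mp hg'
    exact hne (s5824_eq_of_five hB hgB'.1 hgB.1 (insert u X) h5
      (Finset.insert_subset (Finset.mem_inter.mp hu').1 hgB'.2.2)
      (Finset.insert_subset (Finset.mem_inter.mp hu).1 hgB.2.2))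
  have hsum : ∑ g ∈ F, (g ∩ U).card ≤ 4 := by
    rw [← Finset.card_biUnion hdisj, ← hU]
    apply Finset.card_le_card
    intro u hu
    obtain ⟨g, -, hg⟩ := Finset.mem_biUnion.mp hu
    exact (Finset.mem_inter.mp hg).2
  have hle : ∀ g ∈ F, 1 ≤ (g ∩ U).card := fun g hg =>
    hodd g ((hmemF g).mp hg).1 ((hmemF g).mp hg).2.1 ((hmemF g).mp hg).2.2
  have heq : ∑ g ∈ F, 1 = ∑ g ∈ F, (g ∩ U).card := by
    apply le_antisymm (Finset.sum_le_sum hle)
    rw [Finset.sum_const, smul_eq_mul, mul_one, hFc]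
    exact hsum
  have hall := (Finset.sum_eq_sum_iff_of_le hle).mp heq
  intro g hg hne hXg
  exact (hall g ((hmemF g).mpr ⟨hg, hne, hXg⟩)).symm

theorem s5824_symmDiff (hα : Fintype.card α = 24) {B : Set (Finset α)}
    (hB : Cfsg.IsSteinerSystem 5 8 B) {b c : Finset α} (hb : b ∈ B) (hc : c ∈ B)
    (h4 : (b ∩ c).card = 4) : symmDiff b c ∈ B := by
  classical
  have hbc8 : b.card = 8 := hB.1 b hb
  have hcc8 : c.card = 8 := hB.1 c hc
  have hT1 : (b \ c).card = 4 := by
    have := Finset.card_sdiff_add_card_inter b c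
    omega
  have hT2 : (c \ b).card = 4 := by
    have := Finset.card_sdiff_add_card_inter c b
    rw [Finset.inter_comm] at this
    omega
  obtain ⟨y, hy⟩ : (c \ b).Nonempty := Finset.card_pos.mp (by omega)
  have hyc : y ∈ c := (Finset.mem_sdiff.mp hy).1
  have hyb : y ∉ b := (Finset.mem_sdiff.mp hy).2
  have hy1 : y ∉ b \ c := fun h => hyb (Finset.mem_sdiff.mp h).1
  have h5 : (insert y (b \ c)).card = 5 := by rw [Finset.card_insert_of_notMem hy1, hT1]
  obtain ⟨d, ⟨hd, hsd⟩, -⟩ := hB.2 _ h5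
  have hyd : y ∈ d := hsd (Finset.mem_insert_self _ _)
  have hT1d : b \ c ⊆ d := fun x hx => hsd (Finset.mem_insert_of_mem hx)
  have hdb : d ≠ b := by rintro rfl; exact hyb hyd
  have hsub1 : b \ c ⊆ d ∩ b :=
    fun x hx => Finset.mem_inter.mpr ⟨hT1d hx, (Finset.mem_sdiff.mp hx).1⟩
  have hdb4 : (d ∩ b).card = 4 := by
    apply s5824_inter_four hα hB hb hd hdb
    have := Finset.card_le_card hsub1
    omega
  have hdbeq : b \ c = d ∩ b := by
    apply Finset.eq_of_subset_of_card_le hsub1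
    rw [hdb4, hT1]
  have hU : (d \ b).card = 4 := by
    have := Finset.card_sdiff_add_card_inter d b
    have := hB.1 d hd
    omega
  have hUb : Disjoint (d \ b) b := Finset.sdiff_disjoint
  have hyU : y ∈ d \ b := Finset.mem_sdiff.mpr ⟨hyd, hyb⟩
  obtain ⟨S3, hS3, hS3c⟩ := Finset.exists_subset_card_eq (show 3 ≤ (b ∩ c).card by omega)
  have hS3b : S3 ⊆ b := hS3.trans Finset.inter_subset_left
  have hS3cc : S3 ⊆ c := hS3.trans Finset.inter_subset_right
  have hS3d : Disjoint S3 d := by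
    rw [Finset.disjoint_left]
    intro x hx hxd
    have : x ∈ d ∩ b := Finset.mem_inter.mpr ⟨hxd, hS3b hx⟩
    rw [← hdbeq] at this
    exact (Finset.mem_sdiff.mp this).2 (hS3cc hx)
  have step3 : ∀ x ∈ b \ c, ∀ g ∈ B, g ≠ b → insert x S3 ⊆ g → (g ∩ (d \ b)).card = 1 := by
    intro x hx
    have hxb : x ∈ b := (Finset.mem_sdiff.mp hx).1
    have hxS3 : x ∉ S3 := fun h => (Finset.mem_sdiff.mp hx).2 (hS3cc h)
    have hXc : (insert x S3).card = 4 := by rw [Finset.card_insert_of_notMem hxS3, hS3c]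
    have hXb : insert x S3 ⊆ b := Finset.insert_subset hxb hS3b
    apply s5824_odd_inter hα hB hb (insert x S3) (d \ b) hXb hXc hU hUb
    intro g hg hgb hXg
    have hgb4 : (g ∩ b).card = 4 := by
      apply s5824_inter_four hα hB hb hg hgb
      have := Finset.card_le_card (Finset.subset_inter hXg hXb)
      omega
    have hgbeq : insert x S3 = g ∩ b := by
      apply Finset.eq_of_subset_of_card_le (Finset.subset_inter hXg hXb)
      rw [hgb4, hXc]
    obtain ⟨s0, hs0⟩ : S3.Nonempty := Finset.card_pos.mp (by omega)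
    have hgd : g ≠ d := by
      rintro rfl
      exact Finset.disjoint_left.mp hS3d hs0 (hXg (Finset.mem_insert_of_mem hs0))
    have hsplit : g ∩ d = insert x (g ∩ (d \ b)) := by
      ext z
      simp only [Finset.mem_inter, Finset.mem_insert, Finset.mem_sdiff]
      constructor
      · rintro ⟨hzg, hzd⟩
        by_cases hzb : z ∈ b
        · left
          have h1 : z ∈ g ∩ b := Finset.mem_inter.mpr ⟨hzg, hzb⟩
          rw [← hgbeq, Finset.mem_insert] at h1
          rcases h1 with h1 | h1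
          · exact h1
          · exact absurd hzd (Finset.disjoint_left.mp hS3d h1)
        · right; exact ⟨hzg, hzd, hzb⟩
      · rintro (rfl | ⟨hzg, hzd, -⟩)
        · exact ⟨hXg (Finset.mem_insert_self _ _), hT1d hx⟩
        · exact ⟨hzg, hzd⟩
    have hxnot : x ∉ g ∩ (d \ b) :=
      fun h => (Finset.mem_sdiff.mp (Finset.mem_inter.mp h).2).2 hxb
    have hcard : (g ∩ d).card = (g ∩ (d \ b)).card + 1 := by
      rw [hsplit, Finset.card_insert_of_notMem hxnot]
    rcases Cfsg.Agent.S0352.result hα hB hg hd hgd with h | h | h <;> omega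
  have step4 : ∀ y' ∈ d \ b, y' ∈ c := by
    intro y' hy'
    by_cases hyy : y' = y
    · rw [hyy]; exact hyc
    have hy'b : y' ∉ b := (Finset.mem_sdiff.mp hy').2
    have hy'd : y' ∈ d := (Finset.mem_sdiff.mp hy').1
    have hyS3 : y ∉ S3 := fun h => hyb (hS3b h)
    have hy'S3 : y' ∉ insert y S3 := by
      rw [Finset.mem_insert]
      rintro (h | h)
      · exact hyy h
      · exact hy'b (hS3b h)
    have h5' : (insert y' (insert y S3)).card = 5 := by
      rw [Finset.card_insert_of_notMem hy'S3, Finset.card_insert_of_notMem hyS3, hS3c]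
    obtain ⟨f, ⟨hf, hsf⟩, -⟩ := hB.2 _ h5'
    have hy'f : y' ∈ f := hsf (Finset.mem_insert_self _ _)
    have hyf : y ∈ f := hsf (Finset.mem_insert_of_mem (Finset.mem_insert_self _ _))
    have hS3f : S3 ⊆ f :=
      fun z hz => hsf (Finset.mem_insert_of_mem (Finset.mem_insert_of_mem hz))
    have hfb : f ≠ b := by rintro rfl; exact hyb hyf
    have hfb4 : (f ∩ b).card = 4 := by
      apply s5824_inter_four hα hB hb hf hfb
      have := Finset.card_le_card (Finset.subset_inter hS3f hS3b)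
      omega
    obtain ⟨w, hw, hwS3⟩ : ∃ w ∈ f ∩ b, w ∉ S3 := by
      by_contra hcon
      push Not at hcon
      have := Finset.card_le_card (show f ∩ b ⊆ S3 from hcon)
      omega
    have hwf : w ∈ f := (Finset.mem_inter.mp hw).1
    have hwb : w ∈ b := (Finset.mem_inter.mp hw).2
    by_cases hwc : w ∈ c
    · have hyw : y ∉ insert w S3 := by
        rw [Finset.mem_insert]
        rintro (h | h)
        · exact hyb (h ▸ hwb)
        · exact hyS3 h
      have h5'' : (insert y (insert w S3)).card = 5 := by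
        rw [Finset.card_insert_of_notMem hyw, Finset.card_insert_of_notMem hwS3, hS3c]
      have hfc : f = c := s5824_eq_of_five hB hc hf _ h5''
        (Finset.insert_subset hyc (Finset.insert_subset hwc hS3cc))
        (Finset.insert_subset hyf (Finset.insert_subset hwf hS3f))
      rw [← hfc]; exact hy'f
    · exfalso
      have hwT1 : w ∈ b \ c := Finset.mem_sdiff.mpr ⟨hwb, hwc⟩
      have h1 := step3 w hwT1 f hf hfb (Finset.insert_subset hwf hS3f)
      have h2 : ({y, y'} : Finset α) ⊆ f ∩ (d \ b) := by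
        intro z hz
        rw [Finset.mem_insert, Finset.mem_singleton] at hz
        rcases hz with rfl | rfl
        · exact Finset.mem_inter.mpr ⟨hyf, hyU⟩
        · exact Finset.mem_inter.mpr ⟨hy'f, hy'⟩
      have := Finset.card_le_card h2
      rw [Finset.card_pair (Ne.symm hyy), h1] at this
      omega
  have hUeq : d \ b = c \ b := by
    apply Finset.eq_of_subset_of_card_le
    · intro z hz
      exact Finset.mem_sdiff.mpr ⟨step4 z hz, (Finset.mem_sdiff.mp hz).2⟩
    · rw [hT2, hU]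
  have hdeq : d = symmDiff b c := by
    ext z
    rw [Finset.mem_symmDiff]
    have e1 : z ∈ d \ b ↔ z ∈ c \ b := by rw [hUeq]
    have e2 : z ∈ b \ c ↔ z ∈ d ∩ b := by rw [hdbeq]
    simp only [Finset.mem_sdiff, Finset.mem_inter] at e1 e2
    tauto
  rw [← hdeq]; exact hd

end Cfsg.Agent.Lib.Lead
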