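import Mathlib
import Cfsg.Agent.Lib.Lead.BaerSuzuki

set_option autoImplicit false

namespace Cfsg.Agent.Lib.Lead

theorem exists_normalizing_pgroup {G : Type*} [Group G] [Finite G] {p : ℕ} [Fact p.Prime]
    {D P : Subgroup G} (hP : IsPGroup p P) (hlt : D < P) :
    ∃ z ∈ P, z ∉ D ∧ z ∈ Subgroup.normalizer (D : Set G) := by
  have hnil : Group.IsNilpotent P := hP.isNilpotent
  have hnc : NormalizerCondition P := Group.normalizerCondition_of_isNilpotent
  have hlt' : D.subgroupOf P < ⊤ := by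
    rw [lt_top_iff_ne_top]
    intro h
    rw [Subgroup.subgroupOf_eq_top] at h
    exact (not_le_of_gt hlt) h
  obtain ⟨z', hz'N, hz'P⟩ := SetLike.exists_of_lt (hnc _ hlt')
  refine ⟨z', z'.2, ?_, ?_⟩
  · intro h; exact hz'P (Subgroup.mem_subgroupOf.mpr h)
  · apply mem_normalizer_of_conj_le
    intro u hu
    have h1 : (⟨u, hlt.le hu⟩ : P) ∈ D.subgroupOf P := Subgroup.mem_subgroupOf.mpr hu
    have h2 := (Subgroup.mem_normalizer_iff.mp hz'N ⟨u, hlt.le hu⟩).mp h1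
    exact Subgroup.mem_subgroupOf.mp h2

theorem sylow_int_normalizer {G : Type*} [Group G] [Finite G] (p : ℕ) [Fact p.Prime]
    (P Q : Sylow p G) (hPQ : P ≠ Q) (D : Subgroup G) (hD : D = (P : Subgroup G) ⊓ Q)
    (Nm : Subgroup G) (hNm : Nm = Subgroup.normalizer (D : Set G))
    (hmax : ∀ P' Q' : Sylow p G, P' ≠ Q' →
      Nat.card ↥((P' : Subgroup G) ⊓ (Q' : Subgroup G)) ≤ Nat.card D) :
    1 < Nat.card (Sylow p Nm) ∧
    (∀ S T : Sylow p Nm, S ≠ T → (S : Subgroup Nm) ⊓ T = D.subgroupOf Nm) ∧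
    ∀ S : Sylow p Nm, ∃! T : Sylow p G, (S : Subgroup Nm).map Nm.subtype ≤ T := by
  classical
  have hDP : D ≤ P := hD ▸ inf_le_left
  have hDQ : D ≤ Q := hD ▸ inf_le_right
  have hDN : D ≤ Nm := hNm ▸ Subgroup.le_normalizer
  have hsyl_eq : ∀ A B : Sylow p G, (A : Subgroup G) ≤ B → A = B := fun A B h =>
    Sylow.ext (Subgroup.eq_of_le_of_card_ge h
      (by rw [A.card_eq_multiplicity, B.card_eq_multiplicity]))
  have hDltP : D < P := lt_of_le_of_ne hDP (fun h => hPQ (hsyl_eq P Q (h ▸ hDQ)))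
  have hDltQ : D < Q := lt_of_le_of_ne hDQ (fun h => hPQ (hsyl_eq Q P (h ▸ hDP)).symm)
  obtain ⟨x, hxP, hxD, hxN⟩ := exists_normalizing_pgroup P.isPGroup' hDltP
  obtain ⟨y, hyQ, hyD, hyN⟩ := exists_normalizing_pgroup Q.isPGroup' hDltQ
  have hDpg : IsPGroup p D := P.isPGroup'.to_le hDP
  haveI hDnorm : (D.subgroupOf Nm).Normal := by
    subst hNm; exact Subgroup.normal_in_normalizer
  have hDpg' : IsPGroup p (D.subgroupOf Nm) := hDpg.comap_subtype (K := Nm)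
  have hDS : ∀ S : Sylow p Nm, D.subgroupOf Nm ≤ S := fun S =>
    hDpg'.le_sylow_of_normal S
  have hSmax : ∀ (S : Sylow p Nm) (R : Subgroup G), IsPGroup p R →
      (∀ s : Nm, s ∈ S → (s : G) ∈ R) → ∀ r ∈ R, ∀ hr : r ∈ Nm, (⟨r, hr⟩ : Nm) ∈ S := by
    intro S R hR hSR r hrR hrN
    have h1 : IsPGroup p (R.subgroupOf Nm) := hR.comap_subtype
    have h2 : (S : Subgroup Nm) ≤ R.subgroupOf Nm :=
      fun s hs => Subgroup.mem_subgroupOf.2 (hSR s hs)
    have h3 := S.is_maximal' h1 h2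
    show (⟨r, hrN⟩ : Nm) ∈ (S : Subgroup Nm)
    rw [← h3]
    exact Subgroup.mem_subgroupOf.2 hrR
  have hkey : ∀ (S : Sylow p Nm) (T₁ T₂ : Sylow p G), T₁ ≠ T₂ →
      (∀ s : Nm, s ∈ S → (s : G) ∈ (T₁ : Subgroup G)) →
      (∀ s : Nm, s ∈ S → (s : G) ∈ (T₂ : Subgroup G)) → False := by
    intro S T₁ T₂ hne h1 h2
    have hle : D ≤ (T₁ : Subgroup G) ⊓ T₂ := by
      intro d hd
      have := hDS S (Subgroup.mem_subgroupOf.2 hd : (⟨d, hDN hd⟩ : Nm) ∈ D.subgroupOf Nm)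
      exact ⟨h1 _ this, h2 _ this⟩
    have heq : D = (T₁ : Subgroup G) ⊓ T₂ := Subgroup.eq_of_le_of_card_ge hle (hmax T₁ T₂ hne)
    have hSD : ∀ s : Nm, s ∈ S → (s : G) ∈ D := fun s hs => heq ▸ ⟨h1 s hs, h2 s hs⟩
    have hxS := hSmax S P P.isPGroup' (fun s hs => hDP (hSD s hs)) x hxP (hNm ▸ hxN)
    exact hxD (hSD _ hxS)
  have hex : ∀ S : Sylow p Nm, ∃ T : Sylow p G,
      ∀ s : Nm, s ∈ S → (s : G) ∈ (T : Subgroup G) := by
    intro S
    have : IsPGroup p ((S : Subgroup Nm).map Nm.subtype) := S.isPGroup'.map _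
    obtain ⟨T, hT⟩ := this.exists_le_sylow
    exact ⟨T, fun s hs => hT (Subgroup.mem_map_of_mem _ hs)⟩
  refine ⟨?_, ?_, ?_⟩
  · by_contra hcard
    have hsub : Subsingleton (Sylow p Nm) := by
      rw [← Finite.card_le_one_iff_subsingleton]
      omega
    obtain ⟨S⟩ : Nonempty (Sylow p Nm) := inferInstance
    obtain ⟨T, hT⟩ := hex S
    have hall : ∀ (R : Subgroup G), IsPGroup p R → ∀ r ∈ R, ∀ hr : r ∈ Nm,
        (⟨r, hr⟩ : Nm) ∈ S := by
      intro R hR r hrR hrN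
      obtain ⟨S', hS'⟩ := (hR.comap_subtype (K := Nm)).exists_le_sylow
      have : S' = S := Subsingleton.elim _ _
      rw [← this]
      exact hS' (Subgroup.mem_subgroupOf.2 hrR)
    have hxT : x ∈ (T : Subgroup G) := hT _ (hall P P.isPGroup' x hxP (hNm ▸ hxN))
    have hyT : y ∈ (T : Subgroup G) := hT _ (hall Q Q.isPGroup' y hyQ (hNm ▸ hyN))
    have hDT : D ≤ T := fun d hd =>
      hT _ (hDS S (Subgroup.mem_subgroupOf.2 hd : (⟨d, hDN hd⟩ : Nm) ∈ D.subgroupOf Nm))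
    by_cases hTP : T = P
    · have hTQ : T ≠ Q := fun h => hPQ (hTP.symm.trans h)
      have hle : D ≤ (T : Subgroup G) ⊓ Q := le_inf hDT hDQ
      have heq := Subgroup.eq_of_le_of_card_ge hle (hmax T Q hTQ)
      exact hyD (heq ▸ ⟨hyT, hyQ⟩)
    · have hle : D ≤ (T : Subgroup G) ⊓ P := le_inf hDT hDP
      have heq := Subgroup.eq_of_le_of_card_ge hle (hmax T P hTP)
      exact hxD (heq ▸ ⟨hxT, hxP⟩)
  · intro S T hST
    obtain ⟨S', hS'⟩ := hex S
    obtain ⟨T', hT'⟩ := hex T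
    have hne : S' ≠ T' := by
      intro h
      apply hST
      have h1 : (T : Subgroup Nm) ≤ S := fun t ht =>
        hSmax S S' S'.isPGroup' hS' t (h ▸ hT' t ht) t.2
      exact (Sylow.ext (Subgroup.eq_of_le_of_card_ge h1
        (by rw [S.card_eq_multiplicity, T.card_eq_multiplicity]))).symm
    symm
    apply Subgroup.eq_of_le_of_card_ge (le_inf (hDS S) (hDS T))
    have h1 : Nat.card ((S : Subgroup Nm) ⊓ T : Subgroup Nm)
        = Nat.card (((S : Subgroup Nm) ⊓ T).map Nm.subtype) :=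
      (Subgroup.card_map_of_injective Nm.subtype_injective).symm
    have h2 : (((S : Subgroup Nm) ⊓ T).map Nm.subtype) ≤ (S' : Subgroup G) ⊓ T' := by
      rintro _ ⟨s, hs, rfl⟩
      exact ⟨hS' s hs.1, hT' s hs.2⟩
    have h3 : Nat.card (D.subgroupOf Nm) = Nat.card D :=
      Nat.card_congr (Subgroup.subgroupOfEquivOfLe hDN).toEquiv
    rw [h1, h3]
    exact (Subgroup.card_le_of_le h2).trans (hmax S' T' hne)
  · intro S
    obtain ⟨T, hT⟩ := hex S
    refine ⟨T, ?_, ?_⟩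
    · rintro _ ⟨s, hs, rfl⟩; exact hT s hs
    · intro T₂ hT₂
      by_contra hne
      exact hkey S T₂ T hne (fun s hs => hT₂ (Subgroup.mem_map_of_mem _ hs)) hT

end Cfsg.Agent.Lib.Lead
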