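import Mathlib
import Cfsg.Agent.Lib.Lead.Hall

namespace Cfsg.Agent.Lib.Lead

open Pointwise

universe u

theorem sylow_prod_univ : ∀ (n : ℕ) (G : Type u) [Group G] [Finite G] [Group.IsSolvable G],
    Nat.card G = n → ∀ (t : ℕ) (p : Fin t → ℕ) (_ : ∀ i, (p i).Prime)
    (_ : ∀ q : ℕ, q.Prime → q ∣ Nat.card G → ∃ i, p i = q) (S : (i : Fin t) → Sylow (p i) G),
    (List.ofFn fun i => ((S i : Subgroup G) : Set G)).prod = Set.univ := by
  intro n
  induction n using Nat.strong_induction_on with
  | _ n ih =>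
  intro G _ _ _ hn t p hp hall S
  haveI : ∀ i, Fact (p i).Prime := fun i => ⟨hp i⟩
  by_cases htriv : Subsingleton G
  · rw [Set.eq_univ_iff_forall]
    intro g
    rw [Set.mem_prod_list_ofFn]
    refine ⟨fun i => ⟨1, one_mem _⟩, ?_⟩
    exact Subsingleton.elim _ _
  · haveI : Nontrivial G := not_subsingleton_iff_nontrivial.1 htriv
    obtain ⟨q, hq, N, hN, hN1, hNp⟩ := exists_normal_pgroup_of_solvable G
    haveI := hN
    haveI : Fact q.Prime := ⟨hq⟩
    have hNcard : 1 < Nat.card N := (Subgroup.one_lt_card_iff_ne_bot N).2 hN1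
    have hqdvd : q ∣ Nat.card G := by
      obtain ⟨k, hk⟩ := IsPGroup.iff_card.1 hNp
      have hk0 : k ≠ 0 := by
        intro h0; rw [h0, pow_zero] at hk; omega
      exact dvd_trans (hk ▸ dvd_pow_self q hk0) (Subgroup.card_subgroup_dvd_card N)
    obtain ⟨j, hj⟩ := hall q hq hqdvd
    subst hj
    have hNS : N ≤ (S j : Subgroup G) := hNp.le_sylow_of_normal (S j)
    have hcardlt : Nat.card (G ⧸ N) < n := by
      rw [← hn, ← Subgroup.index_eq_card, ← Subgroup.card_mul_index N]
      have hpos : 0 < N.index := Nat.pos_of_ne_zero (Subgroup.index_ne_zero_of_finite)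
      nlinarith
    have hsurj : Function.Surjective (QuotientGroup.mk' N) := QuotientGroup.mk'_surjective N
    have IH := ih (Nat.card (G ⧸ N)) hcardlt (G ⧸ N) rfl t p hp
      (fun q hq hd => hall q hq (dvd_trans hd (by
        rw [← Subgroup.index_eq_card]; exact Subgroup.index_dvd_card N)))
      (fun i => (S i).mapSurjective hsurj)
    have himg : (QuotientGroup.mk' N : G → G ⧸ N) ''
        (List.ofFn fun i => ((S i : Subgroup G) : Set G)).prod = Set.univ := by
      rw [Set.image_list_prod, List.map_ofFn]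
      exact IH
    have hsplit : (List.ofFn fun i => ((S i : Subgroup G) : Set G)).prod =
        ((List.ofFn fun i => ((S i : Subgroup G) : Set G)).take j).prod *
          ((S j : Subgroup G) : Set G) *
          ((List.ofFn fun i => ((S i : Subgroup G) : Set G)).drop (j + 1)).prod := by
      conv_lhs => rw [← List.take_append_drop (j : ℕ)
        (List.ofFn fun i => ((S i : Subgroup G) : Set G))]
      rw [List.prod_append, List.drop_eq_getElem_cons (by simp), List.prod_cons,
        List.getElem_ofFn, mul_assoc]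
    have hAN : (List.ofFn fun i => ((S i : Subgroup G) : Set G)).prod * (N : Set G) ⊆
        (List.ofFn fun i => ((S i : Subgroup G) : Set G)).prod := by
      rw [hsplit]
      rintro _ ⟨_, ⟨_, ⟨x, hx, s, hs, rfl⟩, y, hy, rfl⟩, n, hn, rfl⟩
      refine ⟨x * (s * (y * n * y⁻¹)), ⟨x, hx, s * (y * n * y⁻¹), ?_, rfl⟩, y, hy, by group⟩
      exact mul_mem hs (hNS (hN.conj_mem n hn y))
    rw [Set.eq_univ_iff_forall]
    intro g
    have hmem : (QuotientGroup.mk' N g) ∈ (QuotientGroup.mk' N : G → G ⧸ N) ''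
        (List.ofFn fun i => ((S i : Subgroup G) : Set G)).prod := by
      rw [himg]; trivial
    obtain ⟨a, ha, hag⟩ := hmem
    apply hAN
    refine ⟨a, ha, a⁻¹ * g, ?_, by group⟩
    exact QuotientGroup.eq.1 hag

theorem sylow_prod_all {G : Type u} [Group G] [Finite G] [Group.IsSolvable G] (t : ℕ)
    (p : Fin t → ℕ) (hp : ∀ i, (p i).Prime)
    (hall : ∀ q : ℕ, q.Prime → q ∣ Nat.card G → ∃ i, p i = q) (S : (i : Fin t) → Sylow (p i) G) :
    ∀ g : G, ∃ s : (i : Fin t) → G, (∀ i, s i ∈ (S i : Subgroup G)) ∧ g = (List.ofFn s).prod := by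
  intro g
  have h := sylow_prod_univ (Nat.card G) G rfl t p hp hall S
  have hg : g ∈ (List.ofFn fun i => ((S i : Subgroup G) : Set G)).prod := by rw [h]; trivial
  rw [Set.mem_prod_list_ofFn] at hg
  obtain ⟨f, hf⟩ := hg
  exact ⟨fun i => (f i : G), fun i => (f i).2, hf.symm⟩

end Cfsg.Agent.Lib.Lead
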