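import Mathlib
import Cfsg.Agent.Lib.Lead.Invol2
import Cfsg.Agent.Lib.Lead.Char4
import Cfsg.Agent.S0208
import Cfsg.Agent.S0209

set_option autoImplicit false

namespace Cfsg.Agent.Lib.Lead

section Thompson
variable {G : Type*} [Group G] [Finite G]

/-- A cyclic subgroup contains at most one involution. -/
theorem unique_invol_zpowers (g y z : G) (hy : y ∈ Subgroup.zpowers g)
    (hz : z ∈ Subgroup.zpowers g) (hy2 : orderOf y = 2) (hz2 : orderOf z = 2) : y = z := by
  classical
  haveI : Fintype (Subgroup.zpowers g) := Fintype.ofFinite _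
  by_contra hne
  have h1 := IsCyclic.card_pow_eq_one_le (α := Subgroup.zpowers g) (n := 2) (by norm_num)
  have hyy := mul_self_of_orderOf_eq_two hy2
  have hzz := mul_self_of_orderOf_eq_two hz2
  have hy1 := ne_one_of_orderOf_eq_two hy2
  have hz1 := ne_one_of_orderOf_eq_two hz2
  have hsub : ({1, ⟨y, hy⟩, ⟨z, hz⟩} : Finset (Subgroup.zpowers g)) ⊆
      Finset.univ.filter (fun a : Subgroup.zpowers g => a ^ 2 = 1) := by
    intro a ha
    rw [Finset.mem_filter]
    refine ⟨Finset.mem_univ _, ?_⟩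
    rw [Finset.mem_insert, Finset.mem_insert, Finset.mem_singleton] at ha
    rcases ha with rfl | rfl | rfl
    · simp
    · apply Subtype.ext; simp [sq, hyy]
    · apply Subtype.ext; simp [sq, hzz]
  have hcard : ({1, ⟨y, hy⟩, ⟨z, hz⟩} : Finset (Subgroup.zpowers g)).card = 3 := by
    rw [Finset.card_insert_of_notMem, Finset.card_insert_of_notMem, Finset.card_singleton]
    · intro h
      rw [Finset.mem_singleton] at h
      exact hne (congrArg Subtype.val h)
    · intro h
      rw [Finset.mem_insert, Finset.mem_singleton] at h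
      rcases h with h | h
      · exact hy1 (congrArg Subtype.val h).symm
      · exact hz1 (congrArg Subtype.val h).symm
  have h2 := Finset.card_le_card hsub
  rw [hcard] at h2
  omega

/-- Thompson order formula, two-class case. -/
theorem thompson_order_two (x₁ x₂ : G) (h₁ : orderOf x₁ = 2) (h₂ : orderOf x₂ = 2)
    (hnc : ¬ IsConj x₁ x₂) (hall : ∀ t : G, orderOf t = 2 → IsConj x₁ t ∨ IsConj x₂ t) :
    Nat.card G = Nat.card (Subgroup.centralizer ({x₂} : Set G)) *
        Nat.card {p : G × G // IsConj x₁ p.1 ∧ IsConj x₂ p.2 ∧ x₁ ∈ Subgroup.zpowers (p.1 * p.2)} +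
      Nat.card (Subgroup.centralizer ({x₁} : Set G)) *
        Nat.card {p : G × G // IsConj x₁ p.1 ∧ IsConj x₂ p.2 ∧ x₂ ∈ Subgroup.zpowers (p.1 * p.2)} := by
  classical
  haveI : Fintype G := Fintype.ofFinite G
  let K₁ : Finset G := Finset.univ.filter (fun x => IsConj x₁ x)
  let K₂ : Finset G := Finset.univ.filter (fun x => IsConj x₂ x)
  let PP : Finset (G × G) := K₁ ×ˢ K₂
  let Inv : Finset G := Finset.univ.filter (fun y => orderOf y = 2)
  let F : G → Finset (G × G) := fun y => PP.filter (fun p => y ∈ Subgroup.zpowers (p.1 * p.2))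
  have hK₁ : K₁.card * Nat.card (Subgroup.centralizer ({x₁} : Set G)) = Nat.card G := by
    rw [← card_conj_mul_card_centralizer x₁]; congr 1
    rw [Nat.card_eq_fintype_card, Fintype.card_subtype]
  have hK₂ : K₂.card * Nat.card (Subgroup.centralizer ({x₂} : Set G)) = Nat.card G := by
    rw [← card_conj_mul_card_centralizer x₂]; congr 1
    rw [Nat.card_eq_fintype_card, Fintype.card_subtype]
  have hn : ∀ y : G, Nat.card {p : G × G // IsConj x₁ p.1 ∧ IsConj x₂ p.2 ∧
      y ∈ Subgroup.zpowers (p.1 * p.2)} = (F y).card := by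
    intro y
    rw [Nat.card_eq_fintype_card, Fintype.card_subtype]
    congr 1
    ext p
    simp only [F, PP, K₁, K₂, Finset.mem_filter, Finset.mem_univ, true_and, Finset.mem_product,
      and_assoc]
  rw [hn x₁, hn x₂]
  have hFconj : ∀ (y g : G), (F (g * y * g⁻¹)).card = (F y).card := by
    intro y g
    symm
    apply Finset.card_equiv (Equiv.prodCongr (MulAut.conj g).toEquiv (MulAut.conj g).toEquiv)
    intro p
    have hc : ∀ a b : G, IsConj a b ↔ IsConj a (g * b * g⁻¹) := by
      intro a b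
      have h0 : IsConj b (g * b * g⁻¹) := isConj_iff.mpr ⟨g, rfl⟩
      exact ⟨fun h => h.trans h0, fun h => h.trans h0.symm⟩
    have hz : y ∈ Subgroup.zpowers (p.1 * p.2) ↔
        g * y * g⁻¹ ∈ Subgroup.zpowers (g * p.1 * g⁻¹ * (g * p.2 * g⁻¹)) := by
      have e : g * p.1 * g⁻¹ * (g * p.2 * g⁻¹) = g * (p.1 * p.2) * g⁻¹ := by group
      rw [e]
      constructor
      · rintro ⟨k, rfl⟩
        exact ⟨k, by simp only [conj_zpow]⟩
      · rintro ⟨k, hk⟩
        refine ⟨k, ?_⟩
        have hk' : (g * (p.1 * p.2) * g⁻¹) ^ k = g * y * g⁻¹ := hk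
        rw [conj_zpow] at hk'
        exact mul_left_cancel (mul_right_cancel hk')
    simp only [F, PP, K₁, K₂, Finset.mem_filter, Finset.mem_product, Finset.mem_univ, true_and,
      Equiv.prodCongr_apply, Prod.map_fst, Prod.map_snd, MulEquiv.toEquiv_eq_coe,
      MulEquiv.coe_toEquiv, MulAut.conj_apply]
    rw [← hc x₁ p.1, ← hc x₂ p.2, ← hz]
  have huniq : ∀ p ∈ PP, (Inv.filter (fun y => y ∈ Subgroup.zpowers (p.1 * p.2))).card = 1 := by
    intro p hp
    rw [Finset.mem_product] at hp
    have hp1 : IsConj x₁ p.1 := (Finset.mem_filter.mp hp.1).2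
    have hp2 : IsConj x₂ p.2 := (Finset.mem_filter.mp hp.2).2
    obtain ⟨g1, hg1⟩ := isConj_iff.mp hp1
    obtain ⟨g2, hg2⟩ := isConj_iff.mp hp2
    have ho1 : orderOf p.1 = 2 := by rw [← hg1, orderOf_conj_eq]; exact h₁
    have ho2 : orderOf p.2 = 2 := by rw [← hg2, orderOf_conj_eq]; exact h₂
    have heven : Even (orderOf (p.1 * p.2)) := by
      by_contra hodd
      rw [Nat.not_even_iff_odd] at hodd
      obtain ⟨d, -, hd⟩ := Cfsg.Agent.S0208.result p.1 p.2 ho1 ho2 hodd
      exact hnc (hp1.trans ((isConj_iff.mpr ⟨d, hd⟩).trans hp2.symm))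
    obtain ⟨hz2, -, -⟩ := Cfsg.Agent.S0209.result p.1 p.2 ho1 ho2 heven
    rw [Finset.card_eq_one]
    refine ⟨(p.1 * p.2) ^ (orderOf (p.1 * p.2) / 2), ?_⟩
    ext y
    rw [Finset.mem_filter, Finset.mem_singleton, Finset.mem_filter]
    constructor
    · rintro ⟨⟨-, hy2⟩, hyz⟩
      exact unique_invol_zpowers (p.1 * p.2) y _ hyz
        (Subgroup.pow_mem _ (Subgroup.mem_zpowers _) _) hy2 hz2
    · intro hy
      rw [hy]
      exact ⟨⟨Finset.mem_univ _, hz2⟩, Subgroup.pow_mem _ (Subgroup.mem_zpowers _) _⟩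
  have hdc : ∑ p ∈ PP, (Inv.filter (fun y => y ∈ Subgroup.zpowers (p.1 * p.2))).card
      = ∑ y ∈ Inv, (F y).card :=
    Finset.sum_card_bipartiteAbove_eq_sum_card_bipartiteBelow
      (fun (p : G × G) (y : G) => y ∈ Subgroup.zpowers (p.1 * p.2))
  rw [Finset.sum_congr rfl huniq, Finset.sum_const, smul_eq_mul, mul_one] at hdc
  have hInv : Inv = K₁ ∪ K₂ := by
    ext y
    simp only [Inv, K₁, K₂, Finset.mem_filter, Finset.mem_univ, true_and, Finset.mem_union]
    constructor
    · exact hall y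
    · rintro (h | h)
      · obtain ⟨g, hg⟩ := isConj_iff.mp h
        rw [← hg, orderOf_conj_eq]; exact h₁
      · obtain ⟨g, hg⟩ := isConj_iff.mp h
        rw [← hg, orderOf_conj_eq]; exact h₂
  have hdisj : Disjoint K₁ K₂ := by
    rw [Finset.disjoint_left]
    intro y hy1 hy2
    exact hnc ((Finset.mem_filter.mp hy1).2.trans (Finset.mem_filter.mp hy2).2.symm)
  rw [hInv, Finset.sum_union hdisj] at hdc
  have hs1 : ∑ y ∈ K₁, (F y).card = K₁.card * (F x₁).card := by
    rw [Finset.sum_congr rfl (fun y hy => ?_), Finset.sum_const, smul_eq_mul]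
    obtain ⟨g, hg⟩ := isConj_iff.mp (Finset.mem_filter.mp hy).2
    rw [← hg]; exact hFconj x₁ g
  have hs2 : ∑ y ∈ K₂, (F y).card = K₂.card * (F x₂).card := by
    rw [Finset.sum_congr rfl (fun y hy => ?_), Finset.sum_const, smul_eq_mul]
    obtain ⟨g, hg⟩ := isConj_iff.mp (Finset.mem_filter.mp hy).2
    rw [← hg]; exact hFconj x₂ g
  rw [hs1, hs2, Finset.card_product] at hdc
  have hNpos : 0 < Nat.card G := Nat.card_pos
  apply Nat.eq_of_mul_eq_mul_left hNpos
  calc Nat.card G * Nat.card G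
      = (K₁.card * Nat.card (Subgroup.centralizer ({x₁} : Set G))) *
          (K₂.card * Nat.card (Subgroup.centralizer ({x₂} : Set G))) := by rw [hK₁, hK₂]
    _ = (K₁.card * K₂.card) * (Nat.card (Subgroup.centralizer ({x₁} : Set G)) *
          Nat.card (Subgroup.centralizer ({x₂} : Set G))) := by ring
    _ = (K₁.card * (F x₁).card + K₂.card * (F x₂).card) *
          (Nat.card (Subgroup.centralizer ({x₁} : Set G)) *
          Nat.card (Subgroup.centralizer ({x₂} : Set G))) := by rw [hdc]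
    _ = (K₁.card * Nat.card (Subgroup.centralizer ({x₁} : Set G))) *
          (Nat.card (Subgroup.centralizer ({x₂} : Set G)) * (F x₁).card) +
        (K₂.card * Nat.card (Subgroup.centralizer ({x₂} : Set G))) *
          (Nat.card (Subgroup.centralizer ({x₁} : Set G)) * (F x₂).card) := by ring
    _ = Nat.card G * (Nat.card (Subgroup.centralizer ({x₂} : Set G)) * (F x₁).card +
          Nat.card (Subgroup.centralizer ({x₁} : Set G)) * (F x₂).card) := by
        rw [hK₁, hK₂]; ring

end Thompson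

end Cfsg.Agent.Lib.Lead
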