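import Mathlib
import Cfsg.Prelude.Def_Characters
import Cfsg.Agent.Lib.Lead.CR1

set_option autoImplicit false

namespace Cfsg.Agent.Lib.Lead

section spectral

variable {G : Type*} [Group G] [Fintype G] {V : Type*} [AddCommGroup V] [Module ℂ V]

/-- if `R` kills all intertwining maps from `ρ`, it kills the `ρ`-isotypic operator -/
theorem avg_kernel {n : ℕ} (ρ : Representation ℂ G (Fin n → ℂ)) (σ : Representation ℂ G V)
    (R : V →ₗ[ℂ] V)
    (hR : ∀ f : Representation.IntertwiningMap ρ σ, R ∘ₗ f.toLinearMap = 0) (v : V) :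
    ∑ g : G, (starRingEnd ℂ) (ρ.character g) • R (σ g v) = 0 := by
  have hRY : ∀ Y : (Fin n → ℂ) →ₗ[ℂ] V, R ∘ₗ (∑ g : G, σ g ∘ₗ Y ∘ₗ ρ g⁻¹) = 0 := by
    intro Y
    exact hR ⟨_, avg_intertwining ρ σ Y⟩
  have h3 : ∀ i : Fin n, ∑ g : G, (ρ g⁻¹ (Pi.single i 1)) i • R (σ g v) = 0 := by
    intro i
    have h4 := congrArg (fun F : (Fin n → ℂ) →ₗ[ℂ] V => F (Pi.single i 1))
      (hRY ((LinearMap.proj i : (Fin n → ℂ) →ₗ[ℂ] ℂ).smulRight v))
    simp only [LinearMap.comp_apply, LinearMap.sum_apply, LinearMap.zero_apply, map_sum,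
      LinearMap.smulRight_apply, LinearMap.proj_apply, map_smul] at h4
    exact h4
  have h5 : ∑ g : G, ρ.character g⁻¹ • R (σ g v) = 0 := by
    have h6 : ∀ g : G, ρ.character g⁻¹ = ∑ i : Fin n, (ρ g⁻¹ (Pi.single i 1)) i := by
      intro g
      unfold Representation.character
      rw [LinearMap.trace_eq_matrix_trace ℂ (Pi.basisFun ℂ (Fin n)), Matrix.trace]
      apply Finset.sum_congr rfl
      intro i _
      rw [Matrix.diag_apply, LinearMap.toMatrix_apply, Pi.basisFun_apply, Pi.basisFun_repr]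
    simp only [h6, Finset.sum_smul]
    rw [Finset.sum_comm]
    exact Finset.sum_eq_zero (fun i _ => h3 i)
  rw [← h5]
  apply Finset.sum_congr rfl
  intro g _
  rw [char_inv]

/-- the (unnormalised) isotypic operator of a class function -/
noncomputable def isoOp (σ : Representation ℂ G V) (χ : G → ℂ) : V →ₗ[ℂ] V :=
  ∑ g : G, (starRingEnd ℂ) (χ g) • σ g

theorem isoOp_apply (σ : Representation ℂ G V) (χ : G → ℂ) (v : V) :
    isoOp σ χ v = ∑ g : G, (starRingEnd ℂ) (χ g) • σ g v := by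
  unfold isoOp
  simp only [LinearMap.sum_apply, LinearMap.smul_apply]

/-- a commuting operator acts as a scalar on a multiplicity-free isotypic operator -/
theorem isoOp_scalar [FiniteDimensional ℂ V] (σ : Representation ℂ G V)
    (χ : Cfsg.IrrCharacter G)
    (hm : Cfsg.classInner σ.character χ.1 = 0 ∨ Cfsg.classInner σ.character χ.1 = 1)
    (S : V →ₗ[ℂ] V) (hS : ∀ g : G, S ∘ₗ σ g = σ g ∘ₗ S) :
    ∃ s : ℂ, S ∘ₗ isoOp σ χ.1 = s • isoOp σ χ.1 := by
  obtain ⟨n, ρ, hρ, hρχ⟩ := χ.2
  haveI := hρ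
  have hfr : Module.finrank ℂ (Representation.IntertwiningMap ρ σ) ≤ 1 := by
    have h1 := classInner_char ρ σ
    rw [hρχ] at h1
    rcases hm with h0 | h0
    · rw [h0] at h1
      have : Module.finrank ℂ (Representation.IntertwiningMap ρ σ) = 0 := by
        exact_mod_cast h1.symm
      omega
    · rw [h0] at h1
      have : Module.finrank ℂ (Representation.IntertwiningMap ρ σ) = 1 := by
        exact_mod_cast h1.symm
      omega
  obtain ⟨f₀, hf₀⟩ := finrank_le_one_iff.mp hfr
  obtain ⟨s, hs⟩ := hf₀ ⟨S ∘ₗ f₀.toLinearMap, fun g => by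
    rw [LinearMap.comp_assoc, f₀.isIntertwining' g, ← LinearMap.comp_assoc, hS g,
      LinearMap.comp_assoc]⟩
  have hs' : S ∘ₗ f₀.toLinearMap = s • f₀.toLinearMap :=
    (congrArg Representation.IntertwiningMap.toLinearMap hs).symm
  refine ⟨s, ?_⟩
  have hR : ∀ f : Representation.IntertwiningMap ρ σ,
      (S - s • LinearMap.id) ∘ₗ f.toLinearMap = 0 := by
    intro f
    obtain ⟨c, hc⟩ := hf₀ f
    have hc' : f.toLinearMap = c • f₀.toLinearMap :=
      (congrArg Representation.IntertwiningMap.toLinearMap hc).symm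
    rw [hc', LinearMap.comp_smul, LinearMap.sub_comp, hs', LinearMap.smul_comp,
      LinearMap.id_comp, sub_self, smul_zero]
  apply LinearMap.ext
  intro v
  have h2 := avg_kernel ρ σ (S - s • LinearMap.id) hR v
  rw [hρχ] at h2
  rw [LinearMap.comp_apply, LinearMap.smul_apply, isoOp_apply, map_sum, Finset.smul_sum]
  rw [← sub_eq_zero, ← Finset.sum_sub_distrib, ← h2]
  apply Finset.sum_congr rfl
  intro g _
  rw [map_smul, LinearMap.sub_apply, LinearMap.smul_apply, LinearMap.id_apply, smul_sub,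
    smul_comm s]

theorem centralizer_one_card : Nat.card (Subgroup.centralizer ({1} : Set G)) = Nat.card G := by
  have h : Subgroup.centralizer ({1} : Set G) = ⊤ := by
    ext x
    simp [Subgroup.mem_centralizer_iff]
  rw [h, Subgroup.card_top]

theorem isoOp_sum (σ : Representation ℂ G V) [Fintype (Cfsg.IrrCharacter G)] :
    ∑ χ : Cfsg.IrrCharacter G, χ.1 1 • isoOp σ χ.1 = (Nat.card G : ℂ) • LinearMap.id := by
  apply LinearMap.ext
  intro v
  simp only [LinearMap.sum_apply, LinearMap.smul_apply, isoOp_apply, Finset.smul_sum, smul_smul,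
    LinearMap.id_apply]
  rw [Finset.sum_comm]
  simp only [← Finset.sum_smul]
  simp only [col_orth' (1 : G)]
  rw [Finset.sum_eq_single 1]
  · rw [if_pos (IsConj.refl 1), map_one, Module.End.one_apply, centralizer_one_card]
  · intro g _ hg
    rw [if_neg, zero_smul]
    intro hc
    exact hg (isConj_one_right.mp hc)
  · intro h
    exact absurd (Finset.mem_univ _) h

theorem isoOp_trace [FiniteDimensional ℂ V] (σ : Representation ℂ G V) (χ : G → ℂ) :
    LinearMap.trace ℂ V (isoOp σ χ) = (Nat.card G : ℂ) * Cfsg.classInner σ.character χ := by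
  have hcG : (Nat.card G : ℂ) ≠ 0 := by exact_mod_cast Nat.card_pos.ne'
  unfold isoOp Cfsg.classInner
  rw [map_sum, ← mul_assoc, mul_inv_cancel₀ hcG, one_mul]
  apply Finset.sum_congr rfl
  intro g _
  rw [map_smul, smul_eq_mul, mul_comm]
  rfl

/-- the trace of an operator acting by scalars on all isotypic operators -/
theorem comm_trace_formula [FiniteDimensional ℂ V] (σ : Representation ℂ G V)
    [Fintype (Cfsg.IrrCharacter G)] (S : V →ₗ[ℂ] V) (s : Cfsg.IrrCharacter G → ℂ)
    (hs : ∀ χ : Cfsg.IrrCharacter G, S ∘ₗ isoOp σ χ.1 = s χ • isoOp σ χ.1) :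
    LinearMap.trace ℂ V S =
      ∑ χ : Cfsg.IrrCharacter G, χ.1 1 * Cfsg.classInner σ.character χ.1 * s χ := by
  have hcG : (Nat.card G : ℂ) ≠ 0 := by exact_mod_cast Nat.card_pos.ne'
  have h1 : (Nat.card G : ℂ) • S = ∑ χ : Cfsg.IrrCharacter G, (χ.1 1 * s χ) • isoOp σ χ.1 := by
    calc (Nat.card G : ℂ) • S = S ∘ₗ ((Nat.card G : ℂ) • LinearMap.id) := by
          rw [LinearMap.comp_smul, LinearMap.comp_id]
      _ = S ∘ₗ (∑ χ : Cfsg.IrrCharacter G, χ.1 1 • isoOp σ χ.1) := by rw [isoOp_sum]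
      _ = ∑ χ : Cfsg.IrrCharacter G, (χ.1 1 * s χ) • isoOp σ χ.1 := by
          apply LinearMap.ext
          intro v
          simp only [LinearMap.comp_apply, LinearMap.sum_apply, map_sum, LinearMap.smul_apply,
            map_smul]
          apply Finset.sum_congr rfl
          intro χ _
          have h2 := congrArg (fun F : V →ₗ[ℂ] V => F v) (hs χ)
          simp only [LinearMap.comp_apply, LinearMap.smul_apply] at h2
          rw [h2, smul_smul]
  have h2 := congrArg (LinearMap.trace ℂ V) h1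
  rw [map_smul, map_sum, smul_eq_mul] at h2
  apply mul_left_cancel₀ hcG
  rw [h2, Finset.mul_sum]
  apply Finset.sum_congr rfl
  intro χ _
  rw [map_smul, isoOp_trace, smul_eq_mul]
  ring

theorem isoOp_scalar_sq (σ : Representation ℂ G V) (χ : G → ℂ) (S : V →ₗ[ℂ] V) (s : ℂ)
    (hs : S ∘ₗ isoOp σ χ = s • isoOp σ χ) :
    (S ∘ₗ S) ∘ₗ isoOp σ χ = (s * s) • isoOp σ χ := by
  rw [LinearMap.comp_assoc, hs, LinearMap.comp_smul, hs, smul_smul]

end spectral

end Cfsg.Agent.Lib.Lead
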