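import Mathlib
import Cfsg.Prelude.Def_Characters
import Cfsg.Agent.Lib.Lead.Orb2
import Cfsg.Agent.Lib.Lead.TwoTrans

set_option autoImplicit false

namespace Cfsg.Agent.Lib.Lead

theorem orbMat_eq_one_iff {G : Type*} [Group G] {Ω : Type*} [MulAction G Ω] (a b c d : Ω) :
    orbMat G a b c d = 1 ↔ ∃ x : G, x • a = c ∧ x • b = d := by
  classical
  unfold orbMat
  by_cases h : ∃ x : G, x • a = c ∧ x • b = d
  · rw [if_pos h]; exact ⟨fun _ => h, fun _ => rfl⟩
  · rw [if_neg h]; exact ⟨fun h' => absurd h' (by norm_num), fun h' => absurd h' h⟩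

theorem orbMat_binary {G : Type*} [Group G] {Ω : Type*} [MulAction G Ω] (a b c d : Ω) :
    orbMat G a b c d = 0 ∨ orbMat G a b c d = 1 := by
  classical
  unfold orbMat
  by_cases h : ∃ x : G, x • a = c ∧ x • b = d
  · right; rw [if_pos h]
  · left; rw [if_neg h]

theorem orbMat_diag {G : Type*} [Group G] {Ω : Type*} [MulAction G Ω] (a b : Ω) (hb : b ≠ a)
    (c : Ω) : orbMat G a b c c = 0 := by
  rcases orbMat_binary (G := G) a b c c with h | h
  · exact h
  · exfalso
    obtain ⟨x, h1, h2⟩ := (orbMat_eq_one_iff a b c c).mp h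
    exact hb (smul_left_cancel x (h2.trans h1.symm))

open Classical in
/-- the structure of the orbitals of a transitive group of rank 3 -/
theorem rank3_struct {G : Type*} [Group G] [Fintype G] {Ω : Type*} [Fintype Ω] [MulAction G Ω]
    [MulAction.IsPretransitive G Ω] (a₀ b : Ω) (hb : b ≠ a₀)
    (hrank : Nat.card (MulAction.orbitRel.Quotient (MulAction.stabilizer G a₀) Ω) = 3) :
    ∃ b' : Ω, b' ≠ a₀ ∧
      (∀ c d : Ω, (if c = d then (1 : ℤ) else 0) + orbMat G a₀ b c d + orbMat G a₀ b' c d = 1) ∧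
      (∃ α β γ : ℤ, ∀ c d : Ω, ∑ e : Ω, orbMat G a₀ b c e * orbMat G a₀ b e d
        = α * (if c = d then 1 else 0) + β * orbMat G a₀ b c d + γ) ∧
      ((∀ c d : Ω, orbMat G a₀ b d c = orbMat G a₀ b c d) ∨
        (∀ c d : Ω, orbMat G a₀ b' d c = orbMat G a₀ b c d)) := by
  classical
  obtain ⟨H, hH⟩ : ∃ H : Subgroup G, H = MulAction.stabilizer G a₀ := ⟨_, rfl⟩
  rw [← hH] at hrank
  haveI : Fintype (Quotient (MulAction.orbitRel H Ω)) := Fintype.ofFinite _
  have hcard : Fintype.card (Quotient (MulAction.orbitRel H Ω)) = 3 := by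
    rw [← Nat.card_eq_fintype_card]
    exact hrank
  obtain ⟨q, hq⟩ : ∃ q : Ω → Quotient (MulAction.orbitRel H Ω),
      q = fun x => Quotient.mk (MulAction.orbitRel H Ω) x := ⟨_, rfl⟩
  have hqeq : ∀ x y : Ω, q x = q y ↔ ∃ h : G, h ∈ H ∧ h • y = x := by
    intro x y
    rw [hq]
    show Quotient.mk (MulAction.orbitRel H Ω) x = Quotient.mk (MulAction.orbitRel H Ω) y ↔ _
    rw [orbit_mk_eq_iff]
    constructor
    · rintro ⟨h, hh⟩
      exact ⟨(h : G), h.2, hh⟩
    · rintro ⟨h, hh, hh2⟩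
      exact ⟨⟨h, hh⟩, hh2⟩
  have hfix : ∀ h : G, h ∈ H → h • a₀ = a₀ := by
    intro h hh
    rw [hH] at hh
    exact MulAction.mem_stabilizer_iff.mp hh
  have hq0 : ∀ x : Ω, q x = q a₀ ↔ x = a₀ := by
    intro x
    rw [hqeq]
    constructor
    · rintro ⟨h, hh, hh2⟩
      rw [← hh2, hfix h hh]
    · intro hx
      exact ⟨1, H.one_mem, by rw [one_smul, hx]⟩
  have hne01 : q a₀ ≠ q b := fun h => hb ((hq0 b).mp h.symm)
  obtain ⟨q₂, -, hq₂⟩ := Finset.exists_mem_notMem_of_card_lt_card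
    (s := ({q a₀, q b} : Finset (Quotient (MulAction.orbitRel H Ω)))) (t := Finset.univ) (by
      rw [Finset.card_univ, hcard, Finset.card_pair hne01]
      norm_num)
  obtain ⟨b', hb'q⟩ : ∃ b' : Ω, q b' = q₂ := by
    induction q₂ using Quotient.inductionOn with
    | _ x => exact ⟨x, by rw [hq]⟩
  rw [← hb'q] at hq₂
  have hne02 : q a₀ ≠ q b' := fun h => hq₂ (by rw [← h]; simp)
  have hne12 : q b ≠ q b' := fun h => hq₂ (by rw [← h]; simp)
  have hall : ∀ x : Quotient (MulAction.orbitRel H Ω), x = q a₀ ∨ x = q b ∨ x = q b' := by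
    intro x
    have h3 : ({q a₀, q b, q b'} : Finset (Quotient (MulAction.orbitRel H Ω))) = Finset.univ := by
      apply Finset.eq_univ_of_card
      rw [hcard, Finset.card_insert_of_notMem, Finset.card_pair hne12]
      intro h
      rw [Finset.mem_insert, Finset.mem_singleton] at h
      rcases h with h | h
      · exact hne01 h
      · exact hne02 h
    have h4 : x ∈ ({q a₀, q b, q b'} : Finset (Quotient (MulAction.orbitRel H Ω))) := by
      rw [h3]
      exact Finset.mem_univ _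
    rw [Finset.mem_insert, Finset.mem_insert, Finset.mem_singleton] at h4
    exact h4
  have hb'0 : b' ≠ a₀ := fun h => hne02 (by rw [h])
  -- trichotomy
  have htri : ∀ c d : Ω, c = d ∨ orbMat G a₀ b c d = 1 ∨ orbMat G a₀ b' c d = 1 := by
    intro c d
    obtain ⟨x, hx⟩ := MulAction.exists_smul_eq G a₀ c
    rcases hall (q (x⁻¹ • d)) with h | h | h
    · left
      have h1 := (hq0 _).mp h
      rw [← hx, ← h1, smul_inv_smul]
    · right; left
      obtain ⟨h', hh', hh2⟩ := (hqeq _ _).mp h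
      rw [orbMat_eq_one_iff]
      refine ⟨x * h', ?_, ?_⟩
      · rw [mul_smul, hfix h' hh', hx]
      · rw [mul_smul, hh2, smul_inv_smul]
    · right; right
      obtain ⟨h', hh', hh2⟩ := (hqeq _ _).mp h
      rw [orbMat_eq_one_iff]
      refine ⟨x * h', ?_, ?_⟩
      · rw [mul_smul, hfix h' hh', hx]
      · rw [mul_smul, hh2, smul_inv_smul]
  have hexcl : ∀ c d : Ω, orbMat G a₀ b c d = 1 → orbMat G a₀ b' c d = 1 → False := by
    intro c d h1 h2
    obtain ⟨x, hx1, hx2⟩ := (orbMat_eq_one_iff _ _ _ _).mp h1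
    obtain ⟨y, hy1, hy2⟩ := (orbMat_eq_one_iff _ _ _ _).mp h2
    apply hne12
    rw [hqeq]
    refine ⟨x⁻¹ * y, ?_, ?_⟩
    · rw [hH, MulAction.mem_stabilizer_iff, mul_smul, hy1, ← hx1, inv_smul_smul]
    · rw [mul_smul, hy2, ← hx2, inv_smul_smul]
  have hpart : ∀ c d : Ω,
      (if c = d then (1 : ℤ) else 0) + orbMat G a₀ b c d + orbMat G a₀ b' c d = 1 := by
    intro c d
    by_cases hcd : c = d
    · subst hcd
      rw [if_pos rfl, orbMat_diag a₀ b hb, orbMat_diag a₀ b' hb'0]
      norm_num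
    · rw [if_neg hcd]
      rcases htri c d with h | h | h
      · exact absurd h hcd
      · rcases orbMat_binary (G := G) a₀ b' c d with h' | h'
        · rw [h, h']; norm_num
        · exact absurd h' (fun h'' => hexcl c d h h'')
      · rcases orbMat_binary (G := G) a₀ b c d with h' | h'
        · rw [h, h']; norm_num
        · exact absurd h (fun h'' => hexcl c d h' h'')
  refine ⟨b', hb'0, hpart, ?_, ?_⟩
  · -- the quadratic relation
    obtain ⟨N, hN⟩ : ∃ N : Ω → Ω → ℤ,
        N = fun c d => ∑ e : Ω, orbMat G a₀ b c e * orbMat G a₀ b e d := ⟨_, rfl⟩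
    have hNinv : ∀ (g : G) (c d : Ω), N (g • c) (g • d) = N c d := by
      intro g c d
      rw [hN]
      show ∑ e : Ω, orbMat G a₀ b (g • c) e * orbMat G a₀ b e (g • d)
        = ∑ e : Ω, orbMat G a₀ b c e * orbMat G a₀ b e d
      symm
      apply Fintype.sum_equiv (MulAction.toPerm g)
      intro e
      show _ = orbMat G a₀ b (g • c) (g • e) * orbMat G a₀ b (g • e) (g • d)
      rw [orbMat_smul, orbMat_smul]
    refine ⟨N a₀ a₀ - N a₀ b', N a₀ b - N a₀ b', N a₀ b', ?_⟩
    intro c d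
    have e0 : ∑ e : Ω, orbMat G a₀ b c e * orbMat G a₀ b e d = N c d := by rw [hN]
    rw [e0]
    by_cases hcd : c = d
    · subst hcd
      obtain ⟨x, hx⟩ := MulAction.exists_smul_eq G a₀ c
      rw [if_pos rfl, orbMat_diag a₀ b hb, ← hx, hNinv]
      ring
    · rw [if_neg hcd]
      rcases htri c d with h | h | h
      · exact absurd h hcd
      · obtain ⟨x, hx1, hx2⟩ := (orbMat_eq_one_iff _ _ _ _).mp h
        rw [h, ← hx1, ← hx2, hNinv]
        ring
      · obtain ⟨x, hx1, hx2⟩ := (orbMat_eq_one_iff _ _ _ _).mp h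
        rcases orbMat_binary (G := G) a₀ b c d with h' | h'
        · rw [h', ← hx1, ← hx2, hNinv]
          ring
        · exact absurd h (fun h'' => hexcl c d h' h'')
  · -- pairing
    rcases htri b a₀ with h | h | h
    · exact absurd h hb
    · left
      obtain ⟨g, hg1, hg2⟩ := (orbMat_eq_one_iff _ _ _ _).mp h
      have key : ∀ c d : Ω, orbMat G a₀ b c d = 1 → orbMat G a₀ b d c = 1 := by
        intro c d hcd
        obtain ⟨x, hx1, hx2⟩ := (orbMat_eq_one_iff _ _ _ _).mp hcd
        rw [orbMat_eq_one_iff]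
        refine ⟨x * g, ?_, ?_⟩
        · rw [mul_smul, hg1, hx2]
        · rw [mul_smul, hg2, hx1]
      intro c d
      rcases orbMat_binary (G := G) a₀ b c d with h1 | h1
      · rcases orbMat_binary (G := G) a₀ b d c with h2 | h2
        · rw [h1, h2]
        · rw [key d c h2] at h1
          exact absurd h1 (by norm_num)
      · rw [h1, key c d h1]
    · right
      obtain ⟨g, hg1, hg2⟩ := (orbMat_eq_one_iff _ _ _ _).mp h
      have key1 : ∀ c d : Ω, orbMat G a₀ b c d = 1 → orbMat G a₀ b' d c = 1 := by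
        intro c d hcd
        obtain ⟨x, hx1, hx2⟩ := (orbMat_eq_one_iff _ _ _ _).mp hcd
        rw [orbMat_eq_one_iff]
        refine ⟨x * g, ?_, ?_⟩
        · rw [mul_smul, hg1, hx2]
        · rw [mul_smul, hg2, hx1]
      have key2 : ∀ c d : Ω, orbMat G a₀ b' d c = 1 → orbMat G a₀ b c d = 1 := by
        intro c d hcd
        obtain ⟨y, hy1, hy2⟩ := (orbMat_eq_one_iff _ _ _ _).mp hcd
        rw [orbMat_eq_one_iff]
        refine ⟨y * g⁻¹, ?_, ?_⟩
        · rw [mul_smul, inv_smul_eq_iff.mpr hg2.symm, hy2]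
        · rw [mul_smul, inv_smul_eq_iff.mpr hg1.symm, hy1]
      intro c d
      rcases orbMat_binary (G := G) a₀ b c d with h1 | h1
      · rcases orbMat_binary (G := G) a₀ b' d c with h2 | h2
        · rw [h1, h2]
        · rw [key2 c d h2] at h1
          exact absurd h1 (by norm_num)
      · rw [h1, key1 c d h1]

end Cfsg.Agent.Lib.Lead
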