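import Mathlib
import Cfsg.Agent.Lib.Lead.TwoTrans

set_option autoImplicit false

namespace Cfsg.Agent.Lib.Lead

open Pointwise

/-- in a primitive group, a point stabiliser fixing a second point fixes every point -/
theorem prim_stab_fix {G : Type*} [Group G] [Finite G] {Ω : Type*} [MulAction G Ω]
    [MulAction.IsPreprimitive G Ω] (a₀ b : Ω) (hb : b ≠ a₀)
    (hfix : ∀ h ∈ MulAction.stabilizer G a₀, h • b = b) :
    ∀ c : Ω, ∀ h ∈ MulAction.stabilizer G a₀, h • c = c := by
  classical
  obtain ⟨H, hH⟩ : ∃ H : Subgroup G, H = MulAction.stabilizer G a₀ := ⟨_, rfl⟩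
  rw [← hH] at hfix ⊢
  obtain ⟨B, hB⟩ : ∃ B : Set Ω, B = {c | ∀ h ∈ H, h • c = c} := ⟨_, rfl⟩
  have hmemB : ∀ c : Ω, c ∈ B ↔ ∀ h ∈ H, h • c = c := by
    intro c
    rw [hB]
    rfl
  have hstab : ∀ c ∈ B, MulAction.stabilizer G c = H := by
    intro c hc
    have hle : H ≤ MulAction.stabilizer G c :=
      fun h hh => MulAction.mem_stabilizer_iff.mpr ((hmemB c).mp hc h hh)
    obtain ⟨x, hx⟩ := MulAction.exists_smul_eq G a₀ c
    have hcard : Nat.card (MulAction.stabilizer G c) = Nat.card H := by
      rw [← hx, MulAction.stabilizer_smul_eq_stabilizer_map_conj, ← hH]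
      exact Subgroup.card_map_of_injective (MulEquiv.injective _)
    exact (Subgroup.eq_of_le_of_card_ge hle hcard.le).symm
  have hblock : MulAction.IsBlock G B := by
    rw [MulAction.isBlock_iff_smul_eq_or_disjoint]
    intro g
    by_cases hd : Disjoint (g • B) B
    · right; exact hd
    · left
      rw [Set.not_disjoint_iff] at hd
      obtain ⟨c, hc1, hc2⟩ := hd
      obtain ⟨c', hc', rfl⟩ := hc1
      have h1 := hstab _ hc2
      have h2 := hstab _ hc'
      rw [MulAction.stabilizer_smul_eq_stabilizer_map_conj, h2] at h1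
      have hconj : ∀ h ∈ H, g * h * g⁻¹ ∈ H := by
        intro h hh
        have h3 : g * h * g⁻¹ ∈ H.map (MulAut.conj g).toMonoidHom := ⟨h, hh, rfl⟩
        rw [h1] at h3
        exact h3
      have hconj' : ∀ h ∈ H, g⁻¹ * h * g ∈ H := by
        intro h hh
        have h3 : h ∈ H.map (MulAut.conj g).toMonoidHom := by rw [h1]; exact hh
        obtain ⟨k, hk, hk2⟩ := h3
        have hk3 : g * k * g⁻¹ = h := hk2
        have h4 : g⁻¹ * h * g = k := by rw [← hk3]; group
        rw [h4]
        exact hk
      apply Set.Subset.antisymm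
      · rintro _ ⟨x, hx, rfl⟩
        rw [hmemB]
        intro h hh
        have h5 := (hmemB x).mp hx _ (hconj' h hh)
        calc h • g • x = g • ((g⁻¹ * h * g) • x) := by simp [mul_smul]
          _ = g • x := by rw [h5]
      · intro x hx
        refine ⟨g⁻¹ • x, ?_, smul_inv_smul g x⟩
        rw [hmemB]
        intro h hh
        have h5 := (hmemB x).mp hx _ (hconj h hh)
        calc h • g⁻¹ • x = g⁻¹ • ((g * h * g⁻¹) • x) := by simp [mul_smul]
          _ = g⁻¹ • x := by rw [h5]
  have htriv := MulAction.IsPreprimitive.isTrivialBlock_of_isBlock hblock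
  rcases htriv with h | h
  · exfalso
    apply hb
    apply h
    · rw [hmemB]; exact hfix
    · rw [hmemB]
      intro h hh
      rw [hH] at hh
      exact MulAction.mem_stabilizer_iff.mp hh
  · intro c h' hh
    have hc : c ∈ B := by rw [h]; exact Set.mem_univ _
    exact (hmemB c).mp hc h' hh

/-- in a primitive group of rank 3 and even degree, no nontrivial subdegree is 1 -/
theorem prim_no_unit_orbit {G : Type*} [Group G] [Finite G] {Ω : Type*} [Fintype Ω]
    [MulAction G Ω] [MulAction.IsPreprimitive G Ω] {m : ℕ} (hm : Fintype.card Ω = 2 * m)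
    (a₀ b : Ω) (hb : b ≠ a₀)
    (hrank : Nat.card (MulAction.orbitRel.Quotient (MulAction.stabilizer G a₀) Ω) = 3) :
    Nat.card (MulAction.orbit (MulAction.stabilizer G a₀) b) ≠ 1 := by
  intro h1
  have hfix : ∀ h ∈ MulAction.stabilizer G a₀, h • b = b := by
    intro h hh
    rw [Nat.card_eq_one_iff_unique] at h1
    obtain ⟨hsub, -⟩ := h1
    have h2 := hsub.elim
      (⟨(⟨h, hh⟩ : MulAction.stabilizer G a₀) • b, MulAction.mem_orbit _ _⟩ :
        MulAction.orbit (MulAction.stabilizer G a₀) b)
      ⟨b, MulAction.mem_orbit_self _⟩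
    exact congrArg Subtype.val h2
  have hall := prim_stab_fix a₀ b hb hfix
  have hbij : Function.Bijective
      (fun x : Ω => Quotient.mk (MulAction.orbitRel (MulAction.stabilizer G a₀) Ω) x) := by
    constructor
    · intro x y hxy
      obtain ⟨h, hh⟩ := (orbit_mk_eq_iff x y).mp hxy
      rw [← hh]
      exact hall y (h : G) h.2
    · intro q
      induction q using Quotient.inductionOn with
      | _ x => exact ⟨x, rfl⟩
  have h3 := Nat.card_congr (Equiv.ofBijective _ hbij)
  rw [Nat.card_eq_fintype_card, hm] at h3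
  have h4 : Nat.card (Quotient (MulAction.orbitRel (MulAction.stabilizer G a₀) Ω)) = 3 := hrank
  omega

end Cfsg.Agent.Lib.Lead
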