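import Mathlib

set_option autoImplicit false

namespace Cfsg.Agent.Lib.Lead

/-- the arithmetic of the eigenvalues of a rank 3 graph with multiplicities `m - 1`, `m` -/
theorem wielandt_arith (k m : ℕ) (hm : 2 ≤ m) (hk : 1 ≤ k) (a₁ a₂ : ℂ) (α β : ℤ)
    (E1 : (k : ℂ) + ((m : ℂ) - 1) * a₁ + (m : ℂ) * a₂ = 0)
    (E2 : (k : ℂ) ^ 2 + ((m : ℂ) - 1) * a₁ ^ 2 + (m : ℂ) * a₂ ^ 2 = 2 * m * k)
    (Q1 : a₁ ^ 2 = α + β * a₁) (Q2 : a₂ ^ 2 = α + β * a₂) :
    k = 1 ∨ k = 2 * m - 1 ∨ k = 2 * m - 2 ∨ (2 * (k : ℤ) - 2 * m + 1) ^ 2 = 2 * m - 1 := by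
  have hmC : (m : ℂ) ≠ 0 := by
    have : m ≠ 0 := by omega
    exact_mod_cast this
  have hkC : (k : ℂ) ≠ 0 := by
    have : k ≠ 0 := by omega
    exact_mod_cast this
  by_cases h12 : a₁ = a₂
  · right; left
    rw [← h12] at E1 E2
    have h1 : ((2 : ℂ) * m - 1) * a₁ = -k := by linear_combination E1
    have h2 : (2 : ℂ) * m * k * (k - (2 * m - 1)) = 0 := by
      linear_combination (2 * (m : ℂ) - 1) * E2 - ((2 * (m : ℂ) - 1) * a₁ - k) * h1
    have h3 : (k : ℂ) - (2 * m - 1) = 0 := by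
      rcases mul_eq_zero.mp h2 with h | h
      · exfalso
        rcases mul_eq_zero.mp h with h' | h'
        · rcases mul_eq_zero.mp h' with h'' | h''
          · norm_num at h''
          · exact hmC h''
        · exact hkC h'
      · exact h
    have h4 : (k : ℂ) + 1 = 2 * m := by linear_combination h3
    have h5 : k + 1 = 2 * m := by exact_mod_cast h4
    omega
  · have hsum : a₁ + a₂ = β := by
      have h1 : (a₁ - a₂) * (a₁ + a₂ - β) = 0 := by linear_combination Q1 - Q2
      rcases mul_eq_zero.mp h1 with h | h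
      · exact absurd (sub_eq_zero.mp h) h12
      · linear_combination h
    have ha2 : a₂ = ((-(k : ℤ) - ((m : ℤ) - 1) * β : ℤ) : ℂ) := by
      push_cast
      linear_combination E1 - ((m : ℂ) - 1) * hsum
    have ha1 : a₁ = (((k : ℤ) + (m : ℤ) * β : ℤ) : ℂ) := by
      push_cast
      linear_combination hsum - E1 + ((m : ℂ) - 1) * hsum
    rw [ha1, ha2] at E2
    have hZ : (k : ℤ) ^ 2 + ((m : ℤ) - 1) * ((k : ℤ) + (m : ℤ) * β) ^ 2
        + (m : ℤ) * (-(k : ℤ) - ((m : ℤ) - 1) * β) ^ 2 = 2 * m * k := by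
      exact_mod_cast E2
    obtain ⟨K, hK⟩ : ∃ K : ℤ, K = (k : ℤ) := ⟨_, rfl⟩
    obtain ⟨M, hM⟩ : ∃ M : ℤ, M = (m : ℤ) := ⟨_, rfl⟩
    rw [← hK, ← hM] at hZ ⊢
    have hM2 : 2 ≤ M := by rw [hM]; exact_mod_cast hm
    have hK1 : 1 ≤ K := by rw [hK]; exact_mod_cast hk
    have hbr : 2 * K ^ 2 - 2 * K + 4 * (M - 1) * K * β + (M - 1) * (2 * M - 1) * β ^ 2 = 0 := by
      have h1 : M * (2 * K ^ 2 - 2 * K + 4 * (M - 1) * K * β + (M - 1) * (2 * M - 1) * β ^ 2)
          = 0 := by linear_combination hZ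
      rcases mul_eq_zero.mp h1 with h | h
      · omega
      · exact h
    have hsq : (2 * K - 1 + 2 * (M - 1) * β) ^ 2 = 1 - 2 * (M - 1) * (β * (2 + β)) := by
      linear_combination 2 * hbr
    have hβ1 : β ≤ 0 := by
      by_contra hcon
      push Not at hcon
      have h1 : 3 ≤ β * (2 + β) := by nlinarith
      have h2 : 3 ≤ (M - 1) * (β * (2 + β)) := by nlinarith
      nlinarith [sq_nonneg (2 * K - 1 + 2 * (M - 1) * β)]
    have hβ2 : -2 ≤ β := by
      by_contra hcon
      push Not at hcon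
      have h1 : 3 ≤ β * (2 + β) := by nlinarith
      have h2 : 3 ≤ (M - 1) * (β * (2 + β)) := by nlinarith
      nlinarith [sq_nonneg (2 * K - 1 + 2 * (M - 1) * β)]
    interval_cases β
    · -- β = -2
      have h1 : (2 * K - 4 * M + 2) * (2 * K - 4 * M + 4) = 0 := by linear_combination hsq
      rcases mul_eq_zero.mp h1 with h | h
      · right; left
        have : K = 2 * M - 1 := by linarith
        rw [hK, hM] at this
        omega
      · right; right; left
        have : K = 2 * M - 2 := by linarith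
        rw [hK, hM] at this
        omega
    · -- β = -1
      right; right; right
      linear_combination hsq
    · -- β = 0
      left
      have h1 : (2 * K - 2) * (2 * K) = 0 := by linear_combination hsq
      rcases mul_eq_zero.mp h1 with h | h
      · have : K = 1 := by linarith
        rw [hK] at this
        exact_mod_cast this
      · exfalso
        omega

end Cfsg.Agent.Lib.Lead
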