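import Mathlib
import Cfsg.Prelude.Def_Characters
import Cfsg.Prelude.Def_Perm
import Cfsg.Agent.Lib.Lead.Wie1
import Cfsg.Agent.Lib.Lead.Wie2
import Cfsg.Agent.Lib.Lead.Wie3
import Cfsg.Agent.Lib.Lead.Wie4
import Cfsg.Agent.Lib.Lead.Orb5

set_option autoImplicit false

namespace Cfsg.Agent.Lib.Lead

open Classical in
theorem permRep_eq_toLin' {G : Type*} [Group G] {Ω : Type*} [Fintype Ω] [MulAction G Ω] (g : G) :
    Cfsg.permRep ℂ G Ω g = Matrix.toLin' (permMat g) := by
  apply LinearMap.ext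
  intro f
  funext x
  rw [Matrix.toLin'_apply]
  show f (g⁻¹ • x) = ∑ d, permMat g x d * f d
  rw [Finset.sum_eq_single (g⁻¹ • x)]
  · unfold permMat
    rw [if_pos (smul_inv_smul g x), one_mul]
  · intro d _ hd
    unfold permMat
    rw [if_neg, zero_mul]
    intro h
    apply hd
    rw [← h, inv_smul_smul]
  · intro h
    exact absurd (Finset.mem_univ _) h

open Classical in
/-- combinatorial facts on a rank 3 primitive group of even degree -/
theorem wielandt_comb {G : Type*} [Group G] [Fintype G] {Ω : Type*} [Fintype Ω] [MulAction G Ω]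
    (hprim : MulAction.IsPreprimitive G Ω) {m : ℕ} (hm : Fintype.card Ω = 2 * m) (a₀ : Ω)
    (hrank : Nat.card (MulAction.orbitRel.Quotient (MulAction.stabilizer G a₀) Ω) = 3)
    (b : Ω) (hb : b ≠ a₀) :
    ∃ (k l : ℕ) (A J : Matrix Ω Ω ℂ) (α β γ : ℤ),
      k = Nat.card (MulAction.orbit (MulAction.stabilizer G a₀) b) ∧
      1 + k + l = 2 * m ∧ 2 ≤ k ∧ 2 ≤ l ∧
      A = (orbMat G a₀ b).map (Int.castRingHom ℂ) ∧
      (∀ c d, J c d = 1) ∧
      A.trace = 0 ∧ (A * A).trace = (Fintype.card Ω : ℂ) * k ∧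
      A * J = (k : ℂ) • J ∧ J * J = (Fintype.card Ω : ℂ) • J ∧
      A * A = (α : ℂ) • (1 : Matrix Ω Ω ℂ) + (β : ℂ) • A + (γ : ℂ) • J ∧
      (Fintype.card Ω : ℂ) • ∑ g : G, permMat (Ω := Ω) g = (Fintype.card G : ℂ) • J ∧
      (∀ g : G, J * permMat g = permMat g * J) := by
  haveI := hprim
  haveI : MulAction.IsPretransitive G Ω := hprim.toIsPretransitive
  obtain ⟨b', hb', hpart, ⟨α, β, γ, hsrg⟩, hpair⟩ := rank3_struct a₀ b hb hrank
  obtain ⟨k, hk⟩ : ∃ k : ℕ, k = Nat.card (MulAction.orbit (MulAction.stabilizer G a₀) b) :=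
    ⟨_, rfl⟩
  obtain ⟨l, hl⟩ : ∃ l : ℕ, l = Nat.card (MulAction.orbit (MulAction.stabilizer G a₀) b') :=
    ⟨_, rfl⟩
  obtain ⟨A, hA⟩ : ∃ A : Matrix Ω Ω ℂ, A = (orbMat G a₀ b).map (Int.castRingHom ℂ) := ⟨_, rfl⟩
  obtain ⟨J, hJ⟩ : ∃ J : Matrix Ω Ω ℂ, J = Matrix.of (fun _ _ => (1 : ℂ)) := ⟨_, rfl⟩
  have hAapp : ∀ c d, A c d = ((orbMat G a₀ b c d : ℤ) : ℂ) := by
    intro c d
    rw [hA]
    rfl
  have hJapp : ∀ c d, J c d = 1 := by
    intro c d
    rw [hJ]
    rfl
  have hrow : ∀ c, ∑ d, A c d = (k : ℂ) := by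
    intro c
    simp only [hAapp]
    rw [hk]
    exact orbMat_row_sum a₀ b c
  have hrow' : ∀ c, ∑ d, ((orbMat G a₀ b' c d : ℤ) : ℂ) = (l : ℂ) := by
    intro c
    rw [hl]
    exact orbMat_row_sum a₀ b' c
  have hc1 : 1 + k + l = 2 * m := by
    have h1 : ∑ d : Ω, (((if a₀ = d then (1 : ℤ) else 0) + orbMat G a₀ b a₀ d
        + orbMat G a₀ b' a₀ d : ℤ) : ℂ) = ∑ d : Ω, (1 : ℂ) := by
      apply Finset.sum_congr rfl
      intro d _
      rw [hpart a₀ d]
      norm_num
    simp only [Int.cast_add, Finset.sum_add_distrib] at h1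
    rw [hrow' a₀] at h1
    have h2 : ∑ d : Ω, ((orbMat G a₀ b a₀ d : ℤ) : ℂ) = k := by
      have h3 := hrow a₀
      simp only [hAapp] at h3
      exact h3
    rw [h2] at h1
    have h3 : ∑ d : Ω, (((if a₀ = d then (1 : ℤ) else 0) : ℤ) : ℂ) = 1 := by
      simp
    rw [h3, Finset.sum_const, Finset.card_univ, nsmul_eq_mul, mul_one, hm] at h1
    exact_mod_cast h1
  have hk1 : 1 ≤ k := by
    rw [hk]
    haveI : Nonempty (MulAction.orbit (MulAction.stabilizer G a₀) b) :=
      ⟨⟨b, MulAction.mem_orbit_self b⟩⟩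
    exact Nat.card_pos
  have hl1 : 1 ≤ l := by
    rw [hl]
    haveI : Nonempty (MulAction.orbit (MulAction.stabilizer G a₀) b') :=
      ⟨⟨b', MulAction.mem_orbit_self b'⟩⟩
    exact Nat.card_pos
  have hkne : k ≠ 1 := by
    rw [hk]
    exact prim_no_unit_orbit hm a₀ b hb hrank
  have hlne : l ≠ 1 := by
    rw [hl]
    exact prim_no_unit_orbit hm a₀ b' hb' hrank
  have hn0 : (Fintype.card Ω : ℂ) ≠ 0 := by
    have : Fintype.card Ω ≠ 0 := by omega
    exact_mod_cast this
  have hsym : ∀ c d, orbMat G a₀ b d c = orbMat G a₀ b c d := by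
    rcases hpair with h | h
    · exact h
    · exfalso
      have h1 : ∑ c : Ω, ∑ d : Ω, ((orbMat G a₀ b c d : ℤ) : ℂ) = (Fintype.card Ω : ℂ) * k := by
        simp only [← hAapp, hrow]
        rw [Finset.sum_const, Finset.card_univ, nsmul_eq_mul]
      have h2 : ∑ c : Ω, ∑ d : Ω, ((orbMat G a₀ b c d : ℤ) : ℂ) = (Fintype.card Ω : ℂ) * l := by
        simp only [← h]
        rw [Finset.sum_comm]
        simp only [hrow']
        rw [Finset.sum_const, Finset.card_univ, nsmul_eq_mul]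
      have h3 : (k : ℂ) = l := mul_left_cancel₀ hn0 (h1.symm.trans h2)
      have h4 : k = l := by exact_mod_cast h3
      omega
  refine ⟨k, l, A, J, α, β, γ, hk, hc1, by omega, by omega, hA, hJapp, ?_, ?_, ?_, ?_, ?_, ?_, ?_⟩
  · -- trace A
    rw [Matrix.trace]
    apply Finset.sum_eq_zero
    intro c _
    rw [Matrix.diag_apply, hAapp, orbMat_diag a₀ b hb, Int.cast_zero]
  · -- trace A²
    rw [Matrix.trace]
    have h1 : ∀ c : Ω, (A * A).diag c = (k : ℂ) := by
      intro c
      rw [Matrix.diag_apply, Matrix.mul_apply, ← hrow c]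
      apply Finset.sum_congr rfl
      intro e _
      rw [hAapp, hAapp, hsym c e]
      rcases orbMat_binary (G := G) a₀ b c e with h | h
      · rw [h]; simp
      · rw [h]; simp
    rw [Finset.sum_congr rfl (fun c _ => h1 c), Finset.sum_const, Finset.card_univ, nsmul_eq_mul]
  · -- A J
    ext c d
    rw [Matrix.mul_apply]
    simp only [hJapp, mul_one, Matrix.smul_apply, smul_eq_mul]
    exact hrow c
  · -- J J
    ext c d
    rw [Matrix.mul_apply]
    simp only [hJapp, mul_one, Matrix.smul_apply, smul_eq_mul, Finset.sum_const,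
      Finset.card_univ, nsmul_eq_mul]
  · -- SRG
    ext c d
    rw [Matrix.mul_apply]
    simp only [Matrix.add_apply, Matrix.smul_apply, hJapp, smul_eq_mul, mul_one, hAapp,
      Matrix.one_apply]
    have h1 := congrArg (fun z : ℤ => (z : ℂ)) (hsrg c d)
    simp only [Int.cast_sum, Int.cast_mul, Int.cast_add] at h1
    rw [h1]
    by_cases hcd : c = d
    · rw [if_pos hcd, if_pos hcd]; simp
    · rw [if_neg hcd, if_neg hcd]; simp
  · -- sum of permutation matrices
    ext c d
    rw [Matrix.smul_apply, Matrix.sum_apply, Matrix.smul_apply, hJapp, smul_eq_mul, smul_eq_mul,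
      mul_one]
    have h1 := transitive_sum (G := G) (fun e : Ω => if e = c then (1 : ℂ) else 0) d
    rw [Finset.sum_ite_eq' Finset.univ c (fun _ => (1 : ℂ)), if_pos (Finset.mem_univ _),
      mul_one] at h1
    rw [← h1]
    rfl
  · -- J commutes
    intro g
    ext c d
    rw [Matrix.mul_apply, Matrix.mul_apply]
    simp only [hJapp, one_mul, mul_one]
    rw [Finset.sum_eq_single (g • d), Finset.sum_eq_single (g⁻¹ • c)]
    · unfold permMat
      rw [if_pos rfl, if_pos (smul_inv_smul g c)]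
    · intro e _ he
      unfold permMat
      rw [if_neg]
      intro h
      apply he
      rw [← h, inv_smul_smul]
    · intro h
      exact absurd (Finset.mem_univ _) h
    · intro e _ he
      unfold permMat
      rw [if_neg]
      exact fun h => he h.symm
    · intro h
      exact absurd (Finset.mem_univ _) h

end Cfsg.Agent.Lib.Lead
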