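import Mathlib
import Cfsg.Prelude.Def_Characters
import Cfsg.Prelude.Def_Perm
import Cfsg.Agent.Lib.Lead.Wie5

set_option autoImplicit false

namespace Cfsg.Agent.Lib.Lead

open Classical in
theorem wielandt_key {G : Type*} [Group G] [Fintype G] {Ω : Type*} [Fintype Ω] [MulAction G Ω]
    (hprim : MulAction.IsPreprimitive G Ω) {m : ℕ} (hm : Fintype.card Ω = 2 * m) (a₀ : Ω)
    (hrank : Nat.card (MulAction.orbitRel.Quotient (MulAction.stabilizer G a₀) Ω) = 3)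
    (χ₁ χ₂ : G → ℂ) (h₁ : Cfsg.IsIrrCharacter G χ₁) (h₂ : Cfsg.IsIrrCharacter G χ₂)
    (hπ : (fun g : G => (Nat.card (MulAction.fixedBy Ω g) : ℂ)) = fun g => 1 + χ₁ g + χ₂ g)
    (hd₁ : χ₁ 1 = (m : ℂ) - 1) (hd₂ : χ₂ 1 = m) (b : Ω) (hb : b ≠ a₀) :
    2 ≤ m ∧ (2 * (Nat.card (MulAction.orbit (MulAction.stabilizer G a₀) b) : ℤ) - 2 * m + 1) ^ 2
      = 2 * m - 1 := by
  haveI : MulAction.IsPretransitive G Ω := hprim.toIsPretransitive
  haveI : Fintype (Cfsg.IrrCharacter G) := Fintype.ofFinite _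
  obtain ⟨k, l, A, J, α, β, γ, hk, hc1, hk2, hl2, hA, hJapp, htrA, htrAA, hAJ, hJJ, hSRG, hsumP,
    hJP⟩ := wielandt_comb hprim hm a₀ hrank b hb
  rw [← hk]
  have hm2 : 2 ≤ m := by omega
  refine ⟨hm2, ?_⟩
  have hnC : (Fintype.card Ω : ℂ) = 2 * m := by
    rw [hm]
    push_cast
    ring
  have hmC : (m : ℂ) ≠ 0 := by
    have : m ≠ 0 := by omega
    exact_mod_cast this
  have hn0 : (Fintype.card Ω : ℂ) ≠ 0 := by
    rw [hnC]
    exact mul_ne_zero (by norm_num) hmC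
  have hcG : (Nat.card G : ℂ) ≠ 0 := by exact_mod_cast Nat.card_pos.ne'
  obtain ⟨σ, hσ⟩ : ∃ σ : Representation ℂ G (Ω → ℂ), σ = Cfsg.permRep ℂ G Ω := ⟨_, rfl⟩
  have hσg : ∀ g, σ g = Matrix.toLin' (permMat g) := by
    intro g
    rw [hσ]
    exact permRep_eq_toLin' g
  have hσchar : σ.character = fun g : G => (Nat.card (MulAction.fixedBy Ω g) : ℂ) := by
    rw [hσ]
    exact funext permRep_character
  have hmf : ∀ χ : Cfsg.IrrCharacter G, Cfsg.classInner σ.character χ.1 = 0 ∨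
      Cfsg.classInner σ.character χ.1 = 1 := by
    intro χ
    exact (rank_mult_free_aux (σ.character) hσchar a₀).2 (by rw [hrank]; norm_num) χ.1 χ.2
  have hAcomm : ∀ g, Matrix.toLin' A ∘ₗ σ g = σ g ∘ₗ Matrix.toLin' A := by
    intro g
    rw [hσg, ← Matrix.toLin'_mul, ← Matrix.toLin'_mul, hA, orbMat_comm]
  have hJcomm : ∀ g, Matrix.toLin' J ∘ₗ σ g = σ g ∘ₗ Matrix.toLin' J := by
    intro g
    rw [hσg, ← Matrix.toLin'_mul, ← Matrix.toLin'_mul, hJP]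
  have hsA' := fun χ => isoOp_scalar σ χ (hmf χ) (Matrix.toLin' A) hAcomm
  choose sA hsA using hsA'
  have hsJ' := fun χ => isoOp_scalar σ χ (hmf χ) (Matrix.toLin' J) hJcomm
  choose sJ hsJ using hsJ'
  obtain ⟨χ₀, hχ₀⟩ : ∃ χ₀ : Cfsg.IrrCharacter G, χ₀ = ⟨fun _ => 1, isIrrCharacter_one⟩ :=
    ⟨_, rfl⟩
  obtain ⟨X₁, hX₁⟩ : ∃ X₁ : Cfsg.IrrCharacter G, X₁ = ⟨χ₁, h₁⟩ := ⟨_, rfl⟩
  obtain ⟨X₂, hX₂⟩ : ∃ X₂ : Cfsg.IrrCharacter G, X₂ = ⟨χ₂, h₂⟩ := ⟨_, rfl⟩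
  have hmult : ∀ χ : Cfsg.IrrCharacter G, Cfsg.classInner σ.character χ.1 =
      (if χ₀ = χ then 1 else 0) + (if X₁ = χ then 1 else 0) + (if X₂ = χ then 1 else 0) := by
    intro χ
    have e : σ.character = χ₀.1 + X₁.1 + X₂.1 := by
      rw [hσchar, hπ, hχ₀, hX₁, hX₂]
      rfl
    rw [e, classInner_add_left, classInner_add_left, irr_inner, irr_inner, irr_inner]
  have e0 : χ₀.1 1 = 1 := by rw [hχ₀]
  have e1 : X₁.1 1 = (m : ℂ) - 1 := by rw [hX₁]; exact hd₁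
  have e2 : X₂.1 1 = m := by rw [hX₂]; exact hd₂
  have hsum3 : ∀ F : Cfsg.IrrCharacter G → ℂ,
      ∑ χ : Cfsg.IrrCharacter G, χ.1 1 * Cfsg.classInner σ.character χ.1 * F χ
        = F χ₀ + ((m : ℂ) - 1) * F X₁ + (m : ℂ) * F X₂ := by
    intro F
    have h3 : ∀ χ : Cfsg.IrrCharacter G, χ.1 1 * Cfsg.classInner σ.character χ.1 * F χ
        = (if χ₀ = χ then χ.1 1 * F χ else 0) + (if X₁ = χ then χ.1 1 * F χ else 0)
          + (if X₂ = χ then χ.1 1 * F χ else 0) := by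
      intro χ
      rw [hmult]
      split_ifs <;> ring
    rw [Finset.sum_congr rfl (fun χ _ => h3 χ), Finset.sum_add_distrib, Finset.sum_add_distrib,
      Finset.sum_ite_eq, Finset.sum_ite_eq, Finset.sum_ite_eq, if_pos (Finset.mem_univ _),
      if_pos (Finset.mem_univ _), if_pos (Finset.mem_univ _), e0, e1, e2, one_mul]
  have hE : ∀ χ : Cfsg.IrrCharacter G, (χ = χ₀ ∨ χ = X₁ ∨ χ = X₂) → isoOp σ χ.1 ≠ 0 := by
    intro χ hχ h0
    have h3 := isoOp_trace σ χ.1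
    rw [h0, map_zero, hmult] at h3
    have h4 : (if χ₀ = χ then (1 : ℂ) else 0) + (if X₁ = χ then 1 else 0)
        + (if X₂ = χ then 1 else 0) = 0 := by
      rcases mul_eq_zero.mp h3.symm with h | h
      · exact absurd h hcG
      · exact h
    rcases hχ with rfl | rfl | rfl
    · rw [if_pos rfl] at h4
      split_ifs at h4 <;> norm_num at h4
    · rw [if_pos rfl] at h4
      split_ifs at h4 <;> norm_num at h4
    · rw [if_pos rfl] at h4
      split_ifs at h4 <;> norm_num at h4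
  have hcancel : ∀ χ : Cfsg.IrrCharacter G, (χ = χ₀ ∨ χ = X₁ ∨ χ = X₂) → ∀ c c' : ℂ,
      c • isoOp σ χ.1 = c' • isoOp σ χ.1 → c = c' := by
    intro χ hχ c c' h
    by_contra hne
    apply hE χ hχ
    apply LinearMap.ext
    intro v
    have h3' := congrArg (fun F : (Ω → ℂ) →ₗ[ℂ] (Ω → ℂ) => F v) h
    simp only [LinearMap.smul_apply] at h3'
    have h3 : (c - c') • isoOp σ χ.1 v = 0 := by rw [sub_smul, h3', sub_self]
    rcases smul_eq_zero.mp h3 with h4 | h4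
    · exact absurd (sub_eq_zero.mp h4) hne
    · exact h4
  have hE0 : (Fintype.card Ω : ℂ) • isoOp σ χ₀.1 = (Fintype.card G : ℂ) • Matrix.toLin' J := by
    have e : isoOp σ χ₀.1 = Matrix.toLin' (∑ g : G, permMat (Ω := Ω) g) := by
      unfold isoOp
      rw [map_sum]
      apply Finset.sum_congr rfl
      intro g _
      rw [hχ₀]
      show (starRingEnd ℂ) 1 • σ g = _
      rw [map_one, one_smul, hσg]
    rw [e, ← map_smul, hsumP, map_smul]
  have hs1 : sA χ₀ = k := by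
    apply hcancel χ₀ (Or.inl rfl)
    rw [← hsA χ₀]
    apply smul_right_injective _ hn0
    show (Fintype.card Ω : ℂ) • (Matrix.toLin' A ∘ₗ isoOp σ χ₀.1)
      = (Fintype.card Ω : ℂ) • ((k : ℂ) • isoOp σ χ₀.1)
    rw [smul_comm (Fintype.card Ω : ℂ) (k : ℂ), ← LinearMap.comp_smul, hE0, LinearMap.comp_smul,
      ← Matrix.toLin'_mul, hAJ, map_smul]
    exact smul_comm _ _ _
  have hs2 : sJ χ₀ = (Fintype.card Ω : ℂ) := by
    apply hcancel χ₀ (Or.inl rfl)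
    rw [← hsJ χ₀]
    apply smul_right_injective _ hn0
    show (Fintype.card Ω : ℂ) • (Matrix.toLin' J ∘ₗ isoOp σ χ₀.1)
      = (Fintype.card Ω : ℂ) • ((Fintype.card Ω : ℂ) • isoOp σ χ₀.1)
    rw [← LinearMap.comp_smul, hE0, LinearMap.comp_smul, ← Matrix.toLin'_mul, hJJ, map_smul]
    exact smul_comm _ _ _
  have hs3 : ∀ χ : Cfsg.IrrCharacter G, (χ = X₁ ∨ χ = X₂) →
      sJ χ = 0 ∨ sJ χ = (Fintype.card Ω : ℂ) := by
    intro χ hχ
    have h3 := isoOp_scalar_sq σ χ.1 (Matrix.toLin' J) (sJ χ) (hsJ χ)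
    rw [← Matrix.toLin'_mul, hJJ, map_smul, LinearMap.smul_comp, hsJ χ, smul_smul] at h3
    have h4 := hcancel χ (Or.inr hχ) _ _ h3
    have h5 : sJ χ * (sJ χ - (Fintype.card Ω : ℂ)) = 0 := by linear_combination -h4
    rcases mul_eq_zero.mp h5 with h6 | h6
    · left; exact h6
    · right; exact sub_eq_zero.mp h6
  have hs4 : (Fintype.card Ω : ℂ) = sJ χ₀ + ((m : ℂ) - 1) * sJ X₁ + (m : ℂ) * sJ X₂ := by
    rw [← hsum3 sJ, ← comm_trace_formula σ (Matrix.toLin' J) sJ hsJ, Matrix.trace_toLin'_eq,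
      Matrix.trace]
    simp only [Matrix.diag_apply, hJapp]
    rw [Finset.sum_const, Finset.card_univ, nsmul_eq_mul, mul_one]
  have hj : sJ X₁ = 0 ∧ sJ X₂ = 0 := by
    rw [hs2] at hs4
    have h3 : ((m : ℂ) - 1) * sJ X₁ + (m : ℂ) * sJ X₂ = 0 := by linear_combination -hs4
    have hm1 : (m : ℂ) - 1 ≠ 0 := by
      have : (m : ℂ) ≠ 1 := by
        have : m ≠ 1 := by omega
        exact_mod_cast this
      exact sub_ne_zero.mpr this
    rcases hs3 X₁ (Or.inl rfl) with h4 | h4 <;> rcases hs3 X₂ (Or.inr rfl) with h5 | h5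
    · exact ⟨h4, h5⟩
    · exfalso
      rw [h4, h5, mul_zero, zero_add] at h3
      exact (mul_ne_zero hmC hn0) h3
    · exfalso
      rw [h4, h5, mul_zero, add_zero] at h3
      exact (mul_ne_zero hm1 hn0) h3
    · exfalso
      rw [h4, h5, ← add_mul] at h3
      have h6 : (m : ℂ) - 1 + m ≠ 0 := by
        have h7 : (m : ℂ) - 1 + m = ((2 * m - 1 : ℕ) : ℂ) := by
          rw [Nat.cast_sub (by omega)]
          push_cast
          ring
        rw [h7]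
        have : 2 * m - 1 ≠ 0 := by omega
        exact_mod_cast this
      exact (mul_ne_zero h6 hn0) h3
  have E1 : (k : ℂ) + ((m : ℂ) - 1) * sA X₁ + (m : ℂ) * sA X₂ = 0 := by
    rw [← hs1, ← hsum3 sA, ← comm_trace_formula σ (Matrix.toLin' A) sA hsA,
      Matrix.trace_toLin'_eq, htrA]
  have E2 : (k : ℂ) ^ 2 + ((m : ℂ) - 1) * sA X₁ ^ 2 + (m : ℂ) * sA X₂ ^ 2 = 2 * m * k := by
    have h3 := comm_trace_formula σ (Matrix.toLin' A ∘ₗ Matrix.toLin' A) (fun χ => sA χ * sA χ)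
      (fun χ => isoOp_scalar_sq σ χ.1 (Matrix.toLin' A) (sA χ) (hsA χ))
    rw [hsum3 (fun χ => sA χ * sA χ), ← Matrix.toLin'_mul, Matrix.trace_toLin'_eq, htrAA, hs1,
      hnC] at h3
    linear_combination -h3
  have hQ : ∀ χ : Cfsg.IrrCharacter G, (χ = X₁ ∨ χ = X₂) → sJ χ = 0 →
      sA χ ^ 2 = α + β * sA χ := by
    intro χ hχ hj0
    have h3 := isoOp_scalar_sq σ χ.1 (Matrix.toLin' A) (sA χ) (hsA χ)
    rw [← Matrix.toLin'_mul, hSRG, map_add, map_add, map_smul, map_smul, map_smul,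
      Matrix.toLin'_one, LinearMap.add_comp, LinearMap.add_comp, LinearMap.smul_comp,
      LinearMap.smul_comp, LinearMap.smul_comp, LinearMap.id_comp, hsA χ, hsJ χ, hj0, zero_smul,
      smul_zero, add_zero, smul_smul, ← add_smul] at h3
    have h4 := hcancel χ (Or.inr hχ) _ _ h3
    rw [sq, ← h4]
  have Q1 := hQ X₁ (Or.inl rfl) hj.1
  have Q2 := hQ X₂ (Or.inr rfl) hj.2
  rcases wielandt_arith k m hm2 (by omega) (sA X₁) (sA X₂) α β E1 E2 Q1 Q2 with h | h | h | h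
  · omega
  · omega
  · omega
  · exact h

end Cfsg.Agent.Lib.Lead
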