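import Mathlib
import Cfsg.Prelude.Def_Characters
import Cfsg.Prelude.Def_Perm
import Cfsg.Agent.Lib.Lead.Wie6

set_option autoImplicit false

namespace Cfsg.Agent.Lib.Lead

theorem wielandt_rank3 {G : Type*} [Group G] [Fintype G] {Ω : Type*} [Fintype Ω] [MulAction G Ω]
    (hprim : MulAction.IsPreprimitive G Ω) {m : ℕ} (hm : Fintype.card Ω = 2 * m) (a₀ : Ω)
    (hrank : Nat.card (MulAction.orbitRel.Quotient (MulAction.stabilizer G a₀) Ω) = 3)
    (χ₁ χ₂ : G → ℂ) (h₁ : Cfsg.IsIrrCharacter G χ₁) (h₂ : Cfsg.IsIrrCharacter G χ₂)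
    (hπ : (fun g : G => (Nat.card (MulAction.fixedBy Ω g) : ℂ)) = fun g => 1 + χ₁ g + χ₂ g)
    (hd₁ : χ₁ 1 = (m : ℂ) - 1) (hd₂ : χ₂ 1 = m) :
    ∃ a : ℕ, 0 < a ∧ m = 2 * a ^ 2 + 2 * a + 1 ∧ ∀ b : Ω, b ≠ a₀ →
      Nat.card (MulAction.orbit (MulAction.stabilizer G a₀) b) = a * (2 * a + 1) ∨
      Nat.card (MulAction.orbit (MulAction.stabilizer G a₀) b) = (a + 1) * (2 * a + 1) := by
  classical
  have key := fun b hb => wielandt_key hprim hm a₀ hrank χ₁ χ₂ h₁ h₂ hπ hd₁ hd₂ b hb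
  have hex : ∃ b₀ : Ω, b₀ ≠ a₀ := by
    by_contra hcon
    push Not at hcon
    have hsub : Subsingleton (MulAction.orbitRel.Quotient (MulAction.stabilizer G a₀) Ω) := by
      constructor
      intro q₁ q₂
      induction q₁ using Quotient.inductionOn with
      | _ x =>
        induction q₂ using Quotient.inductionOn with
        | _ y => rw [hcon x, hcon y]
    have h1 := Finite.card_le_one_iff_subsingleton.mpr hsub
    omega
  obtain ⟨b₀, hb₀⟩ := hex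
  obtain ⟨hm2, h0⟩ := key b₀ hb₀
  obtain ⟨k₀, hk₀⟩ : ∃ k₀ : ℤ,
      k₀ = (Nat.card (MulAction.orbit (MulAction.stabilizer G a₀) b₀) : ℤ) := ⟨_, rfl⟩
  rw [← hk₀] at h0
  obtain ⟨d, hd⟩ : ∃ d : ℕ, (d : ℤ) ^ 2 = 2 * m - 1 :=
    ⟨(2 * k₀ - 2 * m + 1).natAbs, by rw [Int.natAbs_sq]; exact h0⟩
  have hdodd : d % 2 = 1 := by
    by_contra hcon
    obtain ⟨e, he⟩ : ∃ e, d = 2 * e := ⟨d / 2, by omega⟩
    rw [he] at hd
    push_cast at hd
    obtain ⟨t, ht⟩ : ∃ t : ℤ, t = (e : ℤ) ^ 2 := ⟨_, rfl⟩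
    have h1 : 4 * t = 2 * m - 1 := by rw [← hd, ht]; ring
    omega
  obtain ⟨a, ha⟩ : ∃ a, d = 2 * a + 1 := ⟨d / 2, by omega⟩
  rw [ha] at hd
  push_cast at hd
  have hmZ : (m : ℤ) = 2 * (a : ℤ) ^ 2 + 2 * a + 1 := by
    have h1 : (2 : ℤ) * m = 2 * (2 * (a : ℤ) ^ 2 + 2 * a + 1) := by linear_combination -hd
    exact mul_left_cancel₀ (by norm_num) h1
  have hma : m = 2 * a ^ 2 + 2 * a + 1 := by exact_mod_cast hmZ
  refine ⟨a, ?_, hma, ?_⟩
  · by_contra hcon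
    have h1 : a = 0 := by omega
    rw [h1] at hma
    simp at hma
    omega
  · intro b hb
    obtain ⟨-, hkb⟩ := key b hb
    obtain ⟨K, hK⟩ : ∃ K : ℤ,
        K = (Nat.card (MulAction.orbit (MulAction.stabilizer G a₀) b) : ℤ) := ⟨_, rfl⟩
    rw [← hK] at hkb
    have h1 : (2 * K - 2 * m + 1 - (2 * a + 1)) * (2 * K - 2 * m + 1 + (2 * a + 1)) = 0 := by
      linear_combination hkb - hd
    rcases mul_eq_zero.mp h1 with h2 | h2
    · right
      have h3 : (2 : ℤ) * K = 2 * (((a : ℤ) + 1) * (2 * a + 1)) := by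
        linear_combination h2 + 2 * hmZ
      have h4 : K = ((a : ℤ) + 1) * (2 * a + 1) := mul_left_cancel₀ (by norm_num) h3
      rw [hK] at h4
      exact_mod_cast h4
    · left
      have h3 : (2 : ℤ) * K = 2 * ((a : ℤ) * (2 * a + 1)) := by
        linear_combination h2 + 2 * hmZ
      have h4 : K = (a : ℤ) * (2 * a + 1) := mul_left_cancel₀ (by norm_num) h3
      rw [hK] at h4
      exact_mod_cast h4

end Cfsg.Agent.Lib.Lead
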