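import Mathlib

set_option autoImplicit false

namespace Cfsg.Agent.Lib.Lead

open MulAction

theorem card_two_point_coset {G Ω : Type*} [Group G] [MulAction G Ω]
    (h2 : IsMultiplyPretransitive G Ω 2) {a b x y : Ω} (hab : a ≠ b) (hxy : x ≠ y) :
    Nat.card {g : G // g • a = x ∧ g • b = y} = Nat.card ↥(stabilizer G a ⊓ stabilizer G b) := by
  obtain ⟨g₀, h1, h2'⟩ := (MulAction.is_two_pretransitive_iff.1 h2) hab hxy
  apply Nat.card_congr
  exact
    { toFun := fun g => ⟨g₀⁻¹ * g.1, by
        constructor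
        · show (g₀⁻¹ * g.1) • a = a
          rw [mul_smul, g.2.1, inv_smul_eq_iff, h1]
        · show (g₀⁻¹ * g.1) • b = b
          rw [mul_smul, g.2.2, inv_smul_eq_iff, h2']⟩
      invFun := fun h => ⟨g₀ * h.1, by
        have ha : (h : G) • a = a := h.2.1
        have hb : (h : G) • b = b := h.2.2
        constructor
        · rw [mul_smul, ha, h1]
        · rw [mul_smul, hb, h2']⟩
      left_inv := fun g => by
        apply Subtype.ext
        show g₀ * (g₀⁻¹ * g.1) = g.1
        group
      right_inv := fun h => by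
        apply Subtype.ext
        show g₀⁻¹ * (g₀ * h.1) = h.1
        group }

theorem zass_even_bound {G Ω : Type*} [Group G] [Finite G] [MulAction G Ω] [Fintype Ω]
    (h2 : IsMultiplyPretransitive G Ω 2)
    (h3 : ∀ g : G, ∀ a b c : Ω, a ≠ b → b ≠ c → a ≠ c → g • a = a → g • b = b → g • c = c → g = 1)
    {a b : Ω} (hab : a ≠ b) (heven : Even (Nat.card ↥(stabilizer G a ⊓ stabilizer G b))) :
    Fintype.card Ω - 2 ≤ 2 * Nat.card ↥(stabilizer G a ⊓ stabilizer G b) := by
  classical
  haveI : Fintype G := Fintype.ofFinite G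
  haveI : Fact (Nat.Prime 2) := ⟨Nat.prime_two⟩
  obtain ⟨d, hd⟩ : ∃ d, d = Nat.card ↥(stabilizer G a ⊓ stabilizer G b) := ⟨_, rfl⟩
  rw [← hd] at heven ⊢
  have hdpos : 0 < d := by rw [hd]; exact Nat.card_pos
  obtain ⟨t', ht'⟩ := exists_prime_orderOf_dvd_card' (G := ↥(stabilizer G a ⊓ stabilizer G b)) 2
    (by rw [← hd]; exact even_iff_two_dvd.1 heven)
  obtain ⟨t, htdef⟩ : ∃ t : G, t = (t' : G) := ⟨_, rfl⟩
  have hta : t • a = a := by rw [htdef]; exact t'.2.1
  have htb : t • b = b := by rw [htdef]; exact t'.2.2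
  have hto : orderOf t = 2 := by rw [htdef, Subgroup.orderOf_coe]; exact ht'
  have ht1 : t ≠ 1 := by
    intro h
    rw [h, orderOf_one] at hto
    omega
  have ht2 : t * t = 1 := by
    rw [← pow_two, ← hto]; exact pow_orderOf_eq_one t
  have htt : ∀ x : Ω, t • t • x = x := by
    intro x
    rw [← mul_smul, ht2, one_smul]
  have hfix : ∀ x : Ω, t • x = x → x = a ∨ x = b := by
    intro x hx
    by_contra hh
    push Not at hh
    exact ht1 (h3 t a b x hab (Ne.symm hh.2) (Ne.symm hh.1) hta htb hx)
  have hcoset : ∀ x y : Ω, x ≠ y →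
      (Finset.univ.filter (fun g : G => g • a = x ∧ g • b = y)).card = d := by
    intro x y hxy
    rw [hd, ← card_two_point_coset h2 hab hxy, Nat.card_eq_fintype_card, Fintype.card_subtype]
  -- S
  let S : Finset G := Finset.univ.filter (fun g : G => t • (g • a) = g • b)
  let X : Finset Ω := Finset.univ.filter (fun x : Ω => t • x ≠ x)
  have hXc : Fintype.card Ω - 2 ≤ X.card := by
    have h1 : Finset.univ \ {a, b} ⊆ X := by
      intro x hx
      rw [Finset.mem_sdiff] at hx
      rw [Finset.mem_filter]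
      refine ⟨Finset.mem_univ _, fun h => hx.2 ?_⟩
      rcases hfix x h with h | h
      · simp [h]
      · simp [h]
    have h2' := Finset.card_le_card h1
    rw [Finset.card_sdiff_of_subset (Finset.subset_univ _), Finset.card_univ,
      Finset.card_pair hab] at h2'
    exact h2'
  have hSlow : X.card * d ≤ S.card := by
    have h1 : X.biUnion (fun x => Finset.univ.filter (fun g : G => g • a = x ∧ g • b = t • x)) ⊆
        S := by
      intro g hg
      obtain ⟨x, hx, hgx⟩ := Finset.mem_biUnion.1 hg
      obtain ⟨-, h4, h5⟩ := Finset.mem_filter.1 hgx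
      rw [Finset.mem_filter]
      refine ⟨Finset.mem_univ _, ?_⟩
      rw [h4, h5]
    have h2' := Finset.card_le_card h1
    rw [Finset.card_biUnion] at h2'
    · have h6 : ∀ x ∈ X, (Finset.univ.filter (fun g : G => g • a = x ∧ g • b = t • x)).card = d := by
        intro x hx
        exact hcoset x (t • x) (Ne.symm (Finset.mem_filter.1 hx).2)
      rw [Finset.sum_congr rfl h6, Finset.sum_const, smul_eq_mul] at h2'
      exact h2'
    · intro x _ y _ hxy
      rw [Function.onFun, Finset.disjoint_left]
      intro g hg1 hg2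
      exact hxy ((Finset.mem_filter.1 hg1).2.1.symm.trans (Finset.mem_filter.1 hg2).2.1)
  -- upper bound
  let W : Finset G := Finset.univ.filter (fun g : G => g • a = b ∧ g • b = a)
  let H' : Finset G := Finset.univ.filter (fun g : G => g • a = a ∧ g • b = b)
  let C : Finset G := Finset.univ.filter (fun c : G => c * t = t * c)
  have hWc : W.card = d := hcoset b a (Ne.symm hab)
  have hH'c : H'.card = d := hcoset a b hab
  have hCc : C.card ≤ 2 * d := by
    have h1 : C ⊆ H' ∪ W := by
      intro c hc
      have hct : c * t = t * c := (Finset.mem_filter.1 hc).2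
      have h4 : t • (c • a) = c • a := by
        rw [← mul_smul, ← hct, mul_smul, hta]
      have h5 : t • (c • b) = c • b := by
        rw [← mul_smul, ← hct, mul_smul, htb]
      have h6 : c • a ≠ c • b := fun h => hab (smul_left_cancel c h)
      rw [Finset.mem_union, Finset.mem_filter, Finset.mem_filter]
      rcases hfix _ h4 with h7 | h7 <;> rcases hfix _ h5 with h8 | h8
      · exact absurd (h7.trans h8.symm) h6
      · left; exact ⟨Finset.mem_univ _, h7, h8⟩
      · right; exact ⟨Finset.mem_univ _, h7, h8⟩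
      · exact absurd (h7.trans h8.symm) h6
    calc C.card ≤ (H' ∪ W).card := Finset.card_le_card h1
      _ ≤ H'.card + W.card := Finset.card_union_le _ _
      _ = 2 * d := by rw [hWc, hH'c]; ring
  have hSup : S.card ≤ 2 * d * d := by
    have h1 := Finset.card_le_mul_card_image (f := fun g : G => g⁻¹ * t * g) S (2 * d) (by
      intro τ hτ
      obtain ⟨g₁, hg₁, hg₁τ⟩ := Finset.mem_image.1 hτ
      have h4 : S.filter (fun g => g⁻¹ * t * g = τ) ⊆ C.image (fun c => c * g₁) := by
        intro g hg
        obtain ⟨-, hgτ⟩ := Finset.mem_filter.1 hg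
        rw [Finset.mem_image]
        refine ⟨g * g₁⁻¹, ?_, by group⟩
        rw [Finset.mem_filter]
        refine ⟨Finset.mem_univ _, ?_⟩
        have h5 : g⁻¹ * t * g = g₁⁻¹ * t * g₁ := hgτ.trans hg₁τ.symm
        calc g * g₁⁻¹ * t = g * (g₁⁻¹ * t * g₁) * g₁⁻¹ := by group
          _ = g * (g⁻¹ * t * g) * g₁⁻¹ := by rw [h5]
          _ = t * (g * g₁⁻¹) := by group
      calc (S.filter (fun g => g⁻¹ * t * g = τ)).card ≤ (C.image (fun c => c * g₁)).card :=
            Finset.card_le_card h4
        _ ≤ C.card := Finset.card_image_le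
        _ ≤ 2 * d := hCc)
    have h2' : S.image (fun g : G => g⁻¹ * t * g) ⊆ W := by
      intro τ hτ
      obtain ⟨g, hg, rfl⟩ := Finset.mem_image.1 hτ
      have hgS : t • (g • a) = g • b := (Finset.mem_filter.1 hg).2
      rw [Finset.mem_filter]
      refine ⟨Finset.mem_univ _, ?_, ?_⟩
      · rw [mul_smul, mul_smul, hgS, inv_smul_smul]
      · rw [mul_smul, mul_smul, ← hgS, htt, inv_smul_smul]
    calc S.card ≤ 2 * d * (S.image (fun g : G => g⁻¹ * t * g)).card := h1
      _ ≤ 2 * d * W.card := Nat.mul_le_mul_left _ (Finset.card_le_card h2')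
      _ = 2 * d * d := by rw [hWc]
  have hfin : (Fintype.card Ω - 2) * d ≤ 2 * d * d :=
    le_trans (Nat.mul_le_mul_right d hXc) (le_trans hSlow hSup)
  exact Nat.le_of_mul_le_mul_right hfin hdpos

end Cfsg.Agent.Lib.Lead
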