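import Mathlib
import Cfsg.Agent.Lib.Lead.Zass

set_option autoImplicit false

namespace Cfsg.Agent.Lib.Lead

open MulAction

theorem invol_fixed_parity {G Ω : Type*} [Group G] [MulAction G Ω] [Fintype Ω] (s : G)
    (hs : s * s = 1) : Fintype.card Ω ≡ Nat.card (fixedBy Ω s) [MOD 2] := by
  classical
  haveI : Fact (Nat.Prime 2) := ⟨Nat.prime_two⟩
  let f : Function.End Ω := fun x => s • x
  have hf : f ^ 2 ^ 1 = 1 := by
    rw [pow_one, pow_two]
    funext x
    show s • s • x = x
    rw [← mul_smul, hs, one_smul]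
  have h1 := Equiv.Perm.card_fixedPoints_modEq (α := Ω) (f := f) (p := 2) (n := 1) hf
  rw [Nat.card_eq_fintype_card]
  exact h1

theorem zass_invol {G Ω : Type*} [Group G] [Finite G] [MulAction G Ω] [Fintype Ω]
    [FaithfulSMul G Ω] (h2 : IsMultiplyPretransitive G Ω 2)
    (h3 : ∀ g : G, ∀ a b c : Ω, a ≠ b → b ≠ c → a ≠ c → g • a = a → g • b = b → g • c = c → g = 1)
    {a b : Ω} (hab : a ≠ b) :
    (∃ s : G, orderOf s = 2 ∧ s • a = b ∧ s • b = a) ∧
    (∀ s : G, orderOf s = 2 → s • a = b → s • b = a →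
      (Odd (Fintype.card Ω) → Nat.card (MulAction.fixedBy Ω s) = 1) ∧
      (Even (Fintype.card Ω) → Nat.card (MulAction.fixedBy Ω s) = 0 ∨
        Nat.card (MulAction.fixedBy Ω s) = 2)) ∧
    (Even (Nat.card ↥(MulAction.stabilizer G a ⊓ MulAction.stabilizer G b)) →
      ∃ s : G, orderOf s = 2 ∧ s • a = b ∧ s • b = a ∧ Nat.card (MulAction.fixedBy Ω s) = 2) := by
  classical
  haveI : Fact (Nat.Prime 2) := ⟨Nat.prime_two⟩
  -- part 3 construction
  have part3 : Even (Nat.card ↥(MulAction.stabilizer G a ⊓ MulAction.stabilizer G b)) →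
      ∃ s : G, orderOf s = 2 ∧ s • a = b ∧ s • b = a ∧ Nat.card (MulAction.fixedBy Ω s) = 2 := by
    intro heven
    obtain ⟨t', ht'⟩ := exists_prime_orderOf_dvd_card' (G := ↥(stabilizer G a ⊓ stabilizer G b)) 2
      (even_iff_two_dvd.1 heven)
    obtain ⟨t, htdef⟩ : ∃ t : G, t = (t' : G) := ⟨_, rfl⟩
    have hta : t • a = a := by rw [htdef]; exact t'.2.1
    have htb : t • b = b := by rw [htdef]; exact t'.2.2
    have hto : orderOf t = 2 := by rw [htdef, Subgroup.orderOf_coe]; exact ht'
    have ht1 : t ≠ 1 := by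
      intro h
      rw [h, orderOf_one] at hto
      omega
    have ht2 : t * t = 1 := by
      rw [← pow_two, ← hto]; exact pow_orderOf_eq_one t
    have hfix : ∀ x : Ω, t • x = x → x = a ∨ x = b := by
      intro x hx
      by_contra hh
      push Not at hh
      exact ht1 (h3 t a b x hab (Ne.symm hh.2) (Ne.symm hh.1) hta htb hx)
    obtain ⟨c, hc⟩ : ∃ c : Ω, t • c ≠ c := by
      by_contra hh
      push Not at hh
      apply ht1
      apply FaithfulSMul.eq_of_smul_eq_smul (α := Ω)
      intro x
      rw [one_smul]; exact hh x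
    obtain ⟨g, hg1, hg2⟩ := (MulAction.is_two_pretransitive_iff.1 h2) (Ne.symm hc) hab
    have hgc : g⁻¹ • a = c := by rw [inv_smul_eq_iff, hg1]
    have hgtc : g⁻¹ • b = t • c := by rw [inv_smul_eq_iff, hg2]
    refine ⟨g * t * g⁻¹, ?_, ?_, ?_, ?_⟩
    · apply orderOf_eq_prime
      · rw [conj_pow, pow_two, ht2, mul_one, mul_inv_cancel]
      · intro h
        apply ht1
        have : t = g⁻¹ * (g * t * g⁻¹) * g := by group
        rw [this, h]; group
    · rw [mul_smul, mul_smul, hgc, hg2]
    · rw [mul_smul, mul_smul, hgtc, ← mul_smul t t, ht2, one_smul, hg1]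
    · have hset : MulAction.fixedBy Ω (g * t * g⁻¹) = {g • a, g • b} := by
        ext x
        rw [MulAction.mem_fixedBy, Set.mem_insert_iff, Set.mem_singleton_iff, mul_smul, mul_smul]
        constructor
        · intro h
          have h4 : t • (g⁻¹ • x) = g⁻¹ • x := by rw [eq_inv_smul_iff]; exact h
          rcases hfix _ h4 with h5 | h5
          · left; rw [← h5, smul_inv_smul]
          · right; rw [← h5, smul_inv_smul]
        · rintro (h | h)
          · rw [h, inv_smul_smul, hta]
          · rw [h, inv_smul_smul, htb]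
      rw [hset, Nat.card_coe_set_eq, Set.ncard_pair]
      exact fun h => hab (smul_left_cancel g h)
  refine ⟨?_, ?_, part3⟩
  · by_cases heven : Even (Nat.card ↥(MulAction.stabilizer G a ⊓ MulAction.stabilizer G b))
    · obtain ⟨s, h1, h4, h5, -⟩ := part3 heven
      exact ⟨s, h1, h4, h5⟩
    · obtain ⟨s₀, hs1, hs2⟩ := (MulAction.is_two_pretransitive_iff.1 h2) hab (Ne.symm hab)
      have hs2mem : s₀ ^ 2 ∈ stabilizer G a ⊓ stabilizer G b := by
        constructor
        · show (s₀ ^ 2) • a = a
          rw [pow_two, mul_smul, hs1, hs2]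
        · show (s₀ ^ 2) • b = b
          rw [pow_two, mul_smul, hs2, hs1]
      obtain ⟨m, hm⟩ : ∃ m, m = orderOf (⟨s₀ ^ 2, hs2mem⟩ : ↥(stabilizer G a ⊓ stabilizer G b)) :=
        ⟨_, rfl⟩
      have hmd : m ∣ Nat.card ↥(stabilizer G a ⊓ stabilizer G b) := by
        rw [hm]; exact orderOf_dvd_natCard _
      have hmodd : Odd m := by
        rw [← Nat.not_even_iff_odd]
        intro he
        exact heven (he.trans_dvd hmd)
      have hm' : m = orderOf (s₀ ^ 2) := by rw [hm, Subgroup.orderOf_mk]
      obtain ⟨j, hj⟩ := hmodd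
      have hpow : ∀ i : ℕ, (s₀ ^ (2 * i)) • a = a ∧ (s₀ ^ (2 * i)) • b = b := by
        intro i
        induction i with
        | zero => simp
        | succ i ih =>
          rw [show 2 * (i + 1) = 2 * i + 2 by ring, pow_add]
          constructor
          · rw [mul_smul, pow_two, mul_smul, hs1, hs2, ih.1]
          · rw [mul_smul, pow_two, mul_smul, hs2, hs1, ih.2]
      refine ⟨s₀ ^ m, ?_, ?_, ?_⟩
      · apply orderOf_eq_prime
        · rw [← pow_mul, mul_comm, pow_mul, hm']
          exact pow_orderOf_eq_one _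
        · intro h
          have h4 : (s₀ ^ m) • a = b := by
            rw [hj, pow_succ, mul_smul, hs1]; exact (hpow j).2
          rw [h, one_smul] at h4
          exact hab h4
      · rw [hj, pow_succ, mul_smul, hs1]; exact (hpow j).2
      · rw [hj, pow_succ, mul_smul, hs2]; exact (hpow j).1
  · intro s hso hsa hsb
    have hs2 : s * s = 1 := by
      rw [← pow_two, ← hso]; exact pow_orderOf_eq_one s
    have hs1 : s ≠ 1 := by
      intro h
      rw [h, orderOf_one] at hso
      omega
    have hpar := invol_fixed_parity (Ω := Ω) s hs2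
    have hle : Nat.card (fixedBy Ω s) ≤ 2 := by
      by_contra hh
      push Not at hh
      rw [Nat.card_eq_fintype_card] at hh
      obtain ⟨x, y, z, hxy, hxz, hyz⟩ := Fintype.two_lt_card_iff.1 hh
      apply hs1
      exact h3 s x.1 y.1 z.1 (fun h => hxy (Subtype.ext h)) (fun h => hyz (Subtype.ext h))
        (fun h => hxz (Subtype.ext h)) x.2 y.2 z.2
    constructor
    · intro hodd
      have h4 : Fintype.card Ω % 2 = 1 := Nat.odd_iff.1 hodd
      have h5 : Nat.card (fixedBy Ω s) % 2 = 1 := by rw [← hpar]; exact h4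
      omega
    · intro hev
      have h4 : Fintype.card Ω % 2 = 0 := Nat.even_iff.1 hev
      have h5 : Nat.card (fixedBy Ω s) % 2 = 0 := by rw [← hpar]; exact h4
      omega

end Cfsg.Agent.Lib.Lead
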