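import Mathlib
import Cfsg.Agent.Lib.Lead.Zass
import Cfsg.Agent.Lib.Lead.TwoTrans
import Cfsg.Agent.Lib.Lead.Char4

set_option autoImplicit false

namespace Cfsg.Agent.Lib.Lead

open MulAction

/-- number of fixed-point-free elements of a 2-transitive group in which non-identity elements
fix at most two points -/
theorem zass_fpf_count {G : Type*} {Ω : Type*} [Group G] [Fintype G] [DecidableEq G]
    [MulAction G Ω] [Fintype Ω]
    (h2 : IsMultiplyPretransitive G Ω 2)
    (h3 : ∀ g : G, ∀ a b c : Ω, a ≠ b → b ≠ c → a ≠ c → g • a = a → g • b = b → g • c = c → g = 1)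
    (hn : 2 ≤ Fintype.card Ω) [DecidablePred (fun g : G => ∀ c : Ω, g • c ≠ c)] :
    ((Fintype.card Ω : ℂ) - 1) * ((Fintype.card Ω : ℂ) - 2) +
      2 * ((Finset.univ.filter (fun g : G => ∀ c : Ω, g • c ≠ c)).card : ℂ) =
      (Fintype.card G : ℂ) := by
  classical
  haveI htr : IsPretransitive G Ω := isPretransitive_of_is_two_pretransitive (h2 := h2)
  obtain ⟨a₀⟩ : Nonempty Ω := Fintype.card_pos_iff.1 (by omega)
  set π : G → ℂ := fun g => (Nat.card (fixedBy Ω g) : ℂ) with hπ
  have hirr : Cfsg.IsIrrCharacter G (fun g => π g - 1) :=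
    (two_trans_iff Ω (by rw [Nat.card_eq_fintype_card]; exact hn)).2 h2
  have h11 := irr_inner_self (⟨_, hirr⟩ : Cfsg.IrrCharacter G)
  unfold Cfsg.classInner at h11
  have hcardG : (Nat.card G : ℂ) ≠ 0 := by exact_mod_cast Nat.card_pos.ne'
  have hconj : ∀ g : G, (starRingEnd ℂ) (π g - 1) = π g - 1 := by
    intro g
    rw [map_sub, map_one, hπ]
    simp
  have hsq : ∑ g : G, (π g - 1) * (π g - 1) = (Nat.card G : ℂ) := by
    have h4 : ∑ g : G, (π g - 1) * (π g - 1) = ∑ g : G, (π g - 1) * (starRingEnd ℂ) (π g - 1) :=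
      Finset.sum_congr rfl (fun g _ => by rw [hconj])
    rw [h4]
    have h5 := h11
    field_simp at h5
    exact h5
  have hsum1 : ∑ g : G, π g = (Nat.card G : ℂ) := by
    rw [hπ, burnside_orbits Ω]
    have hc : Nat.card (Quotient (MulAction.orbitRel G Ω)) = 1 := by
      rw [Nat.card_eq_one_iff_unique]
      refine ⟨⟨?_⟩, ⟨Quotient.mk _ a₀⟩⟩
      intro q₁ q₂
      induction q₁ using Quotient.inductionOn with
      | _ x =>
        induction q₂ using Quotient.inductionOn with
        | _ y =>
          rw [orbit_mk_eq_iff]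
          exact MulAction.exists_smul_eq G y x
    rw [hc, Nat.cast_one, one_mul]
  have hpt : ∀ g : G, (π g - 1) * (π g - 1) - (π g - 1) =
      (if g = 1 then ((Fintype.card Ω : ℂ) - 1) * ((Fintype.card Ω : ℂ) - 2) else 0) +
      (if (∀ c : Ω, g • c ≠ c) then 2 else 0) := by
    intro g
    by_cases hg : g = 1
    · have h4 : ¬ (∀ c : Ω, g • c ≠ c) := by
        intro h; exact h a₀ (by rw [hg, one_smul])
      rw [if_pos hg, if_neg h4, add_zero]
      have h5 : π g = (Fintype.card Ω : ℂ) := by
        rw [hπ, hg]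
        simp only
        have h6 : fixedBy Ω (1 : G) = Set.univ := by
          ext x
          simp [MulAction.mem_fixedBy]
        rw [h6, Nat.card_coe_set_eq, Set.ncard_univ, Nat.card_eq_fintype_card]
      rw [h5]; ring
    · rw [if_neg hg, zero_add]
      have hle : Nat.card (fixedBy Ω g) ≤ 2 := by
        by_contra hh
        push Not at hh
        rw [Nat.card_eq_fintype_card] at hh
        obtain ⟨x, y, z, hxy, hxz, hyz⟩ := Fintype.two_lt_card_iff.1 hh
        apply hg
        exact h3 g x.1 y.1 z.1 (fun h => hxy (Subtype.ext h)) (fun h => hyz (Subtype.ext h))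
          (fun h => hxz (Subtype.ext h)) x.2 y.2 z.2
      have hfpf : (∀ c : Ω, g • c ≠ c) ↔ Nat.card (fixedBy Ω g) = 0 := by
        rw [Nat.card_eq_zero]
        constructor
        · intro h
          left
          exact ⟨fun x => h x.1 x.2⟩
        · rintro (h | h)
          · intro c hc
            exact h.elim ⟨c, hc⟩
          · exact absurd (inferInstance : Finite (fixedBy Ω g)) (not_finite_iff_infinite.2 h)
      by_cases h0 : Nat.card (fixedBy Ω g) = 0
      · rw [if_pos (hfpf.2 h0)]
        simp only [hπ, h0]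
        norm_num
      · rw [if_neg (fun h => h0 (hfpf.1 h))]
        have h12 : Nat.card (fixedBy Ω g) = 1 ∨ Nat.card (fixedBy Ω g) = 2 := by omega
        rcases h12 with h | h
        · simp only [hπ, h]; norm_num
        · simp only [hπ, h]; norm_num
  have hL : ∑ g : G, ((π g - 1) * (π g - 1) - (π g - 1)) = (Nat.card G : ℂ) := by
    rw [Finset.sum_sub_distrib, hsq, Finset.sum_sub_distrib, hsum1]
    simp [Nat.card_eq_fintype_card]
  rw [Finset.sum_congr rfl (fun g _ => hpt g), Finset.sum_add_distrib, Finset.sum_ite_eq'] at hL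
  simp only [Finset.mem_univ, if_true] at hL
  rw [Finset.sum_ite, Finset.sum_const, Finset.sum_const_zero, add_zero, nsmul_eq_mul] at hL
  rw [← Nat.card_eq_fintype_card (α := G), ← hL]
  ring

end Cfsg.Agent.Lib.Lead
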