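import Mathlib
import Cfsg.Agent.Lib.Lead.Zass3

set_option autoImplicit false

namespace Cfsg.Agent.Lib.Lead

open MulAction

theorem card_two_trans {G Ω : Type*} [Group G] [Fintype G] [MulAction G Ω] [Fintype Ω]
    (h2 : IsMultiplyPretransitive G Ω 2) {a b : Ω} (hab : a ≠ b) :
    Fintype.card G = Fintype.card Ω * (Fintype.card Ω - 1) *
      Nat.card ↥(stabilizer G a ⊓ stabilizer G b) := by
  classical
  have h1 := Finset.card_eq_sum_card_fiberwise (f := fun g : G => (g • a, g • b))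
    (s := Finset.univ) (t := (Finset.univ : Finset Ω).offDiag) (by
      intro g _
      simp only [Finset.coe_offDiag, Finset.coe_univ, Set.mem_offDiag, Set.mem_univ, true_and]
      exact fun h => hab (smul_left_cancel g h))
  rw [Finset.card_univ] at h1
  rw [h1]
  have h4 : ∀ p ∈ (Finset.univ : Finset Ω).offDiag,
      (Finset.univ.filter (fun g : G => (g • a, g • b) = p)).card =
        Nat.card ↥(stabilizer G a ⊓ stabilizer G b) := by
    rintro ⟨x, y⟩ hp
    have hxy : x ≠ y := (Finset.mem_offDiag.1 hp).2.2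
    rw [← card_two_point_coset h2 hab hxy, Nat.card_eq_fintype_card, Fintype.card_subtype]
    congr 1
    ext g
    simp [Prod.ext_iff]
  rw [Finset.sum_congr rfl h4, Finset.sum_const, smul_eq_mul, Finset.offDiag_card,
    Finset.card_univ]
  congr 1
  rw [Nat.mul_sub_one]

set_option maxHeartbeats 800000 in
theorem zass_fpf_nonconj {G Ω : Type*} [Group G] [Finite G] [MulAction G Ω] [Fintype Ω]
    [FaithfulSMul G Ω] (h2 : IsMultiplyPretransitive G Ω 2)
    (h3 : ∀ g : G, ∀ a b c : Ω, a ≠ b → b ≠ c → a ≠ c → g • a = a → g • b = b → g • c = c → g = 1)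
    (hex : ∃ g : G, g ≠ 1 ∧ ∃ a b : Ω, a ≠ b ∧ g • a = a ∧ g • b = b) {a b : Ω} (hab : a ≠ b)
    (hodd : Odd (Nat.card ↥(stabilizer G a ⊓ stabilizer G b))) :
    ∃ x y : G, (∀ c : Ω, x • c ≠ c) ∧ (∀ c : Ω, y • c ≠ c) ∧ ¬ IsConj x y := by
  classical
  haveI : Fintype G := Fintype.ofFinite G
  obtain ⟨e, he⟩ : ∃ e, e = Nat.card ↥(stabilizer G a ⊓ stabilizer G b) := ⟨_, rfl⟩
  obtain ⟨n, hn⟩ : ∃ n, n = Fintype.card Ω := ⟨_, rfl⟩
  obtain ⟨g₁, hg₁, a', b', ha'b', hg₁a, hg₁b⟩ := hex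
  obtain ⟨c', hc'⟩ : ∃ c : Ω, g₁ • c ≠ c := by
    by_contra hh
    push Not at hh
    apply hg₁
    apply FaithfulSMul.eq_of_smul_eq_smul (α := Ω)
    intro x
    rw [one_smul]; exact hh x
  have hn3 : 3 ≤ n := by
    rw [hn]
    have h4 : ({a', b', c'} : Finset Ω).card = 3 := by
      rw [Finset.card_insert_of_notMem, Finset.card_insert_of_notMem, Finset.card_singleton]
      · rw [Finset.mem_singleton]
        intro h
        rw [← h] at hc'
        exact hc' hg₁b
      · rw [Finset.mem_insert, Finset.mem_singleton, not_or]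
        refine ⟨ha'b', fun h => ?_⟩
        rw [← h] at hc'
        exact hc' hg₁a
    calc 3 = ({a', b', c'} : Finset Ω).card := h4.symm
      _ ≤ _ := Finset.card_le_univ _
  have he3 : 3 ≤ e := by
    obtain ⟨g₀, h4, h5⟩ := (is_two_pretransitive_iff.1 h2) hab ha'b'
    have hmem : g₀⁻¹ * g₁ * g₀ ∈ stabilizer G a ⊓ stabilizer G b := by
      constructor
      · show (g₀⁻¹ * g₁ * g₀) • a = a
        rw [mul_smul, mul_smul, h4, hg₁a, inv_smul_eq_iff, h4]
      · show (g₀⁻¹ * g₁ * g₀) • b = b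
        rw [mul_smul, mul_smul, h5, hg₁b, inv_smul_eq_iff, h5]
    have hne : (⟨_, hmem⟩ : ↥(stabilizer G a ⊓ stabilizer G b)) ≠ 1 := by
      intro h
      have h6 : g₀⁻¹ * g₁ * g₀ = 1 := congrArg Subtype.val h
      apply hg₁
      have : g₁ = g₀ * (g₀⁻¹ * g₁ * g₀) * g₀⁻¹ := by group
      rw [this, h6]; group
    haveI : Nontrivial ↥(stabilizer G a ⊓ stabilizer G b) := ⟨⟨_, 1, hne⟩⟩
    have h7 : 1 < e := by rw [he]; exact Finite.one_lt_card
    rw [← he] at hodd
    obtain ⟨k, hk⟩ := hodd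
    omega
  have hG : Fintype.card G = n * (n - 1) * e := by rw [hn, he]; exact card_two_trans h2 hab
  have hcount := zass_fpf_count h2 h3 (by omega : 2 ≤ Fintype.card Ω)
  obtain ⟨S₀, hS₀⟩ : ∃ S₀ : Finset G, S₀ = Finset.univ.filter (fun g : G => ∀ c : Ω, g • c ≠ c) :=
    ⟨_, rfl⟩
  rw [← hS₀] at hcount
  have hcountN : (n - 1) * (n - 2) + 2 * S₀.card = Fintype.card G := by
    obtain ⟨m, hm⟩ : ∃ m, n = m + 2 := ⟨n - 2, by omega⟩
    rw [← hn, hm] at hcount
    rw [hm]
    have h4 : (((m + 2 - 1) * (m + 2 - 2) + 2 * S₀.card : ℕ) : ℂ) = (Fintype.card G : ℂ) := by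
      rw [← hcount, show m + 2 - 1 = m + 1 by omega, show m + 2 - 2 = m by omega]
      push_cast
      ring
    exact_mod_cast h4
  have hPQ : (n - 1) * (n - 2) < n * (n - 1) := by
    rw [mul_comm n (n - 1)]
    exact Nat.mul_lt_mul_of_pos_left (by omega) (by omega)
  have h10 : n * (n - 1) * 3 ≤ n * (n - 1) * e := Nat.mul_le_mul_left _ he3
  by_contra hcon
  push Not at hcon
  have hpos : 0 < S₀.card := by
    by_contra h
    have h0 : S₀.card = 0 := by omega
    rw [h0, hG] at hcountN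
    omega
  obtain ⟨x, hx⟩ := Finset.card_pos.1 hpos
  have hxfpf : ∀ c : Ω, x • c ≠ c := by
    rw [hS₀] at hx
    exact (Finset.mem_filter.1 hx).2
  have hclass : S₀.card = Nat.card {y : G // IsConj x y} := by
    rw [Nat.card_eq_fintype_card, Fintype.card_subtype, hS₀]
    congr 1
    ext y
    simp only [Finset.mem_filter, Finset.mem_univ, true_and]
    constructor
    · intro hy
      exact hcon x y hxfpf hy
    · intro hxy c hc
      obtain ⟨k, hk⟩ := isConj_iff.1 hxy
      apply hxfpf (k⁻¹ • c)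
      rw [← hk, mul_smul, mul_smul] at hc
      rw [eq_inv_smul_iff]; exact hc
  have hcc := card_conj_mul_card_centralizer x
  rw [← hclass, Nat.card_eq_fintype_card (α := G)] at hcc
  obtain ⟨c, hcdef⟩ : ∃ c, c = Nat.card (Subgroup.centralizer ({x} : Set G)) := ⟨_, rfl⟩
  rw [← hcdef] at hcc
  have hc2 : 2 ≤ c := by
    have hx1 : x ≠ 1 := by
      intro h; exact hxfpf a (by rw [h, one_smul])
    have hxmem : x ∈ Subgroup.centralizer ({x} : Set G) := by
      rw [Subgroup.mem_centralizer_iff]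
      intro y hy
      rw [Set.mem_singleton_iff.1 hy]
    haveI : Nontrivial (Subgroup.centralizer ({x} : Set G)) :=
      ⟨⟨⟨x, hxmem⟩, 1, fun h => hx1 (congrArg Subtype.val h)⟩⟩
    rw [hcdef]; exact Finite.one_lt_card
  rcases Nat.lt_or_ge c 3 with hc3 | hc3
  · have hc2' : c = 2 := by omega
    rw [hc2'] at hcc
    have h9 : 0 < (n - 1) * (n - 2) := Nat.mul_pos (by omega) (by omega)
    omega
  · have h8 : S₀.card * 3 ≤ S₀.card * c := Nat.mul_le_mul_left _ hc3
    rw [hG] at hcountN hcc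
    omega

end Cfsg.Agent.Lib.Lead
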